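import Cfsg.Statements.S0849
import Mathlib
import Cfsg.Agent.H4.Induced

set_option autoImplicit false
open Cfsg

namespace Cfsg.Agent.S0849

open scoped commutatorElement Pointwise


/-- Let H be a subgroup of a finite group G and S a subset of H that is mapped to itself under conjugation by H, is disjoint from its conjugate by any element outside H, and is closed under inverses. Let φ be a class function of H vanishing on H away from S, and let u, v be involutions of G. Then the sum of the induced function of φ over all products a * b with a conjugate to u and b conjugate to v equals the index of H times the sum of φ (a * b) over such pairs with a and b in H. -/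
theorem result {G : Type*} [Group G] [Fintype G] (H : Subgroup G) (S : Set G) (hSH : S ⊆ H) (hHS : ∀ h ∈ H, ∀ s ∈ S, h * s * h⁻¹ ∈ S) (hTI : ∀ g : G, g ∉ H → ∀ s ∈ S, g * s * g⁻¹ ∉ S) (hinv : ∀ s ∈ S, s⁻¹ ∈ S) (φ : H → ℂ) (hφ : Cfsg.IsClassFunction H φ) (hφS : ∀ x : H, (x : G) ∉ S → φ x = 0) (u v : G) (hu : orderOf u = 2) (hv : orderOf v = 2) : ∑ᶠ p ∈ {p : G × G | IsConj u p.1 ∧ IsConj v p.2}, Cfsg.indFun H φ (p.1 * p.2) = (H.index : ℂ) * ∑ᶠ p ∈ {p : H × H | IsConj u (p.1 : G) ∧ IsConj v (p.2 : G)}, φ (p.1 * p.2) := by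
  classical
  -- products of two involutions lying in S
  have hin : ∀ a b : G, orderOf a = 2 → orderOf b = 2 → a * b ∈ S → a ∈ H ∧ b ∈ H := by
    intro a b ha hb hab
    have haa : a * a = 1 := by rw [← pow_two, ← ha]; exact pow_orderOf_eq_one a
    have hbb : b * b = 1 := by rw [← pow_two, ← hb]; exact pow_orderOf_eq_one b
    have hai : a⁻¹ = a := inv_eq_of_mul_eq_one_left haa
    have hbi : b⁻¹ = b := inv_eq_of_mul_eq_one_left hbb
    have hinv' : (a * b)⁻¹ = b * a := by rw [mul_inv_rev, hai, hbi]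
    constructor
    · by_contra hna
      apply hTI a hna _ hab
      have e : a * (a * b) * a⁻¹ = (a * b)⁻¹ := by
        rw [hinv', hai]
        calc a * (a * b) * a = (a * a) * b * a := by group
          _ = b * a := by rw [haa, one_mul]
      rw [e]; exact hinv _ hab
    · by_contra hnb
      apply hTI b hnb _ hab
      have e : b * (a * b) * b⁻¹ = (a * b)⁻¹ := by
        rw [hinv', hbi]
        calc b * (a * b) * b = b * a * (b * b) := by group
          _ = b * a := by rw [hbb, mul_one]
      rw [e]; exact hinv _ hab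
  have hord : ∀ w g : G, orderOf w = 2 → IsConj w g → orderOf g = 2 := by
    intro w g hw h
    obtain ⟨c, hc⟩ := isConj_iff.mp h
    rw [← hc, ← hw]
    exact orderOf_injective (MulAut.conj c).toMonoidHom (MulAut.conj c).injective w
  -- rewrite both sides as finite sums
  have hLs : {p : G × G | IsConj u p.1 ∧ IsConj v p.2} = ((Finset.univ.filter (fun p : G × G => IsConj u p.1 ∧ IsConj v p.2) : Finset (G × G)) : Set (G × G)) := by
    ext p; simp
  letI : Fintype H := Fintype.ofFinite _
  have hRs : {p : H × H | IsConj u (p.1 : G) ∧ IsConj v (p.2 : G)} = ((Finset.univ.filter (fun p : H × H => IsConj u (p.1 : G) ∧ IsConj v (p.2 : G)) : Finset (H × H)) : Set (H × H)) := by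
    ext p; simp
  rw [hLs, hRs, finsum_mem_coe_finset, finsum_mem_coe_finset]
  -- the left side
  have h1 : ∑ p ∈ Finset.univ.filter (fun p : G × G => IsConj u p.1 ∧ IsConj v p.2), indFun H φ (p.1 * p.2) =
      (Nat.card H : ℂ)⁻¹ * ∑ x : G, ∑ p ∈ Finset.univ.filter (fun p : G × G => IsConj u p.1 ∧ IsConj v p.2), extendByZero H φ (x⁻¹ * (p.1 * p.2) * x) := by
    unfold indFun
    rw [← Finset.mul_sum, Finset.sum_comm]
  have h2 : ∀ x : G, ∑ p ∈ Finset.univ.filter (fun p : G × G => IsConj u p.1 ∧ IsConj v p.2), extendByZero H φ (x⁻¹ * (p.1 * p.2) * x) =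
      ∑ p ∈ Finset.univ.filter (fun p : G × G => IsConj u p.1 ∧ IsConj v p.2), extendByZero H φ (p.1 * p.2) := by
    intro x
    refine Finset.sum_nbij' (fun p => (x⁻¹ * p.1 * x, x⁻¹ * p.2 * x)) (fun p => (x * p.1 * x⁻¹, x * p.2 * x⁻¹)) ?_ ?_ ?_ ?_ ?_
    · rintro ⟨a, b⟩ hp
      simp only [Finset.mem_filter, Finset.mem_univ, true_and] at hp ⊢
      exact ⟨hp.1.trans (isConj_iff.mpr ⟨x⁻¹, by group⟩), hp.2.trans (isConj_iff.mpr ⟨x⁻¹, by group⟩)⟩
    · rintro ⟨a, b⟩ hp
      simp only [Finset.mem_filter, Finset.mem_univ, true_and] at hp ⊢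
      exact ⟨hp.1.trans (isConj_iff.mpr ⟨x, rfl⟩), hp.2.trans (isConj_iff.mpr ⟨x, rfl⟩)⟩
    · rintro ⟨a, b⟩ _
      simp only [Prod.mk.injEq]
      constructor <;> group
    · rintro ⟨a, b⟩ _
      simp only [Prod.mk.injEq]
      constructor <;> group
    · rintro ⟨a, b⟩ _
      congr 1
      group
  rw [h1, Finset.sum_congr rfl fun x _ => h2 x, Finset.sum_const, Finset.card_univ, nsmul_eq_mul]
  have h3 : ∑ p ∈ Finset.univ.filter (fun p : G × G => IsConj u p.1 ∧ IsConj v p.2), extendByZero H φ (p.1 * p.2) =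
      ∑ p ∈ Finset.univ.filter (fun p : H × H => IsConj u (p.1 : G) ∧ IsConj v (p.2 : G)), φ (p.1 * p.2) := by
    symm
    refine Finset.sum_of_injOn (fun p : H × H => ((p.1 : G), (p.2 : G))) ?_ ?_ ?_ ?_
    · rintro ⟨a, b⟩ _ ⟨c, d⟩ _ h
      simp only [Prod.mk.injEq] at h
      exact Prod.ext (Subtype.ext h.1) (Subtype.ext h.2)
    · rintro ⟨a, b⟩ hp
      simp only [Finset.coe_filter, Finset.mem_univ, true_and, Set.mem_setOf_eq] at hp ⊢
      exact hp
    · rintro ⟨a, b⟩ hp hnot
      simp only [Finset.mem_filter, Finset.mem_univ, true_and] at hp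
      by_contra hne
      apply hnot
      have hab : a * b ∈ H := by
        by_contra hc
        exact hne (Cfsg.Agent.H4.extendByZero_not_mem H φ hc)
      have habS : a * b ∈ S := by
        by_contra hc
        apply hne
        change extendByZero H φ (a * b) = 0
        rw [Cfsg.Agent.H4.extendByZero_mem H φ hab]
        exact hφS ⟨_, hab⟩ hc
      obtain ⟨haH, hbH⟩ := hin a b (hord u a hu hp.1) (hord v b hv hp.2) habS
      refine ⟨(⟨a, haH⟩, ⟨b, hbH⟩), ?_, rfl⟩
      simp only [Finset.coe_filter, Finset.mem_univ, true_and, Set.mem_setOf_eq]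
      exact hp
    · rintro ⟨a, b⟩ hp
      change φ (a * b) = extendByZero H φ ((a : G) * (b : G))
      rw [Cfsg.Agent.H4.extendByZero_mem H φ (mul_mem a.2 b.2)]
      rfl
  rw [h3, ← mul_assoc]
  congr 1
  have h4 := H.card_mul_index
  have h5 : (Nat.card H : ℂ) ≠ 0 := by exact_mod_cast Nat.card_pos.ne'
  rw [← Nat.card_eq_fintype_card, ← h4]
  push_cast
  field_simp

end Cfsg.Agent.S0849
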