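import Cfsg.Statements.S0235
import Mathlib
import Cfsg.Agent.H1.Invol

set_option autoImplicit false
open Cfsg

namespace Cfsg.Agent.S0235

open scoped commutatorElement Pointwise


/-- If x² ≠ 1, the ordered pairs (u, v) of involutions with uv = x correspond bijectively to the involutions t with t x t⁻¹ = x⁻¹ (via (u, v) ↦ u), so the two counts agree. -/
theorem result {G : Type*} [Group G] [Finite G] (x : G) (hx : x ^ 2 ≠ 1) : Nat.card {p : G × G // orderOf p.1 = 2 ∧ orderOf p.2 = 2 ∧ p.1 * p.2 = x} = Nat.card {t : G // orderOf t = 2 ∧ t * x * t⁻¹ = x⁻¹} := by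
  apply Nat.card_congr
  refine { toFun := fun p => ⟨p.1.1, p.2.1, Cfsg.Agent.H1.fst_inverts p.2.1 p.2.2.1 p.2.2.2⟩,
           invFun := fun t => ⟨(t, t * x), t.2.1, ?_, ?_⟩, left_inv := ?_, right_inv := ?_ }
  · have h1 := Cfsg.Agent.H1.inv_mul_self_of_two t.2.1
    have h2 := t.2.2
    rw [Cfsg.Agent.H1.inv_eq_of_two t.2.1] at h2
    rw [Cfsg.Agent.H1.orderOf_eq_two_iff']
    constructor
    · intro h
      have h3 : x = t := by
        have := congrArg (fun z => (t : G) * z) h
        simp only [← mul_assoc, h1, one_mul, mul_one] at this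
        exact this
      apply hx
      rw [pow_two, h3]; exact h1
    · show (t : G) * x * (t * x) = 1
      rw [← mul_assoc, h2, inv_mul_cancel]
  · show (t : G) * (t * x) = x
    rw [← mul_assoc, Cfsg.Agent.H1.inv_mul_self_of_two t.2.1, one_mul]
  · rintro ⟨⟨u, v⟩, hu, hv, huv⟩
    apply Subtype.ext
    show (u, u * x) = (u, v)
    rw [← huv]
    have hu' : orderOf u = 2 := hu
    show (u, u * (u * v)) = (u, v)
    rw [← mul_assoc, Cfsg.Agent.H1.inv_mul_self_of_two hu', one_mul]
  · intro t
    rfl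

end Cfsg.Agent.S0235
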