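import Cfsg.Statements.S0236
import Mathlib
import Cfsg.Agent.H1.Invol

set_option autoImplicit false
open Cfsg

namespace Cfsg.Agent.S0236

open scoped commutatorElement Pointwise


/-- If x is an involution, the number of ordered pairs (u, v) of involutions with uv = x, plus one, equals the number of involutions in the centralizer of x. -/
theorem result {G : Type*} [Group G] [Finite G] (x : G) (hx : orderOf x = 2) : Nat.card {p : G × G // orderOf p.1 = 2 ∧ orderOf p.2 = 2 ∧ p.1 * p.2 = x} + 1 = Nat.card {t : G // orderOf t = 2 ∧ Commute t x} := by
  classical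
  have hx1 := Cfsg.Agent.H1.inv_mul_self_of_two hx
  have hx0 := Cfsg.Agent.H1.ne_one_of_two hx
  have e : {t : G // orderOf t = 2 ∧ Commute t x} ≃ Option {p : G × G // orderOf p.1 = 2 ∧ orderOf p.2 = 2 ∧ p.1 * p.2 = x} :=
    { toFun := fun t => if h : (t : G) = x then none else some ⟨(t, t * x), t.2.1, by
        rw [Cfsg.Agent.H1.orderOf_eq_two_iff']
        constructor
        · intro h'
          apply h
          have := eq_inv_of_mul_eq_one_left h'
          rw [Cfsg.Agent.H1.inv_eq_of_two hx] at this
          exact this
        · have h2 := t.2.2.eq
          show (t : G) * x * (t * x) = 1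
          calc (t : G) * x * (t * x) = (t * x) * (x * t) := by rw [h2]
            _ = t * (x * x) * t := by group
            _ = 1 := by rw [hx1, mul_one]; exact Cfsg.Agent.H1.inv_mul_self_of_two t.2.1, by
        show (t : G) * (t * x) = x
        rw [← mul_assoc, Cfsg.Agent.H1.inv_mul_self_of_two t.2.1, one_mul]⟩
      invFun := fun o => match o with
        | none => ⟨x, hx, Commute.refl x⟩
        | some p => ⟨p.1.1, p.2.1, by
            have h1 := Cfsg.Agent.H1.fst_inverts p.2.1 p.2.2.1 p.2.2.2
            rw [Cfsg.Agent.H1.inv_eq_of_two hx, mul_inv_eq_iff_eq_mul] at h1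
            exact h1⟩
      left_inv := by
        intro t
        by_cases h : (t : G) = x
        · simp only [h, dif_pos]; exact Subtype.ext h.symm
        · simp only [h, dif_neg, not_false_eq_true]
      right_inv := by
        rintro (_ | ⟨⟨u, v⟩, hu, hv, huv⟩)
        · simp
        · have hu' : orderOf u = 2 := hu
          have hv' : orderOf v = 2 := hv
          have huv' : u * v = x := huv
          have hne : u ≠ x := by
            intro h
            rw [h] at huv'
            exact Cfsg.Agent.H1.ne_one_of_two hv' (mul_eq_left.mp huv')
          simp only [hne, dif_neg, not_false_eq_true]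
          congr 2
          rw [← huv', ← mul_assoc, Cfsg.Agent.H1.inv_mul_self_of_two hu', one_mul] }
  rw [Nat.card_congr e, Finite.card_option]

end Cfsg.Agent.S0236
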