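import Cfsg.Statements.S0208
import Mathlib
import Cfsg.Agent.H1.Invol

set_option autoImplicit false
open Cfsg

namespace Cfsg.Agent.S0208

open scoped commutatorElement Pointwise


/-- If x, y are involutions and xy has odd order, then some element of the subgroup generated by x and y conjugates x to y. -/
theorem result {G : Type*} [Group G] [Finite G] (x y : G) (hx : orderOf x = 2) (hy : orderOf y = 2) (hodd : Odd (orderOf (x * y))) : ∃ d ∈ Subgroup.closure ({x, y} : Set G), d * x * d⁻¹ = y := by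
  have hx1 := Cfsg.Agent.H1.inv_mul_self_of_two hx
  have hy1 := Cfsg.Agent.H1.inv_mul_self_of_two hy
  obtain ⟨m, hm⟩ := hodd
  refine ⟨(x * y) ^ (m : ℤ), (Cfsg.Agent.H1.mem_closure_pair_iff hx1 hy1).mpr ⟨m, Or.inl rfl⟩, ?_⟩
  have h1 : (x * y) ^ (m : ℤ) * x * ((x * y) ^ (m : ℤ))⁻¹ = (x * y) ^ (2 * (m : ℤ)) * x := by
    rw [← zpow_neg, mul_assoc, Cfsg.Agent.H1.invol_mul_zpow hx1 hy1, neg_neg, ← mul_assoc, ← zpow_add, two_mul]
  rw [h1]
  have h2 : (x * y) ^ (2 * (m : ℤ)) = (x * y)⁻¹ := by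
    have h3 : (x * y) ^ (2 * m + 1) = 1 := by rw [← hm]; exact pow_orderOf_eq_one _
    rw [eq_inv_iff_mul_eq_one]
    have h4 : (x * y) ^ (2 * (m : ℤ)) = (x * y) ^ (2 * m) := by
      rw [← zpow_natCast]; push_cast; rfl
    rw [h4, ← pow_succ]; exact h3
  rw [h2, mul_inv_rev, Cfsg.Agent.H1.inv_eq_of_two hx, Cfsg.Agent.H1.inv_eq_of_two hy, mul_assoc, hx1, mul_one]

end Cfsg.Agent.S0208
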