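import Cfsg.Statements.S0209
import Mathlib
import Cfsg.Agent.H1.Invol

set_option autoImplicit false
open Cfsg

namespace Cfsg.Agent.S0209

open scoped commutatorElement Pointwise


/-- If x, y are involutions whose product has even order n, the element (xy)^(n/2) is an involution that commutes with x and with y. -/
theorem result {G : Type*} [Group G] [Finite G] (x y : G) (hx : orderOf x = 2) (hy : orderOf y = 2) (heven : Even (orderOf (x * y))) : orderOf ((x * y) ^ (orderOf (x * y) / 2)) = 2 ∧ Commute ((x * y) ^ (orderOf (x * y) / 2)) x ∧ Commute ((x * y) ^ (orderOf (x * y) / 2)) y := by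
  have hx1 := Cfsg.Agent.H1.inv_mul_self_of_two hx
  have hy1 := Cfsg.Agent.H1.inv_mul_self_of_two hy
  have hpos : 0 < orderOf (x * y) := orderOf_pos _
  obtain ⟨m, hm⟩ := heven
  have hm2 : orderOf (x * y) / 2 = m := by omega
  have hm0 : 0 < m := by omega
  have hord : orderOf ((x * y) ^ m) = 2 := by
    rw [Cfsg.Agent.H1.orderOf_eq_two_iff']
    constructor
    · intro h
      have := Nat.le_of_dvd hm0 (orderOf_dvd_of_pow_eq_one h)
      omega
    · rw [← pow_add, ← hm]; exact pow_orderOf_eq_one _
  have hcomm : Commute ((x * y) ^ m) x := by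
    have h1 := Cfsg.Agent.H1.invol_mul_zpow hx1 hy1 (m : ℤ)
    rw [zpow_neg, zpow_natCast, Cfsg.Agent.H1.inv_eq_of_two hord] at h1
    exact h1.symm
  rw [hm2]
  refine ⟨hord, hcomm, ?_⟩
  have h2 : y = x * (x * y) := by rw [← mul_assoc, hx1, one_mul]
  have h3 : Commute ((x * y) ^ m) (x * (x * y)) := hcomm.mul_right (Commute.pow_self _ _)
  rwa [← h2] at h3

end Cfsg.Agent.S0209
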