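import Cfsg.Statements.S0230
import Mathlib
import Cfsg.Agent.H1.Invol
import Cfsg.Agent.S0208
import Cfsg.Agent.S0209

set_option autoImplicit false
open Cfsg

namespace Cfsg.Agent.S0230

open scoped commutatorElement Pointwise


/-- Let G be a finite group with two non-conjugate involutions, and let t be an involution whose centralizer has maximal order among centralizers of involutions. Then |G| < |C_G(t)|^3. -/
theorem result {G : Type*} [Group G] [Finite G] (s t : G) (hs : orderOf s = 2) (ht : orderOf t = 2) (hnc : ¬ IsConj s t) (hmax : ∀ u : G, orderOf u = 2 → Nat.card (Subgroup.centralizer ({u} : Set G)) ≤ Nat.card (Subgroup.centralizer ({t} : Set G))) : Nat.card G < Nat.card (Subgroup.centralizer ({t} : Set G)) ^ 3 := by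
  classical
  haveI : Fintype G := Fintype.ofFinite G
  set c := Nat.card (Subgroup.centralizer ({t} : Set G)) with hc
  have hcpos : 0 < c := Nat.card_pos
  let T : Finset G := Finset.univ.filter (fun v => IsConj t v)
  have hTcard : T.card * c = Nat.card G := by
    have h1 : T.card = (Subgroup.centralizer ({t} : Set G)).index := by
      rw [Subgroup.index_eq_card]
      have h2 : T.card = Nat.card {v : G // IsConj t v} := by
        rw [Nat.card_eq_fintype_card, Fintype.card_subtype]
      rw [h2]
      symm
      apply Nat.card_congr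
      refine Equiv.ofBijective (fun q : G ⧸ Subgroup.centralizer ({t} : Set G) =>
        Quotient.liftOn' q (fun g => (⟨g * t * g⁻¹, isConj_iff.mpr ⟨g, rfl⟩⟩ : {v : G // IsConj t v})) ?_) ⟨?_, ?_⟩
      · intro a b hab
        rw [QuotientGroup.leftRel_apply, Subgroup.mem_centralizer_singleton_iff] at hab
        apply Subtype.ext
        show a * t * a⁻¹ = b * t * b⁻¹
        calc a * t * a⁻¹ = a * (t * (a⁻¹ * b)) * b⁻¹ := by group
          _ = a * (a⁻¹ * b * t) * b⁻¹ := by rw [hab]
          _ = b * t * b⁻¹ := by group
      · intro a b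
        induction a using Quotient.inductionOn' with | h a => ?_
        induction b using Quotient.inductionOn' with | h b => ?_
        intro hab
        have hab' : a * t * a⁻¹ = b * t * b⁻¹ := congrArg Subtype.val hab
        apply Quotient.sound'
        rw [QuotientGroup.leftRel_apply, Subgroup.mem_centralizer_singleton_iff]
        calc a⁻¹ * b * t = a⁻¹ * (b * t * b⁻¹) * b := by group
          _ = a⁻¹ * (a * t * a⁻¹) * b := by rw [hab']
          _ = t * (a⁻¹ * b) := by group
      · rintro ⟨v, hv⟩
        obtain ⟨g, hg⟩ := isConj_iff.mp hv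
        exact ⟨(g : G ⧸ Subgroup.centralizer ({t} : Set G)), Subtype.ext hg⟩
    rw [h1]; exact Subgroup.index_mul_card _
  let Z : Finset G := Finset.univ.filter (fun z => orderOf z = 2 ∧ z ∈ Subgroup.centralizer ({s} : Set G))
  have hZcard : Z.card < c := by
    have h1 : Z ⊂ Finset.univ.filter (fun z => z ∈ Subgroup.centralizer ({s} : Set G)) := by
      rw [Finset.ssubset_iff]
      refine ⟨1, ?_, ?_⟩
      · simp [Z]
      · intro x hx
        simp only [Finset.mem_insert, Z, Finset.mem_filter, Finset.mem_univ, true_and] at hx ⊢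
        rcases hx with rfl | hx
        · exact Subgroup.one_mem _
        · exact hx.2
    have h2 := Finset.card_lt_card h1
    have h3 : (Finset.univ.filter (fun z => z ∈ Subgroup.centralizer ({s} : Set G))).card = Nat.card (Subgroup.centralizer ({s} : Set G)) := by
      rw [Nat.card_eq_fintype_card, Fintype.card_subtype]
    rw [h3] at h2
    exact lt_of_lt_of_le h2 (hmax s hs)
  have hsub : T ⊆ Z.biUnion (fun z => Finset.univ.filter (fun v => v ∈ Subgroup.centralizer ({z} : Set G))) := by
    intro v hv
    simp only [T, Finset.mem_filter, Finset.mem_univ, true_and] at hv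
    have hv2 : orderOf v = 2 := by
      obtain ⟨g, rfl⟩ := isConj_iff.mp hv
      rw [Cfsg.Agent.H1.orderOf_conj, ht]
    have heven : Even (orderOf (s * v)) := by
      by_contra h
      rw [Nat.not_even_iff_odd] at h
      obtain ⟨d, -, hd⟩ := Cfsg.Agent.S0208.result s v hs hv2 h
      exact hnc ((isConj_iff.mpr ⟨d, hd⟩).trans hv.symm)
    obtain ⟨h1, h2, h3⟩ := Cfsg.Agent.S0209.result s v hs hv2 heven
    rw [Finset.mem_biUnion]
    refine ⟨(s * v) ^ (orderOf (s * v) / 2), ?_, ?_⟩
    · simp only [Z, Finset.mem_filter, Finset.mem_univ, true_and]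
      exact ⟨h1, Subgroup.mem_centralizer_singleton_iff.mpr h2.eq⟩
    · simp only [Finset.mem_filter, Finset.mem_univ, true_and]
      exact Subgroup.mem_centralizer_singleton_iff.mpr h3.eq.symm
  have hle : T.card ≤ Z.card * c := by
    refine (Finset.card_le_card hsub).trans (Finset.card_biUnion_le_card_mul _ _ _ ?_)
    intro z hz
    simp only [Z, Finset.mem_filter, Finset.mem_univ, true_and] at hz
    have h3 : (Finset.univ.filter (fun v => v ∈ Subgroup.centralizer ({z} : Set G))).card = Nat.card (Subgroup.centralizer ({z} : Set G)) := by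
      rw [Nat.card_eq_fintype_card, Fintype.card_subtype]
    rw [h3]; exact hmax z hz.1
  rw [← hTcard]
  calc T.card * c ≤ (Z.card * c) * c := Nat.mul_le_mul_right _ hle
    _ < (c * c) * c := by
      apply Nat.mul_lt_mul_of_pos_right _ hcpos
      exact Nat.mul_lt_mul_of_pos_right hZcard hcpos
    _ = c ^ 3 := by ring

end Cfsg.Agent.S0230
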