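import Cfsg.Statements.S1514
import Cfsg.Agent.H4.Coh2

set_option autoImplicit false
open Cfsg

namespace Cfsg.Agent.S1514

/-- Let S be a nonempty set of irreducible characters of the finite group L, closed under complex conjugation and containing no real-valued member, and τ a linear isometry on the integer combinations of S vanishing at 1, with values virtual characters of G vanishing at 1. Then there is a choice R making (S, τ, R) a coherence system. -/
theorem result {L : Type*} [Group L] [Fintype L] {G : Type*} [Group G] [Fintype G] (S : Set (L → ℂ)) (hS : S.Nonempty) (hirr : ∀ χ ∈ S, Cfsg.IsIrrCharacter L χ) (hconj : ∀ χ ∈ S, Cfsg.conjFun χ ∈ S ∧ Cfsg.conjFun χ ≠ χ) (τ : (L → ℂ) → (G → ℂ)) (hτ : Cfsg.IsLinearIsometryOn (Cfsg.zspanOn S {1}ᶜ) τ) (hτ1 : ∀ α ∈ Cfsg.zspanOn S {1}ᶜ, τ α 1 = 0) : ∃ R : (L → ℂ) → Finset (G → ℂ), Cfsg.IsCoherenceSystem S τ R := by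
  classical
  have hdiff : ∀ χ ∈ S, χ - conjFun χ ∈ zspanOn S {1}ᶜ := by
    intro χ hχ
    rw [H4.mem_zspanOn_one]
    refine ⟨H4.zspan_sub (H4.zspan_mem hχ) (H4.zspan_mem (hconj χ hχ).1), ?_⟩
    rw [Pi.sub_apply, H4.degree_char_conj (H4.IsIrr.isCharacter (hirr χ hχ)), sub_self]
  have key : ∀ χ ∈ S, ∃ a b : IrrCharacter G, a ≠ b ∧ τ (χ - conjFun χ) = (a : G → ℂ) - (b : G → ℂ) := by
    intro χ hχ
    apply H4.gen_norm_two _ (hτ.2.2.2 _ (hdiff χ hχ)) (hτ1 _ (hdiff χ hχ))
    rw [hτ.2.2.1 _ (hdiff χ hχ) _ (hdiff χ hχ), H5.classInner_sub_left, H5.classInner_sub_right, H5.classInner_sub_right,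
      H4.inner_irr_eq (hirr χ hχ) (hirr χ hχ), H4.inner_irr_eq (hirr χ hχ) (hirr _ (hconj χ hχ).1),
      H4.inner_irr_eq (hirr _ (hconj χ hχ).1) (hirr χ hχ), H4.inner_irr_eq (hirr _ (hconj χ hχ).1) (hirr _ (hconj χ hχ).1),
      if_pos rfl, if_pos rfl, if_neg (hconj χ hχ).2, if_neg (Ne.symm (hconj χ hχ).2)]
    norm_num
  haveI : Nonempty (IrrCharacter G) := ⟨⟨fun _ => 1, H5.isIrrCharacter_trivial⟩⟩
  choose! a b hab hτab using key
  have hne : ∀ χ ∈ S, (a χ : G → ℂ) ≠ -(b χ : G → ℂ) := by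
    intro χ _ h
    have h1 := congrFun h 1
    obtain ⟨n, hn, hn1⟩ := H4.IsIrr.exists_degree (a χ).2
    obtain ⟨m, hm, hm1⟩ := H4.IsIrr.exists_degree (b χ).2
    rw [Pi.neg_apply, hn1, hm1] at h1
    have h2 : (n : ℂ) + m = 0 := by rw [h1]; ring
    have h3 : n + m = 0 := by exact_mod_cast h2
    omega
  have hnegsm : ∀ f : G → ℂ, -f = (-1 : ℂ) • f := fun f => by simp
  refine ⟨fun χ => {(a χ : G → ℂ), -(b χ : G → ℂ)}, hS, fun χ hχ => H4.IsIrr.isCharacter (hirr χ hχ), fun χ hχ => (hconj χ hχ).1,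
    fun χ hχ => (hconj χ hχ).2, hτ, hτ1, ?_, ?_, ?_, ?_, ?_⟩
  · intro χ hχ φ hφ hne
    rw [H4.inner_irr_eq (hirr χ hχ) (hirr φ hφ), if_neg hne]
  · intro χ hχ α hα β hβ
    have haa : classInner (a χ : G → ℂ) (a χ) = 1 := H5.classInner_irr_self _
    have hbb : classInner (b χ : G → ℂ) (b χ) = 1 := H5.classInner_irr_self _
    have hab0 : classInner (a χ : G → ℂ) (b χ) = 0 := H5.classInner_irr_ne (hab χ hχ)
    have hba0 : classInner (b χ : G → ℂ) (a χ) = 0 := H5.classInner_irr_ne (Ne.symm (hab χ hχ))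
    simp only [Finset.mem_insert, Finset.mem_singleton] at hα hβ
    rcases hα with rfl | rfl <;> rcases hβ with rfl | rfl
    · rw [if_pos rfl, haa]
    · rw [if_neg (hne χ hχ), hnegsm, H5.classInner_smul_right, hab0, mul_zero]
    · rw [if_neg (Ne.symm (hne χ hχ)), hnegsm, H5.classInner_smul_left, hba0, mul_zero]
    · rw [if_pos rfl, hnegsm, H5.classInner_smul_left, H5.classInner_smul_right, hbb]; simp
  · intro χ hχ α hα
    simp only [Finset.mem_insert, Finset.mem_singleton] at hα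
    rcases hα with rfl | rfl
    · exact H5.IsCharacter.isGeneralized (H4.IsIrr.isCharacter (a χ).2)
    · exact H5.isGeneralized_neg (H5.IsCharacter.isGeneralized (H4.IsIrr.isCharacter (b χ).2))
  · intro χ hχ
    rw [hτab χ hχ, Finset.sum_pair (hne χ hχ), sub_eq_add_neg]
  · intro χ hχ φ hφ h1 h2 α hα β hβ
    have h3 := hτ.2.2.1 _ (hdiff φ hφ) _ (hdiff χ hχ)
    have h4 : classInner (φ - conjFun φ) (χ - conjFun χ) = 0 := by
      rw [H5.classInner_sub_left, H5.classInner_sub_right, H5.classInner_sub_right, h1, h2]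
      have h5 : classInner (conjFun φ) (conjFun χ) = 0 := by rw [H4.inner_conj_conj, h1, map_zero]
      have h6 : classInner (conjFun φ) χ = 0 := by
        rw [← H4.conj_conj_fun χ, H4.inner_conj_conj, h2, map_zero]
      rw [h5, h6]; ring
    rw [h4, hτab φ hφ, hτab χ hχ, H4.inner_diff] at h3
    have h5 : ((if a φ = a χ then 1 else 0) - (if a φ = b χ then 1 else 0) - (if b φ = a χ then 1 else 0) + (if b φ = b χ then 1 else 0) : ℤ) = 0 := by
      exact_mod_cast h3
    have hA : a φ ≠ a χ := by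
      intro h
      have e1 : a φ ≠ b χ := by rw [h]; exact hab χ hχ
      have e2 : b φ ≠ a χ := by rw [← h]; exact Ne.symm (hab φ hφ)
      rw [if_pos h, if_neg e1, if_neg e2] at h5
      split_ifs at h5 <;> omega
    have hB : b φ ≠ b χ := by
      intro h
      have e1 : a φ ≠ b χ := by rw [← h]; exact hab φ hφ
      have e2 : b φ ≠ a χ := by rw [h]; exact Ne.symm (hab χ hχ)
      rw [if_pos h, if_neg e1, if_neg e2] at h5
      split_ifs at h5 <;> omega
    rw [if_neg hA, if_neg hB] at h5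
    have hC : a φ ≠ b χ := by
      intro h; rw [if_pos h] at h5; split_ifs at h5 <;> omega
    have hD : b φ ≠ a χ := by
      intro h; rw [if_pos h] at h5; split_ifs at h5 <;> omega
    simp only [Finset.mem_insert, Finset.mem_singleton] at hα hβ
    rcases hα with rfl | rfl <;> rcases hβ with rfl | rfl
    · exact H5.classInner_irr_ne hA
    · rw [hnegsm, H5.classInner_smul_right, H5.classInner_irr_ne hC, mul_zero]
    · rw [hnegsm, H5.classInner_smul_left, H5.classInner_irr_ne hD, mul_zero]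
    · rw [hnegsm, hnegsm, H5.classInner_smul_left, H5.classInner_smul_right, H5.classInner_irr_ne hB]; simp

end Cfsg.Agent.S1514
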