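import Cfsg.Statements.S1018
import Cfsg.Agent.H3.Basic

set_option autoImplicit false
open Cfsg

namespace Cfsg.Agent.S1018

/-- Let P be a Sylow p-subgroup of order p of a finite group G, and consider the action of G on the left cosets of the normalizer N of P. Then every element of order p fixes exactly one coset, and an element of N that does not centralize P fixes at most as many cosets as there are orbits of P. -/
theorem result {G : Type*} [Group G] [Finite G] (p : ℕ) [Fact p.Prime] (P : Sylow p G) (hP : Nat.card ↥(P : Subgroup G) = p) : (∀ y : G, orderOf y = p → Nat.card (MulAction.fixedBy (G ⧸ Subgroup.normalizer ((P : Subgroup G) : Set G)) y) = 1) ∧ ∀ x : G, x ∈ Subgroup.normalizer ((P : Subgroup G) : Set G) → x ∉ Subgroup.centralizer ((P : Subgroup G) : Set G) → Nat.card (MulAction.fixedBy (G ⧸ Subgroup.normalizer ((P : Subgroup G) : Set G)) x) ≤ Nat.card (MulAction.orbitRel.Quotient ↥(P : Subgroup G) (G ⧸ Subgroup.normalizer ((P : Subgroup G) : Set G))) := by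
  classical
  set N := Subgroup.normalizer ((P : Subgroup G) : Set G) with hN
  have hp := Fact.out (p := p.Prime)
  have hfix : ∀ y g : G, y • (g : G ⧸ N) = g ↔ g⁻¹ * y * g ∈ N := by
    intro y g
    rw [MulAction.Quotient.smul_coe, smul_eq_mul, eq_comm, QuotientGroup.eq, ← mul_assoc]
  have hz : ∀ z : G, orderOf z = p → z ∈ N → Subgroup.zpowers z = (P : Subgroup G) := by
    intro z hz hzN
    have h1 : IsPGroup p (Subgroup.zpowers z) := IsPGroup.of_card (n := 1) (by rw [Nat.card_zpowers, hz, pow_one])
    have h2 := h1.inf_normalizer_sylow P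
    have h3 : z ∈ Subgroup.zpowers z ⊓ (P : Subgroup G) := by rw [← h2]; exact ⟨Subgroup.mem_zpowers z, hzN⟩
    exact Subgroup.eq_of_le_of_card_ge (by rw [Subgroup.zpowers_le]; exact h3.2) (by rw [hP, Nat.card_zpowers, hz])
  constructor
  · intro y hy
    have ho : ∀ g : G, orderOf (g⁻¹ * y * g) = p := by
      intro g
      have := MulEquiv.orderOf_eq (MulAut.conj g⁻¹) y
      rw [MulAut.conj_apply, inv_inv] at this
      rw [this, hy]
    have hyP : IsPGroup p (Subgroup.zpowers y) := IsPGroup.of_card (n := 1) (by rw [Nat.card_zpowers, hy, pow_one])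
    rw [Nat.card_eq_one_iff_unique]
    constructor
    · constructor
      rintro ⟨a, ha⟩ ⟨b, hb⟩
      apply Subtype.ext
      change a = b
      induction a using QuotientGroup.induction_on with
      | H g =>
        induction b using QuotientGroup.induction_on with
        | H h =>
          have h1 := hz _ (ho g) ((hfix y g).1 ha)
          have h2 := hz _ (ho h) ((hfix y h).1 hb)
          rw [QuotientGroup.eq, hN, Subgroup.mem_normalizer_iff]
          intro n
          have hk : ∀ k : ℤ, (g⁻¹ * h) * (h⁻¹ * y * h) ^ k * (g⁻¹ * h)⁻¹ = (g⁻¹ * y * g) ^ k := by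
            intro k
            rw [← conj_zpow]
            congr 1
            group
          constructor
          · intro hn
            rw [← h2, Subgroup.mem_zpowers_iff] at hn
            obtain ⟨k, rfl⟩ := hn
            rw [← h1, hk]
            exact Subgroup.zpow_mem_zpowers _ k
          · intro hn
            rw [← h1, Subgroup.mem_zpowers_iff] at hn
            obtain ⟨k, hk'⟩ := hn
            rw [← hk, mul_left_inj, mul_right_inj] at hk'
            rw [← h2, ← hk']
            exact Subgroup.zpow_mem_zpowers _ k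
    · obtain ⟨Q, hQ⟩ := hyP.exists_le_sylow
      obtain ⟨g, hg⟩ := MulAction.exists_smul_eq G P Q
      refine ⟨⟨(g : G ⧸ N), ?_⟩⟩
      rw [MulAction.mem_fixedBy, hfix]
      apply Subgroup.le_normalizer
      have h1 : y ∈ (Q : Subgroup G) := hQ (Subgroup.mem_zpowers y)
      rw [← hg, Sylow.coe_subgroup_smul, Subgroup.mem_pointwise_smul_iff_inv_smul_mem] at h1
      rw [← map_inv, MulAut.smul_def, MulAut.conj_apply, inv_inv] at h1
      exact h1
  · intro x hx hxC
    have hinj : Function.Injective (fun a : MulAction.fixedBy (G ⧸ N) x => (Quotient.mk _ a.1 : MulAction.orbitRel.Quotient ↥(P : Subgroup G) (G ⧸ N))) := by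
      rintro ⟨a, ha⟩ ⟨b, hb⟩ hab
      apply Subtype.ext
      change a = b
      obtain ⟨u, hu⟩ : a ∈ MulAction.orbit ↥(P : Subgroup G) b := Quotient.exact hab
      have hu' : (u : G) • b = a := hu
      by_contra hne
      rw [MulAction.mem_fixedBy] at ha hb
      have hu1 : (u : G) ≠ 1 := by
        intro h
        rw [h, one_smul] at hu'
        exact hne hu'.symm
      have hord : ∀ c ∈ (P : Subgroup G), c ≠ 1 → Subgroup.zpowers c = (P : Subgroup G) := by
        intro c hc hc1
        refine hz c ?_ (Subgroup.le_normalizer hc)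
        have h1 : orderOf c ∣ p := by
          rw [← hP]
          exact Subgroup.orderOf_dvd_natCard _ hc
        rcases (Nat.dvd_prime hp).1 h1 with h2 | h2
        · exact absurd (orderOf_eq_one_iff.1 h2) hc1
        · exact h2
      have hxu : x * u * x⁻¹ ∈ (P : Subgroup G) := (Subgroup.mem_normalizer_iff.1 hx u).1 u.2
      have hcP : (u : G)⁻¹ * (x * u * x⁻¹) ∈ (P : Subgroup G) := mul_mem (inv_mem u.2) hxu
      have hcb : ((u : G)⁻¹ * (x * u * x⁻¹)) • b = b := by
        rw [mul_smul, mul_smul, mul_smul, inv_smul_eq_iff]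
        have h1 : x⁻¹ • b = b := by rw [inv_smul_eq_iff, hb]
        rw [h1, hu', ha]
      by_cases hc : (u : G)⁻¹ * (x * u * x⁻¹) = 1
      · have h1 : x * u = u * x := by
          rw [inv_mul_eq_one] at hc
          rw [eq_mul_inv_iff_mul_eq] at hc
          exact hc.symm
        apply hxC
        rw [← hord _ u.2 hu1, Subgroup.mem_centralizer_iff]
        intro h hh
        obtain ⟨k, rfl⟩ := Subgroup.mem_zpowers_iff.1 hh
        have : Commute (u : G) x := h1.symm
        exact (this.zpow_left k).eq
      · have h1 := hord _ hcP hc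
        have h2 : (u : G) ∈ Subgroup.zpowers ((u : G)⁻¹ * (x * u * x⁻¹)) := by rw [h1]; exact u.2
        have h3 : Subgroup.zpowers ((u : G)⁻¹ * (x * u * x⁻¹)) ≤ MulAction.stabilizer G b := by
          rw [Subgroup.zpowers_le]; exact hcb
        have h4 : (u : G) • b = b := h3 h2
        exact hne (hu'.symm.trans h4)
    exact Nat.card_le_card_of_injective _ hinj

end Cfsg.Agent.S1018
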