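import Cfsg.Statements.S0769

set_option autoImplicit false
open Cfsg
open Matrix

namespace Cfsg.Agent.S0769

/-- Order of the Borel subgroup of GL_n(q): the invertible lower-triangular n × n matrices over a field with q elements number q^(n(n-1)/2) (q-1)^n (unitriangular part times the diagonal torus). -/
theorem result {F : Type*} [Field F] [Fintype F] {q : ℕ} (hF : Fintype.card F = q) (n : ℕ) : Nat.card {g : Matrix.GeneralLinearGroup (Fin n) F // ∀ i j : Fin n, i < j → (g : Matrix (Fin n) (Fin n) F) i j = 0} = q ^ (n * (n - 1) / 2) * (q - 1) ^ n := by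
  classical
  let B : Type _ := {A : Matrix (Fin n) (Fin n) F // (∀ i j : Fin n, i < j → A i j = 0) ∧ ∀ i, A i i ≠ 0}
  have hdet : ∀ A : Matrix (Fin n) (Fin n) F, (∀ i j : Fin n, i < j → A i j = 0) → A.det = ∏ i, A i i := by
    intro A hA
    rw [← Matrix.det_transpose]
    have : Aᵀ.BlockTriangular id := fun i j hij => hA _ _ hij
    rw [Matrix.det_of_upperTriangular this]
    rfl
  have h1 : Nat.card {g : Matrix.GeneralLinearGroup (Fin n) F // ∀ i j : Fin n, i < j → (g : Matrix (Fin n) (Fin n) F) i j = 0} =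
      Nat.card B := by
    refine Nat.card_congr
      { toFun := fun g => ⟨(g.1 : Matrix (Fin n) (Fin n) F), g.2, ?_⟩
        invFun := fun A => ⟨Matrix.GeneralLinearGroup.mk'' A.1 ?_, A.2.1⟩
        left_inv := fun g => Subtype.ext (Units.ext rfl)
        right_inv := fun A => rfl }
    · intro i h
      have h2 : (g.1 : Matrix (Fin n) (Fin n) F).det ≠ 0 := by
        have := (Matrix.isUnit_iff_isUnit_det _).1 g.1.isUnit
        exact this.ne_zero
      rw [hdet _ g.2] at h2
      exact Finset.prod_ne_zero_iff.1 h2 i (Finset.mem_univ i) h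
    · rw [hdet _ A.2.1]
      exact (Finset.prod_ne_zero_iff.2 fun i _ => A.2.2 i).isUnit
  have h2 : Nat.card B = Nat.card ((Fin n → {x : F // x ≠ 0}) × ({p : Fin n × Fin n // p.2 < p.1} → F)) := by
    refine Nat.card_congr
      { toFun := fun A => (fun i => ⟨A.1 i i, A.2.2 i⟩, fun p => A.1 p.1.1 p.1.2)
        invFun := fun D => ⟨Matrix.of fun i j => if h : j < i then D.2 ⟨(i, j), h⟩ else if i = j then (D.1 i).1 else 0, ?_, ?_⟩
        left_inv := ?_
        right_inv := ?_ }
    · intro i j hij
      rw [Matrix.of_apply, dif_neg (not_lt.2 hij.le), if_neg hij.ne]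
    · intro i
      rw [Matrix.of_apply, dif_neg (lt_irrefl i), if_pos rfl]
      exact (D.1 i).2
    · rintro ⟨A, hA1, hA2⟩
      apply Subtype.ext
      ext i j
      dsimp only
      rw [Matrix.of_apply]
      split_ifs with h h'
      · rfl
      · rw [h']
      · exact (hA1 i j (lt_of_le_of_ne (not_lt.1 h) h')).symm
    · rintro ⟨d, u⟩
      refine Prod.ext (funext fun i => Subtype.ext ?_) (funext fun p => ?_)
      · dsimp only
        rw [Matrix.of_apply, dif_neg (lt_irrefl i), if_pos rfl]
      · dsimp only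
        rw [Matrix.of_apply, dif_pos p.2]
  have h3 : Fintype.card {p : Fin n × Fin n // p.2 < p.1} = n * (n - 1) / 2 := by
    have h4 : Nat.card {p : Fin n × Fin n // p.2 < p.1} = Nat.card (Σ i : Fin n, Fin i) := by
      refine Nat.card_congr
        { toFun := fun p => ⟨p.1.1, ⟨p.1.2, p.2⟩⟩
          invFun := fun s => ⟨(s.1, ⟨s.2, s.2.2.trans s.1.2⟩), s.2.2⟩
          left_inv := fun _ => rfl
          right_inv := fun _ => rfl }
    rw [← Nat.card_eq_fintype_card, h4, Nat.card_sigma]
    simp only [Nat.card_eq_fintype_card, Fintype.card_fin]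
    rw [Fin.sum_univ_eq_sum_range (fun i => i) n, Finset.sum_range_id]
  rw [h1, h2, Nat.card_prod, Nat.card_eq_fintype_card, Nat.card_eq_fintype_card, Fintype.card_fun, Fintype.card_fun, h3,
    Fintype.card_subtype_compl, Fintype.card_subtype_eq, Fintype.card_fin, hF, mul_comm]

end Cfsg.Agent.S0769
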