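import Cfsg.Statements.S2616
import Mathlib
import Cfsg.Agent.H8.QPeel
open Cfsg.Agent.H8.QPeel Cfsg.Agent.H7 Cfsg.Agent.H7.Orth Cfsg.Agent.H7.Orth.Qf Module

set_option autoImplicit false
open Cfsg

namespace Cfsg.Agent.S2616



/-- Standard bases of a non-degenerate quadratic space of even dimension 2m over a finite field: either there is a hyperbolic basis e_i, f_i (Q(e_i) = Q(f_i) = 0, B(e_i, f_j) = δ_ij, the e's pairwise orthogonal and the f's pairwise orthogonal, B the polar form), or there is an elliptic basis: hyperbolic pairs e_i, f_i for i < m − 1 together with x, y orthogonal to them with Q(x) = 1, B(x, y) = 1, Q(y) = ζ where t² + t + ζ has no root in the field. -/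
theorem result {F V : Type*} [Field F] [Finite F] [AddCommGroup V] [Module F V] [FiniteDimensional F V] {m : ℕ} (hm : 1 ≤ m) (hV : Module.finrank F V = 2 * m) (Q : QuadraticForm F V) (hQ : (QuadraticMap.polarBilin Q).Nondegenerate) : (∃ b : Module.Basis (Fin m ⊕ Fin m) F V, (∀ i, Q (b (Sum.inl i)) = 0 ∧ Q (b (Sum.inr i)) = 0) ∧ (∀ i j, QuadraticMap.polar ⇑Q (b (Sum.inl i)) (b (Sum.inr j)) = if i = j then 1 else 0) ∧ (∀ i j, QuadraticMap.polar ⇑Q (b (Sum.inl i)) (b (Sum.inl j)) = 0 ∧ QuadraticMap.polar ⇑Q (b (Sum.inr i)) (b (Sum.inr j)) = 0)) ∨ (∃ (b : Module.Basis ((Fin (m - 1) ⊕ Fin (m - 1)) ⊕ Fin 2) F V) (ζ : F), (∀ t : F, t ^ 2 + t + ζ ≠ 0) ∧ (∀ i, Q (b (Sum.inl (Sum.inl i))) = 0 ∧ Q (b (Sum.inl (Sum.inr i))) = 0) ∧ (∀ i j, QuadraticMap.polar ⇑Q (b (Sum.inl (Sum.inl i))) (b (Sum.inl (Sum.inr j))) = if i = j then 1 else 0) ∧ (∀ i j, QuadraticMap.polar ⇑Q (b (Sum.inl (Sum.inl i))) (b (Sum.inl (Sum.inl j))) = 0 ∧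 QuadraticMap.polar ⇑Q (b (Sum.inl (Sum.inr i))) (b (Sum.inl (Sum.inr j))) = 0) ∧ (∀ i (k : Fin 2), QuadraticMap.polar ⇑Q (b (Sum.inl (Sum.inl i))) (b (Sum.inr k)) = 0 ∧ QuadraticMap.polar ⇑Q (b (Sum.inl (Sum.inr i))) (b (Sum.inr k)) = 0) ∧ Q (b (Sum.inr 0)) = 1 ∧ QuadraticMap.polar ⇑Q (b (Sum.inr 0)) (b (Sum.inr 1)) = 1 ∧ Q (b (Sum.inr 1)) = ζ) := by
  obtain ⟨φ⟩ : Nonempty (V ≃ₗ[F] (Fin (2 * m) → F)) := ⟨LinearEquiv.ofFinrankEq _ _ (by rw [hV, Module.finrank_fintype_fun_eq_card, Fintype.card_fin])⟩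
  have hq := qf_of φ Q hQ
  obtain ⟨Q', hQ'⟩ : ∃ Q' : (Fin (2 * m) → F) → F, Q' = fun v => Q (φ.symm v) := ⟨_, rfl⟩
  obtain ⟨B', hB'⟩ : ∃ B', B' = ((QuadraticMap.polarBilin Q).compl₁₂ (φ.symm : (Fin (2 * m) → F) →ₗ[F] V) (φ.symm : (Fin (2 * m) → F) →ₗ[F] V)) := ⟨_, rfl⟩
  rw [← hQ', ← hB'] at hq
  have hpol : ∀ x y, QuadraticMap.polar ⇑Q (φ.symm x) (φ.symm y) = B' x y := by
    intro x y
    rw [hB']; rfl
  have hqq : ∀ x, Q (φ.symm x) = Q' x := by
    intro x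
    rw [hQ']
  obtain ⟨k, e, f, U, H, hU, hperp, hnd, han, hd⟩ := peel hq (2 * m) ⊤ (by rw [finrank_top, Module.finrank_fintype_fun_eq_card, Fintype.card_fin])
    (fun v _ h => hq.nd v (fun u => h u trivial))
  rw [finrank_top, Module.finrank_fintype_fun_eq_card, Fintype.card_fin] at hd
  have hU2 : finrank F U < 3 := by
    by_contra hcon
    push Not at hcon
    obtain ⟨z, hz, hz0, hqz⟩ := exists_singular hq U hcon
    exact hz0 (han z hz hqz)
  rcases Nat.lt_or_ge k m with hkm | hkm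
  · right
    obtain ⟨hU1, hk⟩ : finrank F U = 2 ∧ k = m - 1 := by omega
    subst hk
    obtain ⟨u0, hu0, u1, hu1, hq0, hb01, hli2, hζ⟩ := two hq hnd han hU1
    have hum : ∀ j : Fin 2, ![u0, u1] j ∈ U := by
      intro j
      fin_cases j
      · exact hu0
      · exact hu1
    have hli := (li hq H hperp (κ := Fin 2) (u := ![u0, u1]) hum hli2).comp (Equiv.sumComm _ _) (Equiv.sumComm _ _).injective
    let b := basisOfLinearIndependentOfCardEqFinrank hli (by simp; omega)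
    have hb : ⇑b = (Sum.elim ![u0, u1] (Sum.elim e f)) ∘ (Equiv.sumComm _ _) := coe_basisOfLinearIndependentOfCardEqFinrank _ _
    have hbi : ∀ i, b.map φ.symm i = φ.symm (Sum.elim ![u0, u1] (Sum.elim e f) (Equiv.sumComm _ _ i)) := by
      intro i
      rw [Basis.map_apply, hb]; rfl
    refine ⟨b.map φ.symm, Q' u1, hζ, ?_, ?_, ?_, ?_, ?_, ?_, ?_⟩
    · intro i
      simp only [hbi, hqq, Equiv.sumComm_apply, Sum.swap_inl, Sum.elim_inl, Sum.elim_inr]
      exact ⟨H.qe i, H.qf i⟩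
    · intro i j
      simp only [hbi, hpol, Equiv.sumComm_apply, Sum.swap_inl, Sum.elim_inl, Sum.elim_inr]
      exact H.ef i j
    · intro i j
      simp only [hbi, hpol, Equiv.sumComm_apply, Sum.swap_inl, Sum.elim_inl, Sum.elim_inr]
      exact ⟨H.ee i j, H.ff i j⟩
    · intro i j
      simp only [hbi, hpol, Equiv.sumComm_apply, Sum.swap_inl, Sum.swap_inr, Sum.elim_inl, Sum.elim_inr]
      exact hperp _ (hum j) i
    · simp only [hbi, hqq, Equiv.sumComm_apply, Sum.swap_inr, Sum.elim_inl]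
      exact hq0
    · simp only [hbi, hpol, Equiv.sumComm_apply, Sum.swap_inr, Sum.elim_inl]
      exact hb01
    · simp only [hbi, hqq, Equiv.sumComm_apply, Sum.swap_inr, Sum.elim_inl]
      rfl
  · left
    obtain ⟨hU1, hk⟩ : finrank F U = 0 ∧ k = m := by omega
    subst hk
    haveI : Nonempty (Fin k ⊕ Fin k) := ⟨Sum.inl ⟨0, hm⟩⟩
    have hli := (li hq H hperp (κ := Empty) (u := Empty.elim) (fun j => j.elim) linearIndependent_empty_type).comp Sum.inr Sum.inr_injective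
    let b := basisOfLinearIndependentOfCardEqFinrank hli (by simp; omega)
    have hb : ⇑b = (Sum.elim Empty.elim (Sum.elim e f)) ∘ Sum.inr := coe_basisOfLinearIndependentOfCardEqFinrank _ _
    have hbi : ∀ i, b.map φ.symm i = φ.symm (Sum.elim e f i) := by
      intro i
      rw [Basis.map_apply, hb]; rfl
    refine ⟨b.map φ.symm, ?_, ?_, ?_⟩
    · intro i
      simp only [hbi, hqq, Sum.elim_inl, Sum.elim_inr]
      exact ⟨H.qe i, H.qf i⟩
    · intro i j
      simp only [hbi, hpol, Sum.elim_inl, Sum.elim_inr]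
      exact H.ef i j
    · intro i j
      simp only [hbi, hpol, Sum.elim_inl, Sum.elim_inr]
      exact ⟨H.ee i j, H.ff i j⟩

end Cfsg.Agent.S2616
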