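import Cfsg.Statements.S0009
import Mathlib
import Cfsg.Agent.L0.Core
import Cfsg.Agent.H1.Basic

set_option autoImplicit false
open Cfsg

namespace Cfsg.Agent.S0009

/-- The Fitting subgroup of a finite group is generated by the p-cores, p ranging over the primes. -/
theorem result {G : Type*} [Group G] [Finite G] :
    Cfsg.fittingSubgroup G = ⨆ p : Nat.Primes, Cfsg.pCore (p : ℕ) G := by
  apply le_antisymm
  · have hM : (⨆ p : Nat.Primes, Cfsg.pCore (p : ℕ) G) ≤ Cfsg.fittingSubgroup G := by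
      refine iSup_le fun p => ?_
      haveI : Fact (p : ℕ).Prime := ⟨p.2⟩
      exact Cfsg.Agent.L0.pCore_le_fittingSubgroup p G
    apply le_of_eq
    symm
    apply Cfsg.Agent.H1.eq_of_le_of_not_dvd_relIndex hM
    intro p hp hd
    haveI : Fact p.Prime := ⟨hp⟩
    apply Cfsg.Agent.L0.pCore_relIndex_of_nilpotent_normal (p := p) (A := Cfsg.fittingSubgroup G)
      (Cfsg.Agent.L0.fittingSubgroup_isNilpotent G)
    exact hd.trans (Subgroup.relIndex_dvd_of_le_left _ (le_iSup (fun p : Nat.Primes => Cfsg.pCore (p : ℕ) G) ⟨p, hp⟩))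
  · refine iSup_le fun p => ?_
    haveI : Fact (p : ℕ).Prime := ⟨p.2⟩
    exact Cfsg.Agent.L0.pCore_le_fittingSubgroup p G

end Cfsg.Agent.S0009
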