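import Cfsg.Statements.S0011
import Mathlib
import Cfsg.Agent.H1.Coprime3

set_option autoImplicit false
open Cfsg

namespace Cfsg.Agent.S0011

open scoped commutatorElement


/-- If the Frattini quotient of a finite group is nilpotent then the group is nilpotent. -/
theorem result {G : Type*} [Group G] [Finite G]
    (h : Group.IsNilpotent (G ⧸ frattini G)) : Group.IsNilpotent G := by
  have h1 : Group.IsNilpotent (⊤ : Subgroup G) := by
    apply Cfsg.Agent.H1.isNilpotent_of_map_frattini (⊤ : Subgroup G)
    rw [Subgroup.map_top_of_surjective _ (QuotientGroup.mk'_surjective _)]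
    infer_instance
  exact Group.nilpotent_of_mulEquiv Subgroup.topEquiv

end Cfsg.Agent.S0011
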