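import Cfsg.Statements.S0013
import Mathlib
import Cfsg.Agent.H1.Basic

set_option autoImplicit false
open Cfsg

namespace Cfsg.Agent.S0013

open scoped commutatorElement

/-- In a finite p-group the Frattini subgroup is the smallest normal subgroup with elementary abelian quotient: it lies below any normal subgroup containing all commutators and all p-th powers. -/
theorem result {G : Type*} [Group G] [Finite G] (p : ℕ) [Fact p.Prime]
    (hG : IsPGroup p G) (N : Subgroup G) [N.Normal] (hcomm : commutator G ≤ N) (hpow : ∀ x : G, x ^ p ∈ N) :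
    frattini G ≤ N := by
  classical
  intro x hx
  by_contra hxN
  -- choose M maximal among subgroups containing N but not x
  have hfin : {M : Subgroup G | N ≤ M ∧ x ∉ M}.Finite := Set.toFinite _
  obtain ⟨M, hM⟩ := hfin.exists_maximal ⟨N, le_refl N, hxN⟩
  have hNM : N ≤ M := hM.prop.1
  have hxM : x ∉ M := hM.prop.2
  have hMn : ∀ K : Subgroup G, N ≤ K → K.Normal := by
    intro K hK
    refine ⟨fun n hn g => ?_⟩
    have : ⁅g, n⁆ ∈ K := hK (hcomm (Subgroup.commutator_mem_commutator (Subgroup.mem_top g) (Subgroup.mem_top n)))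
    have h2 := K.mul_mem this hn
    simpa [commutatorElement_def] using h2
  have hco : IsCoatom M := by
    refine ⟨fun h => hxM (h ▸ Subgroup.mem_top x), ?_⟩
    intro K hK
    have hxK : x ∈ K := by
      by_contra hxK
      exact absurd (hM.le_of_ge ⟨hNM.trans hK.le, hxK⟩ hK.le) (not_le_of_gt hK)
    rw [eq_top_iff]
    intro y _
    by_contra hyK
    have hyM : y ∉ M := fun h => hyK (hK.le h)
    have hMnn := hMn M hNM
    -- the subgroup M ⊔ zpowers y contains x
    have h1 : x ∈ M ⊔ Subgroup.zpowers y := by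
      by_contra hc
      have h2 : M ⊔ Subgroup.zpowers y ≤ M :=
        hM.le_of_ge ⟨hNM.trans le_sup_left, hc⟩ le_sup_left
      exact hyM (h2 (Subgroup.mem_sup_right (Subgroup.mem_zpowers y)))
    rw [Subgroup.mem_sup_of_normal_left] at h1
    obtain ⟨m, hm, z, hz, hmz⟩ := h1
    obtain ⟨k, rfl⟩ := Subgroup.mem_zpowers_iff.mp hz
    have hk : y ^ k ∈ K := by
      have : y ^ k = m⁻¹ * x := by rw [← hmz]; group
      rw [this]; exact K.mul_mem (K.inv_mem (hK.le hm)) hxK
    have hpk : y ^ (p : ℤ) ∈ K := by
      rw [zpow_natCast]; exact hK.le (hNM (hpow y))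
    by_cases hd : (p : ℤ) ∣ k
    · obtain ⟨j, rfl⟩ := hd
      apply hxM
      rw [← hmz]
      apply M.mul_mem hm
      rw [zpow_mul]
      apply M.zpow_mem
      rw [zpow_natCast]; exact hNM (hpow y)
    · have hcop : IsCoprime (p : ℤ) k := by
        rw [Int.isCoprime_iff_gcd_eq_one]
        have hp := (Fact.out : p.Prime)
        rcases (Nat.coprime_or_dvd_of_prime hp k.natAbs) with h | h
        · simpa [Int.gcd] using h
        · exact absurd (Int.natCast_dvd.mpr h) hd
      obtain ⟨a, b, hab⟩ := hcop
      apply hyK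
      have : y = (y ^ (p : ℤ)) ^ a * (y ^ k) ^ b := by
        rw [← zpow_mul, ← zpow_mul, ← zpow_add, mul_comm (p : ℤ) a, mul_comm k b, hab, zpow_one]
      rw [this]
      exact K.mul_mem (K.zpow_mem hpk _) (K.zpow_mem hk _)
  exact hxM (frattini_le_coatom hco hx)

end Cfsg.Agent.S0013
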