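import Cfsg.Statements.S0014
import Mathlib
import Cfsg.Agent.H1.Basic

set_option autoImplicit false
open Cfsg

namespace Cfsg.Agent.S0014

open scoped commutatorElement Pointwise
theorem pow_mem_frattini {G : Type*} [Group G] [Finite G] {p : ℕ} [hp : Fact p.Prime] (hG : IsPGroup p G) (x : G) :
    x ^ p ∈ frattini G := by
  rw [frattini, Order.radical, Subgroup.mem_iInf]
  intro M
  rw [Subgroup.mem_iInf]
  intro hM
  haveI := hG.isNilpotent
  have hM' : IsCoatom M := hM
  haveI := Cfsg.Agent.H1.normal_of_isCoatom_of_nilpotent hM'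
  have hi := Cfsg.Agent.H1.index_of_isCoatom_pgroup hG hM'
  rw [← QuotientGroup.eq_one_iff (N := M), QuotientGroup.mk_pow, ← hi]
  exact pow_card_eq_one'

theorem commutator_le_frattini {G : Type*} [Group G] [Finite G] {p : ℕ} [hp : Fact p.Prime] (hG : IsPGroup p G) :
    commutator G ≤ frattini G := by
  rw [frattini, Order.radical]
  refine le_iInf fun M => le_iInf fun hM => ?_
  haveI := hG.isNilpotent
  have hM' : IsCoatom M := hM
  haveI := Cfsg.Agent.H1.normal_of_isCoatom_of_nilpotent hM'
  have hi := Cfsg.Agent.H1.index_of_isCoatom_pgroup hG hM'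
  haveI : IsCyclic (G ⧸ M) := isCyclic_of_prime_card (p := p) hi
  haveI hc : IsMulCommutative (G ⧸ M) := IsCyclic.isMulCommutative
  rw [commutator_def, Subgroup.commutator_le]
  intro g _ h _
  rw [← QuotientGroup.eq_one_iff (N := M)]
  have h1 : Commute (QuotientGroup.mk' M g) (QuotientGroup.mk' M h) := mul_comm' _ _
  rw [← commutatorElement_eq_one_iff_commute, ← map_commutatorElement] at h1
  exact h1

theorem card_sup_zpowers {G : Type*} [Group G] [Finite G] {p : ℕ} [hp : Fact p.Prime] (N : Subgroup G) [hN : N.Normal] (x : G)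
    (hx : x ^ p ∈ N) : Nat.card ↥(N ⊔ Subgroup.zpowers x) ≤ Nat.card N * p ∧ (x ∉ N → Nat.card ↥(N ⊔ Subgroup.zpowers x) = Nat.card N * p) := by
  have h1 : Nat.card ↥(N ⊔ Subgroup.zpowers x) = Nat.card N * orderOf (QuotientGroup.mk' N x) := by
    have h2 := Subgroup.relIndex_mul_relIndex ⊥ N (N ⊔ Subgroup.zpowers x) bot_le le_sup_left
    rw [Subgroup.relIndex_bot_left, Subgroup.relIndex_bot_left, Subgroup.relIndex_sup_left] at h2
    have h3 := Subgroup.relIndex_ker (Subgroup.zpowers x) (QuotientGroup.mk' N)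
    rw [QuotientGroup.ker_mk', MonoidHom.map_zpowers, Nat.card_zpowers] at h3
    rw [← h2, h3]
  have h4 : orderOf (QuotientGroup.mk' N x) ∣ p := by
    apply orderOf_dvd_of_pow_eq_one
    rw [← map_pow]
    exact (QuotientGroup.eq_one_iff _).mpr hx
  rcases (Nat.dvd_prime hp.out).mp h4 with h5 | h5
  · rw [h1, h5, mul_one]
    refine ⟨Nat.le_mul_of_pos_right _ hp.out.pos, ?_⟩
    intro h6
    exfalso
    apply h6
    rw [orderOf_eq_one_iff] at h5
    exact (QuotientGroup.eq_one_iff x).mp h5
  · rw [h1, h5]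
    exact ⟨le_rfl, fun _ => rfl⟩

/-- Burnside's basis Theorem: in a finite p-group whose Frattini quotient has order p ^ n, every generating set contains n elements that already generate, and no set with fewer than n elements generates. -/
theorem result {G : Type*} [Group G] [Finite G] (p n : ℕ) [Fact p.Prime]
    (hG : IsPGroup p G) (hn : (frattini G).index = p ^ n) :
    (∀ S : Finset G, Subgroup.closure (S : Set G) = ⊤ → ∃ T : Finset G, T ⊆ S ∧ T.card = n ∧ Subgroup.closure (T : Set G) = ⊤) ∧
    (∀ T : Finset G, Subgroup.closure (T : Set G) = ⊤ → n ≤ T.card) := by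
  classical
  have hpp : p.Prime := Fact.out
  set Φ := frattini G with hΦ
  have hnorm : ∀ T : Finset G, (Φ ⊔ Subgroup.closure (T : Set G)).Normal := by
    intro T
    constructor
    intro x hx g
    have e : g * x * g⁻¹ = ⁅g, x⁆ * x := by rw [commutatorElement_def]; group
    rw [e]
    exact Subgroup.mul_mem _ ((le_sup_left : Φ ≤ _) (commutator_le_frattini hG
      (Subgroup.commutator_mem_commutator (Subgroup.mem_top g) (Subgroup.mem_top x)))) hx
  have hins : ∀ (T : Finset G) (x : G), Φ ⊔ Subgroup.closure ((insert x T : Finset G) : Set G) = (Φ ⊔ Subgroup.closure (T : Set G)) ⊔ Subgroup.zpowers x := by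
    intro T x
    rw [Finset.coe_insert, Set.insert_eq, Subgroup.closure_union, Subgroup.zpowers_eq_closure, sup_assoc, sup_comm (Subgroup.closure {x})]
  have hcardG : Nat.card Φ * p ^ n = Nat.card G := by rw [← hn]; exact Φ.card_mul_index
  have hle : ∀ T : Finset G, Nat.card ↥(Φ ⊔ Subgroup.closure (T : Set G)) ≤ Nat.card Φ * p ^ T.card := by
    intro T
    induction T using Finset.induction_on with
    | empty => simp
    | insert x T hx ih =>
      haveI := hnorm T
      have h1 := (card_sup_zpowers (Φ ⊔ Subgroup.closure (T : Set G)) x ((le_sup_left : Φ ≤ _) (pow_mem_frattini hG x))).1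
      rw [← hins] at h1
      rw [Finset.card_insert_of_notMem hx, pow_succ, ← mul_assoc]
      exact h1.trans (Nat.mul_le_mul_right p ih)
  have hpart2 : ∀ T : Finset G, Subgroup.closure (T : Set G) = ⊤ → n ≤ T.card := by
    intro T hT
    have h1 := hle T
    rw [hT, sup_top_eq, Subgroup.card_top, ← hcardG] at h1
    have h2 := Nat.le_of_mul_le_mul_left h1 Nat.card_pos
    exact (Nat.pow_le_pow_iff_right hpp.one_lt).mp h2
  refine ⟨?_, hpart2⟩
  intro S hS
  -- minimal subset
  have hfin : {T : Finset G | T ⊆ S ∧ Subgroup.closure (T : Set G) = ⊤}.Finite := Set.toFinite _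
  obtain ⟨T, hT⟩ := hfin.exists_minimal ⟨S, Finset.Subset.refl S, hS⟩
  have hTS : T ⊆ S ∧ Subgroup.closure (T : Set G) = ⊤ := hT.prop
  refine ⟨T, hTS.1, ?_, hTS.2⟩
  have hmin : ∀ x ∈ T, x ∉ Φ ⊔ Subgroup.closure ((T.erase x : Finset G) : Set G) := by
    intro x hx hxm
    have h1 : Φ ⊔ Subgroup.closure ((T.erase x : Finset G) : Set G) = ⊤ := by
      rw [eq_top_iff, ← hTS.2, Subgroup.closure_le]
      intro y hy
      by_cases hyx : y = x
      · rw [hyx]; exact hxm
      · exact (le_sup_right : Subgroup.closure ((T.erase x : Finset G) : Set G) ≤ _) (Subgroup.subset_closure (by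
          rw [Finset.mem_coe, Finset.mem_erase]; exact ⟨hyx, hy⟩))
    rw [sup_comm] at h1
    have h2 := frattini_nongenerating h1
    have h3 : T.erase x ∈ {T : Finset G | T ⊆ S ∧ Subgroup.closure (T : Set G) = ⊤} :=
      ⟨(Finset.erase_subset x T).trans hTS.1, h2⟩
    have h4 := hT.le_of_le h3 (Finset.erase_subset x T)
    exact Finset.notMem_erase x T (h4 hx)
  have heq : ∀ T' : Finset G, T' ⊆ T → Nat.card ↥(Φ ⊔ Subgroup.closure (T' : Set G)) = Nat.card Φ * p ^ T'.card := by
    intro T'
    induction T' using Finset.induction_on with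
    | empty => intro _; simp
    | insert x T' hx ih =>
      intro hsub
      haveI := hnorm T'
      have hxT : x ∈ T := hsub (Finset.mem_insert_self _ _)
      have hT'T : T' ⊆ T := (Finset.subset_insert _ _).trans hsub
      have hxn : x ∉ Φ ⊔ Subgroup.closure (T' : Set G) := by
        intro h
        apply hmin x hxT
        refine (sup_le_sup_left (Subgroup.closure_mono ?_) Φ) h
        intro y hy
        rw [Finset.mem_coe, Finset.mem_erase]
        refine ⟨?_, hT'T hy⟩
        rintro rfl
        exact hx hy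
      have h1 := (card_sup_zpowers (Φ ⊔ Subgroup.closure (T' : Set G)) x ((le_sup_left : Φ ≤ _) (pow_mem_frattini hG x))).2 hxn
      rw [← hins] at h1
      rw [h1, ih hT'T, Finset.card_insert_of_notMem hx, pow_succ, mul_assoc]
  have h1 := heq T (Finset.Subset.refl T)
  rw [hTS.2, sup_top_eq, Subgroup.card_top, ← hcardG] at h1
  have h2 := Nat.eq_of_mul_eq_mul_left Nat.card_pos h1
  exact (Nat.pow_right_injective hpp.two_le h2).symm

end Cfsg.Agent.S0014
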