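import Cfsg.Statements.S0015
import Mathlib
import Cfsg.Agent.H1.Basic

set_option autoImplicit false
open Cfsg

namespace Cfsg.Agent.S0015

open scoped commutatorElement

/-- In a finite nilpotent group, an abelian normal subgroup that is maximal among abelian normal subgroups equals its own centralizer. -/
theorem result {G : Type*} [Group G] [Finite G] [Group.IsNilpotent G]
    (N : Subgroup G) [N.Normal] [IsMulCommutative N]
    (hmax : ∀ M : Subgroup G, M.Normal → IsMulCommutative M → N ≤ M → M = N) :
    Subgroup.centralizer (N : Set G) = N := by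
  classical
  have hle : N ≤ Subgroup.centralizer (N : Set G) := Subgroup.le_centralizer_iff_isMulCommutative.mpr inferInstance
  by_contra hne
  set C := Subgroup.centralizer (N : Set G) with hC
  have hCn : C.Normal := inferInstance
  have hCbar : C.map (QuotientGroup.mk' N) ≠ ⊥ := by
    intro h
    rw [Subgroup.map_eq_bot_iff, QuotientGroup.ker_mk'] at h
    exact hne (le_antisymm h hle)
  have hCbn : (C.map (QuotientGroup.mk' N)).Normal := hCn.map _ (QuotientGroup.mk'_surjective N)
  have h1 := Cfsg.Agent.H1.inf_center_ne_bot _ hCbar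
  obtain ⟨z, hz⟩ := Subgroup.ne_bot_iff_exists_ne_one.mp h1
  obtain ⟨x, hxC, hxz⟩ := Subgroup.mem_map.mp z.2.1
  have hxN : x ∉ N := by
    intro h
    apply hz
    apply Subtype.ext
    rw [← hxz]
    simpa using h
  have hxc : ∀ g : G, ⁅g, x⁆ ∈ N := by
    intro g
    rw [← QuotientGroup.eq_one_iff, commutatorElement_def]
    have h2 := (Subgroup.mem_center_iff.mp z.2.2) (g : G ⧸ N)
    rw [← hxz] at h2
    simp only [QuotientGroup.mk'_apply] at h2
    simp only [QuotientGroup.mk_mul, QuotientGroup.mk_inv, h2]
    group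
  have hM : (N ⊔ Subgroup.zpowers x).Normal := by
    rw [← Subgroup.normalizer_eq_top_iff, eq_top_iff]
    intro g _
    have hgen : ∀ g : G, ∀ y ∈ N ⊔ Subgroup.zpowers x, g * y * g⁻¹ ∈ N ⊔ Subgroup.zpowers x := by
      intro g y hy
      rw [Subgroup.mem_sup_of_normal_left] at hy
      obtain ⟨n, hn, w, hw, rfl⟩ := hy
      obtain ⟨k, rfl⟩ := Subgroup.mem_zpowers_iff.mp hw
      have h3 : g * (n * x ^ k) * g⁻¹ = (g * n * g⁻¹) * (g * x * g⁻¹) ^ k := by
        rw [conj_zpow]; group
      rw [h3]
      apply Subgroup.mul_mem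
      · exact Subgroup.mem_sup_left (Subgroup.Normal.conj_mem inferInstance n hn g)
      · apply Subgroup.zpow_mem
        have : g * x * g⁻¹ = ⁅g, x⁆ * x := by rw [commutatorElement_def]; group
        rw [this]
        exact Subgroup.mul_mem _ (Subgroup.mem_sup_left (hxc g)) (Subgroup.mem_sup_right (Subgroup.mem_zpowers x))
    rw [Subgroup.mem_normalizer_iff]
    intro h
    refine ⟨hgen g h, fun h' => ?_⟩
    have := hgen g⁻¹ _ h'
    simpa [mul_assoc] using this
  have hMc : IsMulCommutative (N ⊔ Subgroup.zpowers x : Subgroup G) := by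
    rw [← Subgroup.le_centralizer_iff_isMulCommutative]
    have hx' : Subgroup.zpowers x ≤ C := by rw [Subgroup.zpowers_le]; exact hxC
    rw [sup_le_iff]
    constructor
    · rw [Subgroup.le_centralizer_iff, sup_le_iff]
      exact ⟨hle, hx'⟩
    · rw [Subgroup.le_centralizer_iff, sup_le_iff]
      constructor
      · rw [Subgroup.le_centralizer_iff]; exact hx'
      · rw [Subgroup.le_centralizer_iff_isMulCommutative]; infer_instance
  have := hmax _ hM hMc le_sup_left
  apply hxN
  rw [← this]
  exact Subgroup.mem_sup_right (Subgroup.mem_zpowers x)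

end Cfsg.Agent.S0015
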