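import Cfsg.Statements.S0017
import Mathlib
import Cfsg.Agent.L0.GenFit
import Cfsg.Agent.H1.Basic
import Cfsg.Agent.S0009

set_option autoImplicit false
open Cfsg

namespace Cfsg.Agent.S0017

open scoped commutatorElement


/-- In a finite solvable group whose largest normal subgroup of order prime to p is trivial, the centralizer of the p-core is contained in the p-core. -/
theorem result {G : Type*} [Group G] [Finite G] [Group.IsSolvable G] (p : ℕ) [Fact p.Prime]
    (h : Cfsg.pPrimeCore p G = ⊥) :
    Subgroup.centralizer (Cfsg.pCore p G : Set G) ≤ Cfsg.pCore p G := by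
  have h1 : Cfsg.fittingSubgroup G = Cfsg.pCore p G := by
    rw [Cfsg.Agent.S0009.result]
    apply le_antisymm
    · apply iSup_le
      intro q
      by_cases hq : (q : ℕ) = p
      · rw [hq]
      · have hbot : Cfsg.pCore (q : ℕ) G = ⊥ := by
          rw [eq_bot_iff, ← h]
          haveI : Fact (q : ℕ).Prime := ⟨q.2⟩
          apply Cfsg.Agent.L0.le_pPrimeCore (hN := Subgroup.normal_of_characteristic _)
          obtain ⟨k, hk⟩ := IsPGroup.iff_card.mp (Cfsg.Agent.L0.pCore_isPGroup q G)
          rw [hk]
          exact Nat.Coprime.pow_left k ((Nat.coprime_primes q.2 Fact.out).mpr hq)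
        rw [hbot]; exact bot_le
    · exact le_iSup (fun p : Nat.Primes => Cfsg.pCore (p : ℕ) G) ⟨p, Fact.out⟩
  rw [← h1]
  exact Cfsg.Agent.L0.centralizer_fitting_le_of_isSolvable inferInstance

end Cfsg.Agent.S0017
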