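import Cfsg.Statements.S0018
import Mathlib
import Cfsg.Agent.S0017

set_option autoImplicit false
open Cfsg

namespace Cfsg.Agent.S0018

open scoped commutatorElement


/-- A finite solvable group whose Sylow p-subgroups are abelian has p-length one: a Sylow p-subgroup together with the largest normal subgroup of order prime to p generates a normal subgroup. -/
theorem result {G : Type*} [Group G] [Finite G] [Group.IsSolvable G]
    (p : ℕ) [Fact p.Prime] (P : Sylow p G) (hP : IsMulCommutative P) :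
    ((P : Subgroup G) ⊔ Cfsg.pPrimeCore p G).Normal := by
  set π := QuotientGroup.mk' (Cfsg.pPrimeCore p G) with hπ
  haveI : Group.IsSolvable (G ⧸ Cfsg.pPrimeCore p G) := inferInstance
  have h1 := Cfsg.Agent.S0017.result (G := G ⧸ Cfsg.pPrimeCore p G) p (Cfsg.Agent.L0.pPrimeCore_quotient_pPrimeCore p G)
  have hsurj : Function.Surjective π := QuotientGroup.mk'_surjective _
  let Q : Sylow p (G ⧸ Cfsg.pPrimeCore p G) := P.mapSurjective hsurj
  have hQ : (Q : Subgroup (G ⧸ Cfsg.pPrimeCore p G)) = (P : Subgroup G).map π := rfl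
  have h2 : (Q : Subgroup (G ⧸ Cfsg.pPrimeCore p G)) ≤ Cfsg.pCore p (G ⧸ Cfsg.pPrimeCore p G) := by
    refine le_trans ?_ h1
    have h3 : Cfsg.pCore p (G ⧸ Cfsg.pPrimeCore p G) ≤ Q := Cfsg.Agent.L0.pCore_le_sylow Q
    have h4 : (Q : Subgroup (G ⧸ Cfsg.pPrimeCore p G)) ≤ Subgroup.centralizer ((Q : Subgroup (G ⧸ Cfsg.pPrimeCore p G)) : Set (G ⧸ Cfsg.pPrimeCore p G)) := by
      rw [hQ]
      rintro _ ⟨x, hx, rfl⟩
      rw [Subgroup.mem_centralizer_iff]
      rintro _ ⟨y, hy, rfl⟩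
      rw [← map_mul, ← map_mul]
      congr 1
      exact congrArg Subtype.val (hP.is_comm.comm ⟨y, hy⟩ ⟨x, hx⟩)
    exact h4.trans (Subgroup.centralizer_le h3)
  have h5 : (P : Subgroup G) ⊔ Cfsg.pPrimeCore p G = (Cfsg.pCore p (G ⧸ Cfsg.pPrimeCore p G)).comap π := by
    have h6 : (P : Subgroup G).map π = Cfsg.pCore p (G ⧸ Cfsg.pPrimeCore p G) := by
      rw [← hQ]; exact le_antisymm h2 (Cfsg.Agent.L0.pCore_le_sylow Q)
    rw [← h6, Subgroup.comap_map_eq, QuotientGroup.ker_mk']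
  rw [h5]
  haveI : (Cfsg.pCore p (G ⧸ Cfsg.pPrimeCore p G)).Normal := Subgroup.normal_of_characteristic _
  infer_instance

end Cfsg.Agent.S0018
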