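import Cfsg.Statements.S0020
import Mathlib
import Cfsg.Agent.H1.Prod
import Cfsg.Agent.H1.Hall

set_option autoImplicit false
open Pointwise
open Cfsg

namespace Cfsg.Agent.S0020

open scoped commutatorElement Pointwise
theorem index_iInf {G : Type*} [Group G] [Finite G] (K : ℕ → Subgroup G) (s : Finset ℕ)
    (hs : ∀ q ∈ s, q.Prime ∧ (K q).index = q ^ (Nat.card G).factorization q) :
    (⨅ q ∈ s, K q).index = ∏ q ∈ s, q ^ (Nat.card G).factorization q := by
  classical
  induction s using Finset.induction_on with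
  | empty => simp
  | insert a s ha ih =>
    have h1 := ih (fun q hq => hs q (Finset.mem_insert_of_mem hq))
    have h2 := hs a (Finset.mem_insert_self _ _)
    rw [Finset.iInf_insert, Finset.prod_insert ha]
    rw [← h1, ← h2.2]
    refine (Cfsg.Agent.H1.index_inf_of_coprime ?_).1
    rw [h1, h2.2]
    apply Nat.Coprime.prod_right
    intro q hq
    apply Nat.Coprime.pow
    rw [Nat.coprime_primes h2.1 (hs q (Finset.mem_insert_of_mem hq)).1]
    rintro rfl
    exact ha hq

theorem card_iInf {G : Type*} [Group G] [Finite G] (K : ℕ → Subgroup G)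
    (hK : ∀ q, q.Prime → (K q).index = q ^ (Nat.card G).factorization q) (s : Finset ℕ) (hs : ∀ q ∈ s, q.Prime) :
    Nat.card ↥(⨅ q ∈ (Nat.card G).primeFactors \ s, K q) = ∏ q ∈ s, q ^ (Nat.card G).factorization q := by
  classical
  have h1 := index_iInf K ((Nat.card G).primeFactors \ s) (fun q hq => by
    have := Nat.prime_of_mem_primeFactors (Finset.mem_sdiff.mp hq).1
    exact ⟨this, hK q this⟩)
  have h2 := Subgroup.card_mul_index (⨅ q ∈ (Nat.card G).primeFactors \ s, K q)
  have h3 : (∏ q ∈ s, q ^ (Nat.card G).factorization q) * (∏ q ∈ (Nat.card G).primeFactors \ s, q ^ (Nat.card G).factorization q) =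
      Nat.card G := by
    rw [mul_comm, ← Finset.prod_union Finset.sdiff_disjoint, Finset.sdiff_union_self_eq_union]
    conv_rhs => rw [← Nat.prod_factorization_pow_eq_self (Nat.card_pos (α := G)).ne']
    rw [Finsupp.prod_of_support_subset _ (s := (Nat.card G).primeFactors ∪ s)]
    · rw [Nat.support_factorization]; exact Finset.subset_union_left
    · intro i _; exact pow_zero i
  rw [h1] at h2
  apply Nat.eq_of_mul_eq_mul_right _ (h2.trans h3.symm)
  rw [← h1]
  exact Nat.pos_of_ne_zero (Subgroup.index_ne_zero_of_finite)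

/-- A finite solvable group admits a Sylow system: Sylow subgroups, one for each prime, that pairwise permute as sets. -/
theorem result {G : Type*} [Group G] [Finite G] [Group.IsSolvable G] :
    ∃ S : (p : Nat.Primes) → Sylow (p : ℕ) G,
      ∀ p q : Nat.Primes, (S p : Set G) * (S q : Set G) = (S q : Set G) * (S p : Set G) := by
  classical
  have hex : ∀ q : ℕ, ∃ K : Subgroup G, q.Prime → K.index = q ^ (Nat.card G).factorization q := by
    intro q
    by_cases hq : q.Prime
    · obtain ⟨K, hK⟩ := Cfsg.Agent.H1.hall_exists (G := G) inferInstance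
        (a := Nat.card G / q ^ (Nat.card G).factorization q) (b := q ^ (Nat.card G).factorization q)
        (Nat.div_mul_cancel (Nat.ordProj_dvd _ _)).symm
        ((Nat.coprime_ordCompl hq Nat.card_pos.ne').symm.pow_right _)
      refine ⟨K, fun _ => ?_⟩
      have h1 := K.card_mul_index
      rw [hK] at h1
      have h2 : Nat.card G / q ^ (Nat.card G).factorization q * q ^ (Nat.card G).factorization q = Nat.card G :=
        Nat.div_mul_cancel (Nat.ordProj_dvd _ _)
      apply Nat.eq_of_mul_eq_mul_left _ (h1.trans h2.symm)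
      rw [← hK]; exact Nat.card_pos
    · exact ⟨⊤, fun h => absurd h hq⟩
  choose K hK using hex
  have hcard := card_iInf K hK
  haveI : ∀ p : Nat.Primes, Fact (p : ℕ).Prime := fun p => ⟨p.2⟩
  let S : (p : Nat.Primes) → Sylow (p : ℕ) G := fun p => Sylow.ofCard (⨅ q ∈ (Nat.card G).primeFactors \ {(p : ℕ)}, K q) (by
    rw [hcard {(p : ℕ)} (fun q hq => by rw [Finset.mem_singleton.mp hq]; exact p.2), Finset.prod_singleton])
  have hS : ∀ p : Nat.Primes, ((S p : Subgroup G) : Set G) = (⨅ q ∈ (Nat.card G).primeFactors \ {(p : ℕ)}, K q : Subgroup G) := fun p => rfl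
  have hSc : ∀ p : Nat.Primes, Nat.card (S p : Subgroup G) = (p : ℕ) ^ (Nat.card G).factorization p := fun p =>
    (S p).card_eq_multiplicity
  refine ⟨S, fun p q => ?_⟩
  by_cases hpq : p = q
  · rw [hpq]
  · have hne : (p : ℕ) ≠ q := fun h => hpq (Nat.Primes.coe_nat_injective h)
    set T : Subgroup G := ⨅ r ∈ (Nat.card G).primeFactors \ {(p : ℕ), (q : ℕ)}, K r with hT
    have hTc : Nat.card T = (p : ℕ) ^ (Nat.card G).factorization p * (q : ℕ) ^ (Nat.card G).factorization q := by
      rw [hT, hcard {(p : ℕ), (q : ℕ)} (fun r hr => by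
        rcases Finset.mem_insert.mp hr with h | h
        · rw [h]; exact p.2
        · rw [Finset.mem_singleton.mp h]; exact q.2), Finset.prod_pair hne]
    have hle : ∀ r : Nat.Primes, (r = p ∨ r = q) → (S r : Subgroup G) ≤ T := by
      intro r hr
      rw [hT]
      apply le_iInf₂
      intro t ht
      have ht' : t ∈ (Nat.card G).primeFactors \ {(r : ℕ)} := by
        rw [Finset.mem_sdiff] at ht ⊢
        refine ⟨ht.1, fun h => ht.2 ?_⟩
        rw [Finset.mem_singleton.mp h]
        rcases hr with rfl | rfl <;> simp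
      exact iInf₂_le (f := fun q (_ : q ∈ (Nat.card G).primeFactors \ {(r : ℕ)}) => K q) t ht'
    have key : ∀ a b : Nat.Primes, (a = p ∨ a = q) → (b = p ∨ b = q) → a ≠ b → Nat.card (S a : Subgroup G) * Nat.card (S b : Subgroup G) = Nat.card T →
        (S a : Set G) * (S b : Set G) = (T : Set G) := by
      intro a b ha hb hab hc
      apply Set.eq_of_subset_of_ncard_le _ _ (Set.toFinite _)
      · rintro _ ⟨x, hx, y, hy, rfl⟩
        exact T.mul_mem (hle a ha hx) (hle b hb hy)
      · have h1 := Cfsg.Agent.H1.card_set_mul (S a : Subgroup G) (S b : Subgroup G)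
        have h2 : (S a : Subgroup G) ⊓ (S b : Subgroup G) = ⊥ := by
          apply Subgroup.inf_eq_bot_of_coprime
          rw [hSc, hSc]
          apply Nat.Coprime.pow
          rw [Nat.coprime_primes a.2 b.2]
          exact fun h => hab (Nat.Primes.coe_nat_injective h)
        rw [h2, Subgroup.card_bot, mul_one, hc] at h1
        exact h1.ge
    rw [key p q (Or.inl rfl) (Or.inr rfl) hpq (by rw [hSc, hSc, hTc]),
      key q p (Or.inr rfl) (Or.inl rfl) (Ne.symm hpq) (by rw [hSc, hSc, hTc, mul_comm])]

end Cfsg.Agent.S0020
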