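import Cfsg.Statements.S0021
import Mathlib
import Cfsg.Agent.H1.Prod

set_option autoImplicit false
open Pointwise
open Cfsg

namespace Cfsg.Agent.S0021

open scoped commutatorElement Pointwise
/-- the product of a subgroup with a permuting subgroup -/
theorem coe_sup_of_perm {G : Type*} [Group G] {A B : Subgroup G} (h : (A : Set G) * (B : Set G) = (B : Set G) * (A : Set G)) :
    ((A ⊔ B : Subgroup G) : Set G) = (A : Set G) * (B : Set G) := by
  let C : Subgroup G :=
    { carrier := (A : Set G) * (B : Set G)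
      one_mem' := ⟨1, A.one_mem, 1, B.one_mem, one_mul 1⟩
      mul_mem' := by
        rintro _ _ ⟨a, ha, b, hb, rfl⟩ ⟨a', ha', b', hb', rfl⟩
        have h1 : b * a' ∈ (B : Set G) * (A : Set G) := ⟨b, hb, a', ha', rfl⟩
        rw [← h] at h1
        obtain ⟨c, hc, d, hd, e⟩ := h1
        refine ⟨a * c, A.mul_mem ha hc, d * b', B.mul_mem hd hb', ?_⟩
        show a * c * (d * b') = a * b * (a' * b')
        calc a * c * (d * b') = a * (c * d) * b' := by group
          _ = a * (b * a') * b' := by rw [show c * d = b * a' from e]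
          _ = _ := by group
      inv_mem' := by
        rintro _ ⟨a, ha, b, hb, rfl⟩
        show (a * b)⁻¹ ∈ (A : Set G) * (B : Set G)
        rw [h, mul_inv_rev]
        exact ⟨b⁻¹, B.inv_mem hb, a⁻¹, A.inv_mem ha, rfl⟩ }
  have hC : A ⊔ B = C := by
    apply le_antisymm
    · apply sup_le
      · intro a ha
        exact ⟨a, ha, 1, B.one_mem, mul_one a⟩
      · intro b hb
        exact ⟨1, A.one_mem, b, hb, one_mul b⟩
    · rintro _ ⟨a, ha, b, hb, rfl⟩
      exact Subgroup.mul_mem _ ((le_sup_left : A ≤ _) ha) ((le_sup_right : B ≤ _) hb)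
  rw [hC]; rfl

theorem perm_sup {G : Type*} [Group G] {A B C : Subgroup G} (hAB : (A : Set G) * (B : Set G) = (B : Set G) * (A : Set G))
    (hAC : (A : Set G) * (C : Set G) = (C : Set G) * (A : Set G)) (hBC : (B : Set G) * (C : Set G) = (C : Set G) * (B : Set G)) :
    (A : Set G) * ((B ⊔ C : Subgroup G) : Set G) = ((B ⊔ C : Subgroup G) : Set G) * (A : Set G) := by
  rw [coe_sup_of_perm hBC, ← mul_assoc, hAB, mul_assoc, hAC, mul_assoc]

theorem key {G : Type*} [Group G] [Finite G] (S : (p : Nat.Primes) → Sylow (p : ℕ) G)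
    (hS : ∀ p q : Nat.Primes, (S p : Set G) * (S q : Set G) = (S q : Set G) * (S p : Set G)) (T : Finset Nat.Primes) :
    ∃ K : Subgroup G, (∀ p : Nat.Primes, (S p : Set G) * (K : Set G) = (K : Set G) * (S p : Set G)) ∧
      (∀ q ∈ T, (S q : Subgroup G) ≤ K) ∧ ∀ r : ℕ, r.Prime → r ∣ Nat.card K → ∃ q ∈ T, (q : ℕ) = r := by
  classical
  induction T using Finset.induction_on with
  | empty =>
    refine ⟨⊥, fun p => by simp, by simp, ?_⟩
    intro r hr hd
    rw [Subgroup.card_bot] at hd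
    exact absurd (Nat.dvd_one.mp hd) hr.one_lt.ne'
  | insert q T hq ih =>
    obtain ⟨K, h1, h2, h3⟩ := ih
    have hperm := h1 q
    refine ⟨(S q : Subgroup G) ⊔ K, ?_, ?_, ?_⟩
    · intro p
      exact perm_sup (hS p q) (h1 p) hperm
    · intro r hr
      rcases Finset.mem_insert.mp hr with rfl | hr
      · exact le_sup_left
      · exact (h2 r hr).trans le_sup_right
    · intro r hr hd
      have hc := Cfsg.Agent.H1.card_set_mul (S q : Subgroup G) K
      have e : Nat.card ↥((S q : Subgroup G) ⊔ K) = Nat.card (((S q : Subgroup G) : Set G) * (K : Set G) : Set G) := by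
        rw [← coe_sup_of_perm hperm]; rfl
      rw [← e] at hc
      have hd2 : r ∣ Nat.card (S q : Subgroup G) * Nat.card K := by
        rw [← hc]; exact Dvd.dvd.mul_right hd _
      rcases (Nat.Prime.dvd_mul hr).mp hd2 with h4 | h4
      · refine ⟨q, Finset.mem_insert_self _ _, ?_⟩
        haveI : Fact (q : ℕ).Prime := ⟨q.2⟩
        obtain ⟨k, hk⟩ := IsPGroup.iff_card.mp (S q).isPGroup'
        rw [hk] at h4
        exact ((Nat.prime_dvd_prime_iff_eq hr q.2).mp (hr.dvd_of_dvd_pow h4)).symm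
      · obtain ⟨s, hs, e⟩ := h3 r hr h4
        exact ⟨s, Finset.mem_insert_of_mem hs, e⟩

/-- A finite group with a family of pairwise permuting Sylow subgroups, one for each prime, is solvable (this direction rests on Burnside's two-prime Theorem). -/
theorem result {G : Type*} [Group G] [Finite G]
    (S : (p : Nat.Primes) → Sylow (p : ℕ) G)
    (hS : ∀ p q : Nat.Primes, (S p : Set G) * (S q : Set G) = (S q : Set G) * (S p : Set G)) :
    Group.IsSolvable G := by
  classical
  apply Cfsg.Agent.H1.hall_converse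
  intro p hp hpd
  -- product of Sylow q, q ≠ p dividing |G|
  let f : {x // x ∈ (Nat.card G).primeFactors.erase p} → Nat.Primes := fun x => (⟨x.1, Nat.prime_of_mem_primeFactors (Finset.mem_of_mem_erase x.2)⟩ : Nat.Primes)
  obtain ⟨T, hTd⟩ : ∃ T : Finset Nat.Primes, T = ((Nat.card G).primeFactors.erase p).attach.image f := ⟨_, rfl⟩
  have hT : ∀ q : Nat.Primes, q ∈ T ↔ (q : ℕ) ∣ Nat.card G ∧ (q : ℕ) ≠ p := by
    intro q
    rw [hTd, Finset.mem_image]
    constructor
    · rintro ⟨⟨a, ha⟩, -, rfl⟩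
      have h1 := Finset.mem_erase.mp ha
      exact ⟨Nat.dvd_of_mem_primeFactors h1.2, h1.1⟩
    · rintro ⟨h1, h2⟩
      exact ⟨⟨q, Finset.mem_erase.mpr ⟨h2, Nat.mem_primeFactors.mpr ⟨q.2, h1, Nat.card_pos.ne'⟩⟩⟩, Finset.mem_attach _ _, rfl⟩
  obtain ⟨K, h1, h2, h3⟩ := key S hS T
  refine ⟨K, ?_, ?_⟩
  · intro hd
    obtain ⟨q, hq, e⟩ := h3 p hp hd
    exact ((hT q).mp hq).2 e
  · -- index of K is a power of p
    have h4 : ∀ r : ℕ, r.Prime → r ∣ K.index → r = p := by
      intro r hr hd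
      by_contra hrp
      have hrT : (⟨r, hr⟩ : Nat.Primes) ∈ T := (hT _).mpr ⟨hd.trans K.index_dvd_card, hrp⟩
      haveI : Fact r.Prime := ⟨hr⟩
      have h5 := h2 _ hrT
      exact (S ⟨r, hr⟩).not_dvd_index (hd.trans (Subgroup.index_dvd_of_le h5))
    exact ⟨_, Nat.eq_prime_pow_of_unique_prime_dvd K.index_ne_zero_of_finite (fun {d} hd1 hd2 => h4 d hd1 hd2)⟩

end Cfsg.Agent.S0021
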