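import Cfsg.Statements.S0024
import Mathlib
import Cfsg.Agent.L0.Coprime

set_option autoImplicit false
open Pointwise
open Cfsg

namespace Cfsg.Agent.S0024

open scoped commutatorElement


/-- Under coprime action (A normalising K, coprime orders, A or K solvable), any two A-invariant Sylow p-subgroups of K are conjugate by an element of the centraliser of A in K. -/
theorem result {G : Type*} [Group G] [Finite G] (A K : Subgroup G) (hAK : A ≤ Subgroup.normalizer (K : Set G))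
    (hcop : (Nat.card A).Coprime (Nat.card K)) (hsolv : Group.IsSolvable A ∨ Group.IsSolvable K)
    (p : ℕ) [Fact p.Prime] (P Q : Sylow p K)
    (hP : A ≤ Subgroup.normalizer ((P : Subgroup K).map K.subtype : Set G))
    (hQ : A ≤ Subgroup.normalizer ((Q : Subgroup K).map K.subtype : Set G)) :
    ∃ c : K, (c : G) ∈ Subgroup.centralizer (A : Set G) ∧ MulAut.conj c • P = Q := by
  obtain ⟨c, hc, hcP⟩ := Cfsg.Agent.L0.invariant_sylow_conj hAK hcop hsolv ⟨P, rfl⟩ hP ⟨Q, rfl⟩ hQ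
  refine ⟨⟨c, hc.1⟩, hc.2, ?_⟩
  apply Sylow.ext
  apply Subgroup.map_injective K.subtype_injective
  rw [← hcP]
  ext x
  rw [Cfsg.Agent.L0.mem_conj_smul]
  constructor
  · rintro ⟨y, hy, rfl⟩
    have h1 : y ∈ MulAut.conj (⟨c, hc.1⟩ : K) • (P : Subgroup K) := hy
    rw [Cfsg.Agent.L0.mem_conj_smul] at h1
    exact ⟨_, h1, by simp⟩
  · rintro ⟨y, hy, hyx⟩
    have hxK : x ∈ K := by
      have : x = c * (c⁻¹ * x * c) * c⁻¹ := by group
      rw [this, ← hyx]
      exact K.mul_mem (K.mul_mem hc.1 y.2) (K.inv_mem hc.1)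
    refine ⟨⟨x, hxK⟩, ?_, rfl⟩
    show (⟨x, hxK⟩ : K) ∈ MulAut.conj (⟨c, hc.1⟩ : K) • (P : Subgroup K)
    rw [Cfsg.Agent.L0.mem_conj_smul]
    have : (⟨c, hc.1⟩ : K)⁻¹ * ⟨x, hxK⟩ * ⟨c, hc.1⟩ = y := Subtype.ext (by simpa using hyx.symm)
    rw [this]; exact hy

end Cfsg.Agent.S0024
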