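import Cfsg.Statements.S0029
import Mathlib
import Cfsg.Agent.H1.Coprime3

set_option autoImplicit false
open Cfsg

namespace Cfsg.Agent.S0029

open scoped commutatorElement


/-- An action that is trivial on the Frattini quotient and coprime on the Frattini subgroup is trivial: if A normalises K, the orders of A and of the Frattini subgroup of K are coprime, and every commutator of an element of A with an element of K lies in the Frattini subgroup of K, then A centralises K. -/
theorem result {G : Type*} [Group G] [Finite G] (A K : Subgroup G)
    (hAK : A ≤ Subgroup.normalizer (K : Set G))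
    (hcop : (Nat.card A).Coprime (Nat.card (frattini K)))
    (htriv : ∀ a ∈ A, ∀ k ∈ K, a * k * a⁻¹ * k⁻¹ ∈ (frattini K).map K.subtype) :
    A ≤ Subgroup.centralizer (K : Set G) := by
  set Φ := (frattini K).map K.subtype with hΦ
  have hcard : Nat.card Φ = Nat.card (frattini K) := Cfsg.Agent.L0.card_map_subtype K _
  have hΦK : Φ ≤ K := Subgroup.map_subtype_le _
  have hAΦ : A ≤ Subgroup.normalizer (Φ : Set G) := by
    intro a ha
    apply Cfsg.Agent.H1.mem_normalizer_of_conj_mem
    intro x hx
    have h1 := htriv a ha x (hΦK hx)
    have h2 := Φ.mul_mem h1 hx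
    simpa using h2
  haveI : Group.IsNilpotent (frattini K) := frattini_nilpotent
  have hsol : Group.IsSolvable Φ := by
    have : Group.IsSolvable (frattini K) := inferInstance
    exact Cfsg.Agent.L0.isSolvable_of_mulEquiv ((frattini K).equivMapOfInjective K.subtype K.subtype_injective) this
  have key : (Subgroup.centralizer (A : Set G)).subgroupOf K ⊔ frattini K = ⊤ := by
    rw [eq_top_iff]
    intro k _
    have hk := k.2
    obtain ⟨d, hd, hc⟩ := Cfsg.Agent.H1.exists_fixed_in_coset (x := (k : G)) hAΦ (by rw [hcard]; exact hcop) (Or.inr hsol) (by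
      intro a ha
      have h1 := htriv a ha k hk
      -- normality of Φ in K
      obtain ⟨y, hy, hyx⟩ := h1
      have h2 : k⁻¹ * y * k ∈ frattini K := by
        have := (inferInstance : (frattini K).Normal).conj_mem y hy k⁻¹
        simpa using this
      refine ⟨_, h2, ?_⟩
      have h3 : K.subtype (k⁻¹ * y * k) = (k : G)⁻¹ * (K.subtype y) * k := by simp
      rw [h3, hyx]; group)
    obtain ⟨y, hy, hyd⟩ := hd
    have h4 : k = (k * y) * y⁻¹ := by group
    rw [h4]
    apply Subgroup.mul_mem
    · apply Subgroup.mem_sup_left
      rw [Subgroup.mem_subgroupOf]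
      have : ((k * y : K) : G) = (k : G) * d := by rw [← hyd]; rfl
      rw [this]; exact hc
    · exact Subgroup.mem_sup_right (Subgroup.inv_mem _ hy)
  have h5 := frattini_nongenerating key
  rw [Subgroup.le_centralizer_iff]
  exact Subgroup.subgroupOf_eq_top.mp h5

end Cfsg.Agent.S0029
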