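import Cfsg.Statements.S0030
import Mathlib
import Cfsg.Agent.H1.Coprime3

set_option autoImplicit false
open Cfsg

namespace Cfsg.Agent.S0030

open scoped commutatorElement


/-- Under coprime action fixed points of a product of two invariant subgroups factor: if K = X Y with X and Y normalised by A then every A-fixed element of K is a product of an A-fixed element of X and an A-fixed element of Y. -/
theorem result {G : Type*} [Group G] [Finite G] (A K : Subgroup G) (hAK : A ≤ Subgroup.normalizer (K : Set G))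
    (hcop : (Nat.card A).Coprime (Nat.card K)) (hsolv : Group.IsSolvable A ∨ Group.IsSolvable K)
    (X Y : Subgroup G) (hX : X ≤ K) (hY : Y ≤ K) (hXA : A ≤ Subgroup.normalizer (X : Set G)) (hYA : A ≤ Subgroup.normalizer (Y : Set G))
    (hXY : ∀ k ∈ K, ∃ x ∈ X, ∃ y ∈ Y, k = x * y) (k : G) (hk : k ∈ K ⊓ Subgroup.centralizer (A : Set G)) :
    ∃ x ∈ X ⊓ Subgroup.centralizer (A : Set G), ∃ y ∈ Y ⊓ Subgroup.centralizer (A : Set G), k = x * y := by
  obtain ⟨x, hx, y, hy, rfl⟩ := hXY k hk.1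
  set D := X ⊓ Y with hD
  have hAD : A ≤ Subgroup.normalizer (D : Set G) := by
    intro a ha
    apply Cfsg.Agent.H1.mem_normalizer_of_conj_mem
    intro z hz
    exact ⟨(Subgroup.mem_normalizer_iff.mp (hXA ha) z).mp hz.1, (Subgroup.mem_normalizer_iff.mp (hYA ha) z).mp hz.2⟩
  have hDK : D ≤ K := inf_le_left.trans hX
  have hs : Group.IsSolvable A ∨ Group.IsSolvable D := hsolv.imp id (fun h => Cfsg.Agent.L0.isSolvable_subgroup_of_le hDK h)
  obtain ⟨d, hd, hc⟩ := Cfsg.Agent.H1.exists_fixed_in_coset (x := x) hAD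
    (Nat.Coprime.coprime_dvd_right (Subgroup.card_dvd_of_le hDK) hcop) hs (by
      intro a ha
      have h1 : a * (x * y) = (x * y) * a := (Subgroup.mem_centralizer_iff.mp hk.2) a ha
      constructor
      · exact X.mul_mem (X.inv_mem hx) ((Subgroup.mem_normalizer_iff.mp (hXA ha) x).mp hx)
      · have h2 : x⁻¹ * (a * x * a⁻¹) = y * (a * y * a⁻¹)⁻¹ := by
          have h3 : a * x * y * a⁻¹ = x * y := by
            rw [mul_assoc a x y, h1]; group
          calc x⁻¹ * (a * x * a⁻¹) = x⁻¹ * (a * x * y * a⁻¹) * (a * y⁻¹ * a⁻¹) := by group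
            _ = x⁻¹ * (x * y) * (a * y⁻¹ * a⁻¹) := by rw [h3]
            _ = _ := by group
        rw [h2]
        exact Y.mul_mem hy (Y.inv_mem ((Subgroup.mem_normalizer_iff.mp (hYA ha) y).mp hy)))
  refine ⟨x * d, ⟨X.mul_mem hx hd.1, hc⟩, d⁻¹ * y, ⟨Y.mul_mem (Y.inv_mem hd.2) hy, ?_⟩, by group⟩
  have h4 : d⁻¹ * y = (x * d)⁻¹ * (x * y) := by group
  rw [h4]
  exact Subgroup.mul_mem _ (Subgroup.inv_mem _ hc) hk.2

end Cfsg.Agent.S0030
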