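import Cfsg.Statements.S0031
import Mathlib

set_option autoImplicit false
open Cfsg

namespace Cfsg.Agent.S0031

/-- A fixed-point-free automorphism of a finite group maps some Sylow p-subgroup to itself. -/
theorem result {G : Type*} [Group G] [Finite G] (φ : G ≃* G)
    (hφ : MonoidHom.FixedPointFree (φ : G →* G)) (p : ℕ) [Fact p.Prime] :
    ∃ P : Sylow p G, (P : Subgroup G).map (φ : G →* G) = P := by
  obtain ⟨P⟩ : Nonempty (Sylow p G) := inferInstance
  let φ' : MulAut G := φ
  obtain ⟨g, hg⟩ := MulAction.exists_smul_eq G P (φ' • P)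
  obtain ⟨y, hy⟩ := hφ.commutatorMap_surjective g⁻¹
  refine ⟨y⁻¹ • P, ?_⟩
  have hy' : y * (φ y)⁻¹ = g⁻¹ := by
    have : y / φ y = g⁻¹ := hy
    rw [div_eq_mul_inv] at this; exact this
  have h1 : φ' • (y⁻¹ • P) = y⁻¹ • P := by
    have h2 : φ' • (y⁻¹ • P) = (φ y⁻¹) • (φ' • P) := by
      rw [Sylow.smul_def, Sylow.smul_def, ← mul_smul, ← mul_smul]
      congr 1
      ext z
      simp [φ', MulAut.conj_apply]
    rw [h2, ← hg, ← mul_smul]
    congr 1
    rw [map_inv, ← mul_left_inj g⁻¹, mul_inv_cancel_right, ← hy']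
    group
  have h3 := congrArg (fun Q : Sylow p G => (Q : Subgroup G)) h1
  exact h3

end Cfsg.Agent.S0031
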