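import Cfsg.Statements.S0032
import Mathlib

set_option autoImplicit false
open Cfsg

namespace Cfsg.Agent.S0032

/-- If an automorphism of a finite group fixes only the identity and maps a normal subgroup N into itself, then the only cosets of N it fixes are those in N: a fixed coset xN forces x ∈ N. -/
theorem result {G : Type*} [Group G] [Finite G] (φ : G ≃* G)
    (hφ : MonoidHom.FixedPointFree (φ : G →* G)) (N : Subgroup G) [N.Normal] (hN : ∀ n ∈ N, φ n ∈ N)
    (x : G) (hx : (φ x)⁻¹ * x ∈ N) : x ∈ N := by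
  have hf : Function.Injective (fun n : N => (⟨(φ n)⁻¹ * n, N.mul_mem (N.inv_mem (hN n n.2)) n.2⟩ : N)) := by
    intro a b hab
    have h1 : (φ a)⁻¹ * (a : G) = (φ b)⁻¹ * b := by simpa using hab
    have h2 : φ ((a : G) * (b : G)⁻¹) = a * (b : G)⁻¹ := by
      rw [map_mul, map_inv]
      have h3 : (a : G) = φ a * ((φ b)⁻¹ * b) := by rw [← h1]; group
      calc φ a * (φ b)⁻¹ = φ a * ((φ b)⁻¹ * b) * (b : G)⁻¹ := by group
        _ = a * (b : G)⁻¹ := by rw [← h3]
    have h3 := hφ _ h2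
    exact Subtype.ext (mul_inv_eq_one.mp h3)
  have hs := Finite.surjective_of_injective hf
  obtain ⟨n, hn⟩ := hs ⟨_, hx⟩
  have h1 : (φ n)⁻¹ * (n : G) = (φ x)⁻¹ * x := by simpa using hn
  have h2 : φ (x * (n : G)⁻¹) = x * (n : G)⁻¹ := by
    rw [map_mul, map_inv]
    have h3 : x = φ x * ((φ n)⁻¹ * n) := by rw [h1]; group
    calc φ x * (φ n)⁻¹ = φ x * ((φ n)⁻¹ * n) * (n : G)⁻¹ := by group
      _ = x * (n : G)⁻¹ := by rw [← h3]
  have h3 := mul_inv_eq_one.mp (hφ _ h2)
  rw [h3]; exact n.2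

end Cfsg.Agent.S0032
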