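import Cfsg.Statements.S0034
import Mathlib
import Cfsg.Agent.H1.Frob1

set_option autoImplicit false
open Cfsg

namespace Cfsg.Agent.S0034

open scoped commutatorElement Pointwise


/-- For a Frobenius complement H, the set of elements lying in no conjugate of H, together with 1, has exactly as many elements as the index of H, and that index is congruent to 1 modulo the order of H. -/
theorem result {G : Type*} [Group G] [Finite G] (H : Subgroup G) (hH : Cfsg.IsFrobeniusComplement H) :
    Nat.card (Cfsg.frobeniusKernel H) = H.index ∧ H.index % Nat.card H = 1 % Nat.card H := by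
  refine ⟨Cfsg.Agent.H3.card_frobeniusKernel H hH, ?_⟩
  obtain ⟨k, hk⟩ := Cfsg.Agent.H1.card_dvd_index_sub_one hH
  have hpos : 0 < H.index := Nat.pos_of_ne_zero H.index_ne_zero_of_finite
  have : H.index = Nat.card H * k + 1 := by omega
  rw [this, Nat.mul_add_mod]

end Cfsg.Agent.S0034
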