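import Cfsg.Statements.S0036
import Mathlib
import Cfsg.Agent.H1.Frob1

set_option autoImplicit false
open Cfsg

namespace Cfsg.Agent.S0036

open scoped commutatorElement Pointwise


/-- When a Frobenius complement contains an involution, an elementary argument shows the Frobenius kernel is closed under multiplication (hence a subgroup). -/
theorem result {G : Type*} [Group G] [Finite G] (H : Subgroup G) (hH : Cfsg.IsFrobeniusComplement H)
    (t : G) (ht : t ∈ H) (ht1 : t ≠ 1) (ht2 : t * t = 1) :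
    ∀ x ∈ Cfsg.frobeniusKernel H, ∀ y ∈ Cfsg.frobeniusKernel H, x * y ∈ Cfsg.frobeniusKernel H := by
  classical
  have hF := (Cfsg.Agent.H3.isFrobeniusComplement_iff H).mp hH
  have hK : ∀ x, x ∈ Cfsg.frobeniusKernel H ↔ x = 1 ∨ ∀ g : G, g⁻¹ * x * g ∉ H := Cfsg.Agent.H3.mem_frobeniusKernel_iff H
  have htinv : t⁻¹ = t := inv_eq_of_mul_eq_one_left ht2
  -- (A) if t^g not in H then t * t^g in the kernel
  have hA : ∀ s : G, IsConj t s → s ∉ H → t * s ∈ Cfsg.frobeniusKernel H := by
    intro s hs hsH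
    obtain ⟨g, hg⟩ := isConj_iff.mp hs
    have hss : s * s = 1 := by
      rw [← hg]
      calc g * t * g⁻¹ * (g * t * g⁻¹) = g * (t * t) * g⁻¹ := by group
        _ = 1 := by rw [ht2]; group
    have hsinv : s⁻¹ = s := inv_eq_of_mul_eq_one_left hss
    rw [hK]
    right
    intro x hx
    -- t inverts t s
    have hts1 : t * s ≠ 1 := by
      intro h
      apply hsH
      have : s = t⁻¹ := (inv_eq_of_mul_eq_one_right h).symm
      rw [this]; exact H.inv_mem ht
    have h1 : t⁻¹ * (t * s) * t = (t * s)⁻¹ := by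
      rw [mul_inv_rev, hsinv, htinv]
      calc t * (t * s) * t = (t * t) * s * t := by group
        _ = s * t := by rw [ht2, one_mul]
    have htx : x⁻¹ * t * x ∈ H := by
      have h2 : (t * x)⁻¹ * (t * s) * (t * x) ∈ H := by
        have e : (t * x)⁻¹ * (t * s) * (t * x) = x⁻¹ * (t⁻¹ * (t * s) * t) * x := by group
        rw [e, h1]
        have := H.inv_mem hx
        have e2 : (x⁻¹ * (t * s) * x)⁻¹ = x⁻¹ * (t * s)⁻¹ * x := by group
        rwa [e2] at this
      have := Cfsg.Agent.H1.IsFrobeniusComplement_conj hH hx h2 hts1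
      have e : x⁻¹ * (t * x) = x⁻¹ * t * x := by group
      rwa [e] at this
    -- then x ∈ H
    have hxH : x ∈ H := by
      by_contra hxn
      exact ht1 (hF.2.2 x hxn t ht htx)
    apply hsH
    have h3 : t * s ∈ H := by
      have := H.mul_mem (H.mul_mem hxH hx) (H.inv_mem hxH)
      have e : x * (x⁻¹ * (t * s) * x) * x⁻¹ = t * s := by group
      rwa [e] at this
    have := H.mul_mem (H.inv_mem ht) h3
    simpa using this
  -- (B) counting
  set S : Set G := {s | IsConj t s ∧ s ∉ H} with hS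
  set T₀ : Set G := {s | IsConj t s ∧ s ∈ H} with hT₀
  set K : Set G := Cfsg.frobeniusKernel H with hKd
  have hKcard : K.ncard = H.index := Cfsg.Agent.H3.card_frobeniusKernel H hH
  have h1K : (1 : G) ∈ K := (hK 1).mpr (Or.inl rfl)
  have hKdiff : (K \ {1}).ncard = H.index - 1 := by
    rw [Set.ncard_diff_singleton_of_mem h1K, hKcard]
  have hSle : S.ncard ≤ H.index - 1 := by
    rw [← hKdiff]
    apply Set.ncard_le_ncard_of_injOn (fun s => t * s)
    · intro s hs
      refine ⟨hA s hs.1 hs.2, ?_⟩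
      intro h
      apply hs.2
      have h2 : t * s = 1 := h
      have : s = t⁻¹ := (inv_eq_of_mul_eq_one_right h2).symm
      rw [this]; exact H.inv_mem ht
    · intro a _ b _ hab
      exact mul_left_cancel hab
  -- injection (G/H minus base) × T₀ → S
  have hprod : (H.index - 1) * T₀.ncard ≤ S.ncard := by
    let f : ({q : G ⧸ H // q ≠ ((1 : G) : G ⧸ H)} × T₀) → S := fun x =>
      ⟨x.1.1.out * (x.2 : G) * (x.1.1.out)⁻¹, by
        refine ⟨x.2.2.1.trans (isConj_iff.mpr ⟨_, rfl⟩), ?_⟩
        intro h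
        have hne : x.1.1.out ∉ H := by
          intro h2
          apply x.1.2
          rw [← QuotientGroup.out_eq' x.1.1, QuotientGroup.eq]
          simpa using h2
        have h3 : (x.1.1.out)⁻¹ ∉ H := fun h => hne (by simpa using H.inv_mem h)
        have h4 := hF.2.2 _ h3 _ x.2.2.2 (by rw [inv_inv]; exact h)
        obtain ⟨g, hg⟩ := isConj_iff.mp x.2.2.1
        apply ht1
        have : t = g⁻¹ * (g * t * g⁻¹) * g := by group
        rw [this, hg, h4]; group⟩
    have hf : Function.Injective f := by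
      rintro ⟨⟨q, hq⟩, ⟨s, hs⟩⟩ ⟨⟨r, hr⟩, ⟨u, hu⟩⟩ h
      have h1 : q.out * s * (q.out)⁻¹ = r.out * u * (r.out)⁻¹ := congrArg Subtype.val h
      have hs1 : s ≠ 1 := by
        obtain ⟨g, hg⟩ := isConj_iff.mp hs.1
        rintro rfl
        apply ht1
        have : t = g⁻¹ * (g * t * g⁻¹) * g := by group
        rw [this, hg]; group
      have h2 : q = r := by
        rw [← QuotientGroup.out_eq' q, ← QuotientGroup.out_eq' r, QuotientGroup.eq]
        apply Cfsg.Agent.H1.IsFrobeniusComplement_conj hH (z := q.out * s * (q.out)⁻¹)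
        · have e : (q.out)⁻¹ * (q.out * s * (q.out)⁻¹) * q.out = s := by group
          rw [e]; exact hs.2
        · rw [h1]
          have e : (r.out)⁻¹ * (r.out * u * (r.out)⁻¹) * r.out = u := by group
          rw [e]; exact hu.2
        · intro h
          apply hs1
          have e : s = (q.out)⁻¹ * (q.out * s * (q.out)⁻¹) * q.out := by group
          rw [e, h]; group
      subst h2
      have h3 : s = u := by
        have e : s = (q.out)⁻¹ * (q.out * s * (q.out)⁻¹) * q.out := by group
        rw [e, h1]; group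
      subst h3
      rfl
    have h1 := Nat.card_le_card_of_injective f hf
    rw [Nat.card_prod] at h1
    have h2 : Nat.card {q : G ⧸ H // q ≠ ((1 : G) : G ⧸ H)} = H.index - 1 := by
      have := Set.ncard_compl ({((1 : G) : G ⧸ H)} : Set (G ⧸ H))
      rw [Set.ncard_singleton] at this
      exact this
    rw [h2] at h1
    exact h1
  have hidx : 1 < H.index := by
    have h1 : H.index ≠ 0 := H.index_ne_zero_of_finite
    have h2 : H.index ≠ 1 := by rw [Ne, Subgroup.index_eq_one]; exact hF.2.1
    omega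
  have hT₀1 : T₀.ncard ≤ 1 := by
    have h1 := hprod.trans hSle
    have h2 : 0 < H.index - 1 := by omega
    have h3 : (H.index - 1) * T₀.ncard ≤ (H.index - 1) * 1 := by rw [mul_one]; exact h1
    exact Nat.le_of_mul_le_mul_left h3 h2
  have htT₀ : t ∈ T₀ := ⟨IsConj.refl t, ht⟩
  have hT₀eq : ∀ s ∈ T₀, s = t := by
    intro s hs
    have := (Set.ncard_le_one (Set.toFinite T₀)).mp hT₀1
    exact this s hs t htT₀
  have hT₀c : T₀.ncard = 1 := by
    have : 0 < T₀.ncard := by rw [Set.ncard_pos]; exact ⟨t, htT₀⟩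
    omega
  have hSc : S.ncard = H.index - 1 := by
    rw [hT₀c, mul_one] at hprod
    omega
  -- surjectivity : every nonidentity x in K is t * s
  have hsurj : ∀ x ∈ K, x ≠ 1 → ∃ s, IsConj t s ∧ x = t * s := by
    have himg : (fun s => t * s) '' S = K \ {1} := by
      apply Set.eq_of_subset_of_ncard_le
      · rintro _ ⟨s, hs, rfl⟩
        refine ⟨hA s hs.1 hs.2, ?_⟩
        intro h
        apply hs.2
        have h2 : t * s = 1 := h
        have : s = t⁻¹ := (inv_eq_of_mul_eq_one_right h2).symm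
        rw [this]; exact H.inv_mem ht
      · rw [Set.ncard_image_of_injective _ (mul_right_injective t), hSc, hKdiff]
      · exact Set.toFinite _
    intro x hx hx1
    have : x ∈ (fun s => t * s) '' S := by rw [himg]; exact ⟨hx, hx1⟩
    obtain ⟨s, hs, hsx⟩ := this
    exact ⟨s, hs.1, hsx.symm⟩
  have hKinv : ∀ x ∈ K, x⁻¹ ∈ K := by
    intro x hx
    rw [hK] at hx ⊢
    rcases hx with h | h
    · left; rw [h, inv_one]
    · right
      intro g hg
      apply h g
      have := H.inv_mem hg
      have e : (g⁻¹ * x⁻¹ * g)⁻¹ = g⁻¹ * x * g := by group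
      rwa [e] at this
  have hKconj : ∀ x ∈ K, ∀ g : G, g * x * g⁻¹ ∈ K := by
    intro x hx g
    rw [hK] at hx ⊢
    rcases hx with h | h
    · left; rw [h]; group
    · right
      intro k hk
      apply h (g⁻¹ * k)
      have e : (g⁻¹ * k)⁻¹ * x * (g⁻¹ * k) = k⁻¹ * (g * x * g⁻¹) * k := by group
      rw [e]; exact hk
  have hTT : ∀ s : G, IsConj t s → t * s ∈ K := by
    intro s hs
    by_cases h : s ∈ H
    · have := hT₀eq s ⟨hs, h⟩
      rw [this, ht2]; exact h1K
    · exact hA s hs h
  intro x hx y hy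
  by_cases hx1 : x = 1
  · rw [hx1, one_mul]; exact hy
  by_cases hy1 : y = 1
  · rw [hy1, mul_one]; exact hx
  have hxi1 : x⁻¹ ≠ 1 := fun h => hx1 (inv_eq_one.mp h)
  obtain ⟨s, hs, hxs⟩ := hsurj x⁻¹ (hKinv x hx) hxi1
  obtain ⟨u, hu, hyu⟩ := hsurj y hy hy1
  obtain ⟨g, hg⟩ := isConj_iff.mp hs
  have hss : s⁻¹ = s := by
    rw [← hg]
    calc (g * t * g⁻¹)⁻¹ = g * t⁻¹ * g⁻¹ := by group
      _ = _ := by rw [htinv]
  have hxe : x = s * t := by
    have := congrArg (·⁻¹) hxs
    simp only [inv_inv, mul_inv_rev] at this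
    rw [this, hss, htinv]
  have hxy : x * y = g * (t * (g⁻¹ * u * g)) * g⁻¹ := by
    rw [hxe, hyu, ← hg]
    calc g * t * g⁻¹ * t * (t * u) = g * t * g⁻¹ * (t * t) * u := by group
      _ = g * t * g⁻¹ * u := by rw [ht2, mul_one]
      _ = _ := by group
  rw [hxy]
  apply hKconj
  apply hTT
  exact hu.trans (isConj_iff.mpr ⟨g⁻¹, by group⟩)

end Cfsg.Agent.S0036
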