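import Cfsg.Statements.S0572
import Mathlib
import Cfsg.Agent.H1.Comm

set_option autoImplicit false
open Cfsg

namespace Cfsg.Agent.S0572

open scoped commutatorElement Pointwise


/-- Itô's Theorem: if a group G is the product AB of two abelian subgroups, then the commutator subgroup of G is abelian, i.e. the second term of the derived series is trivial. -/
theorem result {G : Type*} [Group G] (A B : Subgroup G) [IsMulCommutative A] [IsMulCommutative B] (hAB : ∀ g : G, ∃ a ∈ A, ∃ b ∈ B, g = a * b) : derivedSeries G 2 = ⊥ := by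
  have cA : ∀ x ∈ A, ∀ y ∈ A, x * y = y * x := fun x hx y hy => congrArg Subtype.val (mul_comm' (⟨x, hx⟩ : A) ⟨y, hy⟩)
  have cB : ∀ x ∈ B, ∀ y ∈ B, x * y = y * x := fun x hx y hy => congrArg Subtype.val (mul_comm' (⟨x, hx⟩ : B) ⟨y, hy⟩)
  have hBA : ∀ g : G, ∃ b ∈ B, ∃ a ∈ A, g = b * a := by
    intro g
    obtain ⟨a, ha, b, hb, e⟩ := hAB g⁻¹
    exact ⟨b⁻¹, B.inv_mem hb, a⁻¹, A.inv_mem ha, by rw [← mul_inv_rev, ← e, inv_inv]⟩
  have f2 : ∀ y ∈ B, ∀ a ∈ A, ∃ a' ∈ A, ∀ b ∈ B, y * ⁅a, b⁆ * y⁻¹ = ⁅a', b⁆ := by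
    intro y hy a ha
    obtain ⟨a', ha', b', hb', e⟩ := hAB (y * a * y⁻¹)
    refine ⟨a', ha', ?_⟩
    intro b hb
    have h1 : y * ⁅a, b⁆ * y⁻¹ = ⁅y * a * y⁻¹, y * b * y⁻¹⁆ := by simp only [commutatorElement_def]; group
    have h2 : y * b * y⁻¹ = b := by rw [cB y hy b hb]; group
    rw [h1, h2, e, commutatorElement_def, commutatorElement_def]
    have h3 : b' * b = b * b' := cB b' hb' b hb
    calc (a' * b') * b * (a' * b')⁻¹ * b⁻¹ = a' * (b' * b) * b'⁻¹ * a'⁻¹ * b⁻¹ := by group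
      _ = a' * (b * b') * b'⁻¹ * a'⁻¹ * b⁻¹ := by rw [h3]
      _ = _ := by group
  have f1' : ∀ x ∈ A, ∀ b ∈ B, ∃ b' ∈ B, ∀ a ∈ A, x * ⁅a, b⁆ * x⁻¹ = ⁅a, b'⁆ := by
    intro x hx b hb
    obtain ⟨b', hb', a', ha', e⟩ := hBA (x * b * x⁻¹)
    refine ⟨b', hb', ?_⟩
    intro a ha
    have h1 : x * ⁅a, b⁆ * x⁻¹ = ⁅x * a * x⁻¹, x * b * x⁻¹⁆ := by simp only [commutatorElement_def]; group
    have h2 : x * a * x⁻¹ = a := by rw [cA x hx a ha]; group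
    rw [h1, h2, e, commutatorElement_def, commutatorElement_def]
    have h3 : a' * a⁻¹ = a⁻¹ * a' := cA a' ha' a⁻¹ (A.inv_mem ha)
    calc a * (b' * a') * a⁻¹ * (b' * a')⁻¹ = a * b' * (a' * a⁻¹) * a'⁻¹ * b'⁻¹ := by group
      _ = a * b' * (a⁻¹ * a') * a'⁻¹ * b'⁻¹ := by rw [h3]
      _ = _ := by group
  have comm : ∀ a ∈ A, ∀ b ∈ B, ∀ x ∈ A, ∀ y ∈ B, ⁅x, y⁆ * ⁅a, b⁆ = ⁅a, b⁆ * ⁅x, y⁆ := by
    intro a ha b hb x hx y hy
    obtain ⟨b', hb', h1⟩ := f1' x⁻¹ (A.inv_mem hx) b hb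
    obtain ⟨a', ha', h2⟩ := f2 y⁻¹ (B.inv_mem hy) a ha
    have h := h1 a ha
    have hk : y⁻¹ * (x⁻¹ * ⁅a, b⁆ * x⁻¹⁻¹) * y⁻¹⁻¹ = x⁻¹ * (y⁻¹ * ⁅a, b⁆ * y⁻¹⁻¹) * x⁻¹⁻¹ := by
      rw [h1 a ha, h2 b' hb', h2 b hb, h1 a' ha']
    generalize ⁅a, b⁆ = c at hk ⊢
    rw [commutatorElement_def]
    calc x * y * x⁻¹ * y⁻¹ * c = x * y * (x⁻¹ * (y⁻¹ * c * y⁻¹⁻¹) * x⁻¹⁻¹) * x⁻¹ * y⁻¹ := by group
      _ = x * y * (y⁻¹ * (x⁻¹ * c * x⁻¹⁻¹) * y⁻¹⁻¹) * x⁻¹ * y⁻¹ := by rw [hk]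
      _ = _ := by group
  have hD : ∀ u ∈ (⁅A, B⁆ : Subgroup G), ∀ v ∈ (⁅A, B⁆ : Subgroup G), u * v = v * u := by
    intro u hu v hv
    have h1 : (⁅A, B⁆ : Subgroup G) ≤ Subgroup.centralizer {v} := by
      rw [Subgroup.commutator_le]
      intro a ha b hb
      have h2 : (⁅A, B⁆ : Subgroup G) ≤ Subgroup.centralizer {⁅a, b⁆} := by
        rw [Subgroup.commutator_le]
        intro x hx y hy
        rw [Subgroup.mem_centralizer_singleton_iff]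
        exact comm a ha b hb x hx y hy
      have h3 := Subgroup.mem_centralizer_singleton_iff.mp (h2 hv)
      rw [Subgroup.mem_centralizer_singleton_iff]
      exact h3.symm
    exact Subgroup.mem_centralizer_singleton_iff.mp (h1 hu)
  haveI hnorm : (⁅A, B⁆ : Subgroup G).Normal := by
    rw [← Subgroup.normalizer_eq_top_iff, eq_top_iff]
    intro g _
    obtain ⟨a, ha, b, hb, rfl⟩ := hAB g
    exact Subgroup.mul_mem _ (Cfsg.Agent.H1.le_normalizer_commutator_left A B ha) (Cfsg.Agent.H1.le_normalizer_commutator_right A B hb)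
  have hle : commutator G ≤ (⁅A, B⁆ : Subgroup G) := by
    rw [commutator_def, Subgroup.commutator_le]
    intro g _ g' _
    obtain ⟨a, ha, b, hb, rfl⟩ := hAB g
    obtain ⟨a', ha', b', hb', rfl⟩ := hAB g'
    rw [← QuotientGroup.eq_one_iff (N := (⁅A, B⁆ : Subgroup G))]
    have hc : ∀ x ∈ A, ∀ y ∈ B, Commute (x : G ⧸ (⁅A, B⁆ : Subgroup G)) (y : G ⧸ (⁅A, B⁆ : Subgroup G)) := by
      intro x hx y hy
      rw [← commutatorElement_eq_one_iff_commute]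
      have : ((⁅x, y⁆ : G) : G ⧸ (⁅A, B⁆ : Subgroup G)) = 1 := (QuotientGroup.eq_one_iff _).mpr (Subgroup.commutator_mem_commutator hx hy)
      simpa [commutatorElement_def] using this
    have hcA : ∀ x ∈ A, ∀ y ∈ A, Commute (x : G ⧸ (⁅A, B⁆ : Subgroup G)) (y : G ⧸ (⁅A, B⁆ : Subgroup G)) := by
      intro x hx y hy
      show (x : G ⧸ (⁅A, B⁆ : Subgroup G)) * y = y * x
      rw [← QuotientGroup.mk_mul, cA x hx y hy, QuotientGroup.mk_mul]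
    have hcB : ∀ x ∈ B, ∀ y ∈ B, Commute (x : G ⧸ (⁅A, B⁆ : Subgroup G)) (y : G ⧸ (⁅A, B⁆ : Subgroup G)) := by
      intro x hx y hy
      show (x : G ⧸ (⁅A, B⁆ : Subgroup G)) * y = y * x
      rw [← QuotientGroup.mk_mul, cB x hx y hy, QuotientGroup.mk_mul]
    have h5 : Commute ((a * b : G) : G ⧸ (⁅A, B⁆ : Subgroup G)) ((a' * b' : G) : G ⧸ (⁅A, B⁆ : Subgroup G)) := by
      rw [QuotientGroup.mk_mul, QuotientGroup.mk_mul]
      exact ((hcA a ha a' ha').mul_right (hc a ha b' hb')).mul_left (((hc a' ha' b hb).symm).mul_right (hcB b hb b' hb'))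
    have h6 := commutatorElement_eq_one_iff_commute.mpr h5
    simpa [commutatorElement_def] using h6
  rw [derivedSeries_succ, derivedSeries_one, eq_bot_iff, Subgroup.commutator_le]
  intro x hx y hy
  rw [Subgroup.mem_bot, commutatorElement_eq_one_iff_mul_comm]
  exact hD x (hle hx) y (hle hy)

end Cfsg.Agent.S0572
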