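import Cfsg.Statements.S0048
import Mathlib
import Cfsg.Agent.H1.Coprime3
import Cfsg.Agent.H1.Hall

set_option autoImplicit false
open Cfsg

namespace Cfsg.Agent.S0048

open scoped commutatorElement Pointwise


/-- In a finite solvable group every maximal subgroup has index a prime power. -/
theorem result {G : Type*} [Group G] [Finite G] [Group.IsSolvable G]
    (M : Subgroup G) (hM : IsCoatom M) : IsPrimePow M.index := by
  classical
  have hfin : {N : Subgroup G | N.Normal ∧ ¬ N ≤ M}.Finite := Set.toFinite _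
  obtain ⟨N, hN⟩ := hfin.exists_minimal ⟨⊤, inferInstance, fun h => hM.1 (top_le_iff.mp h)⟩
  have hNn : N.Normal := hN.prop.1
  have hNM : ¬ N ≤ M := hN.prop.2
  have hmin : ∀ L : Subgroup G, L.Normal → L ≤ N → ¬ L ≤ M → L = N := fun L h1 h2 h3 =>
    le_antisymm h2 (hN.le_of_le ⟨h1, h3⟩ h2)
  have hsup : N ⊔ M = ⊤ := by
    rw [sup_comm]
    exact hM.2 _ (lt_of_le_of_ne le_sup_left (fun h' => hNM (h' ▸ le_sup_right)))
  have hNb : N ≠ ⊥ := fun h => hNM (h ▸ bot_le)
  have hcomm : ⁅N, N⁆ ≤ M := by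
    by_contra hc
    have h1 := hmin ⁅N, N⁆ inferInstance (Cfsg.Agent.H1.commutator_self_le N) hc
    have h2 := Group.IsSolvable.commutator_lt_of_ne_bot hNb
    exact h2.ne h1
  set D := N ⊓ M with hD
  have hcommD : ⁅N, N⁆ ≤ D := le_inf (Cfsg.Agent.H1.commutator_self_le N) hcomm
  have hDn : D.Normal := by
    rw [← Subgroup.normalizer_eq_top_iff, eq_top_iff, ← hsup]
    apply sup_le
    · intro n hn
      apply Cfsg.Agent.H1.mem_normalizer_of_conj_mem
      intro x hx
      have h3 : n * x * n⁻¹ = ⁅n, x⁆ * x := by rw [commutatorElement_def]; group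
      rw [h3]
      exact D.mul_mem (hcommD (Subgroup.commutator_mem_commutator hn hx.1)) hx
    · intro m hm
      apply Cfsg.Agent.H1.mem_normalizer_of_conj_mem
      intro x hx
      exact ⟨hNn.conj_mem x hx.1 m, M.mul_mem (M.mul_mem hm hx.2) (M.inv_mem hm)⟩
  rw [Cfsg.Agent.H1.index_eq_relIndex_of_sup_eq_top hsup, ← hD, Cfsg.Agent.L0.relIndex_eq_card_map]
  set V := N.map (QuotientGroup.mk' D) with hV
  have hVn : V.Normal := hNn.map _ (QuotientGroup.mk'_surjective D)
  have hVc : IsMulCommutative V := by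
    refine ⟨⟨?_⟩⟩
    rintro ⟨_, x, hx, rfl⟩ ⟨_, y, hy, rfl⟩
    apply Subtype.ext
    show (QuotientGroup.mk' D) x * (QuotientGroup.mk' D) y = (QuotientGroup.mk' D) y * (QuotientGroup.mk' D) x
    rw [← commutatorElement_eq_one_iff_mul_comm, ← map_commutatorElement]
    exact (QuotientGroup.eq_one_iff _).mpr (hcommD (Subgroup.commutator_mem_commutator hx hy))
  have hV1 : Nat.card V ≠ 1 := by
    intro h
    rw [Subgroup.card_eq_one, hV, Subgroup.map_eq_bot_iff, QuotientGroup.ker_mk'] at h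
    exact hNM (h.trans inf_le_right)
  obtain ⟨p, hp, hd⟩ := Nat.exists_prime_and_dvd hV1
  haveI : Fact p.Prime := ⟨hp⟩
  have hΩ : Cfsg.Agent.H1.omegaAb p V ≠ ⊥ := Cfsg.Agent.H1.omegaAb_ne_bot hd
  set L := (Cfsg.Agent.H1.omegaAb p V).comap (QuotientGroup.mk' D) with hL
  have hLn : L.Normal := inferInstance
  have hVN : V.comap (QuotientGroup.mk' D) = N := by
    rw [hV, Subgroup.comap_map_eq, QuotientGroup.ker_mk', sup_eq_left]; exact inf_le_left
  have hLN : L ≤ N := by
    rw [← hVN]; exact Subgroup.comap_mono Cfsg.Agent.H1.omegaAb_le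
  have hLM : ¬ L ≤ M := by
    intro h
    apply hΩ
    rw [eq_bot_iff]
    intro x hx
    obtain ⟨y, rfl⟩ := QuotientGroup.mk'_surjective D x
    have hy : y ∈ L := hx
    have : y ∈ D := ⟨hLN hy, h hy⟩
    rw [Subgroup.mem_bot]
    exact (QuotientGroup.eq_one_iff _).mpr this
  have hLeq := hmin L hLn hLN hLM
  have hVΩ : IsPGroup p V := by
    apply Cfsg.Agent.H1.isPGroup_of_pow_eq_one
    rintro _ ⟨x, hx, rfl⟩
    rw [SetLike.mem_coe, ← hLeq] at hx
    exact hx.2
  obtain ⟨k, hk⟩ := IsPGroup.iff_card.mp hVΩ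
  rw [hk]
  rw [hk] at hV1
  exact hp.isPrimePow.pow (by rintro rfl; simp at hV1)

end Cfsg.Agent.S0048
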