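import Cfsg.Statements.S0049
import Mathlib
import Cfsg.Agent.L0.Core

set_option autoImplicit false
open Cfsg

namespace Cfsg.Agent.S0049

open scoped commutatorElement


/-- A prime divisor of the order of a finite group also divides the index of the Frattini subgroup. -/
theorem result {G : Type*} [Group G] [Finite G] (p : ℕ) (hp : p.Prime) (hdvd : p ∣ Nat.card G) :
    p ∣ (frattini G).index := by
  haveI : Fact p.Prime := ⟨hp⟩
  by_contra hnd
  obtain ⟨P⟩ : Nonempty (Sylow p (frattini G)) := inferInstance
  set P0 := (P : Subgroup (frattini G)).map (frattini G).subtype with hP0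
  haveI : Group.IsNilpotent (frattini G) := frattini_nilpotent
  have hPn : P0.Normal := by
    have h1 := Sylow.normalizer_sup_eq_top P
    exact Subgroup.normalizer_eq_top_iff.mp (frattini_nongenerating h1)
  have hidx : ¬ p ∣ P0.index := by
    intro hd
    have h1 : P0.relIndex (frattini G) * (frattini G).index = P0.index :=
      Subgroup.relIndex_mul_index (Subgroup.map_subtype_le _)
    rw [← h1] at hd
    rcases hp.dvd_mul.mp hd with h | h
    · apply P.not_dvd_index
      have h2 : P0.relIndex (frattini G) = (P : Subgroup (frattini G)).index := by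
        rw [Subgroup.relIndex, hP0, Subgroup.subgroupOf, Subgroup.comap_map_eq_self_of_injective (frattini G).subtype_injective]
      rw [← h2]; exact h
    · exact hnd h
  have hpg : IsPGroup p P0 := P.isPGroup'.map _
  obtain ⟨k, hk⟩ := IsPGroup.iff_card.mp hpg
  have hcop : (Nat.card P0).Coprime P0.index := by
    rw [hk]; exact Nat.Coprime.pow_left k ((Nat.Prime.coprime_iff_not_dvd hp).mpr hidx)
  obtain ⟨H, hH⟩ := Subgroup.exists_right_complement'_of_coprime hcop
  have h3 : H ⊔ frattini G = ⊤ := by
    rw [eq_top_iff, ← hH.sup_eq_top]
    exact sup_le ((Subgroup.map_subtype_le _).trans le_sup_right) le_sup_left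
  have h4 := frattini_nongenerating h3
  have h5 : P0 = ⊥ := by
    have := hH.disjoint
    rw [h4, disjoint_top] at this
    exact this
  apply hidx
  rw [h5, Subgroup.index_bot]; exact hdvd

end Cfsg.Agent.S0049
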