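import Cfsg.Statements.S0050
import Mathlib
import Cfsg.Agent.H1.Hall

set_option autoImplicit false
open Cfsg

namespace Cfsg.Agent.S0050

open scoped commutatorElement Pointwise


/-- Frattini argument for Hall subgroups: if L is a solvable normal subgroup and H a subgroup of L of order coprime to its index in L, then L together with the normaliser of H generates the whole group. -/
theorem result {G : Type*} [Group G] [Finite G] (L : Subgroup G) [L.Normal] (hL : Group.IsSolvable L)
    (H : Subgroup G) (hHL : H ≤ L) (hHall : (Nat.card H).Coprime (H.relIndex L)) :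
    L ⊔ Subgroup.normalizer (H : Set G) = ⊤ := by
  rw [eq_top_iff]
  intro g _
  set H' := MulAut.conj g • H with hH'
  have hH'L : H' ≤ L := by
    intro x hx
    rw [Cfsg.Agent.L0.mem_conj_smul] at hx
    have h1 := (inferInstance : L.Normal).conj_mem _ (hHL hx) g
    have h2 : g * (g⁻¹ * x * g) * g⁻¹ = x := by group
    rwa [h2] at h1
  have hcL : Nat.card L = Nat.card H * H.relIndex L := by
    have := Subgroup.relIndex_mul_relIndex ⊥ H L bot_le hHL
    rw [Subgroup.relIndex_bot_left, Subgroup.relIndex_bot_left] at this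
    exact this.symm
  have hc1 : Nat.card (H.subgroupOf L) = Nat.card H := Cfsg.Agent.L0.card_subgroupOf_of_le hHL
  have hc2 : Nat.card (H'.subgroupOf L) = Nat.card H := by
    rw [Cfsg.Agent.L0.card_subgroupOf_of_le hH'L, hH', Cfsg.Agent.L0.card_conj_smul]
  obtain ⟨l, hl⟩ := Cfsg.Agent.H1.hall_conj hL hcL hHall hc1 hc2
  have h3 := Cfsg.Agent.L0.conj_eq_of_subgroupOf hHL hH'L l hl
  have h4 : (l : G)⁻¹ * g ∈ Subgroup.normalizer (H : Set G) := by
    rw [Cfsg.Agent.L0.mem_normalizer_conj, map_mul, mul_smul, ← hH', ← h3, ← mul_smul, ← map_mul, inv_mul_cancel, map_one, one_smul]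
  have h5 : g = l * ((l : G)⁻¹ * g) := by group
  rw [h5]
  exact Subgroup.mul_mem _ (Subgroup.mem_sup_left l.2) (Subgroup.mem_sup_right h4)

end Cfsg.Agent.S0050
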