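import Cfsg.Statements.S0052
import Cfsg.Agent.H6.Gasch

set_option autoImplicit false
open Pointwise
open Cfsg

namespace Cfsg.Agent.S0052

/-- Gaschütz's Theorem, conjugacy: for an abelian normal subgroup K ≤ U with the order of K coprime to the index of U, two complements of K in G having the same intersection with U are conjugate. -/
theorem result {G : Type*} [Group G] [Finite G] (K U : Subgroup G) [K.Normal] [IsMulCommutative K]
    (hKU : K ≤ U) (hcop : (Nat.card K).Coprime U.index)
    (H₀ H₁ : Subgroup G) (h₀ : Subgroup.IsComplement' K H₀) (h₁ : Subgroup.IsComplement' K H₁) (hU : H₀ ⊓ U = H₁ ⊓ U) :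
    ∃ g : G, MulAut.conj g • H₀ = H₁ := by
  have hc : ∀ a ∈ K, ∀ b ∈ K, a * b = b * a := fun a ha b hb => H6.comm_of_isMulComm inferInstance ha hb
  obtain ⟨e, he, h⟩ := H6.gaschutz_conj hc hKU hcop h₀ h₁ hU
  refine ⟨e, ?_⟩
  have hle : MulAut.conj e • H₀ ≤ H₁ := by
    intro x hx
    rw [Subgroup.mem_pointwise_smul_iff_inv_smul_mem] at hx
    have h2 := h _ hx
    have e2 : e * ((MulAut.conj e)⁻¹ • x) * e⁻¹ = x := by
      show e * ((MulAut.conj e)⁻¹ x) * e⁻¹ = x
      rw [← map_inv, MulAut.conj_apply]; group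
    rwa [e2] at h2
  apply Subgroup.eq_of_le_of_card_ge hle
  have c0 := h₀.card_mul_card
  have c1 := h₁.card_mul_card
  have c2 : Nat.card ↥(MulAut.conj e • H₀) = Nat.card H₀ := Nat.card_congr (Subgroup.equivSMul _ _).toEquiv.symm
  rw [c2]
  have hK0 : 0 < Nat.card K := Nat.card_pos
  exact (Nat.eq_of_mul_eq_mul_left hK0 (c1.trans c0.symm)).le

end Cfsg.Agent.S0052
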