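import Cfsg.Statements.S0053
import Mathlib
import Cfsg.Agent.H1.Basic

set_option autoImplicit false
open Cfsg

namespace Cfsg.Agent.S0053

/-- An abelian minimal normal subgroup N of a finite group is complemented exactly when N is not inside the Frattini subgroup. -/
theorem result {G : Type*} [Group G] [Finite G]
    (N : Subgroup G) [N.Normal] [IsMulCommutative N] (hN : N ≠ ⊥)
    (hmin : ∀ M : Subgroup G, M.Normal → M ≤ N → M = ⊥ ∨ M = N) :
    (∃ H : Subgroup G, Subgroup.IsComplement' N H) ↔ ¬ N ≤ frattini G := by
  constructor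
  · rintro ⟨H, hH⟩ hle
    have h1 : H ⊔ frattini G = ⊤ := by
      rw [eq_top_iff, ← hH.sup_eq_top]
      exact sup_le (hle.trans le_sup_right) le_sup_left
    have h2 := frattini_nongenerating h1
    apply hN
    have h3 := hH.disjoint
    rw [h2, disjoint_top] at h3
    exact h3
  · intro h
    obtain ⟨M, hM, hNM⟩ : ∃ M : Subgroup G, IsCoatom M ∧ ¬ N ≤ M := by
      by_contra hc
      push Not at hc
      exact h (le_iInf₂ hc)
    have hsup : N ⊔ M = ⊤ := by
      rw [sup_comm]
      exact hM.2 _ (lt_of_le_of_ne le_sup_left (fun h' => hNM (h' ▸ le_sup_right)))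
    have hnorm : (N ⊓ M).Normal := by
      rw [← Subgroup.normalizer_eq_top_iff, eq_top_iff, ← hsup]
      apply sup_le
      · intro n hn
        apply Cfsg.Agent.H1.mem_normalizer_of_conj_mem
        intro x hx
        have h3 : n * x * n⁻¹ = x := by
          have := (inferInstance : IsMulCommutative N).is_comm.comm ⟨n, hn⟩ ⟨x, hx.1⟩
          have h4 : n * x = x * n := congrArg Subtype.val this
          rw [h4]; group
        rw [h3]; exact hx
      · intro m hm
        apply Cfsg.Agent.H1.mem_normalizer_of_conj_mem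
        intro x hx
        exact ⟨Subgroup.Normal.conj_mem inferInstance x hx.1 m, M.mul_mem (M.mul_mem hm hx.2) (M.inv_mem hm)⟩
    rcases hmin _ hnorm inf_le_left with h4 | h4
    · exact ⟨M, Cfsg.Agent.H1.isComplement'_of_disjoint_sup h4 hsup⟩
    · exact absurd (inf_eq_left.mp h4) hNM

end Cfsg.Agent.S0053
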