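import Cfsg.Statements.S0054
import Mathlib
import Cfsg.Agent.H1.Hall

set_option autoImplicit false
open Cfsg

namespace Cfsg.Agent.S0054

open scoped commutatorElement Pointwise


/-- A regular normal subgroup of a finite 2-transitive group is elementary abelian: it is commutative and all its elements have order dividing one prime. -/
theorem result {G : Type*} [Group G] [Finite G]
    {X : Type*} [Nonempty X] [MulAction G X] (h2 : MulAction.IsMultiplyPretransitive G X 2)
    (N : Subgroup G) [N.Normal] (htrans : MulAction.IsPretransitive N X) (hreg : ∀ x : X, MulAction.stabilizer N x = ⊥) :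
    IsMulCommutative N ∧ ∃ p : ℕ, p.Prime ∧ ∀ n ∈ N, n ^ p = 1 := by
  rw [MulAction.is_two_pretransitive_iff] at h2
  have hreg' : ∀ x : X, ∀ n ∈ N, n • x = x → n = 1 := by
    intro x n hn h
    have : (⟨n, hn⟩ : N) ∈ MulAction.stabilizer N x := h
    rw [hreg x, Subgroup.mem_bot] at this
    exact congrArg Subtype.val this
  obtain ⟨x⟩ := (inferInstance : Nonempty X)
  have hconj : ∀ n ∈ N, ∀ m ∈ N, n ≠ 1 → m ≠ 1 → ∃ g : G, g * n * g⁻¹ = m := by
    intro n hn m hm hn1 hm1
    have e1 : x ≠ n • x := fun h => hn1 (hreg' x n hn h.symm)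
    have e2 : x ≠ m • x := fun h => hm1 (hreg' x m hm h.symm)
    obtain ⟨g, hg1, hg2⟩ := h2 e1 e2
    refine ⟨g, ?_⟩
    have h3 : m⁻¹ * (g * n * g⁻¹) = 1 := by
      apply hreg' x
      · exact N.mul_mem (N.inv_mem hm) ((inferInstance : N.Normal).conj_mem n hn g)
      · rw [mul_smul, mul_smul, mul_smul]
        have : g⁻¹ • x = x := by rw [inv_smul_eq_iff, hg1]
        rw [this, hg2, inv_smul_smul]
    rw [inv_mul_eq_one] at h3
    exact h3.symm
  by_cases hN : N = ⊥
  · subst hN
    exact ⟨inferInstance, 2, Nat.prime_two, fun n hn => by rw [Subgroup.mem_bot.mp hn, one_pow]⟩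
  · have hc1 : Nat.card N ≠ 1 := by rwa [Ne, Subgroup.card_eq_one]
    obtain ⟨p, hp, hpd⟩ := Nat.exists_prime_and_dvd hc1
    haveI : Fact p.Prime := ⟨hp⟩
    obtain ⟨z, hz⟩ := exists_prime_orderOf_dvd_card' p hpd
    have hz1 : (z : G) ≠ 1 := by
      intro h
      have : z = 1 := Subtype.ext h
      rw [this, orderOf_one] at hz
      exact hp.one_lt.ne hz
    have hzp : (z : G) ^ p = 1 := by
      have : z ^ p = 1 := by rw [← hz]; exact pow_orderOf_eq_one z
      simpa using congrArg Subtype.val this
    have hall : ∀ n ∈ N, n ^ p = 1 := by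
      intro n hn
      by_cases h1 : n = 1
      · rw [h1, one_pow]
      · obtain ⟨g, rfl⟩ := hconj z z.2 n hn hz1 h1
        rw [conj_pow, hzp]; group
    refine ⟨?_, p, hp, hall⟩
    have hPN : IsPGroup p N := by
      intro n
      exact ⟨1, by rw [pow_one]; exact Subtype.ext (by simpa using hall n n.2)⟩
    haveI : Nontrivial N := by
      rw [← Finite.one_lt_card_iff_nontrivial]
      exact lt_of_le_of_ne Nat.card_pos (Ne.symm hc1)
    haveI := hPN.center_nontrivial
    obtain ⟨c, hc⟩ := exists_ne (1 : Subgroup.center N)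
    have hcc : ∀ m ∈ N, (c : N).1 * m = m * (c : N).1 := by
      intro m hm
      have := (Subgroup.mem_center_iff.mp c.2) ⟨m, hm⟩
      exact (congrArg Subtype.val this).symm
    have hcne : ((c : N) : G) ≠ 1 := by
      intro h
      apply hc
      exact Subtype.ext (Subtype.ext h)
    have hcomm : ∀ a ∈ N, ∀ b ∈ N, a * b = b * a := by
      intro a ha b hb
      by_cases h1 : a = 1
      · rw [h1, one_mul, mul_one]
      · obtain ⟨g, hg⟩ := hconj (c : N) (c : N).2 a ha hcne h1
        have hb' : g⁻¹ * b * g ∈ N := by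
          have := (inferInstance : N.Normal).conj_mem b hb g⁻¹
          simpa using this
        have h3 := hcc _ hb'
        rw [← hg]
        calc g * (c : N).1 * g⁻¹ * b = g * ((c : N).1 * (g⁻¹ * b * g)) * g⁻¹ := by group
          _ = g * ((g⁻¹ * b * g) * (c : N).1) * g⁻¹ := by rw [h3]
          _ = _ := by group
    exact ⟨⟨fun a b => Subtype.ext (hcomm a a.2 b b.2)⟩⟩

end Cfsg.Agent.S0054
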