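import Cfsg.Statements.S0056
import Mathlib
import Cfsg.Agent.H1.CoprimeAb

set_option autoImplicit false
open Cfsg

namespace Cfsg.Agent.S0056

open scoped commutatorElement


/-- A coprime action on an abelian group that fixes all elements of prime order is trivial. -/
theorem result {G : Type*} [Group G] [Finite G] (A V : Subgroup G) [IsMulCommutative V]
    (hAV : A ≤ Subgroup.normalizer (V : Set G)) (hcop : (Nat.card A).Coprime (Nat.card V))
    (hΩ : ∀ v ∈ V, (orderOf v).Prime → ∀ a ∈ A, a * v = v * a) : A ≤ Subgroup.centralizer (V : Set G) := by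
  obtain ⟨h1, h2⟩ := Cfsg.Agent.H1.coprime_abelian_decomp' A V hAV hcop
  have hVA : ⁅V, A⁆ ≤ V := Subgroup.le_normalizer_iff_commutator_le_left.mp hAV
  have h3 : ⁅V, A⁆ = ⊥ := by
    by_contra hne
    have h4 : Nat.card (⁅V, A⁆ : Subgroup G) ≠ 1 := fun h => hne (Subgroup.card_eq_one.mp h)
    obtain ⟨p, hp, hd⟩ := Nat.exists_prime_and_dvd h4
    haveI : Fact p.Prime := ⟨hp⟩
    obtain ⟨z, hz⟩ := exists_prime_orderOf_dvd_card' p hd
    have h5 : orderOf (z : G) = p := by rw [Subgroup.orderOf_coe]; exact hz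
    have h6 : (z : G) ∈ (V ⊓ Subgroup.centralizer (A : Set G)) ⊓ ⁅V, A⁆ := by
      refine ⟨⟨hVA z.2, ?_⟩, z.2⟩
      apply Subgroup.mem_centralizer_iff.mpr
      intro a ha
      exact hΩ z (hVA z.2) (h5 ▸ hp) a ha
    rw [h1, Subgroup.mem_bot] at h6
    rw [h6, orderOf_one] at h5
    exact hp.one_lt.ne h5
  rw [Subgroup.le_centralizer_iff, ← Subgroup.commutator_eq_bot_iff_le_centralizer]
  exact h3

end Cfsg.Agent.S0056
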