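import Cfsg.Statements.S0057
import Mathlib
import Cfsg.Agent.H1.CoprimeAb
import Cfsg.Agent.L0.Coprime
import Cfsg.Agent.H1.Coprime3

set_option autoImplicit false
open Cfsg

namespace Cfsg.Agent.S0057

open scoped commutatorElement Pointwise
/-- the `p`-group case -/
theorem aux {G : Type*} [Group G] [Finite G] (A P : Subgroup G) (hAP : A ≤ Subgroup.normalizer (P : Set G))
    (p : ℕ) [hp : Fact p.Prime] (hP : IsPGroup p P) (hcop : (Nat.card A).Coprime (Nat.card P))
    (hidx : (P ⊓ Subgroup.centralizer (A : Set G)).relIndex P = p) : Nat.card (⁅P, A⁆ : Subgroup G) = p := by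
  have hPs : Group.IsSolvable P := by
    haveI := hP.isNilpotent
    infer_instance
  set Q := ⁅P, A⁆ with hQ
  have hQP : Q ≤ P := Cfsg.Agent.L0.commutator_le_of_normalizes hAP
  have hAQ : A ≤ Subgroup.normalizer (Q : Set G) := Subgroup.normalizer_commutator_ge_right _ _
  have hPQ : P ≤ Subgroup.normalizer (Q : Set G) := Subgroup.normalizer_commutator_ge_left _ _
  have hQQ : ⁅Q, A⁆ = Q := Cfsg.Agent.L0.commutator_commutator_eq hAP hcop (Or.inr hPs)
  set C := Q ⊓ Subgroup.centralizer (A : Set G) with hC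
  have hsup : Q ⊔ (P ⊓ Subgroup.centralizer (A : Set G)) = P :=
    Cfsg.Agent.L0.commutator_sup_centralizer hAP hcop (Or.inr hPs)
  -- index of C in Q is p
  have hCidx : C.relIndex Q = p := by
    have h1 : Nat.card P * Nat.card C = Nat.card Q * Nat.card (P ⊓ Subgroup.centralizer (A : Set G) : Subgroup G) := by
      have e1 := Cfsg.Agent.L0.relIndex_sup_of_normalizes (M := Q) (A := P ⊓ Subgroup.centralizer (A : Set G)) (inf_le_left.trans hPQ)
      rw [hsup] at e1
      have e2 : Nat.card Q * Q.relIndex P = Nat.card P := by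
        have := Subgroup.relIndex_mul_relIndex ⊥ Q P bot_le hQP
        rwa [Subgroup.relIndex_bot_left, Subgroup.relIndex_bot_left] at this
      have e3 : Nat.card C * Q.relIndex (P ⊓ Subgroup.centralizer (A : Set G)) = Nat.card (P ⊓ Subgroup.centralizer (A : Set G) : Subgroup G) := by
        have h2 : C = Q ⊓ (P ⊓ Subgroup.centralizer (A : Set G)) := by
          rw [hC, ← inf_assoc, inf_eq_left.mpr hQP]
        have := Subgroup.relIndex_mul_relIndex ⊥ C (P ⊓ Subgroup.centralizer (A : Set G)) bot_le (by rw [h2]; exact inf_le_right)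
        rw [Subgroup.relIndex_bot_left, Subgroup.relIndex_bot_left] at this
        rw [h2, Subgroup.inf_relIndex_right, ← h2] at this
        exact this
      rw [← e2, ← e3, e1]; ring
    have h3 : Nat.card C * C.relIndex Q = Nat.card Q := by
      have := Subgroup.relIndex_mul_relIndex ⊥ C Q bot_le inf_le_left
      rwa [Subgroup.relIndex_bot_left, Subgroup.relIndex_bot_left] at this
    have h4 : Nat.card (P ⊓ Subgroup.centralizer (A : Set G) : Subgroup G) * p = Nat.card P := by
      have := Subgroup.relIndex_mul_relIndex ⊥ (P ⊓ Subgroup.centralizer (A : Set G)) P bot_le inf_le_left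
      rw [Subgroup.relIndex_bot_left, Subgroup.relIndex_bot_left, hidx] at this
      exact this
    rw [← h3, ← h4] at h1
    have h5 : (Nat.card (P ⊓ Subgroup.centralizer (A : Set G) : Subgroup G) * Nat.card C) * p =
      (Nat.card (P ⊓ Subgroup.centralizer (A : Set G) : Subgroup G) * Nat.card C) * C.relIndex Q := by
      calc _ = Nat.card (P ⊓ Subgroup.centralizer (A : Set G) : Subgroup G) * p * Nat.card C := by ring
        _ = Nat.card C * C.relIndex Q * Nat.card (P ⊓ Subgroup.centralizer (A : Set G) : Subgroup G) := h1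
        _ = _ := by ring
    exact (Nat.eq_of_mul_eq_mul_left (Nat.mul_pos Nat.card_pos Nat.card_pos) h5).symm
  -- C is normal in Q
  have hQnil : Group.IsNilpotent Q := (hP.to_le hQP).isNilpotent
  have hCQn : (C.subgroupOf Q).Normal := by
    have hmax : IsCoatom (C.subgroupOf Q) := by
      constructor
      · intro h
        have : C.relIndex Q = 1 := by rw [Subgroup.relIndex, h, Subgroup.index_top]
        rw [this] at hCidx
        exact hp.out.one_lt.ne hCidx
      · intro K hK
        have h1 := Subgroup.relIndex_mul_index hK.le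
        rw [show (C.subgroupOf Q).index = p from hCidx] at h1
        rcases (Nat.dvd_prime hp.out).mp (Dvd.intro_left _ h1) with h2 | h2
        · exact Subgroup.index_eq_one.mp h2
        · rw [h2] at h1
          have h3 : (C.subgroupOf Q).relIndex K = 1 := by
            exact Nat.eq_of_mul_eq_mul_right hp.out.pos (by rw [h1, one_mul])
          exact absurd (Subgroup.relIndex_eq_one.mp h3) (not_le_of_gt hK)
    exact Cfsg.Agent.H1.normal_of_isCoatom_of_nilpotent hmax
  have hQC : Q ≤ Subgroup.normalizer (C : Set G) := by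
    intro x hx
    apply Cfsg.Agent.H1.mem_normalizer_of_conj_mem
    intro y hy
    have := hCQn.conj_mem ⟨y, hy.1⟩ (by rw [Subgroup.mem_subgroupOf]; exact hy) ⟨x, hx⟩
    rw [Subgroup.mem_subgroupOf] at this
    exact this
  -- three subgroups: [Q, C] = 1
  have h1 : ⁅C, A⁆ = ⊥ := Subgroup.commutator_eq_bot_iff_le_centralizer.mpr inf_le_right
  have h2 : ⁅⁅C, A⁆, Q⁆ = ⊥ := by rw [h1, Subgroup.commutator_bot_left]
  have h3 : ⁅⁅Q, C⁆, A⁆ = ⊥ := by
    rw [eq_bot_iff, ← h1]
    exact Subgroup.commutator_mono (Subgroup.le_normalizer_iff_commutator_le_right.mp hQC) le_rfl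
  have h4 : ⁅⁅A, Q⁆, C⁆ = ⊥ := Subgroup.commutator_commutator_eq_bot_of_rotate h3 h2 |> fun h => by
    first
      | exact h
      | (rw [Subgroup.commutator_comm A Q]; rw [Subgroup.commutator_comm] at h; exact h)
  have h5 : ⁅Q, C⁆ = ⊥ := by rw [Subgroup.commutator_comm A Q, hQQ] at h4; exact h4
  have h6 : Q ≤ Subgroup.centralizer (C : Set G) := Subgroup.commutator_eq_bot_iff_le_centralizer.mp h5
  -- Q abelian
  have hQab : IsMulCommutative Q := by
    have hcyc : IsCyclic (Q ⧸ C.subgroupOf Q) := isCyclic_of_prime_card (p := p) (by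
      rw [← Subgroup.index_eq_card]; exact hCidx)
    refine ⟨⟨fun a b => ?_⟩⟩
    have hker : (QuotientGroup.mk' (C.subgroupOf Q)).ker ≤ Subgroup.center Q := by
      rw [QuotientGroup.ker_mk']
      intro x hx
      rw [Subgroup.mem_center_iff]
      intro g
      apply Subtype.ext
      exact ((Subgroup.mem_centralizer_iff.mp (h6 g.2)) x hx).symm
    exact commutative_of_cyclic_center_quotient (QuotientGroup.mk' (C.subgroupOf Q)) hker a b
  obtain ⟨h7, -⟩ := Cfsg.Agent.H1.coprime_abelian_decomp' A Q hAQ (Nat.Coprime.coprime_dvd_right (Subgroup.card_dvd_of_le hQP) hcop)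
  have h7 : C = ⊥ := by rw [hQQ, inf_eq_left.mpr inf_le_left] at h7; exact h7
  rw [h7, Subgroup.relIndex_bot_left] at hCidx
  exact hCidx

/-- Under coprime action, if the centraliser of A in K has prime index p in K then the commutator subgroup [K, A] has order exactly p. -/
theorem result {G : Type*} [Group G] [Finite G] (A K : Subgroup G) (hAK : A ≤ Subgroup.normalizer (K : Set G))
    (hcop : (Nat.card A).Coprime (Nat.card K)) (hsolv : Group.IsSolvable A ∨ Group.IsSolvable K)
    (p : ℕ) (hp : p.Prime) (hidx : (K ⊓ Subgroup.centralizer (A : Set G)).relIndex K = p) :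
    Nat.card (⁅K, A⁆ : Subgroup G) = p := by
  haveI : Fact p.Prime := ⟨hp⟩
  obtain ⟨P, hP, hPA⟩ := Cfsg.Agent.L0.exists_invariant_sylow (p := p) hAK hcop hsolv
  have hPK : P ≤ K := hP.le
  have hPC := Cfsg.Agent.L0.invariant_sylow_inf_centralizer hAK hcop hsolv hP hPA
  set C := K ⊓ Subgroup.centralizer (A : Set G) with hC
  have hcop' : (Nat.card A).Coprime (Nat.card P) := Nat.Coprime.coprime_dvd_right (Subgroup.card_dvd_of_le hPK) hcop
  have hCK : Nat.card C * p = Nat.card K := by
    have := Subgroup.relIndex_mul_relIndex ⊥ C K bot_le inf_le_left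
    rw [Subgroup.relIndex_bot_left, Subgroup.relIndex_bot_left, hidx] at this
    exact this
  -- index of C_P(A) in P is p
  have hidxP : (P ⊓ Subgroup.centralizer (A : Set G)).relIndex P = p := by
    obtain ⟨-, h1⟩ := Cfsg.Agent.L0.isSylowIn_iff_card.mp hP
    obtain ⟨-, h2⟩ := Cfsg.Agent.L0.isSylowIn_iff_card.mp hPC
    have h3 := Subgroup.relIndex_mul_relIndex ⊥ (P ⊓ Subgroup.centralizer (A : Set G)) P bot_le inf_le_left
    rw [Subgroup.relIndex_bot_left, Subgroup.relIndex_bot_left, h1, h2, ← hCK,
      Nat.factorization_mul Nat.card_pos.ne' hp.ne_zero] at h3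
    simp only [Finsupp.coe_add, Pi.add_apply, hp.factorization_self, pow_add, pow_one] at h3
    exact Nat.eq_of_mul_eq_mul_left (Nat.pow_pos hp.pos) h3
  have h4 := aux A P hPA p hP.isPGroup hcop' hidxP
  -- K = P C
  have hPCK : ∀ k ∈ K, ∃ x ∈ P, ∃ c ∈ C, k = x * c := by
    apply Cfsg.Agent.H1.exists_mul_of_relIndex_eq hPK
    rw [hidx, ← hidxP, ← Subgroup.inf_relIndex_left P C, hC, ← inf_assoc, inf_eq_left.mpr hPK]
  have h6 : ⁅K, A⁆ = ⁅P, A⁆ := by
    apply le_antisymm
    · rw [Subgroup.commutator_le]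
      intro k hk a ha
      obtain ⟨x, hx, c, hc, rfl⟩ := hPCK k hk
      have h7 : a * c = c * a := Subgroup.mem_centralizer_iff.mp hc.2 a ha
      have h8 : ⁅x * c, a⁆ = ⁅x, a⁆ := by
        rw [commutatorElement_def, commutatorElement_def]
        calc x * c * a * (x * c)⁻¹ * a⁻¹ = x * (c * a) * c⁻¹ * x⁻¹ * a⁻¹ := by group
          _ = x * (a * c) * c⁻¹ * x⁻¹ * a⁻¹ := by rw [h7]
          _ = _ := by group
      rw [h8]; exact Subgroup.commutator_mem_commutator hx ha
    · exact Subgroup.commutator_mono hPK le_rfl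
  rw [h6]; exact h4

end Cfsg.Agent.S0057
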