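import Cfsg.Statements.S0060
import Mathlib
import Cfsg.Agent.H1.Hall

set_option autoImplicit false
open Pointwise
open Cfsg

namespace Cfsg.Agent.S0060

open scoped commutatorElement Pointwise


/-- Brodkey's Theorem: in a finite group with abelian Sylow p-subgroups and no nontrivial normal p-subgroup, some conjugate of a Sylow p-subgroup meets it trivially. -/
theorem result {G : Type*} [Group G] [Finite G] (p : ℕ) [Fact p.Prime]
    (S : Sylow p G) (hS : IsMulCommutative S) (hOp : Cfsg.pCore p G = ⊥) :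
    ∃ g : G, (S : Subgroup G) ⊓ MulAut.conj g • (S : Subgroup G) = ⊥ := by
  classical
  -- choose a pair of Sylow subgroups with minimal intersection
  have hfin : {D : Subgroup G | ∃ P Q : Sylow p G, D = (P : Subgroup G) ⊓ (Q : Subgroup G)}.Finite := Set.toFinite _
  obtain ⟨D, hD⟩ := hfin.exists_minimal ⟨_, S, S, rfl⟩
  obtain ⟨P, Q, hPQ⟩ := hD.prop
  have habl : ∀ R : Sylow p G, ∀ x ∈ R, ∀ y ∈ R, x * y = y * x := by
    intro R x hx y hy
    obtain ⟨g, rfl⟩ := MulAction.exists_smul_eq G S R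
    rw [Cfsg.Agent.H1.mem_smul_sylow] at hx hy
    have h1 : (g⁻¹ * x * g) * (g⁻¹ * y * g) = (g⁻¹ * y * g) * (g⁻¹ * x * g) :=
      congrArg Subtype.val (hS.is_comm.comm ⟨_, hx⟩ ⟨_, hy⟩)
    calc x * y = g * ((g⁻¹ * x * g) * (g⁻¹ * y * g)) * g⁻¹ := by group
      _ = g * ((g⁻¹ * y * g) * (g⁻¹ * x * g)) * g⁻¹ := by rw [h1]
      _ = y * x := by group
  have hPC : (P : Subgroup G) ≤ Subgroup.centralizer (D : Set G) := by
    intro x hx
    rw [Subgroup.mem_centralizer_iff]
    intro y hy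
    have : y ∈ (P : Subgroup G) ⊓ (Q : Subgroup G) := hPQ ▸ hy
    exact habl P y this.1 x hx
  have hQC : (Q : Subgroup G) ≤ Subgroup.centralizer (D : Set G) := by
    intro x hx
    rw [Subgroup.mem_centralizer_iff]
    intro y hy
    have : y ∈ (P : Subgroup G) ⊓ (Q : Subgroup G) := hPQ ▸ hy
    exact habl Q y this.2 x hx
  have hall : ∀ R : Sylow p G, D ≤ R := by
    intro R
    set C := Subgroup.centralizer (D : Set G) with hC
    have hRC : IsPGroup p ((R : Subgroup G).subgroupOf C) := R.isPGroup'.comap_of_injective _ C.subtype_injective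
    obtain ⟨R1, hR1⟩ := hRC.exists_le_sylow
    obtain ⟨c, hc⟩ := MulAction.exists_smul_eq C (P.subtype hPC) R1
    -- R ⊓ C ≤ c • P
    have h1 : (R : Subgroup G) ⊓ ((c : G) • Q : Sylow p G) ≤ (R : Subgroup G) ⊓ C := by
      apply inf_le_inf_left
      intro x hx
      have hx' : (c : G)⁻¹ * x * c ∈ Q := Cfsg.Agent.H1.mem_smul_sylow.mp hx
      have h2 := hQC hx'
      have h3 : x = c * ((c : G)⁻¹ * x * c) * (c : G)⁻¹ := by group
      rw [h3]
      exact C.mul_mem (C.mul_mem c.2 h2) (C.inv_mem c.2)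
    have h4 : (R : Subgroup G) ⊓ C ≤ ((c : G) • P : Sylow p G) := by
      rintro x ⟨hxR, hxC⟩
      have h5 : (⟨x, hxC⟩ : C) ∈ R1 := hR1 hxR
      rw [← hc, Cfsg.Agent.H1.mem_smul_sylow] at h5
      show x ∈ (c : G) • P
      rw [Cfsg.Agent.H1.mem_smul_sylow]
      exact h5
    have hcD : ∀ x, x ∈ ((c : G) • P : Sylow p G) → x ∈ ((c : G) • Q : Sylow p G) → x ∈ D := by
      intro x hx1 hx2
      rw [Cfsg.Agent.H1.mem_smul_sylow] at hx1 hx2
      have h6 : (c : G)⁻¹ * x * c ∈ D := by rw [hPQ]; exact ⟨hx1, hx2⟩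
      have h7 : (c : G) * ((c : G)⁻¹ * x * c) = ((c : G)⁻¹ * x * c) * c :=
        ((Subgroup.mem_centralizer_iff.mp c.2) _ h6).symm
      have h8 : x = (c : G)⁻¹ * x * c := by
        have : (c : G) * ((c : G)⁻¹ * x * c) = x * c := by group
        rw [this] at h7
        exact mul_right_cancel h7
      rw [h8]; exact h6
    have h9 : (R : Subgroup G) ⊓ ((c : G) • Q : Sylow p G) ≤ D := by
      intro x hx
      exact hcD x (h4 (h1 hx)) hx.2
    have h10 := hD.le_of_le ⟨R, (c : G) • Q, rfl⟩ h9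
    exact h10.trans inf_le_left
  have hDbot : D = ⊥ := by
    have h1 : D ≤ Cfsg.pCore p G := by
      have h2 : (⨅ R : Sylow p G, (R : Subgroup G)).Normal := by
        constructor
        intro n hn g
        rw [Subgroup.mem_iInf] at hn ⊢
        intro R
        have := hn (g⁻¹ • R)
        have h3 : n ∈ g⁻¹ • R := this
        rw [Cfsg.Agent.H1.mem_smul_sylow] at h3
        show g * n * g⁻¹ ∈ R
        simpa using h3
      have h4 : IsPGroup p (⨅ R : Sylow p G, (R : Subgroup G) : Subgroup G) := S.isPGroup'.to_le (iInf_le _ S)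
      exact (le_iInf hall).trans (Cfsg.Agent.L0.le_pCore h4)
    rw [hOp] at h1
    exact le_bot_iff.mp h1
  obtain ⟨g, rfl⟩ := MulAction.exists_smul_eq G S P
  obtain ⟨h, rfl⟩ := MulAction.exists_smul_eq G S Q
  refine ⟨g⁻¹ * h, ?_⟩
  rw [eq_bot_iff]
  rintro x ⟨hx1, hx2⟩
  have hx2' : x ∈ MulAut.conj (g⁻¹ * h) • (S : Subgroup G) := hx2
  rw [Cfsg.Agent.H1.mem_conj_smul] at hx2'
  have h1 : g * x * g⁻¹ ∈ D := by
    rw [hPQ]
    constructor
    · show g * x * g⁻¹ ∈ g • S
      rw [Cfsg.Agent.H1.mem_smul_sylow]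
      have : g⁻¹ * (g * x * g⁻¹) * g = x := by group
      rw [this]; exact hx1
    · show g * x * g⁻¹ ∈ h • S
      rw [Cfsg.Agent.H1.mem_smul_sylow]
      have : h⁻¹ * (g * x * g⁻¹) * h = (g⁻¹ * h)⁻¹ * x * (g⁻¹ * h) := by group
      rw [this]; exact hx2'
  rw [hDbot, Subgroup.mem_bot] at h1
  rw [Subgroup.mem_bot]
  simpa using h1

end Cfsg.Agent.S0060
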