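import Cfsg.Statements.S0067
import Mathlib
import Cfsg.Agent.H1.Subn
import Cfsg.Agent.H2.BaerSuzuki
import Cfsg.Agent.S0064
import Cfsg.Agent.L0.GenFit

set_option autoImplicit false
open Pointwise
open Cfsg

namespace Cfsg.Agent.S0067

open scoped commutatorElement Pointwise


/-- If the join of a subgroup A with each of its conjugates is nilpotent, then A is subnormal in the finite group and contained in the Fitting subgroup. -/
theorem result {G : Type*} [Group G] [Finite G] (A : Subgroup G)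
    (h : ∀ g : G, Group.IsNilpotent (A ⊔ MulAut.conj g • A : Subgroup G)) : A.IsSubnormal ∧ A ≤ Cfsg.fittingSubgroup G := by
  have hA : Group.IsNilpotent A := by
    have h1 := h 1
    exact Cfsg.Agent.L0.isNilpotent_of_le h1 le_sup_left
  have hle : A ≤ Cfsg.fittingSubgroup G := by
    have hp : ∀ (p : ℕ) [Fact p.Prime] (x : G), x ∈ A → IsPGroup p (Subgroup.zpowers x) → x ∈ Cfsg.pCore p G := by
      intro p hp x hx hxp
      apply Cfsg.Agent.H2.baer_suzuki
      intro g
      have h1 := h g
      set B := A ⊔ MulAut.conj g • A with hB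
      have hxB : x ∈ B := (le_sup_left : A ≤ B) hx
      have hgB : g * x * g⁻¹ ∈ B := (le_sup_right : MulAut.conj g • A ≤ B) (by
        rw [Cfsg.Agent.H1.mem_conj_smul]
        have e : g⁻¹ * (g * x * g⁻¹) * g = x := by group
        rw [e]; exact hx)
      obtain ⟨k, hk⟩ : ∃ k : ℕ, x ^ p ^ k = 1 := by
        obtain ⟨k, hk⟩ := hxp ⟨x, Subgroup.mem_zpowers x⟩
        exact ⟨k, by simpa using congrArg Subtype.val hk⟩
      have hk' : (g * x * g⁻¹) ^ p ^ k = 1 := by rw [conj_pow, hk]; group
      -- the p-core of B contains both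
      have hmem : ∀ y : B, (y : G) ^ p ^ k = 1 → y ∈ Cfsg.pCore p B := by
        intro y hy
        obtain ⟨P⟩ := (inferInstance : Nonempty (Sylow p B))
        rw [Cfsg.Agent.L0.pCore_eq_sylow_of_nilpotent h1 P]
        haveI := Cfsg.Agent.L0.isNilpotent_iff_sylow_normal.mp h1 p P
        have hyP : IsPGroup p (Subgroup.zpowers y) := by
          rw [IsPGroup.iff_card]
          have h3 : orderOf y ∣ p ^ k := orderOf_dvd_of_pow_eq_one (Subtype.ext (by simpa using hy))
          obtain ⟨j, _, hj⟩ := (Nat.dvd_prime_pow hp.out).mp h3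
          exact ⟨j, by rw [Nat.card_zpowers, hj]⟩
        obtain ⟨Q, hQ⟩ := hyP.exists_le_sylow
        obtain ⟨b, rfl⟩ := MulAction.exists_smul_eq B P Q
        rw [Sylow.smul_eq_of_normal] at hQ
        exact hQ (Subgroup.mem_zpowers y)
      have hsub : Subgroup.closure ({x, g * x * g⁻¹} : Set G) ≤ (Cfsg.pCore p B).map B.subtype := by
        rw [Subgroup.closure_le]
        intro y hy
        rcases hy with rfl | hy
        · exact ⟨⟨y, hxB⟩, hmem ⟨y, hxB⟩ hk, rfl⟩
        · rw [Set.mem_singleton_iff] at hy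
          subst hy
          exact ⟨⟨_, hgB⟩, hmem ⟨_, hgB⟩ hk', rfl⟩
      exact IsPGroup.to_le (IsPGroup.map (Cfsg.Agent.L0.pCore_isPGroup p B) _) hsub
    have hsyl : ∀ (p : ℕ) [Fact p.Prime] (P : Sylow p A), (P : Subgroup A).map A.subtype ≤ Cfsg.fittingSubgroup G := by
      intro p hpp P
      rintro _ ⟨x, hx, rfl⟩
      have h1 : (x : G) ∈ Cfsg.pCore p G := by
        apply hp p x x.2
        obtain ⟨k, hk⟩ := P.isPGroup' ⟨x, hx⟩
        have hk2 : x ^ p ^ k = 1 := by simpa using congrArg Subtype.val hk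
        have hk3 : (x : G) ^ p ^ k = 1 := by simpa using congrArg Subtype.val hk2
        rw [IsPGroup.iff_card]
        have h3 : orderOf (x : G) ∣ p ^ k := orderOf_dvd_of_pow_eq_one hk3
        obtain ⟨j, _, hj⟩ := (Nat.dvd_prime_pow hpp.out).mp h3
        exact ⟨j, by rw [Nat.card_zpowers, hj]⟩
      haveI : Group.IsNilpotent (Cfsg.pCore p G) := (Cfsg.Agent.L0.pCore_isPGroup p G).isNilpotent
      exact Cfsg.Agent.L0.le_fittingSubgroup (N := Cfsg.pCore p G) inferInstance h1
    have htop : (Cfsg.fittingSubgroup G).subgroupOf A = ⊤ := by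
      apply Cfsg.Agent.H1.eq_top_of_forall_sylow_le
      intro q hq
      obtain ⟨Q⟩ := (inferInstance : Nonempty (Sylow q A))
      refine ⟨Q, ?_⟩
      intro x hx
      exact hsyl q Q ⟨x, hx, rfl⟩
    rwa [Subgroup.subgroupOf_eq_top] at htop
  refine ⟨?_, hle⟩
  haveI : Group.IsNilpotent (Cfsg.fittingSubgroup G) := Cfsg.Agent.L0.le_fittingSubgroup_iff.mp le_rfl
  refine Subgroup.IsSubnormal.trans hle ?_ (Cfsg.Agent.L0.fittingSubgroup_normal G).isSubnormal
  exact (Cfsg.Agent.S0064.result (G := Cfsg.fittingSubgroup G)).mp inferInstance _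

end Cfsg.Agent.S0067
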