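import Cfsg.Statements.S0068
import Mathlib
import Cfsg.Agent.H1.Frob1

set_option autoImplicit false
open Cfsg

namespace Cfsg.Agent.S0068

open scoped commutatorElement Pointwise


/-- Frobenius complements of even order: if H complements a nontrivial normal subgroup K, each nonidentity element of H has trivial centraliser in K, and H has even order, then H contains a unique involution s, K is abelian, and s inverts every element of K. -/
theorem result {G : Type*} [Group G] [Finite G] (K H : Subgroup G) [K.Normal]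
    (hc : Subgroup.IsComplement' K H) (hK : K ≠ ⊥) (hfpf : ∀ h ∈ H, h ≠ 1 → K ⊓ Subgroup.centralizer {h} = ⊥)
    (heven : 2 ∣ Nat.card H) :
    (∃ s ∈ H, orderOf s = 2 ∧ (∀ t ∈ H, orderOf t = 2 → t = s) ∧ ∀ k ∈ K, s * k * s⁻¹ = k⁻¹) ∧ IsMulCommutative K := by
  have hKn : K.Normal := inferInstance
  haveI : Fact (Nat.Prime 2) := ⟨Nat.prime_two⟩
  obtain ⟨s', hs'⟩ := exists_prime_orderOf_dvd_card' 2 heven
  have key : ∀ s ∈ H, orderOf s = 2 → ∀ k ∈ K, s * k * s⁻¹ = k⁻¹ := by
    intro s hs hs2 k hk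
    have hs1 : s ≠ 1 := by rintro rfl; simp at hs2
    have hss : s * s = 1 := by rw [← pow_two, ← hs2]; exact pow_orderOf_eq_one s
    let σ : K →* K := (MulAut.conjNormal s).toMonoidHom
    have hσ : ∀ x : K, ((σ x : K) : G) = s * x * s⁻¹ := fun x => MulAut.conjNormal_apply s x
    have hfp : Cfsg.Agent.H2.Fpf σ := by
      intro x hx
      have h1 : s * (x : G) * s⁻¹ = x := by rw [← hσ, hx]
      have h2 : (x : G) ∈ K ⊓ Subgroup.centralizer {s} := by
        refine ⟨x.2, Subgroup.mem_centralizer_singleton_iff.mpr ?_⟩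
        rw [← h1]
        calc s * (x : G) * s⁻¹ * s = s * x := by group
          _ = s * (s * x * s⁻¹) := by rw [h1]
      rw [hfpf s hs hs1, Subgroup.mem_bot] at h2
      exact Subtype.ext h2
    have h3 := hfp.eq_inv (by
      intro x
      apply Subtype.ext
      rw [hσ, hσ]
      calc s * (s * (x : G) * s⁻¹) * s⁻¹ = (s * s) * x * (s * s)⁻¹ := by group
        _ = x := by rw [hss]; group) ⟨k, hk⟩
    have h4 := congrArg Subtype.val h3
    rw [hσ] at h4
    exact h4
  have hs2 : orderOf (s' : G) = 2 := by rw [Subgroup.orderOf_coe]; exact hs'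
  have hinv := key s' s'.2 hs2
  refine ⟨⟨s', s'.2, hs2, ?_, hinv⟩, ?_⟩
  · intro t ht ht2
    by_contra hne
    have h1 : (s' : G)⁻¹ * t ≠ 1 := by
      intro h
      apply hne
      rw [inv_mul_eq_one] at h
      exact h.symm
    have h2 := hfpf _ (H.mul_mem (H.inv_mem s'.2) ht) h1
    apply hK
    rw [eq_bot_iff, ← h2]
    intro k hk
    refine ⟨hk, Subgroup.mem_centralizer_singleton_iff.mpr ?_⟩
    have e1 := hinv k hk
    have e2 := key t ht ht2 k hk
    have e3 : (s' : G) * k * (s' : G)⁻¹ = t * k * t⁻¹ := by rw [e1, e2]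
    calc k * ((s' : G)⁻¹ * t) = (s' : G)⁻¹ * ((s' : G) * k * (s' : G)⁻¹) * t := by group
      _ = (s' : G)⁻¹ * (t * k * t⁻¹) * t := by rw [e3]
      _ = _ := by group
  · refine ⟨⟨fun a b => ?_⟩⟩
    apply Subtype.ext
    show (a : G) * b = b * a
    have e1 := hinv _ (K.mul_mem a.2 b.2)
    have e2 := hinv _ a.2
    have e3 := hinv _ b.2
    have e4 : (s' : G) * ((a : G) * b) * (s' : G)⁻¹ = ((s' : G) * a * (s' : G)⁻¹) * ((s' : G) * b * (s' : G)⁻¹) := by group
    rw [e1, e2, e3, mul_inv_rev] at e4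
    have := congrArg (·⁻¹) e4
    simpa using this

end Cfsg.Agent.S0068
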