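import Cfsg.Statements.S0070
import Mathlib
import Cfsg.Agent.H1.Coprime3

set_option autoImplicit false
open Cfsg

namespace Cfsg.Agent.S0070

open scoped commutatorElement Pointwise


/-- The Fitting subgroup commutes with passing to the Frattini quotient: the Fitting subgroup of G modulo its Frattini subgroup is the image of the Fitting subgroup of G. -/
theorem result {G : Type*} [Group G] [Finite G] :
    Cfsg.fittingSubgroup (G ⧸ frattini G) = (Cfsg.fittingSubgroup G).map (QuotientGroup.mk' (frattini G)) := by
  set Φ := frattini G with hΦ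
  set π := QuotientGroup.mk' Φ with hπ
  have hsurj : Function.Surjective π := QuotientGroup.mk'_surjective _
  apply le_antisymm
  · -- preimage of F(G/Φ)
    set N := (Cfsg.fittingSubgroup (G ⧸ Φ)).comap π with hN
    have hNm : N.map π = Cfsg.fittingSubgroup (G ⧸ Φ) := Subgroup.map_comap_eq_self_of_surjective hsurj _
    have hnil : Group.IsNilpotent N := by
      apply Cfsg.Agent.H1.isNilpotent_of_map_frattini N
      show Group.IsNilpotent (N.map π)
      rw [hNm]
      exact Cfsg.Agent.L0.fittingSubgroup_isNilpotent _
    rw [← hNm]
    exact Subgroup.map_mono (Cfsg.Agent.L0.le_fittingSubgroup hnil)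
  · haveI : ((Cfsg.fittingSubgroup G).map π).Normal := (Cfsg.Agent.L0.fittingSubgroup_normal G).map π hsurj
    apply Cfsg.Agent.L0.le_fittingSubgroup
    haveI := Cfsg.Agent.L0.fittingSubgroup_isNilpotent G
    exact Group.nilpotent_of_surjective (π.subgroupMap (Cfsg.fittingSubgroup G)) (π.subgroupMap_surjective _)

end Cfsg.Agent.S0070
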