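import Cfsg.Statements.S0073
import Mathlib
import Cfsg.Agent.H1.Transfer

set_option autoImplicit false
open Cfsg

namespace Cfsg.Agent.S0073

open scoped commutatorElement Pointwise


/-- For a finite non-abelian simple group, either the cube of the least prime divisor of the order divides the order, or 12 does. -/
theorem result {G : Type*} [Group G] [Finite G] [IsSimpleGroup G] (hG : ∃ x y : G, x * y ≠ y * x) : (Nat.card G).minFac ^ 3 ∣ Nat.card G ∨ 12 ∣ Nat.card G := by
  classical
  set p := (Nat.card G).minFac with hp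
  have hcard1 : Nat.card G ≠ 1 := by
    intro h
    obtain ⟨x, y, hxy⟩ := hG
    have := (Nat.card_eq_one_iff_unique.mp h).1
    exact hxy (Subsingleton.elim _ _)
  have hpp : p.Prime := Nat.minFac_prime hcard1
  haveI : Fact p.Prime := ⟨hpp⟩
  have hpd : p ∣ Nat.card G := Nat.minFac_dvd _
  by_cases h3 : p ^ 3 ∣ Nat.card G
  · exact Or.inl h3
  right
  obtain ⟨P⟩ : Nonempty (Sylow p G) := inferInstance
  obtain ⟨n, hn⟩ := IsPGroup.iff_card.mp P.isPGroup'
  have hn1 : n ≠ 0 := by
    rintro rfl
    rw [pow_zero] at hn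
    exact P.ne_bot_of_dvd_card hpd (Subgroup.card_eq_one.mp hn)
  have hn3 : n < 3 := by
    by_contra h
    apply h3
    have : p ^ 3 ∣ p ^ n := pow_dvd_pow p (by omega)
    rw [← hn] at this
    exact this.trans (Subgroup.card_subgroup_dvd_card _)
  -- no normal p-complement
  have hno : ¬ Cfsg.HasNormalPComplement p G := by
    intro h
    obtain ⟨N, hN, hc, k, hk⟩ := Cfsg.Agent.H1.hasNormalPComplement_iff.mp h
    rcases hN.eq_bot_or_eq_top with rfl | rfl
    · rw [Subgroup.index_bot] at hk
      have hnil : Group.IsNilpotent G := (IsPGroup.of_card hk).isNilpotent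
      have := IsSimpleGroup.comm_iff_isSolvable.mpr (inferInstance : Group.IsSolvable G)
      obtain ⟨x, y, hxy⟩ := hG
      exact hxy (this x y)
    · rw [Subgroup.card_top] at hc
      exact (Nat.Prime.coprime_iff_not_dvd hpp).mp hc.symm hpd
  by_cases hcyc : IsCyclic P
  · exfalso
    apply hno
    exact ⟨P, _, inferInstance, IsCyclic.isComplement' hp.symm hcyc⟩
  have hn2 : n = 2 := by
    have : n ≠ 1 := by
      rintro rfl
      rw [pow_one] at hn
      exact hcyc (isCyclic_of_prime_card hn)
    omega
  subst hn2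
  have hcomm : IsMulCommutative P := IsPGroup.isMulCommutative_of_card_eq_prime_sq hn
  by_contra h12
  apply hno
  apply Cfsg.Agent.H1.hasNormalPComplement_of_abelian_of_modEq P hcomm 2 hn
  intro q hq hqp hqG k hk hmod
  have hpq : p < q := lt_of_le_of_ne (Nat.minFac_le_of_dvd hq.two_le hqG) (Ne.symm hqp)
  rw [Nat.ModEq.comm, Nat.modEq_iff_dvd' (Nat.pow_le_pow_right hpp.pos hk.le)] at hmod
  have hcases : q ∣ (p - 1) * (p + 1) ∨ q ∣ p * (p - 1) := by
    interval_cases k
    · left
      have : p ^ 2 - p ^ 0 = (p - 1) * (p + 1) := by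
        rw [pow_zero, mul_comm, ← Nat.sq_sub_sq p 1, one_pow]
      rwa [this] at hmod
    · right
      have : p ^ 2 - p ^ 1 = p * (p - 1) := by
        rw [pow_one, Nat.mul_sub, mul_one, pow_two]
      rwa [this] at hmod
  have hp1 : ¬ q ∣ p - 1 := by
    intro h
    have := Nat.le_of_dvd (by have := hpp.two_le; omega) h
    omega
  have hqp1 : q ∣ p + 1 := by
    rcases hcases with h | h
    · rcases hq.dvd_mul.mp h with h | h
      · exact absurd h hp1
      · exact h
    · rcases hq.dvd_mul.mp h with h | h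
      · exact absurd (Nat.le_of_dvd hpp.pos h) (by omega)
      · exact absurd h hp1
  have hqe : q = p + 1 := by
    have := Nat.le_of_dvd (by omega) hqp1
    omega
  have hp2 : p = 2 := by
    rcases hpp.eq_two_or_odd' with h | h
    · exact h
    · exfalso
      obtain ⟨l, hl⟩ := h
      have h2q : 2 ∣ q := ⟨l + 1, by omega⟩
      have := (Nat.prime_dvd_prime_iff_eq Nat.prime_two hq).mp h2q
      have := hpp.two_le
      omega
  have hq3 : q = 3 := by omega
  apply h12
  have h4 : 4 ∣ Nat.card G := by
    have : 4 = Nat.card P := by rw [hn, hp2]; norm_num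
    rw [this]; exact Subgroup.card_subgroup_dvd_card _
  have h3' : 3 ∣ Nat.card G := hq3 ▸ hqG
  exact Nat.Coprime.mul_dvd_of_dvd_of_dvd (by norm_num : Nat.Coprime 4 3) h4 h3'

end Cfsg.Agent.S0073
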