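import Cfsg.Statements.S0076
import Mathlib
import Cfsg.Agent.H1.Basic

set_option autoImplicit false
open Cfsg

namespace Cfsg.Agent.S0076

/-- Two P-invariant subsets of a Sylow p-subgroup P that are conjugate in G are conjugate under the normalizer of P. -/
theorem result {G : Type*} [Group G] [Finite G] {p : ℕ} [Fact p.Prime] (P : Sylow p G) (X Y : Set G) (hXP : X ⊆ P) (hYP : Y ⊆ P) (hX : ∀ x ∈ P, (fun y => x * y * x⁻¹) '' X = X) (hY : ∀ x ∈ P, (fun y => x * y * x⁻¹) '' Y = Y) (g : G) (hg : (fun y => g * y * g⁻¹) '' X = Y) : ∃ n ∈ Subgroup.normalizer (P : Set G), (fun y => n * y * n⁻¹) '' X = Y := by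
  -- S = setwise stabilizer of Y under conjugation
  let S : Subgroup G :=
    { carrier := {s | (fun y => s * y * s⁻¹) '' Y = Y}
      one_mem' := by simp
      mul_mem' := by
        intro a b ha hb
        simp only [Set.mem_setOf_eq] at ha hb ⊢
        have : (fun y => a * b * y * (a * b)⁻¹) = (fun y => a * y * a⁻¹) ∘ (fun y => b * y * b⁻¹) := by
          funext y; simp only [Function.comp]; group
        rw [this, Set.image_comp, hb, ha]
      inv_mem' := by
        intro a ha
        simp only [Set.mem_setOf_eq] at ha ⊢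
        conv_lhs => rw [← ha]
        rw [← Set.image_comp]
        have : ((fun y => a⁻¹ * y * a⁻¹⁻¹) ∘ (fun y => a * y * a⁻¹)) = id := by
          funext y; simp only [Function.comp, id]; group
        rw [this, Set.image_id] }
  have hPS : (P : Subgroup G) ≤ S := fun x hx => hY x hx
  have hgPS : ((g • P : Sylow p G) : Subgroup G) ≤ S := by
    intro z hz
    have hx : g⁻¹ * z * g ∈ P := Cfsg.Agent.H1.mem_smul_sylow.mp hz
    obtain ⟨x, hx', rfl⟩ : ∃ x, x ∈ P ∧ z = g * x * g⁻¹ := ⟨_, hx, by group⟩
    clear hx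
    rename' hx' => hx
    show (fun y => (g * x * g⁻¹) * y * (g * x * g⁻¹)⁻¹) '' Y = Y
    have h1 : (fun y => (g * x * g⁻¹) * y * (g * x * g⁻¹)⁻¹) =
      (fun y => g * y * g⁻¹) ∘ (fun y => x * y * x⁻¹) ∘ (fun y => g⁻¹ * y * g) := by
        funext y; simp only [Function.comp]
        group
    rw [h1, Set.image_comp, Set.image_comp]
    have h2 : (fun y => g⁻¹ * y * g) '' Y = X := by
      rw [← hg, ← Set.image_comp]
      have : ((fun y => g⁻¹ * y * g) ∘ (fun y => g * y * g⁻¹)) = id := by
        funext y; simp only [Function.comp, id]; group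
      rw [this, Set.image_id]
    rw [h2, hX x hx, hg]
  obtain ⟨s, hs⟩ := MulAction.exists_smul_eq S ((g • P : Sylow p G).subtype hgPS) (P.subtype hPS)
  simp_rw [Sylow.smul_subtype, Subgroup.smul_def, smul_smul] at hs
  refine ⟨s * g, Sylow.smul_eq_iff_mem_normalizer.mp (Sylow.subtype_injective hs), ?_⟩
  have : (fun y => (s : G) * g * y * ((s : G) * g)⁻¹) = (fun y => (s : G) * y * (s : G)⁻¹) ∘ (fun y => g * y * g⁻¹) := by
    funext y; simp only [Function.comp]; group
  rw [this, Set.image_comp, hg]
  exact s.2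

end Cfsg.Agent.S0076
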