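import Cfsg.Statements.S0077
import Mathlib
import Cfsg.Agent.H1.Transfer

set_option autoImplicit false
open Cfsg

namespace Cfsg.Agent.S0077

open scoped commutatorElement


/-- If a subgroup Z of the centre of a Sylow p-subgroup P is weakly closed in P, then P meets the derived subgroup of G exactly where it meets the derived subgroup of the normalizer of Z. -/
theorem result {G : Type*} [Group G] [Finite G] {p : ℕ} [Fact p.Prime] (P : Sylow p G) (Z : Subgroup G) (hZ : Z ≤ Subgroup.centralizer (P : Set G)) (hW : Cfsg.IsWeaklyClosed Z P) : commutator G ⊓ (P : Subgroup G) = ⁅Subgroup.normalizer (Z : Set G), Subgroup.normalizer (Z : Set G)⁆ ⊓ (P : Subgroup G) := by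
  have hPZ : (P : Subgroup G) ≤ Subgroup.centralizer (Z : Set G) := by
    rw [Subgroup.le_centralizer_iff]; exact hZ
  have hPN : (P : Subgroup G) ≤ Subgroup.normalizer (Z : Set G) := hPZ.trans (Subgroup.centralizer_le_normalizer _)
  have hZP : Z ≤ (P : Subgroup G) := hW.1
  have hpZ : IsPGroup p Z := P.isPGroup'.to_le hZP
  apply le_antisymm
  · refine le_inf ?_ inf_le_right
    apply Cfsg.Agent.H1.commutator_inf_le
    intro x hx u hu
    -- Z and u⁻¹ Z u are in C(x)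
    set C := Subgroup.centralizer ({x} : Set G) with hC
    have h1 : Z ≤ C := by
      intro z hz
      rw [hC, Subgroup.mem_centralizer_singleton_iff]
      exact ((Subgroup.mem_centralizer_iff.mp (hPZ hx)) z hz)
    set Z' := Z.map (MulAut.conj u⁻¹).toMonoidHom with hZ'
    have h2 : Z' ≤ C := by
      rintro _ ⟨z, hz, rfl⟩
      rw [hC, Subgroup.mem_centralizer_singleton_iff]
      show (u⁻¹ * z * u⁻¹⁻¹) * x = x * (u⁻¹ * z * u⁻¹⁻¹)
      have h3 : z * (u * x * u⁻¹) = (u * x * u⁻¹) * z := (Subgroup.mem_centralizer_iff.mp (hPZ hu)) z hz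
      calc (u⁻¹ * z * u⁻¹⁻¹) * x = u⁻¹ * (z * (u * x * u⁻¹)) * u := by group
        _ = u⁻¹ * ((u * x * u⁻¹) * z) * u := by rw [h3]
        _ = x * (u⁻¹ * z * u⁻¹⁻¹) := by group
    have hpZ' : IsPGroup p Z' := hpZ.map _
    obtain ⟨Q1, hQ1⟩ := (hpZ.comap_of_injective C.subtype C.subtype_injective).exists_le_sylow
    obtain ⟨Q2, hQ2⟩ := (hpZ'.comap_of_injective C.subtype C.subtype_injective).exists_le_sylow
    obtain ⟨c, hc⟩ := MulAction.exists_smul_eq C Q1 Q2
    -- Q1 as a subgroup of G is contained in a conjugate of P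
    have hpQ1 : IsPGroup p ((Q1 : Subgroup C).map C.subtype) := Q1.isPGroup'.map _
    obtain ⟨R, hR⟩ := hpQ1.exists_le_sylow
    obtain ⟨g, hg⟩ := MulAction.exists_smul_eq G P R
    have wc : ∀ v : G, (∀ z ∈ Z, v * z * v⁻¹ ∈ P) → v ∈ Subgroup.normalizer (Z : Set G) := by
      intro v hv
      have h4 := hW.2 v (by rintro _ ⟨z, hz, rfl⟩; exact hv z hz)
      apply Cfsg.Agent.H1.mem_normalizer_of_conj_mem
      intro z hz
      rw [← h4]; exact ⟨z, hz, rfl⟩
    have hgN : g⁻¹ ∈ Subgroup.normalizer (Z : Set G) := by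
      apply wc
      intro z hz
      have h5 : z ∈ R := hR ⟨⟨z, h1 hz⟩, hQ1 hz, rfl⟩
      rw [← hg, Cfsg.Agent.H1.mem_smul_sylow] at h5
      simpa using h5
    have hcN : g⁻¹ * (c : G)⁻¹ * u⁻¹ ∈ Subgroup.normalizer (Z : Set G) := by
      apply wc
      intro z hz
      have h6 : u⁻¹ * z * u⁻¹⁻¹ ∈ Z' := ⟨z, hz, rfl⟩
      have h7 : (⟨u⁻¹ * z * u⁻¹⁻¹, h2 h6⟩ : C) ∈ Q2 := hQ2 h6
      rw [← hc, Cfsg.Agent.H1.mem_smul_sylow] at h7
      have h8 : ((c : G)⁻¹ * (u⁻¹ * z * u⁻¹⁻¹) * c) ∈ R := hR ⟨_, h7, rfl⟩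
      rw [← hg, Cfsg.Agent.H1.mem_smul_sylow] at h8
      have h9 : g⁻¹ * (c : G)⁻¹ * u⁻¹ * z * (g⁻¹ * (c : G)⁻¹ * u⁻¹)⁻¹ = g⁻¹ * ((c : G)⁻¹ * (u⁻¹ * z * u⁻¹⁻¹) * c) * g := by group
      rw [h9]; exact h8
    have hucN : u * c ∈ Subgroup.normalizer (Z : Set G) := by
      have h10 : u * c = (g⁻¹ * (c : G)⁻¹ * u⁻¹)⁻¹ * g⁻¹ := by group
      rw [h10]; exact Subgroup.mul_mem _ (Subgroup.inv_mem _ hcN) hgN
    have h11 : u * x * u⁻¹ = (u * c) * x * (u * c)⁻¹ := by
      have : (c : G) * x = x * c := Subgroup.mem_centralizer_singleton_iff.mp c.2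
      calc u * x * u⁻¹ = u * (x * c) * (c : G)⁻¹ * u⁻¹ := by group
        _ = u * (c * x) * (c : G)⁻¹ * u⁻¹ := by rw [this]
        _ = _ := by group
    rw [Cfsg.Agent.H1.commutator_eq_of_conj_eq h11]
    exact Subgroup.commutator_mem_commutator (hPN hx) hucN
  · exact inf_le_inf_right _ (Subgroup.commutator_mono le_top le_top)

end Cfsg.Agent.S0077
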