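import Cfsg.Statements.S0078
import Cfsg.Agent.H6.SCh
import Cfsg.Agent.H6.CharP
import Cfsg.Agent.L0.Fus.App
import Mathlib

set_option autoImplicit false
open Cfsg

namespace Cfsg.Agent.S0078

open Cfsg.Agent.L0 Cfsg.Agent.H6 Cfsg.Agent.L0.Fus

variable {G : Type*} [Group G] [Finite G] {p : ℕ} [Fact p.Prime]

def zz (R : Subgroup G) : Subgroup G := R ⊓ Subgroup.centralizer (R : Set G)

theorem zz_cj (g : G) (R : Subgroup G) : zz (cj g R) = cj g (zz R) := by
  unfold zz; rw [cj_inf, cj_centralizer]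

theorem control (P : Sylow p G) (hn : ∀ Q : Sylow p G, zz (P : Subgroup G) ≤ (Q : Subgroup G) → zz (Q : Subgroup G) = zz (P : Subgroup G))
    {Q : Subgroup G} (hQ : Q ≤ (P : Subgroup G)) {g : G} (hg : cj g Q ≤ (P : Subgroup G)) :
    ∃ h ∈ Subgroup.normalizer (zz (P : Subgroup G) : Set G), ∃ c ∈ Subgroup.centralizer (Q : Set G), g = h * c := by
  set Z := zz (P : Subgroup G) with hZ
  have hZP : Z ≤ (P : Subgroup G) := inf_le_left
  have hZc : Z ≤ Subgroup.centralizer (P : Set G) := inf_le_right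
  have h1 : Z ≤ Subgroup.centralizer (Q : Set G) := hZc.trans (Subgroup.centralizer_le hQ)
  have h2 : cj g⁻¹ Z ≤ Subgroup.centralizer (Q : Set G) := by
    have h3 : Z ≤ Subgroup.centralizer ((cj g Q : Subgroup G) : Set G) := hZc.trans (Subgroup.centralizer_le hg)
    rw [← cj_centralizer, le_cj_iff] at h3
    exact h3
  have hZp : IsPGroup p Z := P.2.to_le hZP
  obtain ⟨T, hT, hZT⟩ := exists_sylIn_ge hZp h1
  obtain ⟨c, hc, hcT⟩ := hT.exists_conj_le (isPGroup_cj (g := g⁻¹) hZp) h2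
  obtain ⟨R, hTR⟩ := hT.2.1.exists_le_sylow
  have h4 : zz (R : Subgroup G) = Z := hn R (hZT.trans hTR)
  set h := g * c⁻¹ with hh
  have h5 : Z ≤ ((h • R : Sylow p G) : Subgroup G) := by
    rw [smul_sylow_coe, le_cj_iff]
    have e : h⁻¹ = c * g⁻¹ := by rw [hh]; group
    rw [e, cj_mul]
    exact hcT.trans hTR
  have h6 := hn _ h5
  rw [smul_sylow_coe, zz_cj, h4] at h6
  refine ⟨h, mem_norm.2 h6, c, hc, by rw [hh]; group⟩

/-- In a p-normal group, a Sylow p-subgroup P meets O^p(G) exactly where it meets O^p(V), for any subgroup V containing the normalizer of the centre of P. -/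
theorem result {G : Type*} [Group G] [Finite G] {p : ℕ} [Fact p.Prime] (P : Sylow p G) (hn : ∀ Q : Sylow p G, (P : Subgroup G) ⊓ Subgroup.centralizer (P : Set G) ≤ (Q : Subgroup G) → (Q : Subgroup G) ⊓ Subgroup.centralizer (Q : Set G) = (P : Subgroup G) ⊓ Subgroup.centralizer (P : Set G)) (V : Subgroup G) (hV : Subgroup.normalizer (((P : Subgroup G) ⊓ Subgroup.centralizer (P : Set G) : Subgroup G) : Set G) ≤ V) : (P : Subgroup G) ⊓ Cfsg.pResidual p G = (P : Subgroup G) ⊓ (Cfsg.pResidual p V).map V.subtype := by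
  have hn' : ∀ Q : Sylow p G, zz (P : Subgroup G) ≤ (Q : Subgroup G) → zz (Q : Subgroup G) = zz (P : Subgroup G) := hn
  have hPV : (P : Subgroup G) ≤ V := by
    refine le_trans ?_ hV
    intro x hx
    have h1 : x ∈ Subgroup.normalizer ((P : Subgroup G) : Set G) := Subgroup.le_normalizer hx
    exact mem_norm.2 (by
      show cj x (zz (P : Subgroup G)) = zz (P : Subgroup G)
      rw [← zz_cj, mem_norm.1 h1])
  apply le_antisymm
  · refine le_inf inf_le_left ?_
    rw [← hyperfocal_group]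
    unfold FusionSystem.hyperfocalSubgroup
    rw [Subgroup.closure_le]
    rintro _ ⟨Q, α, x, hQ, hα, rfl⟩
    let N := Subgroup.normalizer (Q : Set G) ⊓ V
    have hA : (groupFusionSystem (P : Subgroup G)).autGroup Q = autInducedBy ⊤ Q := by
      rw [groupFusionSystem_eq]; exact autGroup_fso hQ
    let f0 : N →* MulAut Q := Q.normalizerMonoidHom.comp (Subgroup.inclusion inf_le_left)
    have hf0 : ∀ (g : N) (x : Q), ((f0 g x : Q) : G) = g * x * (g : G)⁻¹ := fun g x => rfl
    have hmem : ∀ g : N, f0 g ∈ (groupFusionSystem (P : Subgroup G)).autGroup Q := by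
      intro g; rw [hA]; exact mem_autInducedBy.mpr ⟨g, trivial, fun x => rfl⟩
    let f : N →* (groupFusionSystem (P : Subgroup G)).autGroup Q := f0.codRestrict _ hmem
    have hf : Function.Surjective f := by
      rintro ⟨β, hβ⟩
      have hβ' := hβ
      rw [hA, mem_autInducedBy] at hβ'
      obtain ⟨g, -, hg⟩ := hβ'
      have hgN := mem_normalizer_of_induced hg
      obtain ⟨h, hh, c, hc, hgc⟩ := control P hn' hQ (g := g) (by rw [mem_norm.1 hgN]; exact hQ)
      have hcN : c ∈ Subgroup.normalizer (Q : Set G) := H6.centralizer_le_norm Q hc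
      have hhe : h = g * c⁻¹ := by rw [hgc]; group
      have hhN : h ∈ Subgroup.normalizer (Q : Set G) := by rw [hhe]; exact Subgroup.mul_mem _ hgN (Subgroup.inv_mem _ hcN)
      refine ⟨⟨h, hhN, hV hh⟩, ?_⟩
      apply Subtype.ext
      ext x
      show h * x * h⁻¹ = _
      rw [hg x, hhe]
      have h1 : c⁻¹ * (x : G) * c = x := by
        have := Subgroup.mem_centralizer_iff.1 hc x x.2
        rw [mul_assoc, this]; group
      calc g * c⁻¹ * (x : G) * (g * c⁻¹)⁻¹ = g * (c⁻¹ * (x : G) * c) * g⁻¹ := by group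
        _ = g * x * g⁻¹ := by rw [h1]
    have h1 := map_pResidual_eq (p := p) f hf
    rw [← h1] at hα
    obtain ⟨g, hg, rfl⟩ := hα
    have hgr : (g : G) ∈ (pResidual p V).map V.subtype := by
      have h2 := pResidual_map_le (p := p) (Subgroup.inclusion (inf_le_right : N ≤ V)) ⟨g, hg, rfl⟩
      exact ⟨_, h2, rfl⟩
    change (x : G)⁻¹ * ((g : G) * x * (g : G)⁻¹) ∈ (pResidual p V).map V.subtype
    have e : (x : G)⁻¹ * ((g : G) * x * (g : G)⁻¹) = ((x : G)⁻¹ * g * ((x : G)⁻¹)⁻¹) * (g : G)⁻¹ := by group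
    rw [e]
    refine Subgroup.mul_mem _ ?_ (Subgroup.inv_mem _ hgr)
    obtain ⟨v, hv, hvg⟩ := hgr
    have hxV : (x : G) ∈ V := hPV (hQ x.2)
    refine ⟨(⟨x, hxV⟩ : V)⁻¹ * v * ((⟨x, hxV⟩ : V)⁻¹)⁻¹, (inferInstance : (pResidual p V).Normal).conj_mem _ hv _, ?_⟩
    rw [map_mul, map_mul, map_inv, map_inv, hvg]; rfl
  · refine inf_le_inf_left _ ?_
    exact pResidual_map_le V.subtype

end Cfsg.Agent.S0078
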