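import Cfsg.Statements.S0079
import Cfsg.Agent.H2.SmallF
import Cfsg.Agent.H1.FrobPC
import Cfsg.Agent.H6.PNil
import Mathlib

set_option autoImplicit false
open Cfsg

namespace Cfsg.Agent.S0079

open Cfsg.Agent.L0 Cfsg.Agent.H6 Cfsg.Agent.H2

variable {G : Type*} [Group G] [Finite G]

theorem fixes_of_chain {p : ℕ} [Fact p.Prime] {H Q : Subgroup G} (hQ : IsPGroup p Q) {g : G}
    (hg : g ∈ Subgroup.normalizer (Q : Set G)) (ho : (orderOf g).Coprime p)
    (hf : ∀ u ∈ Q, ∃ h ∈ H, h * u * h⁻¹ = g * u * g⁻¹) :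
    ∀ i, ∀ u ∈ Q, u ∈ zser H i → g * u * g⁻¹ = u := by
  intro i
  induction i with
  | zero =>
    intro u _ hu
    rw [zser_zero, Subgroup.mem_bot] at hu
    rw [hu]; group
  | succ i ih =>
    intro u huQ hu
    obtain ⟨h, hh, hhu⟩ := hf u huQ
    have h1 := zser_comm (S := H) i hu hh
    rw [hhu] at h1
    set c := u⁻¹ * (g * u * g⁻¹) with hc
    have hcQ : c ∈ Q := Q.mul_mem (Q.inv_mem huQ) ((Subgroup.mem_normalizer_iff.1 hg u).1 huQ)
    have hcf : g * c * g⁻¹ = c := ih c hcQ h1
    have key : ∀ k : ℕ, g ^ k * u * (g ^ k)⁻¹ = u * c ^ k := by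
      intro k
      induction k with
      | zero => simp
      | succ k ihk =>
        have e : g ^ (k + 1) * u * (g ^ (k + 1))⁻¹ = g * (g ^ k * u * (g ^ k)⁻¹) * g⁻¹ := by
          rw [pow_succ']; group
        rw [e, ihk]
        have e2 : g * (u * c ^ k) * g⁻¹ = (g * u * g⁻¹) * (g * c * g⁻¹) ^ k := by
          rw [conj_pow]; group
        rw [e2, hcf]
        have e3 : g * u * g⁻¹ = u * c := by rw [hc]; group
        rw [e3, pow_succ', mul_assoc]
    have h2 := key (orderOf g)
    rw [pow_orderOf_eq_one] at h2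
    have h3 : c ^ orderOf g = 1 := by
      have : u * c ^ orderOf g = u * 1 := by rw [← h2]; group
      exact mul_left_cancel this
    obtain ⟨a, ha⟩ := hQ ⟨c, hcQ⟩
    have ha' : c ^ p ^ a = 1 := by simpa using congrArg Subtype.val ha
    have h4 := orderOf_eq_one_iff.1 (Nat.eq_one_of_dvd_coprimes
      (Nat.Coprime.pow_right a ho) (orderOf_dvd_of_pow_eq_one h3) (orderOf_dvd_of_pow_eq_one ha'))
    have e3 : g * u * g⁻¹ = u * c := by rw [hc]; group
    rw [e3, h4, mul_one]

/-- A nilpotent Hall subgroup has a normal complement exactly when elements of it that are conjugate in the whole group are already conjugate inside it. -/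
theorem result {G : Type*} [Group G] [Finite G] (H : Subgroup G) (hH : Group.IsNilpotent H) (hHall : Nat.Coprime (Nat.card H) H.index) : (∃ N : Subgroup G, N.Normal ∧ N.IsComplement' H) ↔ ∀ x ∈ H, ∀ y ∈ H, (∃ g : G, g * x * g⁻¹ = y) → ∃ h ∈ H, h * x * h⁻¹ = y := by
  constructor
  · rintro ⟨N, hN, hc⟩ x hx y hy ⟨g, hg⟩
    obtain ⟨⟨n, h⟩, hnh⟩ := hc.2 g
    have hnh' : (n : G) * (h : G) = g := hnh
    refine ⟨h, h.2, ?_⟩
    have h1 : y * ((h : G) * x * (h : G)⁻¹)⁻¹ ∈ N ⊓ H := by
      refine ⟨?_, H.mul_mem hy (H.inv_mem (H.mul_mem (H.mul_mem h.2 hx) (H.inv_mem h.2)))⟩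
      have e : y * ((h : G) * x * (h : G)⁻¹)⁻¹ = (n : G) * (((h : G) * x * (h : G)⁻¹) * (n : G)⁻¹ * ((h : G) * x * (h : G)⁻¹)⁻¹) := by
        rw [← hg, ← hnh']; group
      rw [e]
      exact N.mul_mem n.2 (hN.conj_mem _ (N.inv_mem n.2) _)
    rw [hc.disjoint.eq_bot, Subgroup.mem_bot] at h1
    exact (mul_inv_eq_one.1 h1).symm
  · intro hf
    classical
    have hzt : zser H (Group.nilpotencyClass ↥H) = H := by
      unfold zser
      rw [Subgroup.upperCentralSeries_nilpotencyClass, ← MonoidHom.range_eq_map, Subgroup.range_subtype]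
    have hPN : ∀ p : ℕ, ∀ [Fact p.Prime], p ∣ Nat.card H → PN p (⊤ : Subgroup G) := by
      intro p hp hpd
      rw [← npc_iff]
      apply Cfsg.Agent.H1.frobenius_criterion
      intro Q hQ g hg ho
      obtain ⟨P, hP⟩ := exists_sylIn (p := p) H
      have hPt : SylIn p P (⊤ : Subgroup G) := by
        refine ⟨le_top, hP.2.1, ?_⟩
        rw [Subgroup.relIndex_top_right, ← Subgroup.relIndex_mul_index hP.1]
        intro hd
        rcases (Nat.Prime.dvd_mul Fact.out).1 hd with h | h
        · exact hP.2.2 h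
        · exact (Nat.Prime.coprime_iff_not_dvd (Fact.out : p.Prime)).1 (Nat.Coprime.coprime_dvd_left hpd hHall) h
      obtain ⟨x, -, hx⟩ := hPt.exists_conj_le hQ le_top
      have hQ' : cj x Q ≤ H := hx.trans hP.1
      have hg' : x * g * x⁻¹ ∈ Subgroup.normalizer ((cj x Q : Subgroup G) : Set G) := by
        rw [← cj_normalizer]; exact conj_mem_cj hg
      have ho' : (orderOf (x * g * x⁻¹)).Coprime p := by
        have : orderOf (x * g * x⁻¹) = orderOf g :=
          orderOf_injective (MulAut.conj x).toMonoidHom (MulAut.conj x).injective g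
        rw [this]; exact ho
      have h1 := fixes_of_chain (H := H) (isPGroup_cj (g := x) hQ) hg' ho' (by
        intro u hu
        exact hf u (hQ' hu) _ (hQ' ((Subgroup.mem_normalizer_iff.1 hg' u).1 hu)) ⟨_, rfl⟩) (Group.nilpotencyClass ↥H)
      rw [hzt] at h1
      rw [Subgroup.mem_centralizer_iff]
      intro u hu
      have h2 := h1 (x * u * x⁻¹) (conj_mem_cj hu) (hQ' (conj_mem_cj hu))
      have h3 : x * (g * u * g⁻¹) * x⁻¹ = x * u * x⁻¹ := by rw [← h2]; group
      have h4 := mul_left_cancel (mul_right_cancel h3)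
      exact (mul_inv_eq_iff_eq_mul.1 h4).symm
    let ι := {q : ℕ // q.Prime ∧ q ∣ Nat.card H}
    let K : ι → Subgroup G := fun q => opR q.1 (⊤ : Subgroup G)
    have hKn : ∀ q : ι, (K q).Normal := by
      intro q
      have := le_norm_opR (p := q.1) (⊤ : Subgroup G)
      rw [top_le_iff] at this
      exact Subgroup.normalizer_eq_top_iff.1 this
    let N : Subgroup G := ⨅ q, K q
    have hNn : N.Normal := Subgroup.normal_iInf_normal hKn
    have hdis : N ⊓ H = ⊥ := by
      rw [eq_bot_iff]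
      intro x hx
      by_contra hx1
      have h1 : orderOf x ≠ 1 := fun h => hx1 (Subgroup.mem_bot.2 (orderOf_eq_one_iff.1 h))
      obtain ⟨q, hq, hqd⟩ := Nat.exists_prime_and_dvd h1
      haveI : Fact q.Prime := ⟨hq⟩
      have h2 : q ∣ Nat.card H := hqd.trans (Subgroup.orderOf_dvd_natCard H hx.2)
      have h3 : x ∈ K ⟨q, hq, h2⟩ := (Subgroup.mem_iInf.1 hx.1) ⟨q, hq, h2⟩
      have h4 := hPN q h2
      have h5 : q ∣ Nat.card ↥(opR q (⊤ : Subgroup G)) := hqd.trans (Subgroup.orderOf_dvd_natCard _ h3)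
      exact (hq.coprime_iff_not_dvd.1 (Nat.Coprime.symm h4)) h5
    have hcop : N.index.Coprime H.index := by
      refine Nat.coprime_of_dvd fun r hr hrN hrH => ?_
      haveI : Fact r.Prime := ⟨hr⟩
      have hrH' : ¬ r ∣ Nat.card H := fun h => (hr.coprime_iff_not_dvd.1 (Nat.Coprime.coprime_dvd_left h hHall)) hrH
      obtain ⟨R⟩ : Nonempty (Sylow r G) := inferInstance
      have hRN : (R : Subgroup G) ≤ N := by
        refine le_iInf fun q => ?_
        intro x hx
        obtain ⟨a, ha⟩ := R.2 ⟨x, hx⟩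
        have ha' : x ^ r ^ a = 1 := by simpa using congrArg Subtype.val ha
        refine mem_opR (Subgroup.mem_top x) ?_
        have hne : r ≠ q.1 := fun h => hrH' (h ▸ q.2.2)
        exact Nat.Coprime.coprime_dvd_left (orderOf_dvd_of_pow_eq_one ha')
          (Nat.Coprime.pow_left a ((Nat.coprime_primes hr q.2.1).2 hne))
      exact R.not_dvd_index (hrN.trans (Subgroup.index_dvd_of_le hRN))
    have hd1 : N.index ∣ Nat.card H := by
      have h1 : N.index ∣ Nat.card H * H.index := by
        rw [Subgroup.card_mul_index]; exact Subgroup.index_dvd_card N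
      exact Nat.Coprime.dvd_of_dvd_mul_right hcop h1
    have hd2 : Nat.card H ∣ N.index := by
      have h1 : N.relIndex H = Nat.card H := by
        rw [← Subgroup.inf_relIndex_right, hdis, Subgroup.relIndex_bot_left]
      rw [← h1]
      exact Subgroup.relIndex_dvd_index_of_normal N H
    refine ⟨N, hNn, Subgroup.isComplement'_of_card_mul_and_disjoint ?_ (disjoint_iff.2 hdis)⟩
    rw [Nat.dvd_antisymm hd2 hd1, Subgroup.card_mul_index]

end Cfsg.Agent.S0079
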