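import Cfsg.Statements.S0080
import Mathlib
import Cfsg.Agent.H1.Transfer

set_option autoImplicit false
open Cfsg

namespace Cfsg.Agent.S0080

open scoped commutatorElement IsMulCommutative


/-- When the index of H is prime to the order of H/H', the focal subgroup of H is G' ∩ H, and H/(G' ∩ H) has a normal complement. -/
theorem result {G : Type*} [Group G] [Finite G] (H : Subgroup G) (h : Nat.Coprime H.index (⁅H, H⁆.relIndex H)) : Subgroup.focalSubgroup H = commutator G ⊓ H ∧ ∃ N : Subgroup G, N.Normal ∧ N ⊓ H = commutator G ⊓ H ∧ N ⊔ H = ⊤ := by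
  have hcard : Nat.Coprime H.index (Nat.card (H ⧸ Subgroup.focalSubgroupOf H)) := by
    have h1 : Nat.card (H ⧸ Subgroup.focalSubgroupOf H) ∣ ⁅H, H⁆.relIndex H := by
      rw [← Subgroup.index_eq_card]
      apply Subgroup.index_dvd_of_le
      intro x hx
      exact Subgroup.commutator_le_focalSubgroup H hx
    exact Nat.Coprime.coprime_dvd_right h1 h
  have hbij : Function.Bijective (fun y : H ⧸ Subgroup.focalSubgroupOf H => y ^ H.index) :=
    (powCoprime hcard.symm).bijective
  have hker : (Subgroup.transferFocal H).ker ⊓ H = Subgroup.focalSubgroup H := by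
    rw [← Subgroup.subgroupOf_map_subtype, ← Subgroup.map_focalSubgroupOf]
    congr 1
    ext x
    rw [Subgroup.mem_subgroupOf, MonoidHom.mem_ker, Subgroup.transferFocal_eq_pow]
    constructor
    · intro hx
      have : (x : H ⧸ Subgroup.focalSubgroupOf H) = 1 := hbij.1 (by simpa using hx)
      simpa using this
    · intro hx
      have : (x : H ⧸ Subgroup.focalSubgroupOf H) = 1 := by simpa using hx
      rw [this, one_pow]
  have heq : Subgroup.focalSubgroup H = commutator G ⊓ H := by
    apply le_antisymm
    · exact le_inf (Subgroup.focalSubgroup_le_commutator H) (Subgroup.focalSubgroup_le H)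
    · rw [← hker]
      exact inf_le_inf_right _ (Abelianization.commutator_subset_ker _)
  refine ⟨heq, (Subgroup.transferFocal H).ker, inferInstance, by rw [hker, heq], ?_⟩
  rw [eq_top_iff]
  intro g _
  obtain ⟨y, hy⟩ := hbij.2 (Subgroup.transferFocal H g)
  obtain ⟨x, rfl⟩ := QuotientGroup.mk'_surjective _ y
  have h3 : Subgroup.transferFocal H (x : G) = Subgroup.transferFocal H g := by
    rw [Subgroup.transferFocal_eq_pow]; exact hy
  have h4 : g * (x : G)⁻¹ ∈ (Subgroup.transferFocal H).ker := by
    rw [MonoidHom.mem_ker, map_mul, map_inv, h3, mul_inv_cancel]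
  have h5 : g = (g * (x : G)⁻¹) * x := by group
  rw [h5]
  exact Subgroup.mul_mem _ (Subgroup.mem_sup_left h4) (Subgroup.mem_sup_right x.2)

end Cfsg.Agent.S0080
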