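import Cfsg.Statements.S0083
import Mathlib
import Cfsg.Agent.H1.Transfer

set_option autoImplicit false
open Cfsg

namespace Cfsg.Agent.S0083

open scoped commutatorElement

/-- For an abelian Sylow p-subgroup P, a normal p-complement exists exactly when the normalizer of P is an internal direct product of P with some subgroup. -/
theorem result {G : Type*} [Group G] [Finite G] {p : ℕ} [Fact p.Prime] (P : Sylow p G) (hP : IsMulCommutative P) : Cfsg.HasNormalPComplement p G ↔ ∃ Q : Subgroup G, Q ≤ Subgroup.centralizer (P : Set G) ∧ Q ⊓ (P : Subgroup G) = ⊥ ∧ Q ⊔ (P : Subgroup G) = Subgroup.normalizer (P : Set G) := by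
  constructor
  · intro h
    obtain ⟨N, hN, hc, k, hk⟩ := Cfsg.Agent.H1.hasNormalPComplement_iff.mp h
    have hd : N ⊓ (P : Subgroup G) = ⊥ := by
      obtain ⟨m, hm⟩ := IsPGroup.iff_card.mp P.isPGroup'
      exact Subgroup.inf_eq_bot_of_coprime (by rw [hm]; exact Nat.Coprime.pow_right m hc)
    have hsup : N ⊔ (P : Subgroup G) = ⊤ := by
      rw [← Subgroup.index_eq_one]
      by_contra hne
      obtain ⟨q, hq, hqd⟩ := Nat.exists_prime_and_dvd hne
      have h1 := hqd.trans (Subgroup.index_dvd_of_le (le_sup_left : N ≤ N ⊔ P))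
      have h2 := hqd.trans (Subgroup.index_dvd_of_le (le_sup_right : (P : Subgroup G) ≤ N ⊔ P))
      rw [hk] at h1
      have := (Nat.prime_dvd_prime_iff_eq hq (Fact.out : p.Prime)).mp (hq.dvd_of_dvd_pow h1)
      subst this
      exact P.not_dvd_index h2
    refine ⟨N ⊓ Subgroup.normalizer (P : Set G), ?_, ?_, ?_⟩
    · show _ ≤ Subgroup.centralizer ((P : Subgroup G) : Set G)
      rw [Subgroup.le_centralizer_iff]
      intro x hx y hy
      have h1 : ⁅x, y⁆ ∈ N ⊓ (P : Subgroup G) := by
        constructor
        · exact Subgroup.commutator_le_right (⊤ : Subgroup G) N (Subgroup.commutator_mem_commutator (Subgroup.mem_top x) hy.1)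
        · exact (Subgroup.le_normalizer_iff_commutator_le_left (K := (P : Subgroup G)) (H := Subgroup.normalizer (P : Set G))).mp le_rfl (Subgroup.commutator_mem_commutator hx hy.2)
      rw [hd, Subgroup.mem_bot, commutatorElement_eq_one_iff_mul_comm] at h1
      exact h1.symm
    · rw [inf_assoc, inf_comm (Subgroup.normalizer (P : Set G)), ← inf_assoc, hd, bot_inf_eq]
    · apply le_antisymm
      · exact sup_le inf_le_right Subgroup.le_normalizer
      · intro x hx
        have : x ∈ N ⊔ (P : Subgroup G) := by rw [hsup]; trivial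
        rw [Subgroup.mem_sup_of_normal_left] at this
        obtain ⟨n, hn, y, hy, rfl⟩ := this
        apply Subgroup.mul_mem
        · apply Subgroup.mem_sup_left
          refine ⟨hn, ?_⟩
          have h3 := Subgroup.mul_mem _ hx (Subgroup.inv_mem _ (Subgroup.le_normalizer hy))
          simpa using h3
        · exact Subgroup.mem_sup_right hy
  · rintro ⟨Q, hQC, -, hQP⟩
    apply Cfsg.Agent.H1.hasNormalPComplement_of_normalizer_le_centralizer P
    rw [← hQP]
    exact sup_le hQC (Subgroup.le_centralizer_iff_isMulCommutative.mpr hP)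

end Cfsg.Agent.S0083
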