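import Cfsg.Statements.S0084
import Mathlib
import Cfsg.Agent.H1.Transfer

set_option autoImplicit false
open Cfsg

namespace Cfsg.Agent.S0084

open scoped commutatorElement


/-- A group whose Sylow 2-subgroups are Klein four-groups and whose order is prime to 3 has a normal 2-complement. -/
theorem result {G : Type*} [Group G] [Finite G] (T : Sylow 2 G) (hT : IsKleinFour T) (h3 : ¬ 3 ∣ Nat.card G) : Cfsg.HasNormalPComplement 2 G := by
  have hcard : Nat.card T = 2 ^ 2 := by rw [hT.card_four]; norm_num
  have hcomm : IsMulCommutative T := ⟨⟨fun a b => by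
    have := hT
    exact IsKleinFour.isMulCommutative.is_comm.comm a b⟩⟩
  apply Cfsg.Agent.H1.hasNormalPComplement_of_abelian_of_modEq T hcomm 2 hcard
  intro q hq hq2 hqG k hk hmod
  have hq3 : q ≠ 3 := fun h => h3 (h ▸ hqG)
  rw [Nat.ModEq.comm, Nat.modEq_iff_dvd' (Nat.pow_le_pow_right (by norm_num) hk.le)] at hmod
  interval_cases k
  · norm_num at hmod
    exact hq3 ((Nat.prime_dvd_prime_iff_eq hq Nat.prime_three).mp hmod)
  · norm_num at hmod
    exact hq2 ((Nat.prime_dvd_prime_iff_eq hq Nat.prime_two).mp hmod)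

end Cfsg.Agent.S0084
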