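import Cfsg.Statements.S0085
import Mathlib
import Cfsg.Agent.H1.Transfer

set_option autoImplicit false
open Cfsg

namespace Cfsg.Agent.S0085

open scoped commutatorElement


/-- A group whose Sylow 2-subgroups are elementary abelian of order 8 and whose order is prime to 3 and to 7 has a normal 2-complement. -/
theorem result {G : Type*} [Group G] [Finite G] (T : Sylow 2 G) (h8 : Nat.card T = 8) (he : ∀ x : T, x * x = 1) (h3 : ¬ 3 ∣ Nat.card G) (h7 : ¬ 7 ∣ Nat.card G) : Cfsg.HasNormalPComplement 2 G := by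
  have hcard : Nat.card T = 2 ^ 3 := by rw [h8]; norm_num
  have hcomm : IsMulCommutative T := ⟨⟨fun a b => by
    have h1 : ∀ x : T, x⁻¹ = x := fun x => inv_eq_of_mul_eq_one_right (he x)
    calc a * b = (a * b)⁻¹ := (h1 _).symm
      _ = b⁻¹ * a⁻¹ := mul_inv_rev a b
      _ = b * a := by rw [h1, h1]⟩⟩
  apply Cfsg.Agent.H1.hasNormalPComplement_of_abelian_of_modEq T hcomm 3 hcard
  intro q hq hq2 hqG k hk hmod
  have hq3 : q ≠ 3 := fun h => h3 (h ▸ hqG)
  have hq7 : q ≠ 7 := fun h => h7 (h ▸ hqG)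
  rw [Nat.ModEq.comm, Nat.modEq_iff_dvd' (Nat.pow_le_pow_right (by norm_num) hk.le)] at hmod
  interval_cases k
  · norm_num at hmod
    exact hq7 ((Nat.prime_dvd_prime_iff_eq hq (by norm_num)).mp hmod)
  · norm_num at hmod
    have : q ∣ 2 * 3 := hmod
    rcases hq.dvd_mul.mp this with h | h
    · exact hq2 ((Nat.prime_dvd_prime_iff_eq hq Nat.prime_two).mp h)
    · exact hq3 ((Nat.prime_dvd_prime_iff_eq hq Nat.prime_three).mp h)
  · norm_num at hmod
    have : q ∣ 2 ^ 2 := hmod
    exact hq2 ((Nat.prime_dvd_prime_iff_eq hq Nat.prime_two).mp (hq.dvd_of_dvd_pow this))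

end Cfsg.Agent.S0085
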