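import Cfsg.Statements.S0086
import Mathlib
import Cfsg.Agent.H1.Transfer

set_option autoImplicit false
open Cfsg

namespace Cfsg.Agent.S0086

/-- A normal complement to a Sylow p-subgroup is exactly the set of elements of order prime to p. -/
theorem result {G : Type*} [Group G] [Finite G] {p : ℕ} [Fact p.Prime] (P : Sylow p G) (N : Subgroup G) [N.Normal] (hN : N.IsComplement' (P : Subgroup G)) (x : G) : x ∈ N ↔ Nat.Coprime (orderOf x) p := by
  have h1 : N.index = Nat.card P := hN.symm.index_eq_card
  obtain ⟨k, hk⟩ := IsPGroup.iff_card.mp P.isPGroup'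
  have hc : (Nat.card N).Coprime p := by rw [← hN.index_eq_card]; exact Cfsg.Agent.H1.card_coprime_index_sylow P
  constructor
  · intro hx
    exact Nat.Coprime.coprime_dvd_left (Subgroup.orderOf_dvd_natCard N hx) hc
  · intro hx
    have h2 : IsPGroup p (G ⧸ N) := by
      apply IsPGroup.of_card (n := k)
      rw [← Subgroup.index_eq_card, h1, hk]
    have h3 := Cfsg.Agent.H1.map_eq_one_of_coprime h2 (QuotientGroup.mk' N) hx
    simpa using h3

end Cfsg.Agent.S0086
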