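import Cfsg.Statements.S0088
import Mathlib
import Cfsg.Agent.H1.Transfer

set_option autoImplicit false
open Cfsg

namespace Cfsg.Agent.S0088

open scoped commutatorElement


/-- An abelian Hall subgroup meets G' ∩ Z(G) trivially. -/
theorem result {G : Type*} [Group G] [Finite G] (H : Subgroup G) (hc : IsMulCommutative H) (hHall : Nat.Coprime (Nat.card H) H.index) : H ⊓ commutator G ⊓ Subgroup.center G = ⊥ := by
  haveI := hc
  rw [eq_bot_iff]
  rintro z ⟨⟨hzH, hzG⟩, hzZ⟩
  letI : CommGroup H := { (inferInstance : Group H) with mul_comm := hc.is_comm.comm }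
  have h1 := MonoidHom.transfer_eq_pow (H := H) (MonoidHom.id H) z (fun k g₀ _ => by
    have : z ^ k ∈ Subgroup.center G := Subgroup.pow_mem _ hzZ k
    rw [Subgroup.mem_center_iff] at this
    rw [this g₀⁻¹]; group)
  have h2 : (MonoidHom.transfer (MonoidHom.id H)) z = 1 := by
    have h3 := Abelianization.commutator_subset_ker (MonoidHom.transfer (MonoidHom.id H)) hzG
    exact h3
  rw [h2] at h1
  have h4 : z ^ H.index = 1 := by
    have := congrArg Subtype.val h1
    simpa using this.symm
  have h5 : orderOf z ∣ H.index := orderOf_dvd_of_pow_eq_one h4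
  have h6 : orderOf z ∣ Nat.card H := Subgroup.orderOf_dvd_natCard H hzH
  have h7 : orderOf z = 1 := Nat.eq_one_of_dvd_coprimes hHall h6 h5
  rw [Subgroup.mem_bot]; exact orderOf_eq_one_iff.mp h7

end Cfsg.Agent.S0088
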