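import Cfsg.Statements.S0089
import Mathlib
import Cfsg.Agent.S0088

set_option autoImplicit false
open Cfsg

namespace Cfsg.Agent.S0089

open scoped commutatorElement


/-- When all Sylow subgroups are abelian, the derived subgroup meets the centre trivially. -/
theorem result {G : Type*} [Group G] [Finite G] (h : ∀ p : ℕ, p.Prime → ∀ P : Sylow p G, IsMulCommutative P) : commutator G ⊓ Subgroup.center G = ⊥ := by
  by_contra hne
  have h1 : Nat.card (commutator G ⊓ Subgroup.center G : Subgroup G) ≠ 1 :=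
    fun h => hne (Subgroup.card_eq_one.mp h)
  obtain ⟨p, hp, hd⟩ := Nat.exists_prime_and_dvd h1
  haveI : Fact p.Prime := ⟨hp⟩
  obtain ⟨z, hz⟩ := exists_prime_orderOf_dvd_card' p hd
  have hzp : IsPGroup p (Subgroup.zpowers (z : G)) := by
    apply IsPGroup.of_card (n := 1)
    rw [Nat.card_zpowers, Subgroup.orderOf_coe, hz, pow_one]
  obtain ⟨P, hP⟩ := hzp.exists_le_sylow
  have h2 := Cfsg.Agent.S0088.result (P : Subgroup G) (h p hp P) P.card_coprime_index
  have h3 : (z : G) ∈ (P : Subgroup G) ⊓ commutator G ⊓ Subgroup.center G :=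
    ⟨⟨hP (Subgroup.mem_zpowers _), z.2.1⟩, z.2.2⟩
  rw [h2, Subgroup.mem_bot] at h3
  have h4 : z = 1 := Subtype.ext h3
  rw [h4, orderOf_one] at hz
  exact hp.one_lt.ne hz

end Cfsg.Agent.S0089
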