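import Cfsg.Statements.S0090
import Mathlib
import Cfsg.Agent.H1.CoprimeAb

set_option autoImplicit false
open Cfsg

namespace Cfsg.Agent.S0090

open scoped commutatorElement


/-- An abelian normal Hall subgroup A splits as the internal direct product of G' ∩ A and Z(G) ∩ A, and [A, G] = G' ∩ A. -/
theorem result {G : Type*} [Group G] [Finite G] (A : Subgroup G) [A.Normal] (hc : IsMulCommutative A) (hHall : Nat.Coprime (Nat.card A) A.index) : ⁅A, (⊤ : Subgroup G)⁆ = commutator G ⊓ A ∧ (commutator G ⊓ A) ⊓ (Subgroup.center G ⊓ A) = ⊥ ∧ (commutator G ⊓ A) ⊔ (Subgroup.center G ⊓ A) = A := by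
  haveI := hc
  obtain ⟨K, hK⟩ := Subgroup.exists_right_complement'_of_coprime hHall
  have hAK : (Nat.card K).Coprime (Nat.card A) := by
    rw [← hK.symm.index_eq_card]; exact hHall.symm
  obtain ⟨h1, h2⟩ := Cfsg.Agent.H1.coprime_abelian_decomp' K A (by rw [Subgroup.normalizer_eq_top]; exact le_top) hAK
  have hAcen : A ≤ Subgroup.centralizer (A : Set G) := Subgroup.le_centralizer_iff_isMulCommutative.mpr hc
  have hsup : K ⊔ A = ⊤ := by rw [sup_comm]; exact hK.sup_eq_top
  -- [A,K] is normal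
  have hnorm : (⁅A, K⁆ : Subgroup G).Normal := by
    rw [← Subgroup.normalizer_eq_top_iff, eq_top_iff, ← hsup]
    exact sup_le (Subgroup.normalizer_commutator_ge_right _ _) (Subgroup.normalizer_commutator_ge_left _ _)
  have hAle : ⁅A, K⁆ ≤ A := Subgroup.commutator_le_left _ _
  have hAG : ⁅A, (⊤ : Subgroup G)⁆ = ⁅A, K⁆ := by
    apply le_antisymm _ (Subgroup.commutator_mono le_rfl le_top)
    rw [Subgroup.commutator_le]
    intro a ha g _
    have : g ∈ A ⊔ K := by rw [sup_comm, hsup]; trivial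
    rw [Subgroup.mem_sup_of_normal_left] at this
    obtain ⟨b, hb, k, hk, rfl⟩ := this
    have hab : a * b = b * a := (Subgroup.mem_centralizer_iff.mp (hAcen hb) a ha)
    have hka : ⁅a, b * k⁆ = b * ⁅a, k⁆ * b⁻¹ := by
      rw [commutatorElement_def, commutatorElement_def]
      calc a * (b * k) * a⁻¹ * (b * k)⁻¹ = (a * b) * k * a⁻¹ * k⁻¹ * b⁻¹ := by group
        _ = (b * a) * k * a⁻¹ * k⁻¹ * b⁻¹ := by rw [hab]
        _ = _ := by group
    rw [hka]
    exact hnorm.conj_mem _ (Subgroup.commutator_mem_commutator ha hk) b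
  have hGA : commutator G ⊓ A = ⁅A, K⁆ := by
    apply le_antisymm
    · -- G' ≤ [A,K] ⊔ K, 
      have h3 : commutator G ≤ ⁅A, K⁆ ⊔ K := by
        have hq : IsMulCommutative (G ⧸ ⁅A, K⁆) → True := fun _ => trivial
        rw [commutator_def, Subgroup.commutator_le]
        intro g _ h _
        have hg : g ∈ A ⊔ K := by rw [sup_comm, hsup]; trivial
        have hh : h ∈ A ⊔ K := by rw [sup_comm, hsup]; trivial
        rw [Subgroup.mem_sup_of_normal_left] at hg hh
        obtain ⟨a, ha, k, hk, rfl⟩ := hg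
        obtain ⟨b, hb, l, hl, rfl⟩ := hh
        -- modulo [A,K]: A central
        have hcen : ∀ x ∈ A, ∀ y : G, ((x * y : G) : G ⧸ ⁅A, K⁆) = ((y * x : G) : G ⧸ ⁅A, K⁆) := by
          intro x hx y
          have h5 : ⁅x, y⁆ ∈ ⁅A, K⁆ := by rw [← hAG]; exact Subgroup.commutator_mem_commutator hx (Subgroup.mem_top y)
          have h6 : ((⁅x, y⁆ : G) : G ⧸ ⁅A, K⁆) = 1 := (QuotientGroup.eq_one_iff _).mpr h5
          have h7 : x * y = ⁅x, y⁆ * (y * x) := by rw [commutatorElement_def]; group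
          rw [h7, QuotientGroup.mk_mul, h6, one_mul]
        have h8 : ((⁅a * k, b * l⁆ : G) : G ⧸ ⁅A, K⁆) = ((⁅k, l⁆ : G) : G ⧸ ⁅A, K⁆) := by
          simp only [commutatorElement_def, mul_inv_rev, QuotientGroup.mk_mul, QuotientGroup.mk_inv]
          have ca : ∀ y : G ⧸ ⁅A, K⁆, Commute ((a : G) : G ⧸ ⁅A, K⁆) y := by
            intro y; induction y using QuotientGroup.induction_on with | H y => exact hcen a ha y
          have cb : ∀ y : G ⧸ ⁅A, K⁆, Commute ((b : G) : G ⧸ ⁅A, K⁆) y := by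
            intro y; induction y using QuotientGroup.induction_on with | H y => exact hcen b hb y
          generalize ((a : G) : G ⧸ ⁅A, K⁆) = a' at *
          generalize ((b : G) : G ⧸ ⁅A, K⁆) = b' at *
          generalize ((k : G) : G ⧸ ⁅A, K⁆) = k' at *
          generalize ((l : G) : G ⧸ ⁅A, K⁆) = l' at *
          have e1 : a' * k' * (b' * l') * (k'⁻¹ * a'⁻¹) * (l'⁻¹ * b'⁻¹) = a' * ((k' * b' * l' * k'⁻¹) * a'⁻¹) * (l'⁻¹ * b'⁻¹) := by group
          rw [e1, ((ca _).inv_left.eq).symm]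
          have e2 : a' * (a'⁻¹ * (k' * b' * l' * k'⁻¹)) * (l'⁻¹ * b'⁻¹) = (k' * b') * l' * k'⁻¹ * l'⁻¹ * b'⁻¹ := by group
          rw [e2, ← (cb k').eq]
          have e3 : b' * k' * l' * k'⁻¹ * l'⁻¹ * b'⁻¹ = b' * ((k' * l' * k'⁻¹ * l'⁻¹) * b'⁻¹) := by group
          rw [e3, ((cb _).inv_left.eq).symm]
          group
        have h9 : ⁅a * k, b * l⁆ * ⁅k, l⁆⁻¹ ∈ ⁅A, K⁆ := by
          rw [← QuotientGroup.eq_one_iff, QuotientGroup.mk_mul, QuotientGroup.mk_inv, h8, mul_inv_cancel]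
        have h10 : ⁅a * k, b * l⁆ = (⁅a * k, b * l⁆ * ⁅k, l⁆⁻¹) * ⁅k, l⁆ := by group
        rw [h10]
        exact Subgroup.mul_mem _ (Subgroup.mem_sup_left h9) (Subgroup.mem_sup_right (Cfsg.Agent.H1.commutator_self_le K (Subgroup.commutator_mem_commutator hk hl)))
      intro x hx
      have h4 := h3 hx.1
      rw [Subgroup.mem_sup_of_normal_left] at h4
      obtain ⟨y, hy, k, hk, rfl⟩ := h4
      have h5 : k ∈ A ⊓ K := ⟨by
        have := A.mul_mem (A.inv_mem (hAle hy)) hx.2
        simpa using this, hk⟩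
      rw [hK.disjoint.eq_bot, Subgroup.mem_bot] at h5
      rw [h5, mul_one]; exact hy
    · exact le_inf (Subgroup.commutator_mono le_top le_top) hAle
  have hZ : Subgroup.center G ⊓ A = A ⊓ Subgroup.centralizer (K : Set G) := by
    ext x
    constructor
    · rintro ⟨hx, hxA⟩
      refine ⟨hxA, ?_⟩
      apply Subgroup.mem_centralizer_iff.mpr
      intro k _
      exact (Subgroup.mem_center_iff.mp hx k)
    · rintro ⟨hxA, hx⟩
      refine ⟨?_, hxA⟩
      apply Subgroup.mem_center_iff.mpr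
      intro g
      have hg : g ∈ A ⊔ K := by rw [sup_comm, hsup]; trivial
      rw [Subgroup.mem_sup_of_normal_left] at hg
      obtain ⟨a, ha, k, hk, rfl⟩ := hg
      have e1 : k * x = x * k := Subgroup.mem_centralizer_iff.mp hx k hk
      have e2 : a * x = x * a := (Subgroup.mem_centralizer_iff.mp (hAcen hxA) a ha)
      calc a * k * x = a * (k * x) := by group
        _ = (a * x) * k := by rw [e1]; group
        _ = x * (a * k) := by rw [e2]; group
  refine ⟨by rw [hAG, hGA], ?_, ?_⟩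
  · rw [hGA, hZ, inf_comm]; exact h1
  · rw [hGA, hZ, sup_comm]; exact h2

end Cfsg.Agent.S0090
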