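import Cfsg.Statements.S0091
import Mathlib
import Cfsg.Agent.H1.Transfer

set_option autoImplicit false
open Cfsg

namespace Cfsg.Agent.S0091

open scoped commutatorElement


/-- If a nontrivial Sylow p-subgroup controls its own fusion then it is not contained in the derived subgroup. -/
theorem result {G : Type*} [Group G] [Finite G] {p : ℕ} [Fact p.Prime] (P : Sylow p G) (hp : p ∣ Nat.card G) (h : ∀ x ∈ P, ∀ y ∈ P, (∃ g : G, g * x * g⁻¹ = y) → ∃ z ∈ P, z * x * z⁻¹ = y) : ¬ (P : Subgroup G) ≤ commutator G := by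
  intro hle
  have h1 : commutator G ⊓ (P : Subgroup G) ≤ ⁅(P : Subgroup G), (P : Subgroup G)⁆ := by
    apply Cfsg.Agent.H1.commutator_inf_le
    intro x hx u hu
    obtain ⟨z, hz, hzz⟩ := h x hx _ hu ⟨u, rfl⟩
    rw [Cfsg.Agent.H1.commutator_eq_of_conj_eq hzz.symm]
    exact Subgroup.commutator_mem_commutator hx hz
  have h2 : (P : Subgroup G) ≤ ⁅(P : Subgroup G), (P : Subgroup G)⁆ := (le_inf hle le_rfl).trans h1
  have hne : (P : Subgroup G) ≠ ⊥ := P.ne_bot_of_dvd_card hp
  have hnt : Nontrivial P := (Subgroup.nontrivial_iff_ne_bot _).mpr hne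
  haveI : Group.IsNilpotent P := P.isPGroup'.isNilpotent
  have h3 := Group.IsSolvable.commutator_lt_top_of_nontrivial P
  apply h3.ne
  rw [← Subgroup.map_subtype_inj, Subgroup.map_subtype_commutator]
  apply le_antisymm
  · rw [← MonoidHom.range_eq_map, Subgroup.range_subtype]; exact Cfsg.Agent.H1.commutator_self_le _
  · rw [← MonoidHom.range_eq_map, Subgroup.range_subtype]; exact h2

end Cfsg.Agent.S0091
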