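import Cfsg.Statements.S0092
import Cfsg.Agent.H6.SnJoin
import Cfsg.Agent.L0.Coprime2
import Cfsg.Agent.H1.Transfer
import Cfsg.Agent.H1.PQuot
import Mathlib

set_option autoImplicit false
open Cfsg

namespace Cfsg.Agent.S0092

open Cfsg.Agent.L0 Cfsg.Agent.H6
open scoped commutatorElement

variable {G : Type*} [Group G] [Finite G] {p : ℕ} [Fact p.Prime]

theorem resid_self : pResidual p ↥(pResidual p G) = ⊤ := by
  set K := pResidual p G with hK
  have h1 : (pResidual p K).map K.subtype = K := by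
    apply le_antisymm (Subgroup.map_subtype_le _)
    conv_lhs => rw [hK]; unfold pResidual
    rw [Subgroup.closure_le]
    intro g hg
    have hgK : g ∈ K := Subgroup.subset_closure hg
    refine ⟨⟨g, hgK⟩, Subgroup.subset_closure ?_, rfl⟩
    change (orderOf (⟨g, hgK⟩ : K)).Coprime p
    rw [Subgroup.orderOf_mk]; exact hg
  rw [eq_top_iff]
  intro x _
  obtain ⟨y, hy, hyx⟩ := h1.ge x.2
  have : y = x := Subtype.ext hyx
  rw [← this]; exact hy

/-- If the Sylow p-subgroups of O^p(G) are abelian then G splits over O^p(G). -/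
theorem result {G : Type*} [Group G] [Finite G] {p : ℕ} [Fact p.Prime] (h : ∀ Q : Sylow p (Cfsg.pResidual p G), IsMulCommutative Q) : ∃ K : Subgroup G, K.IsComplement' (Cfsg.pResidual p G) := by
  classical
  obtain ⟨K, hK, hKn, hKp, hKK⟩ : ∃ K : Subgroup G, K = pResidual p G ∧ ∃ _ : K.Normal, IsPGroup p (G ⧸ K) ∧ pResidual p ↥K = ⊤ :=
    ⟨_, rfl, inferInstance, Cfsg.Agent.H1.isPGroup_quotient_pResidual, resid_self⟩
  rw [← hK] at h ⊢
  obtain ⟨P0⟩ : Nonempty (Sylow p ↥K) := inferInstance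
  have hab := h P0
  obtain ⟨T, hT⟩ : ∃ T, T = (P0 : Subgroup ↥K).map K.subtype := ⟨_, rfl⟩
  have hTs : SylIn p T K := by rw [hT]; exact sylow_sylIn P0
  have hTab : ∀ a ∈ T, ∀ b ∈ T, a * b = b * a := by
    rw [hT]
    rintro _ ⟨a, ha, rfl⟩ _ ⟨b, hb, rfl⟩
    have := hab.is_comm.comm ⟨a, ha⟩ ⟨b, hb⟩
    exact congrArg (fun z : (P0 : Subgroup ↥K) => ((z : ↥K) : G)) this
  obtain ⟨B, hB⟩ : ∃ B, B = K ⊓ Subgroup.normalizer (T : Set G) := ⟨_, rfl⟩
  have hTB : T ≤ B := by rw [hB]; exact le_inf hTs.1 Subgroup.le_normalizer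
  have hBT : B ≤ Subgroup.normalizer (T : Set G) := by rw [hB]; exact inf_le_right
  have hBK : B ≤ K := by rw [hB]; exact inf_le_left
  -- T = [T, B]
  have hcomm : T ≤ ⁅T, B⁆ := by
    have h1 := Cfsg.Agent.H1.inf_pResidual_eq_of_abelian P0 hab
    rw [hKK, inf_top_eq, Cfsg.Agent.H1.commutator_inf_eq_of_abelian P0 hab] at h1
    rw [hT]
    conv_lhs => rw [h1]
    rw [Subgroup.map_commutator]
    refine Subgroup.commutator_mono le_rfl ?_
    rw [hB]
    refine le_inf (Subgroup.map_subtype_le _) ?_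
    rw [hT]
    exact Subgroup.le_normalizer_map _
  -- complement
  haveI hTBn : (T.subgroupOf B).Normal := (Subgroup.normal_subgroupOf_iff_le_normalizer hTB).2 hBT
  have hTsB : SylIn p T B := hTs.of_le hTB hBK
  have hcopTB : (Nat.card (T.subgroupOf B)).Coprime (T.subgroupOf B).index := by
    have h1 : IsPGroup p ↥(T.subgroupOf B) := hTsB.2.1.comap_of_injective _ (Subgroup.subtype_injective B)
    obtain ⟨n, hn⟩ := IsPGroup.iff_card.1 h1
    rw [hn]
    exact Nat.Coprime.pow_left n (((Fact.out : p.Prime).coprime_iff_not_dvd).2 hTsB.2.2)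
  obtain ⟨Q', hQ'⟩ := Subgroup.exists_right_complement'_of_coprime hcopTB
  obtain ⟨Q, hQ⟩ : ∃ Q, Q = Q'.map B.subtype := ⟨_, rfl⟩
  have hQB : Q ≤ B := by rw [hQ]; exact Subgroup.map_subtype_le _
  have hQc : Nat.card Q = (T.subgroupOf B).index := by
    rw [hQ, hQ'.symm.index_eq_card]
    exact (Nat.card_congr (Q'.equivMapOfInjective _ B.subtype_injective).toEquiv).symm
  have hQcop : (Nat.card Q).Coprime (Nat.card T) := by
    rw [hQc]
    obtain ⟨n, hn⟩ := IsPGroup.iff_card.1 hTsB.2.1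
    rw [hn]
    exact Nat.Coprime.pow_right n (((Fact.out : p.Prime).coprime_iff_not_dvd).2 hTsB.2.2).symm
  have hfac : ∀ b ∈ B, ∃ s ∈ T, ∃ q ∈ Q, b = s * q := by
    intro b hb
    obtain ⟨⟨s, q⟩, hsq⟩ := hQ'.2 ⟨b, hb⟩
    refine ⟨((s : ↥B) : G), s.2, ((q : ↥B) : G), by rw [hQ]; exact ⟨_, q.2, rfl⟩, ?_⟩
    exact (congrArg Subtype.val hsq).symm
  have hQN : Q ≤ Subgroup.normalizer (T : Set G) := hQB.trans hBT
  have hTQ : T ⊓ Q = ⊥ := inf_eq_bot_of_coprime' hQcop.symm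
  have hcTQ : T ⊓ Subgroup.centralizer (Q : Set G) = ⊥ := by
    have h1 := centralizer_inf_commutator_of_abelian hQN hQcop hTab
    have h2 : T ≤ ⁅T, Q⁆ := by
      refine hcomm.trans ?_
      rw [Subgroup.commutator_le]
      intro t ht b hb
      obtain ⟨s, hs, q, hq, rfl⟩ := hfac b hb
      have h3 : t * q * t⁻¹ * q⁻¹ ∈ ⁅T, Q⁆ := Subgroup.commutator_mem_commutator ht hq
      have h4 : t * q * t⁻¹ * q⁻¹ ∈ T := by
        have : t * q * t⁻¹ * q⁻¹ = t * (q * t⁻¹ * q⁻¹) := by group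
        rw [this]
        exact T.mul_mem ht ((Subgroup.mem_normalizer_iff.1 (hQN hq) _).1 (T.inv_mem ht))
      have e : ⁅t, s * q⁆ = t * q * t⁻¹ * q⁻¹ := by
        rw [commutatorElement_def]
        have e1 : t * (s * q) * t⁻¹ * (s * q)⁻¹ = (t * s) * (q * t⁻¹ * q⁻¹) * s⁻¹ := by group
        rw [e1, hTab t ht s hs]
        have e2 : s * t * (q * t⁻¹ * q⁻¹) * s⁻¹ = s * (t * q * t⁻¹ * q⁻¹) * s⁻¹ := by group
        rw [e2, hTab s hs _ h4]; group
      rw [e]; exact h3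
    rw [eq_bot_iff, ← h1]
    exact le_inf le_rfl (inf_le_left.trans h2)
  -- the factorization
  obtain ⟨L, hL⟩ : ∃ L, L = Subgroup.normalizer (T : Set G) ⊓ Subgroup.normalizer (Q : Set G) := ⟨_, rfl⟩
  have hsolT : Group.IsSolvable T := Cfsg.Agent.H1.isSolvable_of_isPGroup hTs.2.1
  have hN : ∀ g ∈ Subgroup.normalizer (T : Set G), ∃ m ∈ T, ∃ l ∈ L, g = m * l := by
    intro g hg
    have h1 : cj g B = B := by
      rw [hB, cj_inf, cj_normalizer, mem_norm.1 hg]
      congr 1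
      exact mem_norm.1 (by rw [Subgroup.normalizer_eq_top]; trivial)
    have h2 : cj g Q ≤ T ⊔ Q := by
      intro x hx
      have h3 : x ∈ B := by rw [← h1]; exact cj_mono hQB hx
      obtain ⟨s, hs, q, hq, rfl⟩ := hfac x h3
      exact Subgroup.mul_mem_sup hs hq
    obtain ⟨m, hm, hmQ⟩ := exists_conj_eq_of_le_sup hQN hQcop (Or.inr hsolT) h2 (card_cj g Q)
    have h4 : m⁻¹ * g ∈ Subgroup.normalizer (Q : Set G) := by
      rw [mem_norm, cj_mul, ← hmQ]
      exact cj_inv_cj m Q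
    refine ⟨m, hm, m⁻¹ * g, ?_, by group⟩
    rw [hL]
    exact ⟨Subgroup.mul_mem _ (Subgroup.inv_mem _ (Subgroup.le_normalizer hm)) hg, h4⟩
  have hG : ∀ g : G, ∃ k ∈ K, ∃ l ∈ L, g = k * l := by
    intro g
    have h1 : SylIn p (cj g T) K := by
      have := hTs.cj g
      rwa [show cj g K = K from mem_norm.1 (by rw [Subgroup.normalizer_eq_top]; trivial)] at this
    obtain ⟨k, hk, hkT⟩ := hTs.conj h1
    have h2 : k⁻¹ * g ∈ Subgroup.normalizer (T : Set G) := by
      rw [mem_norm, cj_mul, ← hkT, cj_inv_cj]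
    obtain ⟨m, hm, l, hl, hml⟩ := hN _ h2
    refine ⟨k * m, K.mul_mem hk (hTs.1 hm), l, hl, ?_⟩
    rw [mul_assoc, ← hml]; group
  obtain ⟨R, hR⟩ := exists_sylIn (p := p) L
  have hRK : R ⊓ K = ⊥ := by
    have h1 : R ⊓ K ≤ Subgroup.normalizer (T : Set G) := inf_le_left.trans (hR.1.trans (by rw [hL]; exact inf_le_left))
    have h2 : IsPGroup p ↥(T ⊔ (R ⊓ K) : Subgroup G) := by
      rw [sup_comm]
      exact (hR.2.1.to_le inf_le_left).to_sup_of_normal_right' hTs.2.1 h1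
    have h3 := hTs.eq_of_le h2 (sup_le hTs.1 inf_le_right) le_sup_left
    rw [eq_bot_iff]
    intro x hx
    have hxT : x ∈ T := by rw [h3]; exact Subgroup.mem_sup_right hx
    have hxQ : x ∈ Subgroup.normalizer (Q : Set G) := by
      have := hR.1 hx.1
      rw [hL] at this; exact this.2
    rw [← hcTQ]
    exact ⟨hxT, commute_of_mem_normalizer_of_disjoint hQN hTQ hxT hxQ⟩
  have hmap : R.map (QuotientGroup.mk' K) = ⊤ := by
    have h1 := hR.map_hom (QuotientGroup.mk' K)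
    have h2 : L.map (QuotientGroup.mk' K) = ⊤ := by
      rw [eq_top_iff]
      intro y _
      obtain ⟨g, rfl⟩ := QuotientGroup.mk'_surjective K y
      obtain ⟨k, hk, l, hl, rfl⟩ := hG g
      refine ⟨l, hl, ?_⟩
      have : QuotientGroup.mk' K k = 1 := (QuotientGroup.eq_one_iff k).mpr hk
      rw [map_mul, this, one_mul]
    rw [h2] at h1
    exact h1.eq_of_le (hKp.to_subgroup _) le_rfl le_top
  have hsup : R ⊔ K = ⊤ := by
    have h1 := congrArg (Subgroup.comap (QuotientGroup.mk' K)) hmap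
    rwa [Subgroup.comap_map_eq, QuotientGroup.ker_mk', Subgroup.comap_top] at h1
  refine ⟨R, Subgroup.isComplement'_of_disjoint_and_mul_eq_univ (disjoint_iff.2 hRK) ?_⟩
  rw [← Subgroup.mul_normal, hsup, Subgroup.coe_top]

end Cfsg.Agent.S0092
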