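import Cfsg.Statements.S0094
import Mathlib
import Cfsg.Agent.H1.Class2

set_option autoImplicit false
open Cfsg

namespace Cfsg.Agent.S0094

open scoped commutatorElement Pointwise


/-- In a special p-group every central element has order dividing p. -/
theorem result {P : Type*} [Group P] [Finite P] {p : ℕ} [Fact p.Prime] (h : Cfsg.IsSpecial p P) (z : P) (hz : z ∈ Subgroup.center P) : z ^ p = 1 := by
  obtain ⟨⟨hP, hF, hC⟩⟩ := (⟨h⟩ : Nonempty (Cfsg.IsSpecial p P))
  have hpow : ∀ x : P, x ^ p ∈ Subgroup.center P := by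
    intro x
    rw [← hF]
    haveI := hP.isNilpotent
    have : ∀ M : Subgroup P, IsCoatom M → x ^ p ∈ M := by
      intro M hM
      have hMn : M.Normal := Cfsg.Agent.H1.normal_of_isCoatom_of_nilpotent hM
      have hi : M.index = p := Cfsg.Agent.H1.index_of_isCoatom_pgroup hP hM
      rw [Subgroup.index_eq_card] at hi
      rw [← QuotientGroup.eq_one_iff]
      rw [QuotientGroup.mk_pow, ← hi]; exact pow_card_eq_one'
    simpa [frattini, Order.radical, Subgroup.mem_iInf] using this
  have key : commutator P ≤ (Cfsg.Agent.H1.omegaAb p (Subgroup.center P)) := by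
    rw [commutator_def, Subgroup.commutator_le]
    intro a _ b _
    have hab : ⁅a, b⁆ ∈ Subgroup.center P := by
      rw [← hC]; exact Subgroup.commutator_mem_commutator (Subgroup.mem_top a) (Subgroup.mem_top b)
    have h1 := Cfsg.Agent.H1.comm_pow_left (x := a) (y := b) (Cfsg.Agent.H1.commute_of_mem_center hab) p
    have h2 : ⁅a ^ p, b⁆ = 1 := by
      rw [commutatorElement_eq_one_iff_mul_comm]
      exact ((Subgroup.mem_center_iff.mp (hpow a)) b).symm
    exact ⟨hab, by rw [← h1, h2]⟩
  exact (key (by rw [hC]; exact hz)).2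

end Cfsg.Agent.S0094
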