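import Cfsg.Statements.S0096
import Mathlib
import Cfsg.Agent.H1.Class2

set_option autoImplicit false
open Cfsg

namespace Cfsg.Agent.S0096

open scoped commutatorElement Pointwise


/-- For odd p, in a p-group of class at most two the elements of order dividing p generate a subgroup of exponent dividing p. -/
theorem result {P : Type*} [Group P] [Finite P] {p : ℕ} [Fact p.Prime] (hp : p ≠ 2) (hP : IsPGroup p P) (h2 : ⁅commutator P, (⊤ : Subgroup P)⁆ = ⊥) (g : P) (hg : g ∈ Subgroup.closure {x : P | x ^ p = 1}) : g ^ p = 1 := by
  have hmul : ∀ x y : P, x ^ p = 1 → y ^ p = 1 → (x * y) ^ p = 1 := by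
    intro x y hx hy
    have hc := Cfsg.Agent.H1.comm_central_of_class_two h2 y x
    have h1 := Cfsg.Agent.H1.comm_pow_left (Cfsg.Agent.H1.commute_of_mem_center (g := y) hc) p
    rw [hy, commutatorElement_one_left] at h1
    rw [Cfsg.Agent.H1.mul_pow_prime_of_class_two Fact.out hp hc h1.symm, hx, hy, one_mul]
  induction hg using Subgroup.closure_induction with
  | mem x hx => exact hx
  | one => exact one_pow p
  | mul x y _ _ hx hy => exact hmul x y hx hy
  | inv x _ hx => rw [inv_pow, hx, inv_one]

end Cfsg.Agent.S0096
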