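import Cfsg.Statements.S0097
import Mathlib
import Cfsg.Agent.H1.Class2
import Cfsg.Agent.S0094

set_option autoImplicit false
open Cfsg

namespace Cfsg.Agent.S0097

open scoped commutatorElement Pointwise


/-- For odd p and E extraspecial, the subgroup generated by the elements of order dividing p has exponent dividing p and index at most p. -/
theorem result {E : Type*} [Group E] [Finite E] {p : ℕ} [Fact p.Prime] (hp : p ≠ 2) (h : Cfsg.IsExtraspecial p E) : (Subgroup.closure {x : E | x ^ p = 1}).index ≤ p ∧ ∀ g ∈ Subgroup.closure {x : E | x ^ p = 1}, g ^ p = 1 := by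
  obtain ⟨hs, hcard⟩ := h
  obtain ⟨⟨hP, hF, hC⟩⟩ := (⟨hs⟩ : Nonempty (Cfsg.IsSpecial p E))
  have hpow : ∀ x : E, x ^ p ∈ Subgroup.center E := by
    intro x
    rw [← hF]
    haveI := hP.isNilpotent
    have : ∀ M : Subgroup E, IsCoatom M → x ^ p ∈ M := by
      intro M hM
      have hMn : M.Normal := Cfsg.Agent.H1.normal_of_isCoatom_of_nilpotent hM
      have hi : M.index = p := Cfsg.Agent.H1.index_of_isCoatom_pgroup hP hM
      rw [Subgroup.index_eq_card] at hi
      rw [← QuotientGroup.eq_one_iff]
      rw [QuotientGroup.mk_pow, ← hi]; exact pow_card_eq_one'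
    simpa [frattini, Order.radical, Subgroup.mem_iInf] using this
  have hcen : ∀ x y : E, ⁅x, y⁆ ∈ Subgroup.center E := by
    intro x y
    rw [← hC]; exact Subgroup.commutator_mem_commutator (Subgroup.mem_top x) (Subgroup.mem_top y)
  have hmul : ∀ x y : E, (x * y) ^ p = x ^ p * y ^ p := by
    intro x y
    apply Cfsg.Agent.H1.mul_pow_prime_of_class_two Fact.out hp (hcen y x)
    exact Cfsg.Agent.S0094.result hs _ (hcen y x)
  let f : E →* Subgroup.center E :=
    { toFun := fun x => ⟨x ^ p, hpow x⟩
      map_one' := Subtype.ext (one_pow p)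
      map_mul' := fun x y => Subtype.ext (hmul x y) }
  have hker : Subgroup.closure {x : E | x ^ p = 1} = f.ker := by
    apply le_antisymm
    · rw [Subgroup.closure_le]
      intro x hx
      exact Subtype.ext hx
    · intro x hx
      apply Subgroup.subset_closure
      exact congrArg Subtype.val (show f x = 1 from hx)
  refine ⟨?_, ?_⟩
  · rw [hker, Subgroup.index_ker, ← hcard]
    exact Nat.card_le_card_of_injective _ f.range.subtype_injective
  · intro g hg
    rw [hker] at hg
    exact congrArg Subtype.val (show f g = 1 from hg)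

end Cfsg.Agent.S0097
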