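import Cfsg.Statements.S0130
import Cfsg.Agent.H1.Class2
-- import your own Cfsg.Agent.* helpers here

set_option autoImplicit false
open Cfsg commutatorElement

namespace Cfsg.Agent.S0130

/-- If A is maximal among the normal abelian subgroups of exponent dividing p^n of a p-group (p^n ≠ 2), then A contains every element of order dividing p^n in its centralizer. -/
theorem result {G : Type*} [Group G] [Finite G] {p : ℕ} [Fact p.Prime] (hG : IsPGroup p G) (n : ℕ) (hn : p ^ n ≠ 2) (A : Subgroup G) [A.Normal] (hA : IsMulCommutative A) (hAe : ∀ a ∈ A, a ^ p ^ n = 1) (hmax : ∀ B : Subgroup G, B.Normal → IsMulCommutative B → (∀ b ∈ B, b ^ p ^ n = 1) → A ≤ B → B = A) (x : G) (hx : x ∈ Subgroup.centralizer (A : Set G)) (hxn : x ^ p ^ n = 1) : x ∈ A := by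
  classical
  have hcomm : ∀ a ∈ A, ∀ b ∈ A, a * b = b * a := by
    intro a ha b hb
    have := hA.is_comm.comm (⟨a, ha⟩ : A) ⟨b, hb⟩
    simpa using congrArg Subtype.val this
  have hCn : (Subgroup.centralizer (A : Set G)).Normal := inferInstance
  have hnil : Group.IsNilpotent (G ⧸ A) := (hG.to_quotient A).isNilpotent
  obtain ⟨c, hc⟩ := hnil.nilpotent
  set U : ℕ → Subgroup G := fun j => (Subgroup.upperCentralSeries (G ⧸ A) j).comap (QuotientGroup.mk' A) with hU
  have hU0 : ∀ g, g ∈ U 0 → g ∈ A := by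
    intro g hg
    have h1 : (QuotientGroup.mk' A) g ∈ (⊥ : Subgroup (G ⧸ A)) := hg
    have h2 := Subgroup.mem_bot.mp h1
    exact (QuotientGroup.eq_one_iff g).mp h2
  have hUs : ∀ j g, g ∈ U (j+1) → ∀ y, ⁅g, y⁆ ∈ U j := by
    intro j g hg y
    have h1 : (QuotientGroup.mk' A) g ∈ Subgroup.upperCentralSeries (G ⧸ A) (j+1) := hg
    have h2 := Subgroup.mem_upperCentralSeries_succ_iff.mp h1 ((QuotientGroup.mk' A) y)
    change (QuotientGroup.mk' A) ⁅g, y⁆ ∈ Subgroup.upperCentralSeries (G ⧸ A) j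
    rw [map_commutatorElement]
    exact h2
  have hUc : ∀ g, g ∈ U c := by
    intro g
    change (QuotientGroup.mk' A) g ∈ Subgroup.upperCentralSeries (G ⧸ A) c
    rw [hc]; exact Subgroup.mem_top _
  have hCA : ∀ z ∈ Subgroup.centralizer (A : Set G), ∀ a ∈ A, a * z = z * a := by
    intro z hz a ha
    exact Subgroup.mem_centralizer_iff.mp hz a ha
  by_contra hxA
  have hex : ∃ k, ∃ z, z ∈ U k ∧ z ∈ Subgroup.centralizer (A : Set G) ∧ z ^ p ^ n = 1 ∧ z ∉ A :=
    ⟨c, x, hUc x, hx, hxn, hxA⟩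
  obtain ⟨z, hzU, hzC, hzn, hzA⟩ := Nat.find_spec hex
  have hmin := fun m (hm : m < Nat.find hex) => Nat.find_min hex hm
  set k := Nat.find hex with hk
  clear_value k
  have hk0 : k ≠ 0 := by
    intro h0
    rw [h0] at hzU
    exact hzA (hU0 z hzU)
  obtain ⟨l, rfl⟩ := Nat.exists_eq_succ_of_ne_zero hk0
  have hminl : ∀ y, y ∈ U l → y ∈ Subgroup.centralizer (A : Set G) → y ^ p ^ n = 1 → y ∈ A := by
    intro y hy1 hy2 hy3
    by_contra hy4
    exact hmin l (Nat.lt_succ_self l) ⟨y, hy1, hy2, hy3, hy4⟩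
  -- replace z by a power
  have hex2 : ∃ i, z ^ p ^ i ∈ A := ⟨n, by rw [hzn]; exact A.one_mem⟩
  have hi1 := Nat.find_spec hex2
  have hi0 : Nat.find hex2 ≠ 0 := by
    intro h0
    rw [h0, pow_zero, pow_one] at hi1
    exact hzA hi1
  obtain ⟨i, hi⟩ := Nat.exists_eq_succ_of_ne_zero hi0
  have hi2 : z ^ p ^ i ∉ A := Nat.find_min hex2 (by omega)
  rw [hi] at hi1
  obtain ⟨t, ht⟩ : ∃ t, t = z ^ p ^ i := ⟨_, rfl⟩
  have htA : t ∉ A := by rw [ht]; exact hi2
  have htp : t ^ p ∈ A := by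
    rw [ht, ← pow_mul, ← pow_succ]; exact hi1
  have htU : t ∈ U (l+1) := by rw [ht]; exact Subgroup.pow_mem _ hzU _
  have htC : t ∈ Subgroup.centralizer (A : Set G) := by rw [ht]; exact Subgroup.pow_mem _ hzC _
  have htn : t ^ p ^ n = 1 := by
    rw [ht, ← pow_mul, mul_comm, pow_mul, hzn, one_pow]
  have hp := (Fact.out : p.Prime)
  have hchoose : p ∣ (p ^ n).choose 2 := by
    rcases Nat.eq_zero_or_pos n with h0 | hpos
    · subst h0; simp
    rcases hp.eq_two_or_odd' with h2 | hodd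
    · subst h2
      have hn2 : 2 ≤ n := by
        rcases Nat.lt_or_ge n 2 with h | h
        · have : n = 1 := by omega
          subst this; simp at hn
        · exact h
      obtain ⟨m, rfl⟩ := Nat.exists_eq_add_of_le hn2
      rw [Nat.choose_two_right]
      have h3 : 2 ^ (2 + m) * (2 ^ (2 + m) - 1) = 2 * (2 * (2 ^ m * (2 ^ (2 + m) - 1))) := by
        rw [pow_add]; ring
      rw [h3, Nat.mul_div_cancel_left _ (by norm_num)]
      exact Dvd.intro _ rfl
    · rw [Nat.choose_two_right]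
      have h4 : p ∣ p ^ n := dvd_pow_self p (by omega)
      have h5 : 2 ∣ p ^ n - 1 := by
        have : Odd (p ^ n) := hodd.pow
        obtain ⟨r, hr⟩ := this
        exact ⟨r, by omega⟩
      obtain ⟨r, hr⟩ := h5
      rw [hr, show p ^ n * (2 * r) = 2 * (p ^ n * r) by ring, Nat.mul_div_cancel_left _ (by norm_num)]
      exact h4.mul_right r
  have key : ∀ j, ∀ h, h ∈ U j → ⁅t, h⁆ ∈ A := by
    intro j
    induction j with
    | zero =>
      intro h hh
      have h1 := hCA t htC h (hU0 h hh)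
      rw [commutatorElement_eq_one_iff_mul_comm.mpr h1.symm]
      exact A.one_mem
    | succ j ih =>
      intro h hh
      have hd1 : ⁅t, h⁆ ∈ U l := hUs l t htU h
      have hd2 : ⁅t, h⁆ ∈ U j := by
        rw [← commutatorElement_inv]
        exact (U j).inv_mem (hUs j h hh t)
      have hd3 : ⁅t, h⁆ ∈ Subgroup.centralizer (A : Set G) := by
        rw [commutatorElement_def, mul_assoc, mul_assoc]
        refine Subgroup.mul_mem _ htC ?_
        have := hCn.conj_mem t⁻¹ (Subgroup.inv_mem _ htC) h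
        rwa [mul_assoc] at this
      refine hminl _ hd1 hd3 ?_
      have hw := ih _ hd2
      obtain ⟨y, hy⟩ : ∃ y, y = h * t⁻¹ * h⁻¹ := ⟨_, rfl⟩
      have hyC : y ∈ Subgroup.centralizer (A : Set G) := by
        rw [hy]; exact hCn.conj_mem t⁻¹ (Subgroup.inv_mem _ htC) h
      have hyn : y ^ p ^ n = 1 := by
        rw [hy, conj_pow, inv_pow, htn, inv_one, mul_one, mul_inv_cancel]
      have hd : ⁅t, h⁆ = t * y := by
        rw [hy, commutatorElement_def]; group
      have hw2 : ⁅y, t⁆ ∈ A := by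
        have h1 : ⁅y, t⁆ = t⁻¹ * ⁅t, ⁅t, h⁆⁆⁻¹ * t := by
          rw [hd, commutatorElement_def, commutatorElement_def]; group
        rw [h1]
        have := ‹A.Normal›.conj_mem _ (A.inv_mem hw) t⁻¹
        rwa [inv_inv] at this
      have c1 : Commute ⁅y, t⁆ t := hCA t htC _ hw2
      have c2 : Commute ⁅y, t⁆ y := hCA y hyC _ hw2
      rw [hd, H1.mul_pow_class_two c1 c2, htn, hyn, one_mul, one_mul]
      obtain ⟨r, hr⟩ := hchoose
      rw [hr, pow_mul]
      have h5 : ⁅y, t⁆ ^ p = 1 := by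
        have h6 : ⁅y, t ^ p⁆ = ⁅y, t⁆ ^ p := H1.comm_pow_right c1 p
        rw [← h6]
        exact commutatorElement_eq_one_iff_mul_comm.mpr (hCA y hyC _ htp).symm
      rw [h5, one_pow]
  have key2 : ∀ h, ⁅t, h⁆ ∈ A := fun h => key c h (hUc h)
  obtain ⟨B, hB⟩ : ∃ B, B = A ⊔ Subgroup.zpowers t := ⟨_, rfl⟩
  have hBm : ∀ b, b ∈ B → ∃ a ∈ A, ∃ m : ℤ, b = a * t ^ m := by
    intro b hb
    rw [hB] at hb
    obtain ⟨a, ha, s, hs, rfl⟩ := Subgroup.mem_sup_of_normal_left.mp hb
    obtain ⟨m, rfl⟩ := Subgroup.mem_zpowers_iff.mp hs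
    exact ⟨a, ha, m, rfl⟩
  have htB : t ∈ B := by rw [hB]; exact Subgroup.mem_sup_right (Subgroup.mem_zpowers t)
  have hAB : A ≤ B := by rw [hB]; exact le_sup_left
  have hBn : B.Normal := by
    constructor
    intro b hb g
    obtain ⟨a, ha, m, rfl⟩ := hBm b hb
    have h1 : g * t * g⁻¹ ∈ B := by
      have h2 : g * t * g⁻¹ = ⁅t, g⁆⁻¹ * t := by rw [commutatorElement_def]; group
      rw [h2]; exact B.mul_mem (B.inv_mem (hAB (key2 g))) htB
    have h3 : g * (a * t ^ m) * g⁻¹ = (g * a * g⁻¹) * (g * t * g⁻¹) ^ m := by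
      rw [conj_zpow]; group
    rw [h3]
    exact B.mul_mem (hAB (‹A.Normal›.conj_mem a ha g)) (B.zpow_mem h1 m)
  have hcz : ∀ a ∈ A, ∀ m : ℤ, a * t ^ m = t ^ m * a := by
    intro a ha m
    exact hCA _ (Subgroup.zpow_mem _ htC m) a ha
  have hBc : IsMulCommutative B := by
    constructor; constructor
    rintro ⟨b, hb⟩ ⟨b', hb'⟩
    apply Subtype.ext
    change b * b' = b' * b
    obtain ⟨a, ha, m, rfl⟩ := hBm b hb
    obtain ⟨a', ha', m', rfl⟩ := hBm b' hb'
    have e1 : Commute a a' := hcomm a ha a' ha'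
    have e2 : Commute a (t ^ m') := hcz a ha m'
    have e3 : Commute (t ^ m) a' := (hcz a' ha' m).symm
    have e4 : Commute (t ^ m) (t ^ m') := (Commute.refl t).zpow_zpow m m'
    exact Commute.mul_left (Commute.mul_right e1 e2) (Commute.mul_right e3 e4)
  have hBe : ∀ b ∈ B, b ^ p ^ n = 1 := by
    intro b hb
    obtain ⟨a, ha, m, rfl⟩ := hBm b hb
    have e2 : Commute a (t ^ m) := hcz a ha m
    rw [e2.mul_pow, hAe a ha, one_mul, ← zpow_natCast, ← zpow_mul, mul_comm, zpow_mul, zpow_natCast, htn, one_zpow]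
  have := hmax B hBn hBc hBe hAB
  rw [this] at htB
  exact htA htB

end Cfsg.Agent.S0130
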