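import Cfsg.Statements.S0100
import Cfsg.Agent.S0130
import Cfsg.Agent.H2.SylCount
import Cfsg.Agent.H1.Class2
import Mathlib

set_option autoImplicit false
open Cfsg

namespace Cfsg.Agent.S0100

open Subgroup

/-- For odd p, a p-group without normal elementary abelian subgroups of order p^3 has p-rank at most 2. -/
theorem result {P : Type*} [Group P] [Finite P] {p : ℕ} [Fact p.Prime] (hp : p ≠ 2) (hP : IsPGroup p P) (h : ∀ A : Subgroup P, A.Normal → IsMulCommutative A → (∀ a ∈ A, a ^ p = 1) → Nat.card A ≠ p ^ 3) (E : Subgroup P) (hE : IsMulCommutative E) (hEe : ∀ e ∈ E, e ^ p = 1) : Nat.card E ≤ p ^ 2 := by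
  classical
  have hpp : p.Prime := Fact.out
  -- a maximal normal abelian subgroup of exponent p
  have hfin : {B : Subgroup P | B.Normal ∧ IsMulCommutative B ∧ ∀ b ∈ B, b ^ p ^ 1 = 1}.Finite := Set.toFinite _
  obtain ⟨A, hAmax⟩ := hfin.exists_maximal ⟨⊥, inferInstance, inferInstance, fun b hb => by
    rw [Subgroup.mem_bot] at hb; rw [hb, one_pow]⟩
  obtain ⟨hAn, hAc, hAe⟩ := hAmax.prop
  have hmax : ∀ B : Subgroup P, B.Normal → IsMulCommutative B → (∀ b ∈ B, b ^ p ^ 1 = 1) → A ≤ B → B = A :=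
    fun B h1 h2 h3 h4 => le_antisymm (hAmax.le_of_ge ⟨h1, h2, h3⟩ h4) h4
  have hcA : ∀ a ∈ A, ∀ b ∈ A, a * b = b * a := fun a ha b hb => congrArg Subtype.val (hAc.is_comm.comm ⟨a, ha⟩ ⟨b, hb⟩)
  have hcE : ∀ a ∈ E, ∀ b ∈ E, a * b = b * a := fun a ha b hb => congrArg Subtype.val (hE.is_comm.comm ⟨a, ha⟩ ⟨b, hb⟩)
  have hEA : ∀ x ∈ E, x ∈ Subgroup.centralizer (A : Set P) → x ∈ A := fun x hx hxc =>
    S0130.result hP 1 (by rw [pow_one]; exact hp) A hAc hAe hmax x hxc (by rw [pow_one]; exact hEe x hx)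
  obtain ⟨a, ha⟩ := (hP.to_subgroup A).exists_card_eq
  have ha2 : a ≤ 2 := by
    by_contra hcon
    obtain ⟨L, hL1, hL2, hL3⟩ := H1.exists_normal_le_card hP A (b := a) (k := 3) ha (by omega)
    refine h L hL1 ⟨⟨?_⟩⟩ (fun x hx => by have := hAe x (hL2 hx); rwa [pow_one] at this) hL3
    rintro ⟨x, hx⟩ ⟨y, hy⟩
    exact Subtype.ext (hcA x (hL2 hx) y (hL2 hy))
  have hcentral : ∀ L : Subgroup P, L.Normal → Nat.card L = p → ∀ x : P, x ∈ Subgroup.centralizer (L : Set P) := by
    intro L hLn hLc x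
    refine H2.centralizes_of_card_prime hpp hLc (by rw [Subgroup.normalizer_eq_top]; exact mem_top x) ?_
    obtain ⟨k, hk⟩ := IsPGroup.iff_orderOf.1 hP x
    rw [hk]
    refine Nat.Coprime.pow_left k ?_
    rw [Nat.Prime.coprime_iff_not_dvd hpp]
    intro hd
    have := Nat.le_of_dvd (by have := hpp.one_lt; omega) hd
    have := hpp.pos
    omega
  have hpow1 : ∀ k, k ≤ 2 → p ^ k ≤ p ^ 2 := fun k hk => Nat.pow_le_pow_right hpp.pos hk
  by_cases hall : ∀ x ∈ E, x ∈ Subgroup.centralizer (A : Set P)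
  · have hle : E ≤ A := fun x hx => hEA x hx (hall x hx)
    calc Nat.card E ≤ Nat.card A := Subgroup.card_le_of_le hle
      _ = p ^ a := ha
      _ ≤ p ^ 2 := hpow1 a ha2
  · have ha' : a = 2 := by
      by_contra hne
      apply hall
      intro x hx
      rcases (show a = 0 ∨ a = 1 by omega) with h0 | h0
      · rw [h0, pow_zero] at ha
        have : A = ⊥ := Subgroup.card_eq_one.1 ha
        rw [this, Subgroup.mem_centralizer_iff]
        intro y hy
        have : y = 1 := Subgroup.mem_bot.1 hy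
        rw [this, one_mul, mul_one]
      · rw [h0, pow_one] at ha
        exact hcentral A hAn ha x
    rw [ha'] at ha
    obtain ⟨L, hLn, hLA, hLc⟩ := H1.exists_normal_le_card hP A (b := 2) (k := 1) ha (by omega)
    rw [pow_one] at hLc
    obtain ⟨a0, ha0, ha0L⟩ : ∃ a0 ∈ A, a0 ∉ L := by
      by_contra hcon
      push Not at hcon
      have : Nat.card A ≤ Nat.card L := Subgroup.card_le_of_le hcon
      rw [ha, hLc, pow_two] at this
      have := hpp.one_lt
      nlinarith
    have hgen : L ⊔ Subgroup.zpowers a0 = A := by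
      have hle : L ⊔ Subgroup.zpowers a0 ≤ A := sup_le hLA (by rw [Subgroup.zpowers_le]; exact ha0)
      have hd : Nat.card ↥(L ⊔ Subgroup.zpowers a0) ∣ p ^ 2 := ha ▸ Subgroup.card_dvd_of_le hle
      obtain ⟨k, hk, hkc⟩ := (Nat.dvd_prime_pow hpp).1 hd
      have hlt : p < Nat.card ↥(L ⊔ Subgroup.zpowers a0) := by
        rw [← hLc]
        refine lt_of_le_of_ne (Subgroup.card_le_of_le le_sup_left) fun heq => ?_
        have h5 : L = L ⊔ Subgroup.zpowers a0 := Subgroup.eq_of_le_of_card_ge le_sup_left heq.ge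
        exact ha0L (h5 ▸ Subgroup.mem_sup_right (Subgroup.mem_zpowers a0))
      have hk2 : k = 2 := by
        by_contra hne
        have hk1 : k ≤ 1 := by omega
        rw [hkc] at hlt
        have : p ^ k ≤ p ^ 1 := Nat.pow_le_pow_right hpp.pos hk1
        rw [pow_one] at this
        omega
      refine Subgroup.eq_of_le_of_card_ge hle ?_
      rw [hkc, hk2, ha]
    have hcomm : ∀ e : P, e * a0 * e⁻¹ * a0⁻¹ ∈ L := by
      intro e
      have hq : Nat.card (A.map (QuotientGroup.mk' L)) = p := by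
        have h1 : Nat.card (A.map (QuotientGroup.mk' L)) * Nat.card L = Nat.card A := by
          have h2 := Subgroup.card_mul_index (L.subgroupOf A)
          have h3 : Nat.card (L.subgroupOf A) = Nat.card L := Nat.card_congr (Subgroup.subgroupOfEquivOfLe hLA).toEquiv
          have h4 : Nat.card (A.map (QuotientGroup.mk' L)) = (L.subgroupOf A).index := by
            have e1 := QuotientGroup.quotientKerEquivRange ((QuotientGroup.mk' L).comp A.subtype)
            have e2 : ((QuotientGroup.mk' L).comp A.subtype).ker = L.subgroupOf A := by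
              ext x; rw [MonoidHom.mem_ker, Subgroup.mem_subgroupOf]
              exact QuotientGroup.eq_one_iff (x : P)
            have e3 : ((QuotientGroup.mk' L).comp A.subtype).range = A.map (QuotientGroup.mk' L) := by
              rw [MonoidHom.range_comp, Subgroup.range_subtype]
            rw [← e3, ← e2]
            exact (Nat.card_congr e1.toEquiv).symm
          rw [h4, ← h3, mul_comm]; exact h2
        rw [hLc, ha, pow_two] at h1
        exact Nat.eq_of_mul_eq_mul_right hpp.pos h1
      have hn : (A.map (QuotientGroup.mk' L)).Normal := hAn.map _ (QuotientGroup.mk'_surjective L)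
      have h6 : QuotientGroup.mk' L e ∈ Subgroup.centralizer ((A.map (QuotientGroup.mk' L) : Subgroup (P ⧸ L)) : Set (P ⧸ L)) := by
        refine H2.centralizes_of_card_prime hpp hq (by rw [Subgroup.normalizer_eq_top]; exact mem_top _) ?_
        obtain ⟨k, hk⟩ := IsPGroup.iff_orderOf.1 (hP.to_quotient L) (QuotientGroup.mk' L e)
        rw [hk]
        refine Nat.Coprime.pow_left k ?_
        rw [Nat.Prime.coprime_iff_not_dvd hpp]
        intro hd
        have := Nat.le_of_dvd (by have := hpp.one_lt; omega) hd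
        have := hpp.pos
        omega
      have h7 := Subgroup.mem_centralizer_iff.1 h6 (QuotientGroup.mk' L a0) ⟨a0, ha0, rfl⟩
      rw [← QuotientGroup.eq_one_iff]
      show QuotientGroup.mk' L (e * a0 * e⁻¹ * a0⁻¹) = 1
      rw [map_mul, map_mul, map_mul, map_inv, map_inv, ← h7]
      group
    obtain ⟨D, hD⟩ : ∃ D, D = E ⊓ Subgroup.centralizer (A : Set P) := ⟨_, rfl⟩
    have hDE : D ≤ E := hD ▸ inf_le_left
    have hDmem : ∀ x, x ∈ D ↔ x ∈ E ∧ x ∈ Subgroup.centralizer (A : Set P) := fun x => by rw [hD]; exact Subgroup.mem_inf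
    have hidx : (D.subgroupOf E).index ≤ p := by
      rw [← hLc, Subgroup.index_eq_card]
      refine Nat.card_le_card_of_injective (fun q : ↥E ⧸ D.subgroupOf E => (⟨(q.out : P) * a0 * (q.out : P)⁻¹ * a0⁻¹, hcomm _⟩ : ↥L)) ?_
      intro q q' hqq
      have h8 : (q.out : P) * a0 * (q.out : P)⁻¹ * a0⁻¹ = (q'.out : P) * a0 * (q'.out : P)⁻¹ * a0⁻¹ := congrArg Subtype.val hqq
      have h9 : (q.out : P) * a0 * (q.out : P)⁻¹ = (q'.out : P) * a0 * (q'.out : P)⁻¹ := mul_right_cancel h8
      rw [← Quotient.out_eq' q, ← Quotient.out_eq' q', Quotient.eq'', QuotientGroup.leftRel_apply, Subgroup.mem_subgroupOf]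
      refine (hDmem _).2 ⟨E.mul_mem (E.inv_mem q.out.2) q'.out.2, ?_⟩
      have h10 : A ≤ Subgroup.centralizer ({(q.out : P)⁻¹ * (q'.out : P)} : Set P) := by
        rw [← hgen]
        refine sup_le ?_ ?_
        · intro l hl
          rw [Subgroup.mem_centralizer_singleton_iff]
          exact Subgroup.mem_centralizer_iff.1 (hcentral L hLn hLc ((q.out : P)⁻¹ * (q'.out : P))) l hl
        · rw [Subgroup.zpowers_le, Subgroup.mem_centralizer_singleton_iff]
          calc a0 * ((q.out : P)⁻¹ * (q'.out : P)) = (q.out : P)⁻¹ * ((q.out : P) * a0 * (q.out : P)⁻¹) * (q'.out : P) := by group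
            _ = (q.out : P)⁻¹ * ((q'.out : P) * a0 * (q'.out : P)⁻¹) * (q'.out : P) := by rw [h9]
            _ = (q.out : P)⁻¹ * (q'.out : P) * a0 := by group
      show ((q.out⁻¹ * q'.out : ↥E) : P) ∈ _
      rw [Subgroup.mem_centralizer_iff]
      intro x hx
      exact Subgroup.mem_centralizer_singleton_iff.1 (h10 hx)
    have hDA : D ≤ A := fun x hx => hEA x (hDE hx) (by rw [hD] at hx; exact (Subgroup.mem_inf.1 hx).2)
    have hDc : Nat.card D ≤ p := by
      have hd : Nat.card D ∣ p ^ 2 := ha ▸ Subgroup.card_dvd_of_le hDA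
      obtain ⟨k, hk, hkc⟩ := (Nat.dvd_prime_pow hpp).1 hd
      by_contra hcon
      have hk2 : k = 2 := by
        by_contra hne
        have hk1 : k ≤ 1 := by omega
        have : p ^ k ≤ p ^ 1 := Nat.pow_le_pow_right hpp.pos hk1
        rw [pow_one] at this
        rw [hkc] at hcon
        exact hcon this
      have hDeq : D = A := Subgroup.eq_of_le_of_card_ge hDA (by rw [hkc, hk2, ha])
      apply hall
      intro x hx
      rw [Subgroup.mem_centralizer_iff]
      intro y hy
      exact hcE y (hDE (hDeq ▸ hy)) x hx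
    have hcard : Nat.card E = Nat.card D * (D.subgroupOf E).index := by
      have h2 := Subgroup.card_mul_index (D.subgroupOf E)
      have h3 : Nat.card (D.subgroupOf E) = Nat.card D := Nat.card_congr (Subgroup.subgroupOfEquivOfLe hDE).toEquiv
      rw [← h2, h3]
    rw [hcard, pow_two]
    exact Nat.mul_le_mul hDc hidx

end Cfsg.Agent.S0100
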