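import Cfsg.Statements.S0101
import Mathlib
import Cfsg.Agent.H1.Transfer

set_option autoImplicit false
open Cfsg

namespace Cfsg.Agent.S0101

open scoped commutatorElement Pointwise
open scoped IsMulCommutative

/-- In a perfect central extension, the kernel meets each Sylow p-subgroup P inside the Frattini subgroup of P. -/
theorem result {H : Type*} {G : Type*} [Group H] [Group G] [Finite H] (σ : H →* G) (hσ : Function.Surjective σ) (hc : σ.ker ≤ Subgroup.center H) (hH : commutator H = ⊤) {p : ℕ} [Fact p.Prime] (P : Sylow p H) : σ.ker ⊓ (P : Subgroup H) ≤ (frattini P).map (P : Subgroup H).subtype := by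
  rintro z ⟨hz, hzP⟩
  have hzc : z ∈ Subgroup.center H := hc hz
  refine ⟨⟨z, hzP⟩, ?_, rfl⟩
  have hPnil : Group.IsNilpotent P := P.isPGroup'.isNilpotent
  have key : ∀ M : Subgroup P, IsCoatom M → (⟨z, hzP⟩ : P) ∈ M := by
    intro M hM
    haveI hMn : M.Normal := Cfsg.Agent.H1.normal_of_isCoatom_of_nilpotent hM
    have hi : M.index = p := Cfsg.Agent.H1.index_of_isCoatom_pgroup P.isPGroup' hM
    rw [Subgroup.index_eq_card] at hi
    have hcyc : IsCyclic (P ⧸ M) := isCyclic_of_prime_card hi
    haveI hcc : IsMulCommutative (P ⧸ M) := hcyc.isMulCommutative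
    have h1 := MonoidHom.transfer_eq_pow (H := (P : Subgroup H)) (QuotientGroup.mk' M) z (fun k g₀ _ => by
      have : z ^ k ∈ Subgroup.center H := Subgroup.pow_mem _ hzc k
      rw [Subgroup.mem_center_iff] at this
      rw [this g₀⁻¹]; group)
    have h2 : (MonoidHom.transfer (QuotientGroup.mk' M)) z = 1 := by
      have h3 : z ∈ commutator H := hH ▸ Subgroup.mem_top z
      exact Abelianization.commutator_subset_ker (MonoidHom.transfer (QuotientGroup.mk' M)) h3
    rw [h2] at h1
    have h4 : ((⟨z, hzP⟩ : P) : P ⧸ M) ^ (P : Subgroup H).index = 1 := by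
      rw [← QuotientGroup.mk_pow]; exact h1.symm
    have h5 := orderOf_dvd_of_pow_eq_one h4
    have h6 : orderOf ((⟨z, hzP⟩ : P) : P ⧸ M) ∣ p := (orderOf_dvd_natCard _).trans (dvd_of_eq hi)
    have h7 := Nat.eq_one_of_dvd_coprimes (Cfsg.Agent.H1.card_coprime_index_sylow P) h5 h6
    rw [orderOf_eq_one_iff] at h7
    exact (QuotientGroup.eq_one_iff _).mp h7
  simpa [frattini, Order.radical, Subgroup.mem_iInf] using key

end Cfsg.Agent.S0101
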