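import Cfsg.Statements.S0102
import Mathlib

set_option autoImplicit false
open Cfsg

namespace Cfsg.Agent.S0102

/-- A finite perfect group with cyclic Sylow p-subgroups has no perfect central extension whose kernel has order divisible by p. -/
theorem result {G : Type*} {H : Type*} [Group G] [Group H] [Finite G] [Finite H] (hG : commutator G = ⊤) {p : ℕ} [Fact p.Prime] (hcyc : ∀ P : Sylow p G, IsCyclic P) (σ : H →* G) (hσ : Function.Surjective σ) (hz : σ.ker ≤ Subgroup.center H) (hH : commutator H = ⊤) : ¬ p ∣ Nat.card σ.ker := by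
  intro hdvd
  classical
  obtain ⟨⟨x, hxk⟩, hxo⟩ := exists_prime_orderOf_dvd_card' p hdvd
  have hxo' : orderOf x = p := by rw [← hxo]; exact (Subgroup.orderOf_mk x hxk).symm
  have hxz : x ∈ Subgroup.center H := hz hxk
  obtain ⟨P⟩ := (inferInstance : Nonempty (Sylow p H))
  obtain ⟨Q, hQ⟩ := (P.isPGroup'.map σ).exists_le_sylow
  have hQc : IsCyclic Q := hcyc Q
  have hcm : ∀ a b : (P : Subgroup H), a * b = b * a := by
    let f : (P : Subgroup H) →* Q :=
      { toFun := fun a => ⟨σ a, hQ (Subgroup.mem_map_of_mem σ a.2)⟩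
        map_one' := by ext; simp
        map_mul' := by intro a b; ext; simp }
    apply commutative_of_cyclic_center_quotient f
    intro a ha
    have h1 : σ (a : H) = 1 := by
      have := congrArg (Subtype.val) ((MonoidHom.mem_ker).mp ha)
      simpa [f] using this
    have h2 := hz (MonoidHom.mem_ker.mpr h1)
    rw [Subgroup.mem_center_iff] at h2 ⊢
    intro b
    ext
    exact h2 b
  letI : CommGroup (P : Subgroup H) := { (inferInstance : Group (P : Subgroup H)) with mul_comm := hcm }
  have key : ∀ (k : ℕ) (g₀ : H), g₀⁻¹ * x ^ k * g₀ ∈ (P : Subgroup H) → g₀⁻¹ * x ^ k * g₀ = x ^ k := by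
    intro k g₀ _
    have h2 : x ^ k ∈ Subgroup.center H := Subgroup.pow_mem _ hxz k
    rw [Subgroup.mem_center_iff] at h2
    rw [mul_assoc, ← h2 g₀, inv_mul_cancel_left]
  have hT := MonoidHom.transfer_eq_pow (MonoidHom.id (P : Subgroup H)) x key
  have htriv : MonoidHom.transfer (MonoidHom.id (P : Subgroup H)) x = 1 := by
    have h1 : x ∈ commutator H := by rw [hH]; trivial
    exact MonoidHom.mem_ker.mp (Abelianization.commutator_subset_ker _ h1)
  rw [htriv] at hT
  have hx1 : x ^ (P : Subgroup H).index = 1 := by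
    have := congrArg Subtype.val hT
    simpa using this.symm
  have h3 : p ∣ (P : Subgroup H).index := by
    have := orderOf_dvd_of_pow_eq_one hx1
    rwa [hxo'] at this
  exact P.not_dvd_index h3

end Cfsg.Agent.S0102
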