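import Cfsg.Statements.S0104
import Mathlib
import Cfsg.Agent.H1.Basic

set_option autoImplicit false
open Cfsg

namespace Cfsg.Agent.S0104

open scoped commutatorElement


/-- A subgroup Z of a Sylow p-subgroup P that is normalized by N_G(P) is weakly closed in P exactly when it is normal in every Sylow p-subgroup containing it. -/
theorem result {G : Type*} [Group G] [Finite G] {p : ℕ} [Fact p.Prime] (P : Sylow p G) (Z : Subgroup G) (hZP : Z ≤ (P : Subgroup G)) (hZN : Subgroup.normalizer (P : Set G) ≤ Subgroup.normalizer (Z : Set G)) : Cfsg.IsWeaklyClosed Z P ↔ ∀ R : Sylow p G, Z ≤ (R : Subgroup G) → (R : Subgroup G) ≤ Subgroup.normalizer (Z : Set G) := by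
  constructor
  · rintro ⟨-, hw⟩ R hZR
    obtain ⟨g, hg⟩ := MulAction.exists_smul_eq G P R
    have h1 : Z.map (MulAut.conj g⁻¹).toMonoidHom ≤ P := by
      rintro _ ⟨z, hz, rfl⟩
      have h2 : z ∈ R := hZR hz
      rw [← hg, Cfsg.Agent.H1.mem_smul_sylow] at h2
      have h3 : g⁻¹ * z * g⁻¹⁻¹ ∈ P := by simpa using h2
      exact h3
    have h4 : g⁻¹ ∈ Subgroup.normalizer (Z : Set G) := by
      apply Cfsg.Agent.H1.mem_normalizer_of_conj_mem
      intro z hz
      rw [← hw _ h1]; exact ⟨z, hz, rfl⟩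
    intro r hr
    rw [← hg] at hr
    have h5 : g⁻¹ * r * g ∈ P := Cfsg.Agent.H1.mem_smul_sylow.mp hr
    have h6 : g⁻¹ * r * g ∈ Subgroup.normalizer (Z : Set G) := hZN (Subgroup.le_normalizer h5)
    have h7 : r = (g⁻¹)⁻¹ * (g⁻¹ * r * g) * g⁻¹ := by group
    rw [h7]
    exact Subgroup.mul_mem _ (Subgroup.mul_mem _ (Subgroup.inv_mem _ h4) h6) h4
  · intro h
    refine ⟨hZP, fun g hg => ?_⟩
    have h1 : Z ≤ ((g⁻¹ • P : Sylow p G) : Subgroup G) := by
      intro z hz
      show z ∈ g⁻¹ • P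
      rw [Cfsg.Agent.H1.mem_smul_sylow]
      have : g * z * g⁻¹ ∈ P := hg ⟨z, hz, rfl⟩
      simpa using this
    have h2 := h _ h1
    have h3 := h P hZP
    obtain ⟨n, hn⟩ := MulAction.exists_smul_eq (Subgroup.normalizer (Z : Set G)) ((g⁻¹ • P : Sylow p G).subtype h2) (P.subtype h3)
    simp_rw [Sylow.smul_subtype, Subgroup.smul_def, smul_smul] at hn
    have h4 : (n : G) * g⁻¹ ∈ Subgroup.normalizer (P : Set G) :=
      Sylow.smul_eq_iff_mem_normalizer.mp (Sylow.subtype_injective hn)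
    have h5 := hZN h4
    have h6 : g ∈ Subgroup.normalizer (Z : Set G) := by
      have : g = ((n : G) * g⁻¹)⁻¹ * n := by group
      rw [this]; exact Subgroup.mul_mem _ (Subgroup.inv_mem _ h5) n.2
    apply Subgroup.eq_of_le_of_card_ge
    · rintro _ ⟨z, hz, rfl⟩
      exact (Subgroup.mem_normalizer_iff.mp h6 z).mp hz
    · rw [Cfsg.Agent.L0.card_map_equiv]

end Cfsg.Agent.S0104
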