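import Cfsg.Statements.S0105
import Mathlib
import Cfsg.Agent.H1.CoprimeAb

set_option autoImplicit false
open Cfsg

namespace Cfsg.Agent.S0105

open scoped commutatorElement Pointwise


/-- With an abelian Sylow p-subgroup P, some quotient of G is isomorphic to the part of P central in N_G(P). -/
theorem result {G : Type*} [Group G] [Finite G] {p : ℕ} [Fact p.Prime] (P : Sylow p G) (hP : IsMulCommutative P) : ∃ (N : Subgroup G) (hN : N.Normal), Nonempty (G ⧸ N ≃* ((P : Subgroup G) ⊓ Subgroup.centralizer (Subgroup.normalizer (P : Set G) : Set G) : Subgroup G)) := by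
  have hcop : ((Subgroup.centralizer (P : Set G)).relIndex (Subgroup.normalizer (P : Set G))).Coprime (Nat.card P) := by
    obtain ⟨k, hk⟩ := IsPGroup.iff_card.mp P.isPGroup'
    rw [hk]
    apply Nat.Coprime.pow_right
    rw [Nat.coprime_comm, Nat.Prime.coprime_iff_not_dvd Fact.out]
    exact Cfsg.Agent.H1.centralizer_index_not_dvd_of_abelian P hP _ Subgroup.le_normalizer
  obtain ⟨h1, h2⟩ := Cfsg.Agent.H1.coprime_abelian_decomp (Subgroup.normalizer (P : Set G)) (P : Subgroup G) le_rfl hcop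
  rw [← Cfsg.Agent.H1.commutator_inf_eq_of_abelian P hP] at h1 h2
  set C := (P : Subgroup G) ⊓ Subgroup.centralizer (Subgroup.normalizer (P : Set G) : Set G) with hC
  set K := (Subgroup.transferFocal (P : Subgroup G)).ker with hK
  have hKP : K ⊓ (P : Subgroup G) = commutator G ⊓ (P : Subgroup G) := by
    rw [hK, Subgroup.ker_transferFocal_inf_eq_focalSubgroup, ← Subgroup.commutator_inf_eq_focalSubgroup]
  have hsup : (P : Subgroup G) ⊔ K = ⊤ := by
    rw [eq_top_iff, ← Cfsg.Agent.H1.sylow_sup_pResidual P]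
    exact sup_le_sup_left (Cfsg.Agent.H1.pResidual_le_ker (P.isPGroup'.to_quotient _) _) _
  refine ⟨K, inferInstance, ⟨?_⟩⟩
  let f : C →* G ⧸ K := (QuotientGroup.mk' K).comp C.subtype
  have hinj : Function.Injective f := by
    rw [injective_iff_map_eq_one]
    intro c hc
    have h3 : (c : G) ∈ K := (QuotientGroup.eq_one_iff _).mp hc
    have h4 : (c : G) ∈ C ⊓ (commutator G ⊓ (P : Subgroup G)) := by
      refine ⟨c.2, ?_⟩
      rw [SetLike.mem_coe, ← hKP]
      exact ⟨h3, c.2.1⟩
    rw [h1, Subgroup.mem_bot] at h4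
    exact Subtype.ext h4
  have hsurj : Function.Surjective f := by
    intro q
    obtain ⟨g, rfl⟩ := QuotientGroup.mk'_surjective K q
    have hg : g ∈ (P : Subgroup G) ⊔ K := hsup ▸ Subgroup.mem_top g
    rw [Subgroup.mem_sup_of_normal_right] at hg
    obtain ⟨x, hx, k, hk, rfl⟩ := hg
    rw [← h2] at hx
    have hle : C ⊔ commutator G ⊓ (P : Subgroup G) ≤ C ⊔ K := sup_le_sup_left (by rw [← hKP]; exact inf_le_left) _
    have hx' := hle hx
    rw [Subgroup.mem_sup_of_normal_right] at hx'
    obtain ⟨c, hc, l, hl, rfl⟩ := hx'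
    refine ⟨⟨c, hc⟩, ?_⟩
    show ((c : G) : G ⧸ K) = ((c * l * k : G) : G ⧸ K)
    rw [QuotientGroup.eq]
    have : c⁻¹ * (c * l * k) = l * k := by group
    rw [this]; exact K.mul_mem hl hk
  exact (MulEquiv.ofBijective f ⟨hinj, hsurj⟩).symm

end Cfsg.Agent.S0105
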