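import Cfsg.Statements.S0107
import Cfsg.Agent.S0111
import Cfsg.Agent.H1.Basic

set_option autoImplicit false
open Cfsg

namespace Cfsg.Agent.S0107

/-- A finite group with no nontrivial 2-group quotient and dihedral Sylow 2-subgroups of order at least 8 has a single class of involutions. -/
theorem result {G : Type*} [Group G] [Finite G] (T : Sylow 2 G) (n : ℕ) (hn : 2 ≤ n) (hT : Nonempty ((T : Subgroup G) ≃* DihedralGroup (2 ^ n))) (hO : Cfsg.pResidual 2 G = ⊤) (x y : G) (hx : orderOf x = 2) (hy : orderOf y = 2) : ∃ g : G, g * x * g⁻¹ = y := by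
    classical
    obtain ⟨e⟩ := hT
    haveI : NeZero (2 ^ n) := ⟨(pow_pos two_pos n).ne'⟩
    set R : Subgroup (T : Subgroup G) := (Subgroup.zpowers (DihedralGroup.r (1 : ZMod (2 ^ n)))).comap e.toMonoidHom with hR
    set Q : Subgroup G := R.map (T : Subgroup G).subtype with hQ
    have hQT : Q ≤ (T : Subgroup G) := Subgroup.map_subtype_le _
    have hRi : R.index = 2 := by
      rw [hR, Subgroup.index_comap_of_surjective _ e.surjective]
      have h1 := Subgroup.card_mul_index (Subgroup.zpowers (DihedralGroup.r (1 : ZMod (2 ^ n))))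
      rw [Nat.card_zpowers, DihedralGroup.orderOf_r_one, DihedralGroup.nat_card, mul_comm 2] at h1
      exact Nat.eq_of_mul_eq_mul_left (pow_pos two_pos n) h1
    have hQi : Q.relIndex (T : Subgroup G) = 2 := by
      rw [Subgroup.relIndex, hQ, Subgroup.subgroupOf, Subgroup.comap_map_eq_self_of_injective (T : Subgroup G).subtype_injective, hRi]
    have hcyc : IsCyclic R := by
      have hRe : R.map e.toMonoidHom = Subgroup.zpowers (DihedralGroup.r (1 : ZMod (2 ^ n))) := by
        rw [hR, Subgroup.map_comap_eq_self_of_surjective e.surjective]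
      have e2 : R ≃* R.map e.toMonoidHom := R.equivMapOfInjective _ e.injective
      haveI : IsCyclic (R.map e.toMonoidHom) := by rw [hRe]; infer_instance
      exact isCyclic_of_surjective e2.symm e2.symm.surjective
    have huniq : ∀ a ∈ Q, ∀ b ∈ Q, orderOf a = 2 → orderOf b = 2 → a = b := by
      rintro _ ⟨a, ha, rfl⟩ _ ⟨b, hb, rfl⟩ ha2 hb2
      have h1 : (⟨a, ha⟩ : R) = ⟨b, hb⟩ := by
        apply H1.eq_of_orderOf_two_cyclic
        · rw [← Subgroup.orderOf_coe, ← Subgroup.orderOf_coe]; exact ha2
        · rw [← Subgroup.orderOf_coe, ← Subgroup.orderOf_coe]; exact hb2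
      exact congrArg (fun t : R => ((t : (T : Subgroup G)) : G)) h1
    -- no normal subgroup of index two
    have hno : ¬ ∃ M : Subgroup G, M.Normal ∧ M.index = 2 ∧ True := by
      rintro ⟨M, hM, hM2, -⟩
      have hle : pResidual 2 G ≤ M := by
        unfold pResidual
        rw [Subgroup.closure_le]
        intro g hg
        have h1 : (QuotientGroup.mk' M g) ^ 2 = 1 := by
          have := pow_card_eq_one' (x := QuotientGroup.mk' M g)
          rwa [← Subgroup.index_eq_card, hM2] at this
        have h2 : orderOf (QuotientGroup.mk' M g) ∣ 2 := orderOf_dvd_of_pow_eq_one h1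
        have h3 : orderOf (QuotientGroup.mk' M g) ∣ orderOf g := orderOf_map_dvd _ g
        have h4 : orderOf (QuotientGroup.mk' M g) = 1 := Nat.eq_one_of_dvd_coprimes hg h3 h2
        rw [orderOf_eq_one_iff] at h4
        exact (QuotientGroup.eq_one_iff g).1 h4
      rw [hO, top_le_iff] at hle
      rw [hle, Subgroup.index_top] at hM2
      omega
    haveI : Fact (Nat.Prime 2) := ⟨Nat.prime_two⟩
    have key : ∀ u : G, orderOf u = 2 → ∃ g : G, g * u * g⁻¹ ∈ Q := by
      intro u hu
      obtain ⟨S, hS⟩ := (IsPGroup.of_card (p := 2) (n := 1) (by rw [Nat.card_zpowers, hu, pow_one]) : IsPGroup 2 (Subgroup.zpowers u)).exists_le_sylow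
      obtain ⟨g, hg⟩ := MulAction.exists_smul_eq G S T
      have h1 : g * u * g⁻¹ ∈ (T : Subgroup G) := by
        rw [← hg]
        exact ⟨u, hS (Subgroup.mem_zpowers _), by simp [MulAut.conj_apply]⟩
      by_cases h2 : g * u * g⁻¹ ∈ Q
      · exact ⟨g, h2⟩
      · have hou : orderOf (g * u * g⁻¹) = 2 := by
          have h9 : SemiconjBy g u (g * u * g⁻¹) := by
            show g * u = g * u * g⁻¹ * g
            group
          rw [← h9.orderOf_eq, hu]
        rcases S0111.result T Q hQT hQi (g * u * g⁻¹) hou h1 h2 with h3 | ⟨k, hk⟩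
        · obtain ⟨M, hM1, hM2, -⟩ := h3
          exact absurd ⟨M, hM1, hM2, trivial⟩ hno
        · refine ⟨k * g, ?_⟩
          have : k * g * u * (k * g)⁻¹ = k * (g * u * g⁻¹) * k⁻¹ := by group
          rw [this]; exact hk
    obtain ⟨g, hg⟩ := key x hx
    obtain ⟨k, hk⟩ := key y hy
    have ho : ∀ (c u : G), orderOf (c * u * c⁻¹) = orderOf u := by
      intro c u
      have h9 : SemiconjBy c u (c * u * c⁻¹) := by
        show c * u = c * u * c⁻¹ * c
        group
      exact h9.orderOf_eq.symm
    have h5 := huniq _ hg _ hk (by rw [ho, hx]) (by rw [ho, hy])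
    refine ⟨k⁻¹ * g, ?_⟩
    have : k⁻¹ * g * x * (k⁻¹ * g)⁻¹ = k⁻¹ * (g * x * g⁻¹) * k := by group
    rw [this, h5]; group

end Cfsg.Agent.S0107
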