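import Cfsg.Statements.S0110
import Mathlib
import Cfsg.Agent.H1.Comm

set_option autoImplicit false
open Cfsg

namespace Cfsg.Agent.S0110

open scoped commutatorElement Pointwise
open scoped IsMulCommutative

theorem comm_mul_mul {G : Type*} [Group G] {u v x y : G} (C1 : Commute y u) (C2 : Commute x v) (C3 : Commute v u)
    (C4 : Commute x u) (C5 : Commute y v) : ⁅u * x, v * y⁆ = ⁅x, y⁆ := by
  rw [commutatorElement_def, commutatorElement_def]
  have r1 : u * (x : G) * (v * y) = (u * v) * (x * y) := by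
    rw [mul_assoc, ← mul_assoc (x : G), C2.eq, mul_assoc v, ← mul_assoc]
  have r2 : (u * (x : G))⁻¹ * (v * (y : G))⁻¹ = (u * v)⁻¹ * (x⁻¹ * y⁻¹) := by
    rw [← mul_inv_rev, ← mul_inv_rev, ← mul_inv_rev]
    congr 1
    rw [mul_assoc, ← mul_assoc (y : G), C1.eq, mul_assoc u, ← mul_assoc, C3.eq]
    have : Commute ((y : G) * x) (u * v) := (C1.mul_left C4).mul_right (C5.mul_left C2)
    exact this.eq.symm
  have hc6 : Commute ((x : G) * y) (u * v)⁻¹ := ((C4.mul_left C1).mul_right (C2.mul_left C5)).inv_right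
  calc u * (x : G) * (v * y) * (u * (x : G))⁻¹ * (v * (y : G))⁻¹
      = (u * (x : G) * (v * y)) * ((u * (x : G))⁻¹ * (v * (y : G))⁻¹) := by group
    _ = (u * v) * ((x * y) * (u * v)⁻¹) * (x⁻¹ * y⁻¹) := by rw [r1, r2]; group
    _ = (u * v) * ((u * v)⁻¹ * (x * y)) * (x⁻¹ * y⁻¹) := by rw [hc6.eq]
    _ = _ := by group

theorem card_hom_le {A Z : Type*} [CommGroup A] [Finite A] [CommGroup Z] [Finite Z] {p : ℕ} (hp : p.Prime) (hZ : Nat.card Z = p) :
    Nat.card (A →* Z) ≤ Nat.card A := by
  haveI : NeZero (Monoid.exponent Z) := ⟨Monoid.exponent_ne_zero_of_finite⟩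
  haveI : NeZero (Monoid.exponent A) := ⟨Monoid.exponent_ne_zero_of_finite⟩
  have h1 : Nat.card (Z →* ℂˣ) = p := by rw [CommGroup.card_monoidHom_of_hasEnoughRootsOfUnity, hZ]
  have h2 : Nontrivial (Z →* ℂˣ) := by
    haveI : Finite (Z →* ℂˣ) := Nat.finite_of_card_ne_zero (by rw [h1]; exact hp.ne_zero)
    rw [← Finite.one_lt_card_iff_nontrivial, h1]
    exact hp.one_lt
  obtain ⟨χ, hχ⟩ := exists_ne (1 : Z →* ℂˣ)
  have hinj : Function.Injective χ := by
    haveI : Fact (Nat.card Z).Prime := ⟨by rw [hZ]; exact hp⟩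
    rw [← MonoidHom.ker_eq_bot_iff]
    rcases Subgroup.eq_bot_or_eq_top_of_prime_card χ.ker with h | h
    · exact h
    · exfalso
      apply hχ
      ext z
      have : z ∈ χ.ker := by rw [h]; trivial
      rw [MonoidHom.mem_ker.mp this]
      rfl
  have h3 : Nat.card (A →* ℂˣ) = Nat.card A := CommGroup.card_monoidHom_of_hasEnoughRootsOfUnity A ℂ
  haveI : Finite (A →* ℂˣ) := Nat.finite_of_card_ne_zero (by rw [h3]; exact Nat.card_pos.ne')
  rw [← h3]
  refine Nat.card_le_card_of_injective (fun f : A →* Z => χ.comp f) ?_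
  intro f g hfg
  ext a
  exact hinj (DFunLike.congr_fun hfg a)

/-- In a p-group G, an extraspecial subgroup E with [G, E] ≤ Z(E) satisfies G = E C_G(E). -/
theorem result {G : Type*} [Group G] [Finite G] {p : ℕ} [Fact p.Prime] (hG : IsPGroup p G) (E : Subgroup G) (hE : Cfsg.IsExtraspecial p E) (h : ⁅(⊤ : Subgroup G), E⁆ ≤ E ⊓ Subgroup.centralizer (E : Set G)) : E ⊔ Subgroup.centralizer (E : Set G) = ⊤ := by
  have hZp : Nat.card (Subgroup.center E) = p := hE.2
  have hmem : ∀ (g : G) (e : E), ⁅g, (e : G)⁆ ∈ E := fun g e => (h (Subgroup.commutator_mem_commutator (Subgroup.mem_top g) e.2)).1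
  have hcen : ∀ (g : G) (e : E), (⟨⁅g, (e : G)⁆, hmem g e⟩ : E) ∈ Subgroup.center E := by
    intro g e
    rw [Subgroup.mem_center_iff]
    intro x
    have h1 := (h (Subgroup.commutator_mem_commutator (Subgroup.mem_top g) e.2)).2
    exact Subtype.ext ((Subgroup.mem_centralizer_iff.mp h1) x x.2)
  have hcomm : ∀ (g : G) (e f : E), (f : G) * ⁅g, (e : G)⁆ = ⁅g, (e : G)⁆ * f := by
    intro g e f
    have h1 := (h (Subgroup.commutator_mem_commutator (Subgroup.mem_top g) e.2)).2
    exact (Subgroup.mem_centralizer_iff.mp h1) f f.2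
  let φ : G → (E →* Subgroup.center E) := fun g =>
    MonoidHom.mk' (fun e => ⟨⟨⁅g, (e : G)⁆, hmem g e⟩, hcen g e⟩) (by
      intro e f
      apply Subtype.ext
      apply Subtype.ext
      show ⁅g, (e : G) * f⁆ = ⁅g, (e : G)⁆ * ⁅g, (f : G)⁆
      have h1 : ⁅g, (e : G) * f⁆ = ⁅g, (e : G)⁆ * (e * ⁅g, (f : G)⁆ * (e : G)⁻¹) := by
        simp only [commutatorElement_def]; group
      rw [h1, hcomm g f e]; group)
  have hφ : ∀ g (e : E), (((φ g e : Subgroup.center E) : E) : G) = ⁅g, (e : G)⁆ := fun g e => rfl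
  have hval : ∀ (f1 f2 : E →* Subgroup.center E), (∀ e, (((f1 e : Subgroup.center E) : E) : G) = ((f2 e : Subgroup.center E) : E)) → f1 = f2 := by
    intro f1 f2 hf
    ext e
    exact hf e
  let Φ : G →* (E →* Subgroup.center E) := MonoidHom.mk' φ (by
    intro g k
    apply hval
    intro e
    show ⁅g * k, (e : G)⁆ = ⁅g, (e : G)⁆ * ⁅k, (e : G)⁆
    -- g (k e k⁻¹ e⁻¹) g⁻¹ (g e g⁻¹ e⁻¹)
    have hk : g * ⁅k, (e : G)⁆ * g⁻¹ = ⁅k, (e : G)⁆ := by
      -- elements of Z(E) are fixed by g, since Z(E) = E'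
      have hfix : ∀ z : E, z ∈ commutator E → g * (z : G) * g⁻¹ = z := by
        intro z hz
        have hle : commutator E ≤ ((Subgroup.centralizer {g}).subgroupOf E) := by
          rw [commutator_def, Subgroup.commutator_le]
          intro x _ y _
          rw [Subgroup.mem_subgroupOf, Subgroup.mem_centralizer_singleton_iff]
          have e1 : g * (x : G) * g⁻¹ = ⁅g, (x : G)⁆ * x := by rw [commutatorElement_def]; group
          have e2 : g * (y : G) * g⁻¹ = ⁅g, (y : G)⁆ * y := by rw [commutatorElement_def]; group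
          have e3 : g * ⁅(x : G), (y : G)⁆ * g⁻¹ = ⁅g * x * g⁻¹, g * y * g⁻¹⁆ := by
            simp only [commutatorElement_def]; group
          have c1 := hcomm g x y
          have c2 := hcomm g y x
          have c3 := hcomm g x ⟨⁅g, (y : G)⁆, hmem g y⟩
          have c4 := hcomm g x x
          have c5 := hcomm g y y
          have e4 : g * ⁅(x : G), (y : G)⁆ * g⁻¹ = ⁅(x : G), (y : G)⁆ := by
            rw [e3, e1, e2]
            exact comm_mul_mul c1 c2 c3 c4 c5
          show ⁅(x : G), (y : G)⁆ * g = g * ⁅(x : G), (y : G)⁆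
          calc ⁅(x : G), (y : G)⁆ * g = (g * ⁅(x : G), (y : G)⁆ * g⁻¹) * g := by rw [e4]
            _ = _ := by group
        have h1 := hle hz
        rw [Subgroup.mem_subgroupOf, Subgroup.mem_centralizer_singleton_iff] at h1
        rw [← h1]; group
      have hz : (⟨⁅k, (e : G)⁆, hmem k e⟩ : E) ∈ commutator E := by
        rw [hE.1.2.2]; exact hcen k e
      exact hfix _ hz
    have h1 : ⁅g * k, (e : G)⁆ = (g * ⁅k, (e : G)⁆ * g⁻¹) * ⁅g, (e : G)⁆ := by
      simp only [commutatorElement_def]; group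
    rw [h1, hk]
    exact hcomm g e ⟨_, hmem k e⟩)
  have hker : Φ.ker = Subgroup.centralizer (E : Set G) := by
    ext g
    rw [MonoidHom.mem_ker, Subgroup.mem_centralizer_iff]
    constructor
    · intro hg x hx
      have h1 : (((Φ g ⟨x, hx⟩ : Subgroup.center E) : E) : G) = 1 := by rw [hg]; rfl
      have h2 : ⁅g, x⁆ = 1 := h1
      exact ((commutatorElement_eq_one_iff_mul_comm).mp h2).symm
    · intro hg
      apply hval
      intro e
      show ⁅g, (e : G)⁆ = 1
      rw [commutatorElement_eq_one_iff_mul_comm]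
      exact (hg e e.2).symm
  have hcard : Nat.card (E →* Subgroup.center E) ≤ (Subgroup.center E).index := by
    have h1 : Nat.card (E →* Subgroup.center E) = Nat.card (Abelianization E →* Subgroup.center E) :=
      Nat.card_congr (Abelianization.lift (G := E) (A := Subgroup.center E))
    rw [h1]
    refine (card_hom_le (p := p) (Fact.out) hZp).trans ?_
    rw [← hE.1.2.2]
    exact le_rfl
  let Ψ : E →* (E →* Subgroup.center E) := Φ.comp E.subtype
  have hkerΨ : Ψ.ker = Subgroup.center E := by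
    ext e
    rw [MonoidHom.mem_ker, Subgroup.mem_center_iff]
    show Φ e = 1 ↔ _
    rw [← MonoidHom.mem_ker, hker, Subgroup.mem_centralizer_iff]
    constructor
    · intro h1 x
      exact Subtype.ext (h1 x x.2)
    · intro h1 x hx
      exact congrArg Subtype.val (h1 ⟨x, hx⟩)
  have hsurj : Function.Surjective Ψ := by
    rw [← MonoidHom.range_eq_top]
    haveI : Finite (E →* Subgroup.center E) := Finite.of_injective (fun f => (f : E → Subgroup.center E)) DFunLike.coe_injective
    apply Subgroup.eq_top_of_card_eq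
    apply le_antisymm (Subgroup.card_le_card_group _)
    have h2 : Nat.card Ψ.range = (Subgroup.center E).index := by
      rw [← Subgroup.index_ker Ψ, hkerΨ]
    rw [h2]; exact hcard
  rw [eq_top_iff]
  intro g _
  obtain ⟨e, he⟩ := hsurj (Φ g)
  have h3 : (e : G)⁻¹ * g ∈ Φ.ker := by
    rw [MonoidHom.mem_ker, map_mul, map_inv]
    have : Φ e = Φ g := he
    rw [this, inv_mul_cancel]
  rw [hker] at h3
  have : g = e * ((e : G)⁻¹ * g) := by group
  rw [this]
  exact Subgroup.mul_mem _ ((le_sup_left : E ≤ _) e.2) ((le_sup_right : Subgroup.centralizer (E : Set G) ≤ _) h3)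

end Cfsg.Agent.S0110
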