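import Cfsg.Statements.S0124
import Mathlib
import Cfsg.Agent.H1.Class3

set_option autoImplicit false
open Cfsg

namespace Cfsg.Agent.S0124

open scoped commutatorElement Pointwise


/-- For p > 3, in a p-group of class at most three the elements of order dividing p generate a subgroup of exponent dividing p. -/
theorem result {R : Type*} [Group R] [Finite R] {p : ℕ} [Fact p.Prime] (hp : 3 < p) (hR : IsPGroup p R) (hcl : ⁅⁅commutator R, (⊤ : Subgroup R)⁆, (⊤ : Subgroup R)⁆ = ⊥) (g : R) (hg : g ∈ Subgroup.closure {x : R | x ^ p = 1}) : g ^ p = 1 := by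
  have hcl' : ∀ a b c d : R, ⁅⁅⁅a, b⁆, c⁆, d⁆ = 1 := by
    intro a b c d
    have h1 : ⁅a, b⁆ ∈ commutator R := Subgroup.commutator_mem_commutator (Subgroup.mem_top a) (Subgroup.mem_top b)
    have h2 := Subgroup.commutator_mem_commutator h1 (Subgroup.mem_top c)
    have h3 := Subgroup.commutator_mem_commutator h2 (Subgroup.mem_top d)
    rw [hcl, Subgroup.mem_bot] at h3
    exact h3
  exact Cfsg.Agent.H1.pow_eq_one_of_mem_closure (Cfsg.Agent.H1.pow_prime_closure_class_three _ R hp hR hcl' rfl) hg

end Cfsg.Agent.S0124
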