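import Cfsg.Statements.S0123
import Mathlib
import Cfsg.Agent.H1.Class3
import Cfsg.Agent.S0124

set_option autoImplicit false
open Cfsg

namespace Cfsg.Agent.S0123

open scoped commutatorElement Pointwise


/-- For a p-group of small class relative to p (class ≤ 2 with p odd, or class ≤ 3 with p > 3) whose derived subgroup is generated by elements of order dividing p, the p-th power map is multiplicative. -/
theorem result {R : Type*} [Group R] [Finite R] {p : ℕ} [Fact p.Prime] (hR : IsPGroup p R) (hcl : (p ≠ 2 ∧ ⁅commutator R, (⊤ : Subgroup R)⁆ = ⊥) ∨ (3 < p ∧ ⁅⁅commutator R, (⊤ : Subgroup R)⁆, (⊤ : Subgroup R)⁆ = ⊥)) (hder : commutator R ≤ Subgroup.closure {x : R | x ^ p = 1}) (x y : R) : (x * y) ^ p = x ^ p * y ^ p := by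
  have hpp : p.Prime := Fact.out
  rcases hcl with ⟨h2, hcl⟩ | ⟨h3, hcl⟩
  · have hcen := Cfsg.Agent.H1.comm_central_of_class_two hcl
    have hexp : ∀ g ∈ Subgroup.closure {x : R | x ^ p = 1}, g ^ p = 1 := by
      intro g hg
      apply Cfsg.Agent.H1.pow_eq_one_of_mem_closure _ hg
      intro a b ha hb
      have h5 : ⁅b, a⁆ ^ p = 1 := by
        rw [← Cfsg.Agent.H1.comm_pow_left (Cfsg.Agent.H1.commute_of_mem_center (hcen b a)), hb, commutatorElement_one_left]
      rw [Cfsg.Agent.H1.mul_pow_prime_of_class_two hpp h2 (hcen b a) h5, ha, hb, one_mul]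
    apply Cfsg.Agent.H1.mul_pow_prime_of_class_two hpp h2 (hcen y x)
    exact hexp _ (hder (Subgroup.commutator_mem_commutator (Subgroup.mem_top y) (Subgroup.mem_top x)))
  · have hmem : ∀ a b : R, ⁅a, b⁆ ∈ commutator R := fun a b => Subgroup.commutator_mem_commutator (Subgroup.mem_top a) (Subgroup.mem_top b)
    have hexp : ∀ a b : R, ⁅a, b⁆ ^ p = 1 := fun a b => Cfsg.Agent.S0124.result h3 hR hcl _ (hder (hmem a b))
    have hcen : ∀ z g : R, Commute ⁅z, ⁅x, y⁆⁆ g := by
      intro z g
      have h5 := Subgroup.commutator_mem_commutator (hmem x y) (Subgroup.mem_top z)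
      have h6 := Subgroup.commutator_mem_commutator h5 (Subgroup.mem_top g)
      rw [hcl, Subgroup.mem_bot] at h6
      have h7 : Commute ⁅⁅x, y⁆, z⁆ g := commutatorElement_eq_one_iff_commute.mp h6
      rw [← commutatorElement_inv]
      exact h7.inv_left
    exact Cfsg.Agent.H1.mul_pow_prime_class_three hpp h3 (hcen x) (hcen y) (hexp _ _) (hexp _ _) (hexp _ _)

end Cfsg.Agent.S0123
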