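import Cfsg.Statements.S0125
import Mathlib
import Cfsg.Agent.H1.Hall
import Cfsg.Agent.H1.Transfer

set_option autoImplicit false
open Cfsg

namespace Cfsg.Agent.S0125

open scoped commutatorElement Pointwise


/-- The centralizer of a self-centralizing normal subgroup A of a Sylow p-subgroup is the direct product of A with a normal p'-subgroup. -/
theorem result {G : Type*} [Group G] [Finite G] {p : ℕ} [Fact p.Prime] (R : Sylow p G) (A : Subgroup G) (hAR : A ≤ (R : Subgroup G)) (hAn : (R : Subgroup G) ≤ Subgroup.normalizer (A : Set G)) (hC : (R : Subgroup G) ⊓ Subgroup.centralizer (A : Set G) = A) : ∃ H : Subgroup G, H ≤ Subgroup.centralizer (A : Set G) ∧ Nat.Coprime (Nat.card H) p ∧ Subgroup.centralizer (A : Set G) ≤ Subgroup.normalizer (H : Set G) ∧ H ⊓ A = ⊥ ∧ H ⊔ A = Subgroup.centralizer (A : Set G) := by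
  set C := Subgroup.centralizer (A : Set G) with hCdef
  have hRC : (R : Subgroup G) ≤ Subgroup.normalizer (C : Set G) := by
    intro r hr
    apply Cfsg.Agent.H1.mem_normalizer_of_conj_mem
    intro c hc
    rw [hCdef, Subgroup.mem_centralizer_iff] at hc ⊢
    intro a ha
    have h1 : r⁻¹ * a * r⁻¹⁻¹ ∈ A := (Subgroup.mem_normalizer_iff.mp (Subgroup.inv_mem _ (hAn hr)) a).mp ha
    have h2 := hc _ h1
    rw [inv_inv] at h2
    calc a * (r * c * r⁻¹) = r * ((r⁻¹ * a * r) * c) * r⁻¹ := by group
      _ = r * (c * (r⁻¹ * a * r)) * r⁻¹ := by rw [h2]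
      _ = r * c * r⁻¹ * a := by group
  have hAC : A ≤ C := by rw [← hC]; exact inf_le_right
  -- A is a Sylow p-subgroup of C
  have hndvd : ¬ p ∣ A.relIndex C := by
    intro hd
    have h1 := Cfsg.Agent.L0.relIndex_sup_of_normalizes (M := C) (A := (R : Subgroup G)) hRC
    -- |C R : R| = |C : R ⊓ C|
    have h2 : (R : Subgroup G).relIndex (C ⊔ R) = A.relIndex C := by
      have e1 := Subgroup.relIndex_mul_relIndex ⊥ (R : Subgroup G) (C ⊔ R) bot_le le_sup_right
      have e2 := Subgroup.relIndex_mul_relIndex ⊥ C (C ⊔ R) bot_le le_sup_left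
      have e3 := Subgroup.relIndex_mul_relIndex ⊥ A C bot_le hAC
      have e4 := Subgroup.relIndex_mul_relIndex ⊥ A (R : Subgroup G) bot_le hAR
      simp only [Subgroup.relIndex_bot_left] at e1 e2 e3 e4
      have e5 : A.relIndex (R : Subgroup G) = C.relIndex (R : Subgroup G) := by
        rw [← hC, Subgroup.inf_relIndex_left]
      rw [h1] at e2
      rw [e5] at e4
      rw [← e4] at e1
      rw [← e2, ← e3] at e1
      have e6 : (Nat.card A * C.relIndex (R : Subgroup G)) * (R : Subgroup G).relIndex (C ⊔ R) =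
        (Nat.card A * C.relIndex (R : Subgroup G)) * A.relIndex C := by rw [e1]; ring
      apply Nat.eq_of_mul_eq_mul_left _ e6
      apply Nat.mul_pos Nat.card_pos
      exact Nat.pos_of_ne_zero (Subgroup.index_ne_zero_of_finite)
    rw [← h2] at hd
    exact R.not_dvd_index (hd.trans (Subgroup.relIndex_dvd_index_of_le le_sup_right))
  have hAp : IsPGroup p A := R.isPGroup'.to_le hAR
  obtain ⟨k, hk⟩ := IsPGroup.iff_card.mp hAp
  have hcopA : (Nat.card (A.subgroupOf C)).Coprime (A.subgroupOf C).index := by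
    rw [Cfsg.Agent.L0.card_subgroupOf_of_le hAC, hk]
    exact Nat.Coprime.pow_left k ((Nat.Prime.coprime_iff_not_dvd Fact.out).mpr hndvd)
  have hAcen : A.subgroupOf C ≤ Subgroup.center C := by
    intro a ha
    rw [Subgroup.mem_center_iff]
    intro c
    apply Subtype.ext
    exact ((Subgroup.mem_centralizer_iff.mp c.2) a ha).symm
  haveI hAn' : (A.subgroupOf C).Normal := by
    refine ⟨fun n hn g => ?_⟩
    have := Subgroup.mem_center_iff.mp (hAcen hn) g
    rw [this, mul_inv_cancel_right]; exact hn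
  obtain ⟨H, hH⟩ := Subgroup.exists_right_complement'_of_coprime hcopA
  have hHn : H.Normal := by
    rw [← Subgroup.normalizer_eq_top_iff, eq_top_iff, ← hH.sup_eq_top]
    apply sup_le _ Subgroup.le_normalizer
    intro a ha
    apply Cfsg.Agent.H1.mem_normalizer_of_conj_mem
    intro x hx
    have := Subgroup.mem_center_iff.mp (hAcen ha) x
    rw [← this, mul_inv_cancel_right]; exact hx
  refine ⟨H.map C.subtype, Subgroup.map_subtype_le _, ?_, ?_, ?_, ?_⟩
  · rw [Cfsg.Agent.L0.card_map_subtype, ← hH.symm.index_eq_card]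
    rw [Nat.coprime_comm, Nat.Prime.coprime_iff_not_dvd Fact.out]
    exact hndvd
  · intro c hc
    apply Cfsg.Agent.H1.mem_normalizer_of_conj_mem
    rintro _ ⟨x, hx, rfl⟩
    exact ⟨_, hHn.conj_mem x hx ⟨c, hc⟩, rfl⟩
  · have h1 := hH.symm.disjoint.eq_bot
    have h2 := congrArg (Subgroup.map C.subtype) h1
    rw [Subgroup.map_inf _ _ _ C.subtype_injective, Subgroup.map_bot, Subgroup.subgroupOf_map_subtype, inf_eq_left.mpr hAC] at h2
    exact h2
  · have h1 := hH.symm.sup_eq_top
    have h2 := congrArg (Subgroup.map C.subtype) h1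
    rw [Subgroup.map_sup, Subgroup.subgroupOf_map_subtype, inf_eq_left.mpr hAC, ← MonoidHom.range_eq_map, Subgroup.range_subtype] at h2
    exact h2

end Cfsg.Agent.S0125
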