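import Cfsg.Statements.S0129
import Mathlib
import Cfsg.Agent.H1.Class2

set_option autoImplicit false
open Cfsg

namespace Cfsg.Agent.S0129

open scoped commutatorElement Pointwise


/-- The order of a p-group is bounded by p^(a(a+1)/2) when it has a maximal normal abelian subgroup of order p^a. -/
theorem result {G : Type*} [Group G] [Finite G] {p : ℕ} [Fact p.Prime] (hG : IsPGroup p G) (A : Subgroup G) [A.Normal] (hA : IsMulCommutative A) (hmax : ∀ B : Subgroup G, B.Normal → IsMulCommutative B → A ≤ B → B = A) (a : ℕ) (ha : Nat.card A = p ^ a) : Nat.card G ≤ p ^ (a * (a + 1) / 2) := by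
  haveI := hG.isNilpotent
  haveI := hA
  have hC := Cfsg.Agent.H1.centralizer_eq_of_maximal_normal_abelian A hmax
  have h1 := Cfsg.Agent.H1.index_centralizer_le hG a A ha
  rw [hC] at h1
  have h2 := Subgroup.card_mul_index A
  rw [ha] at h2
  rw [← h2]
  calc p ^ a * A.index ≤ p ^ a * p ^ (a * (a - 1) / 2) := Nat.mul_le_mul_left _ h1
    _ = p ^ (a + a * (a - 1) / 2) := by rw [pow_add]
    _ = p ^ (a * (a + 1) / 2) := by
      congr 1
      have h4 : a * (a + 1) = a * (a - 1) + 2 * a := by
        rcases a with _ | a
        · rfl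
        · simp only [Nat.add_sub_cancel]; ring
      rw [h4]; omega

end Cfsg.Agent.S0129
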