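import Cfsg.Statements.S0131
import Mathlib
import Cfsg.Agent.H1.Transfer

set_option autoImplicit false
open Cfsg

namespace Cfsg.Agent.S0131

open scoped commutatorElement

/-- P/P' has a normal complement in G exactly when the focal subgroup G' ∩ P is as small as possible, namely P'. -/
theorem result {G : Type*} [Group G] [Finite G] {p : ℕ} [Fact p.Prime] (P : Sylow p G) : (∃ N : Subgroup G, N.Normal ∧ N ⊓ (P : Subgroup G) = ⁅(P : Subgroup G), (P : Subgroup G)⁆ ∧ N ⊔ (P : Subgroup G) = ⊤) ↔ commutator G ⊓ (P : Subgroup G) = ⁅(P : Subgroup G), (P : Subgroup G)⁆ := by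
  constructor
  · rintro ⟨N, hN, h1, h2⟩
    apply le_antisymm
    · rw [← h1]
      apply inf_le_inf_right
      have : IsMulCommutative (G ⧸ N) := by
        have hs : Function.Surjective ((QuotientGroup.mk' N).comp (P : Subgroup G).subtype) := by
          rw [← MonoidHom.range_eq_top, MonoidHom.range_comp, Subgroup.range_subtype]
          have := congrArg (Subgroup.map (QuotientGroup.mk' N)) h2
          rw [Subgroup.map_sup, Subgroup.map_top_of_surjective _ (QuotientGroup.mk'_surjective _)] at this
          rw [← this]
          have h2 : N.map (QuotientGroup.mk' N) = ⊥ := by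
            rw [Subgroup.map_eq_bot_iff, QuotientGroup.ker_mk']
          rw [h2, bot_sup_eq]
        refine ⟨⟨fun a b => ?_⟩⟩
        obtain ⟨x, rfl⟩ := hs a
        obtain ⟨y, rfl⟩ := hs b
        rw [← commutatorElement_eq_one_iff_mul_comm, ← map_commutatorElement]
        have h4 : ((⁅x, y⁆ : (P : Subgroup G)) : G) ∈ N := by
          have : ((⁅x, y⁆ : (P : Subgroup G)) : G) ∈ N ⊓ (P : Subgroup G) := by
            rw [h1]
            exact Subgroup.commutator_mem_commutator x.2 y.2
          exact this.1
        exact (QuotientGroup.eq_one_iff _).mpr h4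
      exact (Subgroup.Normal.quotient_commutative_iff_commutator_le (N := N)).mp this
    · exact le_inf (Subgroup.commutator_mono le_top le_top) (Cfsg.Agent.H1.commutator_self_le _)
  · intro h
    refine ⟨(Subgroup.transferFocal (P : Subgroup G)).ker, inferInstance, ?_, ?_⟩
    · rw [Subgroup.ker_transferFocal_inf_eq_focalSubgroup, ← Subgroup.commutator_inf_eq_focalSubgroup, h]
    · rw [eq_top_iff, ← Cfsg.Agent.H1.sylow_sup_pResidual P, sup_comm]
      exact sup_le_sup_right (Cfsg.Agent.H1.pResidual_le_ker (P.isPGroup'.to_quotient _) _) _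

end Cfsg.Agent.S0131
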