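import Cfsg.Statements.S0132
import Mathlib
import Cfsg.Agent.H1.FrobPC
import Cfsg.Agent.L0.Core
import Cfsg.Agent.L0.Coprime

set_option autoImplicit false
open Cfsg

namespace Cfsg.Agent.S0132

open scoped commutatorElement Pointwise


/-- A minimal non-p-nilpotent finite group is a minimal non-nilpotent group with a normal Sylow p-subgroup. -/
theorem result {G : Type*} [Group G] [Finite G] {p : ℕ} [Fact p.Prime] (h1 : ¬ Cfsg.HasNormalPComplement p G) (h2 : ∀ H : Subgroup G, H ≠ ⊤ → Cfsg.HasNormalPComplement p H) : (∀ H : Subgroup G, H ≠ ⊤ → Group.IsNilpotent H) ∧ ¬ Group.IsNilpotent G ∧ ∀ P : Sylow p G, (P : Subgroup G).Normal := by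
  classical
  have hp : p.Prime := Fact.out
  have h3 : ¬ ∀ Q : Subgroup G, IsPGroup p Q → ∀ g ∈ Subgroup.normalizer (Q : Set G), (orderOf g).Coprime p → g ∈ Subgroup.centralizer (Q : Set G) :=
    fun h => h1 (Cfsg.Agent.H1.frobenius_criterion h)
  push Not at h3
  obtain ⟨Q, hQ, g, hg, hgo, hgc⟩ := h3
  have hnorm : Subgroup.zpowers g ≤ Subgroup.normalizer (Q : Set G) := by rw [Subgroup.zpowers_le]; exact hg
  have hnpc : ∀ H : Subgroup G, Q ≤ H → g ∈ H → ¬ Cfsg.HasNormalPComplement p H := by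
    intro H hQH hgH hc
    rw [Cfsg.Agent.H6.npc_iff'] at hc
    apply hgc
    have h5 : Q ⊓ Cfsg.Agent.H6.opR p H = ⊥ := by rw [inf_comm]; exact Cfsg.Agent.H6.opR_inf_pgroup hc hQ
    have h6 : g ∈ Cfsg.Agent.H6.opR p H := Cfsg.Agent.H6.mem_opR hgH hgo
    rw [Subgroup.mem_centralizer_iff]
    intro x hx
    have h7 : g * x * g⁻¹ * x⁻¹ ∈ Q ⊓ Cfsg.Agent.H6.opR p H := by
      refine ⟨Q.mul_mem ((Subgroup.mem_normalizer_iff.mp hg x).mp hx) (Q.inv_mem hx), ?_⟩
      have : g * x * g⁻¹ * x⁻¹ = g * (x * g⁻¹ * x⁻¹) := by group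
      rw [this]
      exact Subgroup.mul_mem _ h6 ((Subgroup.mem_normalizer_iff.mp (Cfsg.Agent.H6.le_norm_opR H (hQH hx)) g⁻¹).mp (Subgroup.inv_mem _ h6))
    rw [h5, Subgroup.mem_bot] at h7
    calc x * g = (g * x * g⁻¹ * x⁻¹)⁻¹ * (g * x) := by group
      _ = g * x := by rw [h7]; group
  have htop : ∀ H : Subgroup G, Q ≤ H → g ∈ H → H = ⊤ := by
    intro H hQH hgH
    by_contra hne
    exact hnpc H hQH hgH (h2 H hne)
  have hQn : Q.Normal := by
    rw [← Subgroup.normalizer_eq_top_iff]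
    exact htop _ Subgroup.le_normalizer hg
  have hsup : Q ⊔ Subgroup.zpowers g = ⊤ := htop _ le_sup_left ((le_sup_right : Subgroup.zpowers g ≤ _) (Subgroup.mem_zpowers g))
  have hQi : ¬ p ∣ Q.index := by
    have h5 : Q.index = Q.relIndex (Subgroup.zpowers g) := by
      rw [← Subgroup.relIndex_top_right, ← hsup]
      exact Cfsg.Agent.L0.relIndex_sup_of_normalizes hnorm
    rw [h5]
    intro hd
    have h6 : p ∣ orderOf g := by
      rw [← Nat.card_zpowers]; exact hd.trans (Subgroup.relIndex_dvd_card _ _)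
    exact hp.one_lt.ne' (Nat.eq_one_of_dvd_coprimes hgo h6 dvd_rfl)
  have hSyl : ∀ P : Sylow p G, (P : Subgroup G) = Q := by
    intro P
    let Q' : Sylow p G := hQ.toSylow hQi
    haveI : (Q' : Subgroup G).Normal := hQn
    haveI := Sylow.unique_of_normal Q' inferInstance
    have : P = Q' := Subsingleton.elim _ _
    rw [this]; rfl
  -- G / Q is abelian
  have hcom : ∀ x y : G, x * y * x⁻¹ * y⁻¹ ∈ Q := by
    intro x y
    have hx : x ∈ Q ⊔ Subgroup.zpowers g := by rw [hsup]; exact Subgroup.mem_top _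
    have hy : y ∈ Q ⊔ Subgroup.zpowers g := by rw [hsup]; exact Subgroup.mem_top _
    obtain ⟨a, ha, z, hz, rfl⟩ := Subgroup.mem_sup_of_normal_left.mp hx
    obtain ⟨b, hb, w, hw, rfl⟩ := Subgroup.mem_sup_of_normal_left.mp hy
    obtain ⟨k, rfl⟩ := Subgroup.mem_zpowers_iff.mp hz
    obtain ⟨l, rfl⟩ := Subgroup.mem_zpowers_iff.mp hw
    apply (QuotientGroup.eq_one_iff (N := Q) _).mp
    have ha' : QuotientGroup.mk' Q a = 1 := (QuotientGroup.eq_one_iff a).mpr ha
    have hb' : QuotientGroup.mk' Q b = 1 := (QuotientGroup.eq_one_iff b).mpr hb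
    change QuotientGroup.mk' Q _ = 1
    simp only [map_mul, map_inv, ha', hb', one_mul, map_zpow]
    group
  refine ⟨?_, ?_, ?_⟩
  · intro H hH
    obtain ⟨K, hK, hKc, k, hk⟩ := Cfsg.Agent.H1.hasNormalPComplement_iff.mp (h2 H hH)
    haveI := hK
    have hAi : ¬ p ∣ (Q.subgroupOf H).index := fun hd => hQi (hd.trans (Subgroup.relIndex_dvd_index_of_normal Q H))
    have hKQ : ∀ x : H, x ∈ K → (x : G) ∈ Q → x = 1 := by
      intro x hx hxQ
      have h5 : K ⊓ Q.subgroupOf H = ⊥ := by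
        apply Cfsg.Agent.L0.inf_eq_bot_of_coprime'
        obtain ⟨j, hj⟩ := IsPGroup.iff_card.mp (Cfsg.Agent.L0.isPGroup_subgroupOf (H := H) hQ)
        rw [hj]; exact hKc.pow_right _
      have h6 : x ∈ K ⊓ Q.subgroupOf H := ⟨hx, hxQ⟩
      rw [h5, Subgroup.mem_bot] at h6
      exact h6
    have hKab : Group.IsNilpotent K := by
      have : ∀ a b : K, a * b = b * a := by
        intro a b
        have h5 : (a : H) * b * (a : H)⁻¹ * (b : H)⁻¹ = 1 := by
          apply hKQ
          · exact K.mul_mem (K.mul_mem (K.mul_mem a.2 b.2) (K.inv_mem a.2)) (K.inv_mem b.2)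
          · push_cast; exact hcom _ _
        apply Subtype.ext
        push_cast
        calc (a : H) * b = ((a : H) * b * (a : H)⁻¹ * (b : H)⁻¹) * (b * a) := by group
          _ = _ := by rw [h5, one_mul]
      letI : CommGroup K := { (inferInstance : Group K) with mul_comm := this }
      exact CommGroup.isNilpotent
    have hQH : Group.IsNilpotent (Q.subgroupOf H) := (Cfsg.Agent.L0.isPGroup_subgroupOf (H := H) hQ).isNilpotent
    apply Cfsg.Agent.L0.nilpotent_of_sup_eq_top K (Q.subgroupOf H) hKab hQH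
    rw [← Subgroup.index_eq_one]
    have h7 : (K ⊔ Q.subgroupOf H).index ∣ p ^ k := by rw [← hk]; exact Subgroup.index_dvd_of_le le_sup_left
    have h8 : (K ⊔ Q.subgroupOf H).index ∣ (Q.subgroupOf H).index := Subgroup.index_dvd_of_le le_sup_right
    have h9 : (p ^ k).Coprime (Q.subgroupOf H).index := ((Nat.Prime.coprime_iff_not_dvd hp).mpr hAi).pow_left k
    exact Nat.eq_one_of_dvd_coprimes h9 h7 h8
  · intro hnil
    exact h1 (Cfsg.Agent.H1.npc_of_isNilpotent hnil)
  · intro P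
    rw [hSyl P]; exact hQn

end Cfsg.Agent.S0132
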