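import Cfsg.Statements.S0136
import Cfsg.Agent.H4.Burnside

set_option autoImplicit false
open Cfsg

namespace Cfsg.Agent.S0136

/-- Two elements of a finite group are conjugate if and only if no irreducible complex character separates them. -/
theorem result {G : Type*} [Group G] [Finite G] (g h : G) : IsConj g h ↔ ∀ χ : Cfsg.IrrCharacter G, (χ : G → ℂ) g = (χ : G → ℂ) h := by
  classical
  constructor
  · intro hc χ
    exact Cfsg.Agent.H5.IsClassFunction.eq_of_isConj (Cfsg.Agent.H5.irr_classFun χ) hc
  · intro h_1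
    by_contra hcon
    have h1 := Cfsg.Agent.H5.second_orthogonality g h
    rw [if_neg hcon] at h1
    have h2 := Cfsg.Agent.H5.second_orthogonality g g
    rw [if_pos (IsConj.refl g)] at h2
    have h3 : ∑ χ : IrrCharacter G, (χ : G → ℂ) g * (starRingEnd ℂ) ((χ : G → ℂ) g)
        = ∑ χ : IrrCharacter G, (χ : G → ℂ) g * (starRingEnd ℂ) ((χ : G → ℂ) h) := by
      apply Finset.sum_congr rfl
      intro χ _
      rw [h_1 χ]
    rw [h2, h1] at h3
    exact (Cfsg.Agent.H4.card_ne_zero' _) h3

end Cfsg.Agent.S0136
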