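import Cfsg.Statements.S0156
import Cfsg.Agent.H4.Burnside

set_option autoImplicit false
open Cfsg

namespace Cfsg.Agent.S0156

/-- The character of the left regular representation is the sum over the irreducible characters χ of χ 1 • χ. -/
theorem result {G : Type*} [Group G] [Fintype G] : (Representation.leftRegular ℂ G).character = ∑ᶠ χ : Cfsg.IrrCharacter G, (χ : G → ℂ) 1 • (χ : G → ℂ) := by
  classical
  rw [finsum_eq_sum_of_fintype]
  ext g
  have h := Cfsg.Agent.H4.trace_ofMulAction (G := G) (X := G) g
  rw [h, Finset.sum_apply]
  have h2 := Cfsg.Agent.H5.sum_irr_one_mul g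
  simp only [Pi.smul_apply, smul_eq_mul]
  rw [h2]
  split_ifs with h1
  · subst h1
    congr 1
    have : MulAction.fixedBy G (1 : G) = Set.univ := by
      ext x; simp [MulAction.mem_fixedBy]
    rw [this]
    exact Nat.card_univ
  · have : MulAction.fixedBy G g = (∅ : Set G) := by
      ext x
      simp only [MulAction.mem_fixedBy, smul_eq_mul, Set.mem_empty_iff_false, iff_false]
      intro h2
      exact h1 (mul_eq_right.1 h2)
    rw [this]
    simp

end Cfsg.Agent.S0156
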