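import Cfsg.Statements.S0157
import Cfsg.Agent.H4.FrobSchur

set_option autoImplicit false
open Cfsg

namespace Cfsg.Agent.S0157

/-- For a transitive action of a finite group on a finite set with at least two points: the action is 2-transitive if and only if the function sending g to (number of fixed points of g) − 1 is an irreducible character. -/
theorem result {G : Type*} [Group G] [Finite G] (X : Type*) [MulAction G X] [Finite X] [MulAction.IsPretransitive G X] (hX : 2 ≤ Nat.card X) : Cfsg.IsIrrCharacter G (fun g => (Nat.card (MulAction.fixedBy X g) : ℂ) - 1) ↔ MulAction.IsMultiplyPretransitive G X 2 := by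
  classical
  have := Fintype.ofFinite G
  have := Fintype.ofFinite X
  have hπ : IsCharacter G (fun g : G => (Nat.card (MulAction.fixedBy X g) : ℂ)) :=
    Cfsg.Agent.H4.isCharacter_perm
  set π : G → ℂ := fun g : G => (Nat.card (MulAction.fixedBy X g) : ℂ) with hπdef
  -- Burnside counts
  have hG := Cfsg.Agent.H4.card_ne_zero' G
  have h1 : classInner π (fun _ => 1) = 1 := by
    have hb := MulAction.sum_card_fixedBy_eq_card_orbits_mul_card_group G X
    have hone : Fintype.card (Quotient (MulAction.orbitRel G X)) = 1 := by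
      rw [Fintype.card_eq_one_iff_nonempty_unique]
      have hne : Nonempty X := by
        rw [← Finite.card_pos_iff]; omega
      have hsub : Subsingleton (MulAction.orbitRel.Quotient G X) := by
        refine ⟨fun a b => ?_⟩
        induction a using Quotient.inductionOn with
        | _ a =>
        induction b using Quotient.inductionOn with
        | _ b =>
        apply Quotient.sound
        exact MulAction.exists_smul_eq G b a
      exact ⟨@Unique.mk' _ ⟨Quotient.mk _ hne.some⟩ hsub⟩
    rw [hone, one_mul] at hb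
    unfold classInner
    simp only [map_one, mul_one, hπdef]
    have h2 : ∑ g : G, (Nat.card (MulAction.fixedBy X g) : ℂ) = Nat.card G := by
      rw [Nat.card_eq_fintype_card (α := G), ← hb]
      push_cast
      apply Finset.sum_congr rfl; intro g _
      rw [Nat.card_eq_fintype_card]
    rw [h2, inv_mul_cancel₀ hG]
  have hgen : classInner (π - fun _ => 1) (π - fun _ => 1) = classInner π π - 1 := by
    rw [Cfsg.Agent.H5.classInner_sub_left, Cfsg.Agent.H5.classInner_sub_right, Cfsg.Agent.H5.classInner_sub_right, h1]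
    have h2 : classInner (fun _ : G => (1 : ℂ)) π = 1 := by
      rw [Cfsg.Agent.H4.classInner_comm', h1]; simp
    have h3 : classInner (fun _ : G => (1 : ℂ)) (fun _ : G => (1 : ℂ)) = 1 :=
      Cfsg.Agent.H5.classInner_irr_self ⟨_, Cfsg.Agent.H5.isIrrCharacter_trivial⟩
    rw [h2, h3]; ring
  -- π - 1 is a character
  have hchar : IsCharacter G (π - fun _ => 1) := by
    rw [Cfsg.Agent.H5.isCharacter_iff_inner]
    refine ⟨Cfsg.Agent.H5.IsClassFunction.sub' (Cfsg.Agent.H4.IsChar.isClassFunction hπ)
      (fun _ _ => rfl), fun ψ => ?_⟩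
    obtain ⟨n, hn⟩ := Cfsg.Agent.H5.IsCharacter.inner_nat hπ ψ
    rw [Cfsg.Agent.H5.classInner_sub_left, hn]
    by_cases hψ : (ψ : G → ℂ) = fun _ => 1
    · refine ⟨0, ?_⟩
      rw [← hn, hψ, h1]
      have h3 : classInner (fun _ : G => (1 : ℂ)) (fun _ : G => (1 : ℂ)) = 1 :=
        Cfsg.Agent.H5.classInner_irr_self ⟨_, Cfsg.Agent.H5.isIrrCharacter_trivial⟩
      rw [h3]; simp
    · refine ⟨n, ?_⟩
      have : classInner (fun _ : G => (1 : ℂ)) (ψ : G → ℂ) = 0 :=
        Cfsg.Agent.H5.classInner_irr_ne (χ := ⟨_, Cfsg.Agent.H5.isIrrCharacter_trivial⟩)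
          (fun h => hψ (congrArg Subtype.val h).symm)
      rw [this, sub_zero]
  have hiff1 : IsIrrCharacter G (π - fun _ => 1) ↔ classInner π π = 2 := by
    rw [Cfsg.Agent.H5.isIrrCharacter_iff_inner, hgen]
    constructor
    · rintro ⟨_, h⟩; linear_combination h
    · intro h; exact ⟨hchar, by rw [h]; norm_num⟩
  have hfun : (fun g => (Nat.card (MulAction.fixedBy X g) : ℂ) - 1) = π - fun _ => 1 := rfl
  rw [hfun, hiff1]
  -- number of orbits on X × X
  have hb := MulAction.sum_card_fixedBy_eq_card_orbits_mul_card_group G (X × X)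
  have hππ : classInner π π = Fintype.card (Quotient (MulAction.orbitRel G (X × X))) := by
    unfold classInner
    have h2 : ∑ g : G, π g * (starRingEnd ℂ) (π g) = ((∑ g : G, Fintype.card (MulAction.fixedBy (X × X) g) : ℕ) : ℂ) := by
      push_cast
      apply Finset.sum_congr rfl; intro g _
      simp only [hπdef, Complex.conj_natCast]
      have h3 : Nat.card (MulAction.fixedBy (X × X) g) = Nat.card (MulAction.fixedBy X g) * Nat.card (MulAction.fixedBy X g) := by
        rw [← Nat.card_prod]
        apply Nat.card_congr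
        refine ⟨fun p => ⟨⟨p.1.1, congrArg Prod.fst p.2⟩, ⟨p.1.2, congrArg Prod.snd p.2⟩⟩,
          fun p => ⟨(p.1.1, p.2.1), Prod.ext p.1.2 p.2.2⟩, fun _ => rfl, fun _ => rfl⟩
      rw [← Nat.card_eq_fintype_card, h3]; push_cast; ring
    rw [h2, hb, Nat.card_eq_fintype_card]
    push_cast
    rw [Nat.card_eq_fintype_card] at hG
    field_simp
  rw [hππ]
  have hcast : ((Fintype.card (Quotient (MulAction.orbitRel G (X × X))) : ℂ) = 2) ↔
      Fintype.card (Quotient (MulAction.orbitRel G (X × X))) = 2 := by
    constructor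
    · intro h; exact_mod_cast h
    · intro h; rw [h]; norm_num
  rw [hcast, MulAction.is_two_pretransitive_iff]
  obtain ⟨x0, y0, hxy⟩ : ∃ x y : X, x ≠ y := by
    have : Nontrivial X := by rw [← Finite.one_lt_card_iff_nontrivial]; omega
    exact exists_pair_ne X
  let q : X × X → Quotient (MulAction.orbitRel G (X × X)) := fun p => Quotient.mk _ p
  have hqsurj : Function.Surjective q := Quotient.mk_surjective
  have hq : ∀ p p' : X × X, q p = q p' ↔ ∃ g : G, g • p' = p := by
    intro p p'
    exact Quotient.eq (r := MulAction.orbitRel G (X × X))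
  have hdiag : ∀ x y : X, q (x, x) = q (y, y) := by
    intro x y
    obtain ⟨g, hg⟩ := MulAction.exists_smul_eq G y x
    exact (hq _ _).2 ⟨g, Prod.ext hg hg⟩
  have hoff : ∀ x y z : X, x ≠ y → q (x, y) ≠ q (z, z) := by
    intro x y z hxy h
    obtain ⟨g, hg⟩ := (hq _ _).1 h
    apply hxy
    have h1 : g • z = x := congrArg Prod.fst hg
    have h2 : g • z = y := congrArg Prod.snd hg
    rw [← h1, ← h2]
  constructor
  · intro hc a b c d hab hcd
    -- card two: q (a,b), q(c,d), q(x0,x0)
    by_contra hcon
    push Not at hcon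
    have hne : q (a, b) ≠ q (c, d) := by
      intro h
      obtain ⟨g, hg⟩ := (hq _ _).1 h.symm
      exact hcon g (congrArg Prod.fst hg) (congrArg Prod.snd hg)
    have h3 : ({q (a, b), q (c, d), q (x0, x0)} : Finset _).card = 3 := by
      rw [Finset.card_eq_three]
      exact ⟨_, _, _, hne, hoff _ _ _ hab, hoff _ _ _ hcd, rfl⟩
    have h4 := Finset.card_le_univ ({q (a, b), q (c, d), q (x0, x0)} : Finset _)
    omega
  · intro h
    have : (Finset.univ : Finset (Quotient (MulAction.orbitRel G (X × X)))) = {q (x0, x0), q (x0, y0)} := by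
      ext ω
      simp only [Finset.mem_univ, true_iff, Finset.mem_insert, Finset.mem_singleton]
      obtain ⟨⟨a, b⟩, rfl⟩ := hqsurj ω
      by_cases hab : a = b
      · left; subst hab; exact hdiag _ _
      · right
        obtain ⟨g, hg1, hg2⟩ := h hxy hab
        exact (hq _ _).2 ⟨g, Prod.ext hg1 hg2⟩
    rw [← Finset.card_univ, this, Finset.card_pair]
    exact (hoff _ _ _ hxy).symm

end Cfsg.Agent.S0157
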