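import Cfsg.Statements.S0162
import Cfsg.Agent.H4.Count

set_option autoImplicit false
open Cfsg

namespace Cfsg.Agent.S0162

/-- If a finite group has odd order, its order is congruent to its number of conjugacy classes modulo 16. -/
theorem result {G : Type*} [Group G] [Finite G] (hodd : Odd (Nat.card G)) : Nat.card G ≡ Nat.card (ConjClasses G) [MOD 16] := by
  classical
  have := Fintype.ofFinite G
  -- work in ZMod 16
  rw [← ZMod.natCast_eq_natCast_iff]
  have hsq : (Nat.card G : ℂ) = ((∑ χ : IrrCharacter G, (charDegree (χ : G → ℂ)) ^ 2 : ℕ) : ℂ) := by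
    rw [← Cfsg.Agent.H5.sum_irr_sq (G := G)]
    push_cast
    apply Finset.sum_congr rfl
    intro χ _
    rw [Cfsg.Agent.H5.IsCharacter.one_eq_charDegree (Cfsg.Agent.H5.irr_isCharacter χ)]
  have hsq' : Nat.card G = ∑ χ : IrrCharacter G, (charDegree (χ : G → ℂ)) ^ 2 := by exact_mod_cast hsq
  have hk : Nat.card (ConjClasses G) = ∑ χ : IrrCharacter G, 1 := by
    rw [← Cfsg.Agent.H5.card_irr_eq_card_conjClasses, Nat.card_eq_fintype_card]
    simp
  rw [← sub_eq_zero, hsq', hk]
  push_cast
  rw [← Finset.sum_sub_distrib]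
  have hsquare : ∀ n : ℕ, Odd n → 2 * (((n : ZMod 16)) ^ 2 - 1) = 0 := by
    intro n hn
    obtain ⟨m, rfl⟩ := hn
    push_cast
    have : ∀ x : ZMod 16, 2 * ((2 * x + 1) ^ 2 - 1) = 0 := by decide
    exact this m
  have hodd' : ∀ χ : IrrCharacter G, Odd (charDegree (χ : G → ℂ)) := fun χ =>
    Odd.of_dvd_nat hodd (Cfsg.Agent.H5.charDegree_dvd_card χ.2)
  apply Finset.sum_involution (fun (χ : IrrCharacter G) _ =>
    (⟨fun g => (starRingEnd ℂ) ((χ : G → ℂ) g), Cfsg.Agent.H4.IsIrr.conj χ.2⟩ : IrrCharacter G))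
  · intro χ _
    have h1 : charDegree (fun g => (starRingEnd ℂ) ((χ : G → ℂ) g)) = charDegree (χ : G → ℂ) := by
      simp [charDegree]
    simp only [h1]
    have := hsquare _ (hodd' χ)
    linear_combination this
  · intro χ _ hne heq
    apply hne
    have h1 : ∀ g : G, ((χ : G → ℂ) g).im = 0 := by
      intro g
      have h2 := congrArg (fun z : IrrCharacter G => (z : G → ℂ) g) heq
      exact Complex.conj_eq_iff_im.1 h2
    have h3 := Cfsg.Agent.H4.real_eq_one_of_odd hodd χ h1
    have h4 : charDegree (χ : G → ℂ) = 1 := by rw [h3]; simp [charDegree]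
    rw [h4]; simp
  · intro χ _; exact Finset.mem_univ _
  · intro χ _
    apply Subtype.ext
    funext g
    simp

end Cfsg.Agent.S0162
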