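import Cfsg.Statements.S0167
import Cfsg.Agent.H4.Count

set_option autoImplicit false
open Cfsg

namespace Cfsg.Agent.S0167

/-- An element g of a finite group is a commutator if and only if the sum over the irreducible characters χ of χ g / χ 1 is nonzero. -/
theorem result {G : Type*} [Group G] [Finite G] (g : G) : (∃ a b : G, g = a * b * a⁻¹ * b⁻¹) ↔ ∑ᶠ χ : Cfsg.IrrCharacter G, (χ : G → ℂ) g / (χ : G → ℂ) 1 ≠ 0 := by
  classical
  have := Fintype.ofFinite G
  rw [finsum_eq_sum_of_fintype]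
  let N : G → ℂ := fun g => ∑ a : G, ∑ b : G, if a * b * a⁻¹ * b⁻¹ = g then (1 : ℂ) else 0
  have hNcf : IsClassFunction G N := by
    intro g h
    show (∑ a : G, ∑ b : G, if a * b * a⁻¹ * b⁻¹ = h * g * h⁻¹ then (1 : ℂ) else 0)
      = ∑ a : G, ∑ b : G, if a * b * a⁻¹ * b⁻¹ = g then (1 : ℂ) else 0
    symm
    apply Fintype.sum_equiv (MulAut.conj h).toEquiv
    intro a
    apply Fintype.sum_equiv (MulAut.conj h).toEquiv
    intro b
    have he : (MulAut.conj h).toEquiv a * (MulAut.conj h).toEquiv b * ((MulAut.conj h).toEquiv a)⁻¹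
        * ((MulAut.conj h).toEquiv b)⁻¹ = h * (a * b * a⁻¹ * b⁻¹) * h⁻¹ := by
      simp only [MulEquiv.toEquiv_eq_coe, EquivLike.coe_coe, MulAut.conj_apply]
      group
    rw [he]
    congr 1
    simp only [mul_left_inj, mul_right_inj]
  have hinner : ∀ χ : IrrCharacter G, classInner N (χ : G → ℂ) = (Nat.card G : ℂ) / (χ : G → ℂ) 1 := by
    intro χ
    have hcc : ∀ g, (starRingEnd ℂ) ((χ : G → ℂ) g) = (χ : G → ℂ) g⁻¹ := fun g =>
      (Cfsg.Agent.H4.IsChar.inv_eq_conj (Cfsg.Agent.H4.IsIrr.isCharacter χ.2) g).symm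
    have h1 : ∑ g : G, N g * (starRingEnd ℂ) ((χ : G → ℂ) g)
        = ∑ b : G, ∑ a : G, (χ : G → ℂ) (a * b⁻¹ * a⁻¹ * b) := by
      have h2 : ∀ g : G, N g * (starRingEnd ℂ) ((χ : G → ℂ) g) = ∑ a : G, ∑ b : G,
          if a * b * a⁻¹ * b⁻¹ = g then (χ : G → ℂ) (b * (a * b⁻¹ * a⁻¹)) else 0 := by
        intro g
        simp only [N]
        rw [Finset.sum_mul]
        apply Finset.sum_congr rfl; intro a _
        rw [Finset.sum_mul]
        apply Finset.sum_congr rfl; intro b _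
        split_ifs with hab
        · rw [one_mul, hcc, ← hab]
          congr 1; group
        · rw [zero_mul]
      rw [Finset.sum_congr rfl (fun g _ => h2 g), Finset.sum_comm]
      have h3 : ∀ a : G, (∑ g : G, ∑ b : G,
          if a * b * a⁻¹ * b⁻¹ = g then (χ : G → ℂ) (b * (a * b⁻¹ * a⁻¹)) else 0)
          = ∑ b : G, (χ : G → ℂ) (a * b⁻¹ * a⁻¹ * b) := by
        intro a
        rw [Finset.sum_comm]
        apply Finset.sum_congr rfl; intro b _
        rw [Finset.sum_ite_eq]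
        simp only [Finset.mem_univ, if_true]
        have h4 := Cfsg.Agent.H4.IsIrr.isClassFunction χ.2 (a * b⁻¹ * a⁻¹ * b) b
        rw [← h4]
        congr 1; group
      rw [Finset.sum_congr rfl (fun a _ => h3 a), Finset.sum_comm]
    have h5 : ∀ b : G, ∑ a : G, (χ : G → ℂ) (a * b⁻¹ * a⁻¹ * b)
        = Nat.card G / (χ : G → ℂ) 1 * ((χ : G → ℂ) b * (starRingEnd ℂ) ((χ : G → ℂ) b)) := by
      intro b
      rw [Cfsg.Agent.H5.irr_sum_conj_mul χ.2, hcc]
      ring
    unfold classInner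
    rw [h1, Finset.sum_congr rfl (fun b _ => h5 b), ← Finset.mul_sum]
    have h6 := Cfsg.Agent.H5.classInner_irr_self χ
    unfold classInner at h6
    have hG := Cfsg.Agent.H4.card_ne_zero' G
    have hχ1 := Cfsg.Agent.H4.IsIrr.degree_ne_zero χ.2
    have h7 : ∑ g : G, (χ : G → ℂ) g * (starRingEnd ℂ) ((χ : G → ℂ) g) = Nat.card G := by
      field_simp at h6
      exact h6
    rw [h7]
    field_simp
  have hN : N g = Nat.card G * ∑ χ : IrrCharacter G, (χ : G → ℂ) g / (χ : G → ℂ) 1 := by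
    have h8 := Cfsg.Agent.H5.classFun_expansion_apply hNcf g
    rw [h8, Finset.mul_sum]
    apply Finset.sum_congr rfl
    intro χ _
    rw [hinner]; ring
  have hG := Cfsg.Agent.H4.card_ne_zero' G
  have hiff : (∑ χ : IrrCharacter G, (χ : G → ℂ) g / (χ : G → ℂ) 1 ≠ 0) ↔ N g ≠ 0 := by
    rw [hN]
    constructor
    · intro h h'
      rcases mul_eq_zero.1 h' with h1 | h1
      · exact hG h1
      · exact h h1
    · intro h h'
      apply h; rw [h']; simp
  rw [hiff]
  have hNat : N g = ((∑ a : G, ∑ b : G, if a * b * a⁻¹ * b⁻¹ = g then 1 else 0 : ℕ) : ℂ) := by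
    simp [N]
  rw [hNat]
  constructor
  · rintro ⟨a, b, hab⟩ h0
    have h1 : (∑ a : G, ∑ b : G, if a * b * a⁻¹ * b⁻¹ = g then 1 else 0 : ℕ) = 0 := by exact_mod_cast h0
    rw [Finset.sum_eq_zero_iff] at h1
    have h2 := h1 a (Finset.mem_univ _)
    rw [Finset.sum_eq_zero_iff] at h2
    have h3 := h2 b (Finset.mem_univ _)
    rw [if_pos hab.symm] at h3
    exact one_ne_zero h3
  · intro h
    by_contra hcon
    push Not at hcon
    apply h
    have : (∑ a : G, ∑ b : G, if a * b * a⁻¹ * b⁻¹ = g then 1 else 0 : ℕ) = 0 := by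
      apply Finset.sum_eq_zero; intro a _
      apply Finset.sum_eq_zero; intro b _
      rw [if_neg (fun h => hcon a b h.symm)]
    rw [this]; simp

end Cfsg.Agent.S0167
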