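import Cfsg.Statements.S0168
import Cfsg.Agent.H4.Count

set_option autoImplicit false
open Cfsg

namespace Cfsg.Agent.S0168

/-- The Burnside–Brauer Theorem. Let χ be the character of a faithful complex representation of a finite group, taking m distinct values. Then every irreducible character has nonzero inner product with χ ^ i for some i < m. -/
theorem result {G : Type*} [Group G] [Fintype G] {V : Type*} [AddCommGroup V] [Module ℂ V] [FiniteDimensional ℂ V] (ρ : Representation ℂ G V) (hfaithful : Function.Injective ρ) (ψ : G → ℂ) (hψ : Cfsg.IsIrrCharacter G ψ) : ∃ i : ℕ, i < Nat.card (Set.range ρ.character) ∧ Cfsg.classInner (fun g => ρ.character g ^ i) ψ ≠ 0 := by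
  classical
  by_contra hcon
  push Not at hcon
  set χ := ρ.character with hχ
  let S : Finset ℂ := (Set.toFinite (Set.range χ)).toFinset
  have hS : ∀ g, χ g ∈ S := fun g => by simp [S]
  have hcard : S.card = Nat.card (Set.range χ) := by
    rw [Nat.card_coe_set_eq, Set.ncard_eq_toFinset_card _ (Set.toFinite (Set.range χ))]
  -- interpolation polynomial
  let f : Polynomial ℂ := Lagrange.interpolate S id (fun z => if z = χ 1 then 1 else 0)
  have hdeg : f.degree < S.card := Lagrange.degree_interpolate_lt _ (Set.injOn_id _)
  have hf : ∀ g, f.eval (χ g) = if g = 1 then 1 else 0 := by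
    intro g
    have h1 : f.eval (id (χ g)) = _ := Lagrange.eval_interpolate_at_node (fun z => if z = χ 1 then (1:ℂ) else 0)
      (Set.injOn_id _) (hS g)
    rw [id] at h1
    rw [h1]
    congr 1
    apply propext
    constructor
    · intro h
      rw [hχ, Representation.char_one] at h
      have h2 := (Cfsg.Agent.H4.char_eq_finrank_iff ρ g).1 h
      apply hfaithful
      rw [h2, map_one]; rfl
    · intro h; rw [h]
  have hzero : ∑ g : G, f.eval (χ g) * (starRingEnd ℂ) (ψ g) = 0 := by
    have h1 : ∀ g : G, f.eval (χ g) * (starRingEnd ℂ) (ψ g)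
        = ∑ i ∈ Finset.range S.card, f.coeff i * (χ g ^ i * (starRingEnd ℂ) (ψ g)) := by
      intro g
      have hnd : f.natDegree < S.card ∨ f = 0 := by
        by_cases h0 : f = 0
        · right; exact h0
        · left; exact (Polynomial.natDegree_lt_iff_degree_lt h0).2 hdeg
      rcases hnd with hnd | h0
      · rw [Polynomial.eval_eq_sum_range' hnd, Finset.sum_mul]
        apply Finset.sum_congr rfl; intro i _; ring
      · rw [h0]; simp
    rw [Finset.sum_congr rfl (fun g _ => h1 g), Finset.sum_comm]
    apply Finset.sum_eq_zero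
    intro i hi
    rw [← Finset.mul_sum]
    have h2 := hcon i (by rw [← hcard]; exact Finset.mem_range.1 hi)
    unfold classInner at h2
    rcases mul_eq_zero.1 h2 with h3 | h3
    · exact absurd (inv_eq_zero.1 h3) (Cfsg.Agent.H4.card_ne_zero' G)
    · rw [h3, mul_zero]
  have h3 : ∑ g : G, f.eval (χ g) * (starRingEnd ℂ) (ψ g) = (starRingEnd ℂ) (ψ 1) := by
    rw [Finset.sum_eq_single (1 : G)]
    · rw [hf, if_pos rfl, one_mul]
    · intro g _ hg; rw [hf, if_neg hg, zero_mul]
    · intro h; exact absurd (Finset.mem_univ _) h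
  rw [h3] at hzero
  have h4 := Cfsg.Agent.H4.IsIrr.degree_ne_zero hψ
  exact h4 ((map_eq_zero (starRingEnd ℂ)).1 hzero)

end Cfsg.Agent.S0168
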