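import Cfsg.Statements.S0169
import Cfsg.Agent.H4.Clifford2

set_option autoImplicit false
open Cfsg

namespace Cfsg.Agent.S0169

/-- Itô's Theorem on character degrees: the degree of an irreducible complex representation of a finite group divides the index of any abelian normal subgroup. -/
theorem result {G : Type*} [Group G] [Finite G] {V : Type*} [AddCommGroup V] [Module ℂ V] [FiniteDimensional ℂ V] (ρ : Representation ℂ G V) [ρ.IsIrreducible] (H : Subgroup G) [H.Normal] (hH : ∀ a ∈ H, ∀ b ∈ H, a * b = b * a) : Module.finrank ℂ V ∣ H.index := by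
  classical
  have := Fintype.ofFinite G
  have := Fintype.ofFinite H
  have hN : H.Normal := inferInstance
  have hχ := Cfsg.Agent.H4.isIrrCharacter_of_rep ρ inferInstance
  -- a constituent of the restriction
  obtain ⟨m, hm1, hm2⟩ := Cfsg.Agent.H4.IsChar.exists_mult (Cfsg.Agent.H4.IsChar.restrict H (Cfsg.Agent.H4.IsIrr.isCharacter hχ))
  obtain ⟨θ, hθ0⟩ : ∃ θ, m θ ≠ 0 := by
    by_contra hcon
    push Not at hcon
    have h1 := hm2 1
    rw [Finset.sum_eq_zero (fun χ _ => by rw [hcon χ]; simp)] at h1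
    exact Cfsg.Agent.H4.IsIrr.degree_ne_zero hχ h1
  have h1 : classInner (fun n : H => ρ.character n) (θ : H → ℂ) ≠ 0 := by
    rw [hm1]; exact_mod_cast hθ0
  set χ := ρ.character with hχdef
  obtain ⟨T, hT⟩ : ∃ T, T = Cfsg.Agent.H4.inertia hN (θ : H → ℂ) := ⟨_, rfl⟩
  have hNT : H ≤ T := hT ▸ Cfsg.Agent.H4.le_inertia hN (Cfsg.Agent.H4.IsIrr.isClassFunction θ.2)
  have := Fintype.ofFinite T
  obtain ⟨ψ, hψ, hψχ, hψc, hψθ⟩ := Cfsg.Agent.H4.clifford_exists hN χ hχ θ θ.2 T hT hNT h1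
  obtain ⟨n, σ, hσ, hσψ⟩ := hψ
  -- θ is linear
  obtain ⟨lam, hlam⟩ := Cfsg.Agent.H5.irr_of_comm (fun a b => Subtype.ext (hH a a.2 b b.2)) θ.2
  -- degree of ψ divides T : H
  have hdvd : charDegree ψ ∣ (H.subgroupOf T).index := by
    rw [← hσψ, Cfsg.Agent.H4.charDegree_character]
    apply Cfsg.Agent.H4.finrank_dvd_index_of_scalar σ hσ
    intro z hz
    have hz' : (z : G) ∈ H := Subgroup.mem_subgroupOf.1 hz
    -- |ψ z| = ψ 1
    have hN' : (H.subgroupOf T).Normal := inferInstance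
    have h2 : (fun x : H.subgroupOf T => ψ x) = classInner (fun x : H.subgroupOf T => ψ x)
        (Cfsg.Agent.H4.toSub (θ : H → ℂ)) • ∑ᶠ η ∈ {η : H.subgroupOf T → ℂ | ∃ g : T, η =
          Cfsg.Agent.H4.conjBy hN' g (Cfsg.Agent.H4.toSub (θ : H → ℂ))}, η := by
      apply Cfsg.Agent.H4.clifford_restrict hN' ψ ⟨n, σ, hσ, hσψ⟩ _ (Cfsg.Agent.H4.toSub_irr hNT θ.2)
      rw [← Cfsg.Agent.H4.toSub_restrict hNT, Cfsg.Agent.H4.classInner_toSub hNT, hψθ]
      exact h1
    have h3 : {η : H.subgroupOf T → ℂ | ∃ g : T, η =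
          Cfsg.Agent.H4.conjBy hN' g (Cfsg.Agent.H4.toSub (θ : H → ℂ))} = {Cfsg.Agent.H4.toSub (θ : H → ℂ)} := by
      have h4 : ∀ t : T, Cfsg.Agent.H4.conjBy hN' t (Cfsg.Agent.H4.toSub (θ : H → ℂ)) = Cfsg.Agent.H4.toSub (θ : H → ℂ) := by
        intro t
        funext x
        have ht : Cfsg.Agent.H4.conjBy hN (t : G) (θ : H → ℂ) = θ := hT.le t.2
        have h3 := congrFun ht ⟨((x : T) : G), Subgroup.mem_subgroupOf.mp x.2⟩
        rw [Cfsg.Agent.H4.conjBy_apply] at h3 ⊢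
        rw [Cfsg.Agent.H4.toSub_apply, Cfsg.Agent.H4.toSub_apply]
        exact h3
      ext η
      simp only [Set.mem_setOf_eq, Set.mem_singleton_iff]
      constructor
      · rintro ⟨g, rfl⟩; exact h4 g
      · rintro rfl; exact ⟨1, (h4 1).symm⟩
    rw [h3, finsum_mem_singleton] at h2
    set c := classInner (fun x : H.subgroupOf T => ψ x) (Cfsg.Agent.H4.toSub (θ : H → ℂ)) with hc
    have h5 : ψ z = c * (lam ⟨z, hz'⟩ : ℂ) := by
      have := congrFun h2 ⟨z, hz⟩
      rw [Pi.smul_apply, smul_eq_mul, Cfsg.Agent.H4.toSub_apply, hlam] at this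
      exact this
    have h6 : ψ 1 = c := by
      have := congrFun h2 1
      rw [Pi.smul_apply, smul_eq_mul, Cfsg.Agent.H4.toSub_apply, hlam] at this
      have h7 : lam ⟨((1 : H.subgroupOf T) : T), Subgroup.mem_subgroupOf.mp (1 : H.subgroupOf T).2⟩ = 1 := map_one lam
      beta_reduce at this
      rw [h7] at this
      simpa using this
    have h8 : ‖σ.character z‖ = (Module.finrank ℂ (Fin n → ℂ) : ℝ) := by
      rw [hσψ, h5, norm_mul]
      have h9 : ‖((lam ⟨z, hz'⟩ : ℂˣ) : ℂ)‖ = 1 := by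
        apply Complex.norm_eq_one_of_pow_eq_one (n := Nat.card H) _ Nat.card_pos.ne'
        rw [← Units.val_pow_eq_pow_val, ← map_pow, pow_card_eq_one', map_one, Units.val_one]
      rw [h9, mul_one, ← h6, ← hσψ, Representation.char_one]
      simp
    obtain ⟨ω, hω⟩ := (Cfsg.Agent.H4.norm_char_eq_iff σ z).1 h8
    exact ⟨ω, hω⟩
  -- conclude
  have hdeg : Module.finrank ℂ V = T.index * charDegree ψ := by
    have h10 := congrFun hψχ 1
    rw [Cfsg.Agent.H4.indFun_one, hχdef, Representation.char_one,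
      Cfsg.Agent.H4.IsChar.one_eq (Cfsg.Agent.H4.IsIrr.isCharacter ⟨n, σ, hσ, hσψ⟩)] at h10
    exact_mod_cast h10
  have hidx : H.index = T.index * (H.subgroupOf T).index := by
    rw [mul_comm]
    exact (Subgroup.relIndex_mul_index hNT).symm
  rw [hdeg, hidx]
  exact Nat.mul_dvd_mul_left _ hdvd

end Cfsg.Agent.S0169
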