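import Cfsg.Statements.S0170
import Cfsg.Agent.H4.Exc

set_option autoImplicit false
open Cfsg

namespace Cfsg.Agent.S0170

/-- Exceptional characters. Let S be a subset of a finite group contained in its normalizer N and meeting its conjugates by elements outside N only in the identity. Given n ≥ 2 distinct irreducible characters of N of equal degree that vanish on N away from S, there exist a sign ε and n distinct irreducible characters θ_i of G such that inducing χ_i − χ_j to G gives ε (θ_i − θ_j) for all i, j. -/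
theorem result {G : Type*} [Group G] [Fintype G] (S : Set G) (hSN : S ⊆ Subgroup.normalizer S) (hTI : ∀ g : G, g ∉ Subgroup.normalizer S → ∀ s ∈ S, g * s * g⁻¹ ∈ S → s = 1) (n : ℕ) (hn : 2 ≤ n) (χ : Fin n → (Subgroup.normalizer S → ℂ)) (hirr : ∀ i, Cfsg.IsIrrCharacter (Subgroup.normalizer S) (χ i)) (hinj : Function.Injective χ) (hvan : ∀ i, ∀ x : Subgroup.normalizer S, (x : G) ∉ S → χ i x = 0) (hdeg : ∀ i j, χ i 1 = χ j 1) : ∃ ε : ℂ, (ε = 1 ∨ ε = -1) ∧ ∃ θ : Fin n → (G → ℂ), (∀ i, Cfsg.IsIrrCharacter G (θ i)) ∧ Function.Injective θ ∧ ∀ i j, Cfsg.indFun (Subgroup.normalizer S) (χ i) - Cfsg.indFun (Subgroup.normalizer S) (χ j) = ε • (θ i - θ j) := by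
  classical
  have := Fintype.ofFinite (Subgroup.normalizer S)
  let i₀ : Fin n := ⟨0, by omega⟩
  let τ : Fin n → (G → ℂ) := fun i => indFun (Subgroup.normalizer S) (χ i) - indFun (Subgroup.normalizer S) (χ i₀)
  have hτ : ∀ i, τ i = indFun (Subgroup.normalizer S) (χ i - χ i₀) := fun i => (H4.indFun_sub _ _ _).symm
  have hcl : ∀ i, IsClassFunction (Subgroup.normalizer S) (χ i - χ i₀) := fun i =>
    H5.IsClassFunction.sub' (H4.IsIrr.isClassFunction (hirr i)) (H4.IsIrr.isClassFunction (hirr i₀))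
  have hvan' : ∀ i, ∀ x : Subgroup.normalizer S, (x : G) ∉ S → (χ i - χ i₀) x = 0 := by
    intro i x hx
    rw [Pi.sub_apply, hvan i x hx, hvan i₀ x hx, sub_zero]
  have hone' : ∀ i, (χ i - χ i₀) 1 = 0 := by
    intro i; rw [Pi.sub_apply, hdeg i i₀, sub_self]
  obtain ⟨ε, hε, μ, hμ, hinjμ, hτμ⟩ := H4.exceptional_aux n i₀ τ (by show _ - _ = _; rw [sub_self])
    (fun i => H5.isGeneralized_sub (H5.IsCharacter.isGeneralized (H4.IsChar.induce _ _ (H4.IsIrr.isCharacter (hirr i))))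
      (H5.IsCharacter.isGeneralized (H4.IsChar.induce _ _ (H4.IsIrr.isCharacter (hirr i₀)))))
    (fun i => by rw [hτ, H4.indFun_one, hone', mul_zero])
    (by
      intro i j hi hj
      rw [hτ, hτ, H4.ind_isometry_ti S hTI _ _ (hcl i) (hcl j) (hvan' i) (hvan' j) (hone' i)]
      have h1 := H4.inner_diff ⟨χ i, hirr i⟩ ⟨χ i₀, hirr i₀⟩ ⟨χ j, hirr j⟩ ⟨χ i₀, hirr i₀⟩
      have h2 : classInner (χ i - χ i₀) (χ j - χ i₀) = _ := h1
      rw [h2]
      have e1 : ((⟨χ i, hirr i⟩ : IrrCharacter (Subgroup.normalizer S)) = ⟨χ j, hirr j⟩) ↔ i = j :=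
        ⟨fun h => hinj (congrArg Subtype.val h), fun h => by subst h; rfl⟩
      have e2 : (⟨χ i, hirr i⟩ : IrrCharacter (Subgroup.normalizer S)) ≠ ⟨χ i₀, hirr i₀⟩ :=
        fun h => hi (hinj (congrArg Subtype.val h))
      have e3 : (⟨χ i₀, hirr i₀⟩ : IrrCharacter (Subgroup.normalizer S)) ≠ ⟨χ j, hirr j⟩ :=
        fun h => hj (hinj (congrArg Subtype.val h)).symm
      rw [if_neg e2, if_neg e3, if_pos rfl]
      by_cases h : i = j
      · rw [if_pos (e1.2 h), if_pos h]; norm_num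
      · rw [if_neg (fun h' => h (e1.1 h')), if_neg h]; norm_num)
  refine ⟨ε, hε, μ, hμ, hinjμ, fun i j => ?_⟩
  have h3 : indFun (Subgroup.normalizer S) (χ i) - indFun (Subgroup.normalizer S) (χ j) = τ i - τ j := by
    show _ = (_ - _) - (_ - _)
    rw [sub_sub_sub_cancel_right]
  rw [h3, hτμ i, hτμ j, ← smul_sub, sub_sub_sub_cancel_right]

end Cfsg.Agent.S0170
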