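import Cfsg.Statements.S0172
import Cfsg.Agent.H4.Frob

set_option autoImplicit false
open Cfsg

namespace Cfsg.Agent.S0172

/-- Class number of a Frobenius group: if G = K H with K normal, K ⊓ H trivial and no non-identity element of H commuting with a non-identity element of K, then |H| * k(G) + 1 = |H| * k(H) + k(K), where k denotes the number of conjugacy classes. -/
theorem result {G : Type*} [Group G] [Finite G] (K H : Subgroup G) [K.Normal] (hKH : K ⊓ H = ⊥) (hKH' : K ⊔ H = ⊤) (hfpf : ∀ h ∈ H, h ≠ 1 → ∀ k ∈ K, h * k = k * h → k = 1) : Nat.card H * Nat.card (ConjClasses G) + 1 = Nat.card H * Nat.card (ConjClasses H) + Nat.card (ConjClasses K) := by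
  classical
  have := Fintype.ofFinite G
  have := Fintype.ofFinite K
  have := Fintype.ofFinite H
  have hK : K.Normal := inferInstance
  have c0 : ∀ (M : Type _) [Group M] [Fintype M], ∑ g : M, Nat.card (Subgroup.centralizer ({g} : Set M))
      = Nat.card M * Nat.card (ConjClasses M) := by
    intro M _ _
    have h1 := Cfsg.Agent.H4.sum_centralizer (G := M) (fun _ => True) (fun _ _ _ => trivial)
    simp only [if_true] at h1
    have h2 : Nat.card {C : ConjClasses M // ∀ g : M, ConjClasses.mk g = C → True} = Nat.card (ConjClasses M) :=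
      Nat.card_congr (Equiv.subtypeUnivEquiv (fun _ _ _ => trivial))
    rw [h2] at h1
    exact_mod_cast h1
  have hG := c0 G
  have hKs := c0 K
  have hHs := c0 H
  -- decompose G
  have hdec : ∑ g : G, Nat.card (Subgroup.centralizer ({g} : Set G))
      = ∑ h : H, ∑ k : K, Nat.card (Subgroup.centralizer ({(k : G) * h} : Set G)) := by
    rw [Finset.sum_comm, ← Fintype.sum_prod_type']
    symm
    apply Fintype.sum_bijective (fun p : K × H => (p.1 : G) * p.2)
    · constructor
      · rintro ⟨a, b⟩ ⟨c, d⟩ heq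
        have h1 : (a : G) * b = c * d := heq
        have h2 : (c : G)⁻¹ * a = d * (b : G)⁻¹ := by
          calc (c : G)⁻¹ * a = (c : G)⁻¹ * (a * b) * (b : G)⁻¹ := by group
            _ = d * (b : G)⁻¹ := by rw [h1]; group
        have h3 : (c : G)⁻¹ * a ∈ K ⊓ H := ⟨K.mul_mem (K.inv_mem c.2) a.2,
          by rw [h2]; exact H.mul_mem d.2 (H.inv_mem b.2)⟩
        rw [hKH, Subgroup.mem_bot] at h3
        have h4 : a = c := Subtype.ext (inv_mul_eq_one.1 h3).symm
        subst h4
        have h5 : b = d := Subtype.ext (mul_left_cancel h1)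
        rw [h5]
      · intro g
        obtain ⟨k, hk, h, hh, rfl⟩ := Cfsg.Agent.H4.frob_decomp hK hKH' g
        exact ⟨⟨⟨k, hk⟩, ⟨h, hh⟩⟩, rfl⟩
    · intro p; rfl
  have hcard : Nat.card G = Nat.card K * Nat.card H := by
    rw [← Nat.card_prod]
    symm
    apply Nat.card_congr
    refine Equiv.ofBijective (fun p : K × H => (p.1 : G) * p.2) ⟨?_, ?_⟩
    · rintro ⟨a, b⟩ ⟨c, d⟩ heq
      have h1 : (a : G) * b = c * d := heq
      have h2 : (c : G)⁻¹ * a = d * (b : G)⁻¹ := by
        calc (c : G)⁻¹ * a = (c : G)⁻¹ * (a * b) * (b : G)⁻¹ := by group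
          _ = d * (b : G)⁻¹ := by rw [h1]; group
      have h3 : (c : G)⁻¹ * a ∈ K ⊓ H := ⟨K.mul_mem (K.inv_mem c.2) a.2,
        by rw [h2]; exact H.mul_mem d.2 (H.inv_mem b.2)⟩
      rw [hKH, Subgroup.mem_bot] at h3
      have h4 : a = c := Subtype.ext (inv_mul_eq_one.1 h3).symm
      subst h4
      have h5 : b = d := Subtype.ext (mul_left_cancel h1)
      rw [h5]
    · intro g
      obtain ⟨k, hk, h, hh, rfl⟩ := Cfsg.Agent.H4.frob_decomp hK hKH' g
      exact ⟨⟨⟨k, hk⟩, ⟨h, hh⟩⟩, rfl⟩
  -- nontrivial h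
  have hne : ∀ h : H, h ≠ 1 → ∀ k : K, Nat.card (Subgroup.centralizer ({(k : G) * h} : Set G))
      = Nat.card (Subgroup.centralizer ({h} : Set H)) := by
    intro h hh1 k
    have hh1' : (h : G) ≠ 1 := fun e => hh1 (Subtype.ext e)
    obtain ⟨x, hx, hxe⟩ := Cfsg.Agent.H4.frob_conj hK hfpf h h.2 hh1' k k.2
    rw [← hxe, Cfsg.Agent.H4.centralizer_card_conj]
    apply Nat.card_congr
    refine ⟨fun y => ⟨⟨y.1, ?_⟩, ?_⟩, fun y => ⟨y.1.1, ?_⟩, fun _ => rfl, fun _ => rfl⟩
    · exact Cfsg.Agent.H4.frob_centralizer' hK hKH hKH' hfpf h h.2 hh1' _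
        (Subgroup.mem_centralizer_singleton_iff.1 y.2)
    · rw [Subgroup.mem_centralizer_singleton_iff]
      exact Subtype.ext (Subgroup.mem_centralizer_singleton_iff.1 y.2)
    · rw [Subgroup.mem_centralizer_singleton_iff]
      exact congrArg Subtype.val (Subgroup.mem_centralizer_singleton_iff.1 y.2)
  -- h = 1
  have hk1 : ∀ k : K, k ≠ 1 → Nat.card (Subgroup.centralizer ({(k : G)} : Set G))
      = Nat.card (Subgroup.centralizer ({k} : Set K)) := by
    intro k hk
    have hk' : (k : G) ≠ 1 := fun e => hk (Subtype.ext e)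
    apply Nat.card_congr
    refine ⟨fun y => ⟨⟨y.1, ?_⟩, ?_⟩, fun y => ⟨y.1.1, ?_⟩, fun _ => rfl, fun _ => rfl⟩
    · exact Cfsg.Agent.H4.frob_centralizer hK hKH' hfpf k k.2 hk' _
        (Subgroup.mem_centralizer_singleton_iff.1 y.2)
    · rw [Subgroup.mem_centralizer_singleton_iff]
      exact Subtype.ext (Subgroup.mem_centralizer_singleton_iff.1 y.2)
    · rw [Subgroup.mem_centralizer_singleton_iff]
      exact congrArg Subtype.val (Subgroup.mem_centralizer_singleton_iff.1 y.2)
  have hcone : ∀ (M : Type _) [Group M], Nat.card (Subgroup.centralizer ({(1 : M)} : Set M)) = Nat.card M := by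
    intro M _
    have : Subgroup.centralizer ({(1 : M)} : Set M) = ⊤ := by
      rw [eq_top_iff]; intro x _; rw [Subgroup.mem_centralizer_singleton_iff]; simp
    rw [this]; exact Subgroup.card_top
  rw [hG] at hdec
  rw [← Finset.add_sum_erase _ _ (Finset.mem_univ (1 : H))] at hdec
  have e1 : ∑ k : K, Nat.card (Subgroup.centralizer ({(k : G) * ((1 : H) : G)} : Set G))
      = Nat.card G + ∑ k ∈ Finset.univ.erase (1 : K), Nat.card (Subgroup.centralizer ({k} : Set K)) := by
    rw [← Finset.add_sum_erase _ _ (Finset.mem_univ (1 : K))]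
    congr 1
    · have : ((1 : K) : G) * ((1 : H) : G) = 1 := by simp
      rw [this]; exact hcone G
    · apply Finset.sum_congr rfl
      intro k hk
      have : (k : G) * ((1 : H) : G) = k := by simp
      rw [this]
      exact hk1 k (Finset.ne_of_mem_erase hk)
  have e2 : ∑ h ∈ Finset.univ.erase (1 : H), ∑ k : K, Nat.card (Subgroup.centralizer ({(k : G) * (h : G)} : Set G))
      = Nat.card K * ∑ h ∈ Finset.univ.erase (1 : H), Nat.card (Subgroup.centralizer ({h} : Set H)) := by
    rw [Finset.mul_sum]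
    apply Finset.sum_congr rfl
    intro h hh
    rw [Finset.sum_congr rfl (fun k _ => hne h (Finset.ne_of_mem_erase hh) k), Finset.sum_const,
      Finset.card_univ, Nat.card_eq_fintype_card (α := K), smul_eq_mul]
  rw [e1, e2] at hdec
  rw [← Finset.add_sum_erase _ _ (Finset.mem_univ (1 : K)), hcone K] at hKs
  rw [← Finset.add_sum_erase _ _ (Finset.mem_univ (1 : H)), hcone H] at hHs
  set SK := ∑ k ∈ Finset.univ.erase (1 : K), Nat.card (Subgroup.centralizer ({k} : Set K))
  set SH := ∑ h ∈ Finset.univ.erase (1 : H), Nat.card (Subgroup.centralizer ({h} : Set H))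
  have hKpos : 0 < Nat.card K := Nat.card_pos
  apply Nat.eq_of_mul_eq_mul_left hKpos
  rw [hcard] at hdec
  nlinarith

end Cfsg.Agent.S0172
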