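import Cfsg.Statements.S0175
import Cfsg.Agent.H4.Taketa

set_option autoImplicit false
open Cfsg

namespace Cfsg.Agent.S0175

/-- Taketa's Theorem on M-groups: if every irreducible complex character of a finite group is induced from a linear character (a homomorphism to ℂˣ) of some subgroup, the group is solvable. -/
theorem result {G : Type*} [Group G] [Fintype G] (hM : ∀ χ : G → ℂ, Cfsg.IsIrrCharacter G χ → ∃ (H : Subgroup G) (lam : H →* ℂˣ), χ = Cfsg.indFun H (fun h => (lam h : ℂ))) : Group.IsSolvable G := by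
  classical
  have key := H4.taketa_aux hM
  choose deg hdeg0 hdeg using fun φ : IrrCharacter G => H4.IsIrr.exists_degree φ.2
  obtain ⟨n, hn⟩ : ∃ n, ∀ φ : IrrCharacter G, deg φ ≤ n := ⟨∑ φ, deg φ, fun φ => Finset.single_le_sum (fun _ _ => Nat.zero_le _) (Finset.mem_univ φ)⟩
  refine ⟨⟨n, ?_⟩⟩
  rw [eq_bot_iff]
  intro x hx
  rw [Subgroup.mem_bot]
  apply H4.eq_one_of_forall_irr
  intro χ
  exact key (deg χ) (χ : G → ℂ) χ.2 (hdeg χ) x (derivedSeries_antitone (G := G) (hn χ) hx)

end Cfsg.Agent.S0175
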