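import Cfsg.Statements.S0177
import Cfsg.Agent.H4.Artin

set_option autoImplicit false
open Cfsg

namespace Cfsg.Agent.S0177

/-- The Artin induction Theorem: for a character χ of a finite group, |G| • χ is a ℤ-linear combination of functions induced from homomorphisms of cyclic subgroups into ℂˣ. -/
theorem result {G : Type*} [Group G] [Fintype G] (χ : G → ℂ) (hχ : Cfsg.IsCharacter G χ) : ∃ l : List ((A : Subgroup G) × ((A →* ℂˣ) × ℤ)), (∀ t ∈ l, IsCyclic t.1) ∧ (Nat.card G : ℂ) • χ = (l.map fun t => (t.2.2 : ℂ) • Cfsg.indFun t.1 (fun a => (t.2.1 a : ℂ))).sum := by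
  obtain ⟨l, hl1, hl2⟩ := H4.exists_list_of_monClosure (H4.indClosure_monomial
    (F := fun A : Subgroup G => IsCyclic A)
    (by
      intro H U h hU
      exact isCyclic_of_injective (Subgroup.inclusion hU) (Subgroup.inclusion_injective hU))
    (by
      intro H h
      letI : CommGroup H := IsCyclic.commGroup
      infer_instance)
    (H4.indClosure_mul_char _ H4.artin_mem hχ))
  refine ⟨l, hl1, ?_⟩
  rw [← hl2]
  funext g; simp

end Cfsg.Agent.S0177
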