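import Cfsg.Statements.S0181
import Cfsg.Agent.H4.Mult

set_option autoImplicit false
open Cfsg

namespace Cfsg.Agent.S0181

/-- Let H be a normal subgroup of a finite group G and ρ an irreducible complex representation whose kernel does not contain H. If g commutes with no non-identity element of H, then the character of ρ vanishes at g. -/
theorem result {G : Type*} [Group G] [Finite G] {V : Type*} [AddCommGroup V] [Module ℂ V] [FiniteDimensional ℂ V] (ρ : Representation ℂ G V) [ρ.IsIrreducible] (H : Subgroup G) [H.Normal] (hker : ∃ h ∈ H, ρ h ≠ LinearMap.id) (g : G) (hg : ∀ h ∈ H, h * g = g * h → h = 1) : ρ.character g = 0 := by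
  classical
  have := Fintype.ofFinite G
  have := Fintype.ofFinite H
  have hirr := (Cfsg.Agent.H4.isIrreducible_iff ρ).1 inferInstance
  -- sum over H is zero
  let S : V →ₗ[ℂ] V := ∑ h : H, ρ h
  have hSinv : ∀ h : H, ∀ v, ρ h (S v) = S v := by
    intro h v
    have h1 : (ρ h) * S = S := by
      simp only [S]
      rw [Finset.mul_sum]
      apply Fintype.sum_equiv (Equiv.mulLeft h)
      intro k
      rw [← map_mul]; rfl
    exact congrArg (fun T : V →ₗ[ℂ] V => T v) h1
  let U : Submodule ℂ V := { carrier := {v | ∀ h : H, ρ h v = v}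
                             add_mem' := fun {a b} ha hb h => by rw [map_add, ha h, hb h]
                             zero_mem' := fun h => map_zero _
                             smul_mem' := fun c v hv h => by rw [map_smul, hv h] }
  have hUinv : ∀ g : G, ∀ v ∈ U, ρ g v ∈ U := by
    intro g v hv h
    have h1 : (h : G) * g = g * (g⁻¹ * h * g) := by group
    have h2 : g⁻¹ * h * g ∈ H := by
      have := Subgroup.Normal.conj_mem (inferInstance : H.Normal) h h.2 g⁻¹
      rwa [inv_inv] at this
    have h3 := hv ⟨_, h2⟩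
    rw [← Module.End.mul_apply, ← map_mul, h1, map_mul, Module.End.mul_apply, h3]
  rcases hirr.2 U hUinv with hU | hU
  · -- S = 0
    have hS0 : S = 0 := by
      apply LinearMap.ext; intro v
      have : S v ∈ U := fun h => hSinv h v
      rw [hU, Submodule.mem_bot] at this
      rw [this]; rfl
    -- trace of ρ g * S
    have h4 : ∑ h : H, ρ.character (g * h) = 0 := by
      have h5 : LinearMap.trace ℂ V (ρ g * S) = 0 := by rw [hS0, mul_zero, map_zero]
      rw [← h5]
      simp only [S]
      rw [Finset.mul_sum, map_sum]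
      apply Finset.sum_congr rfl; intro h _
      rw [← map_mul]; rfl
    -- every g * h is conjugate to g
    have hinj : Function.Injective (fun h : H => (⟨g⁻¹ * ((h : G) * g * (h : G)⁻¹), by
        have h1 : g⁻¹ * (h : G) * g⁻¹⁻¹ ∈ H :=
          Subgroup.Normal.conj_mem (inferInstance : H.Normal) h h.2 g⁻¹
        have h2 : g⁻¹ * ((h : G) * g * (h : G)⁻¹) = g⁻¹ * (h : G) * g⁻¹⁻¹ * (h : G)⁻¹ := by group
        rw [h2]; exact H.mul_mem h1 (H.inv_mem h.2)⟩ : H)) := by
      intro a b hab
      have h6 : g⁻¹ * ((a : G) * g * (a : G)⁻¹) = g⁻¹ * ((b : G) * g * (b : G)⁻¹) :=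
        congrArg Subtype.val hab
      have h7 : (a : G) * g * (a : G)⁻¹ = (b : G) * g * (b : G)⁻¹ := mul_left_cancel h6
      have h8 : ((b : G)⁻¹ * a) * g = g * ((b : G)⁻¹ * a) := by
        calc ((b : G)⁻¹ * a) * g = (b : G)⁻¹ * ((a : G) * g * (a : G)⁻¹) * a := by group
          _ = (b : G)⁻¹ * ((b : G) * g * (b : G)⁻¹) * a := by rw [h7]
          _ = g * ((b : G)⁻¹ * a) := by group
      have h9 := hg _ (H.mul_mem (H.inv_mem b.2) a.2) h8
      exact Subtype.ext (inv_mul_eq_one.1 h9).symm
    have hbij := Finite.injective_iff_bijective.1 hinj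
    have h10 : ∀ h : H, ρ.character (g * h) = ρ.character g := by
      intro h
      obtain ⟨k, hk⟩ := hbij.2 h
      have h11 : g * (h : G) = (k : G) * g * (k : G)⁻¹ := by
        rw [← hk]; group
      rw [h11, Representation.char_conj]
    rw [Finset.sum_congr rfl (fun h _ => h10 h), Finset.sum_const, nsmul_eq_mul] at h4
    rcases mul_eq_zero.1 h4 with h12 | h12
    · exfalso
      have : Finset.card (Finset.univ : Finset H) ≠ 0 := Finset.card_ne_zero.2 ⟨1, Finset.mem_univ _⟩
      exact this (by exact_mod_cast h12)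
    · exact h12
  · exfalso
    obtain ⟨h, hh, hne⟩ := hker
    apply hne
    apply LinearMap.ext; intro v
    have : v ∈ U := by rw [hU]; trivial
    exact this ⟨h, hh⟩

end Cfsg.Agent.S0181
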