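import Cfsg.Statements.S0184
import Cfsg.Agent.H4.Mult
import Cfsg.Agent.H4.GrpUtil

set_option autoImplicit false
open Cfsg

namespace Cfsg.Agent.S0184

/-- A finite p-group admits a faithful irreducible complex representation if and only if its centre is cyclic. -/
theorem result {G : Type*} [Group G] [Finite G] (p : ℕ) [Fact p.Prime] (hG : IsPGroup p G) : (∃ (n : ℕ) (ρ : Representation ℂ G (Fin n → ℂ)), ρ.IsIrreducible ∧ Function.Injective ρ) ↔ IsCyclic (Subgroup.center G) := by
  classical
  have := Fintype.ofFinite G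
  constructor
  · rintro ⟨n, ρ, hρ, hinj⟩
    have hV := ((Cfsg.Agent.H4.isIrreducible_iff ρ).1 hρ).1
    -- embed center in ℂˣ
    have hsc : ∀ z : Subgroup.center G, ∃ c : ℂ, ρ z = c • (1 : (Fin n → ℂ) →ₗ[ℂ] (Fin n → ℂ)) :=
      fun z => Cfsg.Agent.H4.center_scalar ρ hρ z z.2
    choose c hc using hsc
    obtain ⟨v, hv⟩ := exists_ne (0 : Fin n → ℂ)
    have hinj1 : ∀ a b : ℂ, a • (1 : (Fin n → ℂ) →ₗ[ℂ] (Fin n → ℂ)) = b • (1 : (Fin n → ℂ) →ₗ[ℂ] (Fin n → ℂ)) → a = b := by
      intro a b hab
      have h1 := congrArg (fun T : (Fin n → ℂ) →ₗ[ℂ] (Fin n → ℂ) => T v) hab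
      simp only [LinearMap.smul_apply, Module.End.one_apply] at h1
      have h2 : (a - b) • v = 0 := by rw [sub_smul, h1, sub_self]
      rcases smul_eq_zero.1 h2 with h3 | h3
      · exact sub_eq_zero.1 h3
      · exact absurd h3 hv
    let f : Subgroup.center G →* ℂ :=
      { toFun := c
        map_one' := by
          apply hinj1; rw [← hc]; simp
        map_mul' := by
          intro a b
          apply hinj1
          rw [← hc, Subgroup.coe_mul, map_mul, hc a, hc b, smul_mul_smul_comm, one_mul] }
    have hfi : Function.Injective f := by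
      intro a b hab
      have h1 : c a = c b := hab
      apply Subtype.ext
      apply hinj
      rw [hc a, hc b, h1]
    exact isCyclic_of_subgroup_isDomain f hfi
  · intro hcyc
    by_cases hsub : Subsingleton G
    · obtain ⟨n, ρ, hρ, _⟩ := Cfsg.Agent.H5.isIrrCharacter_trivial (G := G)
      exact ⟨n, ρ, hρ, Function.injective_of_subsingleton _⟩
    rw [not_subsingleton_iff_nontrivial] at hsub
    have hcen := hG.center_nontrivial
    -- element of order p in center
    obtain ⟨z, hz⟩ : ∃ z : Subgroup.center G, orderOf z = p := by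
      have hpd : p ∣ Nat.card (Subgroup.center G) := by
        have hpg : IsPGroup p (Subgroup.center G) := hG.to_subgroup _
        obtain ⟨k, hk, hk'⟩ := hpg.nontrivial_iff_card.1 hcen
        rw [hk']
        exact dvd_pow_self p hk.ne'
      exact exists_prime_orderOf_dvd_card' p hpd
    have hz1 : (z : G) ≠ 1 := by
      intro h
      have : z = 1 := Subtype.ext h
      rw [this, orderOf_one] at hz
      exact (Fact.out : p.Prime).one_lt.ne hz
    obtain ⟨χ, hχ⟩ : ∃ χ : IrrCharacter G, (χ : G → ℂ) z ≠ (χ : G → ℂ) 1 := by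
      by_contra hcon
      push Not at hcon
      exact hz1 (Cfsg.Agent.H4.eq_one_of_forall_irr hcon)
    obtain ⟨n, ρ, hρ, hρχ⟩ := χ.2
    refine ⟨n, ρ, hρ, ?_⟩
    rw [injective_iff_map_eq_one]
    by_contra hcon
    push Not at hcon
    obtain ⟨x, hx, hx1⟩ := hcon
    -- kernel is nontrivial normal so meets the center
    let N : Subgroup G := MonoidHom.ker ρ
    have hNnt : Nontrivial N := by
      rw [Subgroup.nontrivial_iff_exists_ne_one]
      exact ⟨x, hx, hx1⟩
    have hNn : N.Normal := inferInstance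
    obtain ⟨y, hy, hy1⟩ : ∃ y ∈ N ⊓ Subgroup.center G, y ≠ 1 := by
      obtain ⟨y, h1, h2, h3⟩ := Cfsg.Agent.H4.exists_mem_center_of_normal hG N
        ((Subgroup.nontrivial_iff_ne_bot N).1 hNnt)
      exact ⟨y, ⟨h1, h2⟩, h3⟩
    -- y in cyclic center, so some power generates ⟨z⟩
    let M : Subgroup (Subgroup.center G) := N.subgroupOf (Subgroup.center G)
    have hyM : (⟨y, hy.2⟩ : Subgroup.center G) ∈ M := Subgroup.mem_subgroupOf.2 hy.1
    have hMnt : Nontrivial M := by
      rw [Subgroup.nontrivial_iff_exists_ne_one]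
      exact ⟨_, hyM, fun h => hy1 (congrArg Subtype.val h)⟩
    have hpg : IsPGroup p M := (hG.to_subgroup _).to_subgroup _
    obtain ⟨k, hk, hk'⟩ := hpg.nontrivial_iff_card.1 hMnt
    have hpM : p ∣ Nat.card M := by rw [hk']; exact dvd_pow_self p hk.ne'
    obtain ⟨w, hw⟩ := exists_prime_orderOf_dvd_card' p hpM
    have hw' : orderOf (w : Subgroup.center G) = p := by
      rw [Subgroup.orderOf_coe]; exact hw
    have h3 : Subgroup.zpowers (w : Subgroup.center G) = Subgroup.zpowers z :=
      Cfsg.Agent.H4.zpowers_eq_of_orderOf_eq (hw'.trans hz.symm)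
    have h4 : z ∈ Subgroup.zpowers (w : Subgroup.center G) := by
      rw [h3]; exact Subgroup.mem_zpowers z
    have h5 : z ∈ M := by
      have : Subgroup.zpowers (w : Subgroup.center G) ≤ M := by
        rw [Subgroup.zpowers_le]; exact w.2
      exact this h4
    have h6 : (z : G) ∈ N := Subgroup.mem_subgroupOf.1 h5
    apply hχ
    have h7 : ρ z = 1 := h6
    rw [← hρχ, Representation.character, h7]
    simp

end Cfsg.Agent.S0184
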