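import Cfsg.Statements.S0185
import Cfsg.Agent.H4.Mult

set_option autoImplicit false
open Cfsg

namespace Cfsg.Agent.S0185

/-- If a finite group has a faithful complex representation of degree less than the smallest prime dividing its order, the group is abelian. -/
theorem result {G : Type*} [Group G] [Finite G] {V : Type*} [AddCommGroup V] [Module ℂ V] [FiniteDimensional ℂ V] (ρ : Representation ℂ G V) (hfaithful : Function.Injective ρ) (hdeg : ∀ p : ℕ, p.Prime → p ∣ Nat.card G → Module.finrank ℂ V < p) (a b : G) : a * b = b * a := by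
  classical
  have := Fintype.ofFinite G
  have hchar := Cfsg.Agent.H4.isCharacter_of_rep ρ
  obtain ⟨m, hm1, hm2⟩ := Cfsg.Agent.H4.IsChar.exists_mult hchar
  have hlin : ∀ ψ : IrrCharacter G, m ψ ≠ 0 → charDegree (ψ : G → ℂ) = 1 := by
    intro ψ hψ
    have h1 := Cfsg.Agent.H4.IsChar.degree_le_of_mult hchar m hm2 ψ hψ
    rw [Cfsg.Agent.H4.charDegree_character] at h1
    by_contra hne
    have h2 := Cfsg.Agent.H4.IsIrr.degree_pos ψ.2
    obtain ⟨p, hp, hpd⟩ := Nat.exists_prime_and_dvd hne
    have h3 := hdeg p hp (hpd.trans (Cfsg.Agent.H4.IsIrr.degree_dvd ψ.2))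
    have h4 := Nat.le_of_dvd h2 hpd
    omega
  have key : a * b * (b * a)⁻¹ = 1 := by
    apply hfaithful
    rw [map_one]
    have h5 : ρ.character (a * b * (b * a)⁻¹) = Module.finrank ℂ V := by
      rw [← Representation.char_one ρ, hm2, hm2]
      apply Finset.sum_congr rfl
      intro ψ _
      by_cases h0 : m ψ = 0
      · rw [h0]; simp
      · congr 1
        have h6 := hlin ψ h0
        have h7 : (ψ : G → ℂ) 1 = 1 := by
          rw [Cfsg.Agent.H4.IsChar.one_eq (Cfsg.Agent.H4.IsIrr.isCharacter ψ.2), h6]; simp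
        obtain ⟨lam, hl⟩ := Cfsg.Agent.H4.exists_hom_of_degree_one (Cfsg.Agent.H4.IsIrr.isCharacter ψ.2) h7
        rw [hl]
        simp only [map_mul, map_inv, Units.val_mul, map_one, Units.val_one]
        rw [mul_comm (lam b) (lam a), ← Units.val_mul, ← Units.val_mul, mul_inv_cancel, Units.val_one]
    exact (Cfsg.Agent.H4.char_eq_finrank_iff ρ _).1 h5
  rwa [mul_inv_eq_one] at key

end Cfsg.Agent.S0185
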