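import Cfsg.Statements.S0186
import Cfsg.Agent.H4.Mult

set_option autoImplicit false
open Cfsg

namespace Cfsg.Agent.S0186

/-- Let G be a finite simple group of order n and p a prime dividing n. If G has more than n / p^2 conjugacy classes, then every Sylow p-subgroup of G is abelian. -/
theorem result {G : Type*} [Group G] [Finite G] [IsSimpleGroup G] (p : ℕ) [Fact p.Prime] (hp : p ∣ Nat.card G) (hmany : Nat.card G < p ^ 2 * Nat.card (ConjClasses G)) (P : Sylow p G) (a b : G) (ha : a ∈ P) (hb : b ∈ P) : a * b = b * a := by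
  classical
  have := Fintype.ofFinite G
  have hpp : p.Prime := Fact.out
  by_cases hp2 : p ^ 2 ∣ Nat.card G
  · -- there is a nontrivial χ of degree < p
    obtain ⟨χ, hχ1, hχp⟩ : ∃ χ : IrrCharacter G, (χ : G → ℂ) ≠ (fun _ => 1) ∧ charDegree (χ : G → ℂ) < p := by
      by_contra hcon
      push Not at hcon
      have hsq : Nat.card G = ∑ χ : IrrCharacter G, (charDegree (χ : G → ℂ)) ^ 2 := by
        have hsq : (Nat.card G : ℂ) = ((∑ χ : IrrCharacter G, (charDegree (χ : G → ℂ)) ^ 2 : ℕ) : ℂ) := by
          rw [← Cfsg.Agent.H5.sum_irr_sq (G := G)]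
          push_cast
          apply Finset.sum_congr rfl
          intro χ _
          rw [Cfsg.Agent.H5.IsCharacter.one_eq_charDegree (Cfsg.Agent.H5.irr_isCharacter χ)]
        exact_mod_cast hsq
      have hk : Nat.card (ConjClasses G) = Finset.card (Finset.univ : Finset (IrrCharacter G)) := by
        rw [← Cfsg.Agent.H5.card_irr_eq_card_conjClasses, Nat.card_eq_fintype_card]; rfl
      let one : IrrCharacter G := ⟨fun _ => 1, Cfsg.Agent.H5.isIrrCharacter_trivial⟩
      have hone : charDegree (one : G → ℂ) = 1 := by simp [charDegree, one]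
      rw [← Finset.add_sum_erase _ _ (Finset.mem_univ one), hone] at hsq
      have hk2 : (Finset.univ.erase one).card + 1 = Nat.card (ConjClasses G) := by
        rw [hk]; exact Finset.card_erase_add_one (Finset.mem_univ one)
      have hge : p ^ 2 * (Finset.univ.erase one).card ≤ ∑ χ ∈ Finset.univ.erase one, (charDegree (χ : G → ℂ)) ^ 2 := by
        rw [mul_comm, ← smul_eq_mul, ← Finset.sum_const]
        apply Finset.sum_le_sum
        intro χ hχ
        apply Nat.pow_le_pow_left
        apply hcon χ
        intro h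
        exact (Finset.ne_of_mem_erase hχ) (Subtype.ext h)
      obtain ⟨c, hc⟩ := hp2
      have h1 : Nat.card G < p ^ 2 * ((Finset.univ.erase one).card + 1) := by rw [hk2]; exact hmany
      have h2 : 1 + p ^ 2 * (Finset.univ.erase one).card ≤ Nat.card G := by rw [hsq]; omega
      rw [hc] at h1 h2
      have h3 : c < (Finset.univ.erase one).card + 1 := Nat.lt_of_mul_lt_mul_left h1
      have h4 : p ^ 2 * (Finset.univ.erase one).card < p ^ 2 * c := by omega
      have h5 := Nat.lt_of_mul_lt_mul_left h4
      omega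
    obtain ⟨n, ρ, hρ, hρχ⟩ := χ.2
    have hinj := Cfsg.Agent.H4.injective_of_simple ρ hρ (by rw [hρχ]; exact hχ1)
    -- restrict to P
    let ρP : Representation ℂ P (Fin n → ℂ) := ρ.comp (P : Subgroup G).subtype
    have hchar := Cfsg.Agent.H4.isCharacter_of_rep ρP
    have := Fintype.ofFinite P
    obtain ⟨m, hm1, hm2⟩ := Cfsg.Agent.H4.IsChar.exists_mult hchar
    have hn : n < p := by
      have : charDegree (χ : G → ℂ) = n := by
        rw [← hρχ, Cfsg.Agent.H4.charDegree_character]; simp
      omega
    have hlin : ∀ ψ : IrrCharacter P, m ψ ≠ 0 → charDegree (ψ : P → ℂ) = 1 := by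
      intro ψ hψ
      have h1 := Cfsg.Agent.H4.IsChar.degree_le_of_mult hchar m hm2 ψ hψ
      rw [Cfsg.Agent.H4.charDegree_character] at h1
      simp only [Module.finrank_fintype_fun_eq_card, Fintype.card_fin] at h1
      have h2 := Cfsg.Agent.H4.IsIrr.degree_dvd ψ.2
      obtain ⟨k, hk⟩ := P.isPGroup'.exists_card_eq
      rw [show Nat.card P = Nat.card (P : Subgroup G) from rfl, hk] at h2
      obtain ⟨j, _, hj⟩ := (Nat.dvd_prime_pow hpp).1 h2
      rw [hj] at h1 ⊢
      rcases Nat.eq_zero_or_pos j with h0 | h0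
      · rw [h0, pow_zero]
      · exfalso
        have : p ≤ p ^ j := Nat.le_self_pow h0.ne' p
        omega
    have key : (⟨a, ha⟩ : P) * ⟨b, hb⟩ * ((⟨b, hb⟩ : P) * ⟨a, ha⟩)⁻¹ = 1 := by
      set a' : P := ⟨a, ha⟩
      set b' : P := ⟨b, hb⟩
      have hinjP : Function.Injective ρP := fun x y hxy => Subtype.ext (hinj hxy)
      apply hinjP
      rw [map_one]
      have h5 : ρP.character (a' * b' * (b' * a')⁻¹) = Module.finrank ℂ (Fin n → ℂ) := by
        rw [← Representation.char_one ρP, hm2, hm2]
        apply Finset.sum_congr rfl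
        intro ψ _
        by_cases h0 : m ψ = 0
        · rw [h0]; simp
        · congr 1
          have h6 := hlin ψ h0
          have h7 : (ψ : P → ℂ) 1 = 1 := by
            rw [Cfsg.Agent.H4.IsChar.one_eq (Cfsg.Agent.H4.IsIrr.isCharacter ψ.2), h6]; simp
          obtain ⟨lam, hl⟩ := Cfsg.Agent.H4.exists_hom_of_degree_one (Cfsg.Agent.H4.IsIrr.isCharacter ψ.2) h7
          rw [hl]
          simp only [map_mul, map_inv, Units.val_mul, map_one, Units.val_one]
          rw [mul_comm (lam b') (lam a'), ← Units.val_mul, ← Units.val_mul, mul_inv_cancel, Units.val_one]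
      exact (Cfsg.Agent.H4.char_eq_finrank_iff ρP _).1 h5
    rw [mul_inv_eq_one] at key
    exact congrArg Subtype.val key
  · -- Sylow subgroup has order p
    have hcardP : Nat.card P = p := by
      rw [Sylow.card_eq_multiplicity]
      have h1 : (Nat.card G).factorization p = 1 := by
        have h2 : 1 ≤ (Nat.card G).factorization p :=
          (hpp.dvd_iff_one_le_factorization Nat.card_pos.ne').1 hp
        have h3 : ¬ 2 ≤ (Nat.card G).factorization p := by
          intro h
          exact hp2 ((hpp.pow_dvd_iff_le_factorization Nat.card_pos.ne').2 h)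
        omega
      rw [h1, pow_one]
    have : IsCyclic P := isCyclic_of_prime_card hcardP
    let _ : CommGroup P := IsCyclic.commGroup
    exact congrArg Subtype.val (mul_comm (⟨a, ha⟩ : P) ⟨b, hb⟩)

end Cfsg.Agent.S0186
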