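import Cfsg.Statements.S0187
import Cfsg.Agent.H4.Count

set_option autoImplicit false
open Cfsg

namespace Cfsg.Agent.S0187

/-- A finite group is commutative if and only if every irreducible complex character has degree 1. -/
theorem result {G : Type*} [Group G] [Finite G] : (∀ a b : G, a * b = b * a) ↔ ∀ χ : Cfsg.IrrCharacter G, (χ : G → ℂ) 1 = 1 := by
  classical
  constructor
  · intro h χ
    obtain ⟨lam, hl⟩ := Cfsg.Agent.H5.irr_of_comm h χ.2
    rw [hl]; simp
  · intro h a b
    have key : a * b * (b * a)⁻¹ = 1 := by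
      by_contra hne
      have h1 := Cfsg.Agent.H5.sum_irr_one_mul (a * b * (b * a)⁻¹)
      rw [if_neg hne] at h1
      have h2 : ∀ χ : IrrCharacter G, (χ : G → ℂ) 1 * (χ : G → ℂ) (a * b * (b * a)⁻¹) = 1 := by
        intro χ
        obtain ⟨lam, hl⟩ := Cfsg.Agent.H4.exists_hom_of_degree_one (Cfsg.Agent.H4.IsIrr.isCharacter χ.2) (h χ)
        rw [h χ, one_mul, hl]
        simp only [map_mul, map_inv, Units.val_mul]
        rw [mul_comm (lam b) (lam a), ← Units.val_mul, ← Units.val_mul, mul_inv_cancel, Units.val_one]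
      rw [Finset.sum_congr rfl (fun χ _ => h2 χ), Finset.sum_const, nsmul_eq_mul, mul_one] at h1
      have h3 : Finset.card (Finset.univ : Finset (IrrCharacter G)) ≠ 0 := by
        rw [Finset.card_ne_zero]
        exact ⟨⟨fun _ => 1, Cfsg.Agent.H5.isIrrCharacter_trivial⟩, Finset.mem_univ _⟩
      exact h3 (by exact_mod_cast h1)
    rwa [mul_inv_eq_one] at key

end Cfsg.Agent.S0187
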