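import Cfsg.Statements.S0188
import Cfsg.Agent.H4.Mult

set_option autoImplicit false
open Cfsg

namespace Cfsg.Agent.S0188

/-- The irreducible complex characters of G × H are precisely the functions (g, h) ↦ φ g * ψ h with φ, ψ irreducible characters of G and H. -/
theorem result {G : Type*} [Group G] [Finite G] {H : Type*} [Group H] [Finite H] (θ : G × H → ℂ) : Cfsg.IsIrrCharacter (G × H) θ ↔ ∃ (φ : G → ℂ) (ψ : H → ℂ), Cfsg.IsIrrCharacter G φ ∧ Cfsg.IsIrrCharacter H ψ ∧ θ = fun x => φ x.1 * ψ x.2 := by
  classical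
  have := Fintype.ofFinite G
  have := Fintype.ofFinite H
  have hprodinner : ∀ (a c : G → ℂ) (b d : H → ℂ),
      classInner (fun x : G × H => a x.1 * b x.2) (fun x : G × H => c x.1 * d x.2)
        = classInner a c * classInner b d := by
    intro a c b d
    unfold classInner
    rw [Fintype.sum_prod_type, Nat.card_prod]
    push_cast
    rw [mul_inv]
    have : ∑ x : G, ∑ y : H, (a x * b y) * (starRingEnd ℂ) (c x * d y)
        = (∑ x : G, a x * (starRingEnd ℂ) (c x)) * (∑ y : H, b y * (starRingEnd ℂ) (d y)) := by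
      rw [Finset.sum_mul_sum]
      apply Finset.sum_congr rfl; intro x _
      apply Finset.sum_congr rfl; intro y _
      rw [map_mul]; ring
    rw [this]; ring
  have hprodirr : ∀ (φ : G → ℂ) (ψ : H → ℂ), IsIrrCharacter G φ → IsIrrCharacter H ψ →
      IsIrrCharacter (G × H) (fun x => φ x.1 * ψ x.2) := by
    intro φ ψ hφ hψ
    rw [Cfsg.Agent.H5.isIrrCharacter_iff_inner]
    refine ⟨?_, ?_⟩
    · have h1 := Cfsg.Agent.H4.IsChar.comp (MonoidHom.fst G H) (Cfsg.Agent.H4.IsIrr.isCharacter hφ)
      have h2 := Cfsg.Agent.H4.IsChar.comp (MonoidHom.snd G H) (Cfsg.Agent.H4.IsIrr.isCharacter hψ)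
      exact Cfsg.Agent.H4.IsChar.mul h1 h2
    · rw [hprodinner, (Cfsg.Agent.H5.isIrrCharacter_iff_inner.1 hφ).2,
        (Cfsg.Agent.H5.isIrrCharacter_iff_inner.1 hψ).2, one_mul]
  constructor
  · intro hθ
    by_contra hcon
    push Not at hcon
    -- θ is orthogonal to all products
    have horth : ∀ (φ : IrrCharacter G) (ψ : IrrCharacter H),
        classInner θ (fun x : G × H => (φ : G → ℂ) x.1 * (ψ : H → ℂ) x.2) = 0 := by
      intro φ ψ
      exact Cfsg.Agent.H5.classInner_irr_ne (χ := ⟨θ, hθ⟩)
        (ψ := ⟨_, hprodirr φ ψ φ.2 ψ.2⟩) (fun h => hcon φ ψ φ.2 ψ.2 (congrArg Subtype.val h))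
    have hcf := Cfsg.Agent.H4.IsIrr.isClassFunction hθ
    have hcf1 : ∀ h : H, IsClassFunction G (fun g => θ (g, h)) := by
      intro h g x
      have := hcf (g, h) (x, 1)
      simpa using this
    have ha : ∀ (φ : IrrCharacter G), (fun h : H => classInner (fun g => θ (g, h)) (φ : G → ℂ)) = 0 := by
      intro φ
      apply Cfsg.Agent.H5.classFun_eq_zero_of_inner
      · intro h y
        show classInner (fun g => θ (g, y * h * y⁻¹)) (φ : G → ℂ) = classInner (fun g => θ (g, h)) (φ : G → ℂ)
        congr 1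
        funext g
        have := hcf (g, h) (1, y)
        simpa using this
      · intro ψ
        rw [← horth φ ψ]
        unfold classInner
        rw [Fintype.sum_prod_type_right, Nat.card_prod]
        push_cast
        rw [mul_inv, mul_comm (Nat.card G : ℂ)⁻¹, mul_assoc]
        congr 1
        rw [Finset.mul_sum]
        apply Finset.sum_congr rfl; intro h _
        rw [mul_assoc, Finset.sum_mul]
        congr 1
        apply Finset.sum_congr rfl; intro g _
        rw [map_mul]; ring
    have hzero : θ = 0 := by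
      funext x
      have h1 := Cfsg.Agent.H5.classFun_expansion_apply (hcf1 x.2) x.1
      have h2 : θ x = (fun g => θ (g, x.2)) x.1 := rfl
      rw [h2]
      refine h1.trans ?_
      apply Finset.sum_eq_zero
      intro φ _
      have := congrFun (ha φ) x.2
      simp only [Pi.zero_apply] at this
      rw [this, zero_mul]
    have := Cfsg.Agent.H4.IsIrr.degree_ne_zero hθ
    rw [hzero] at this
    exact this rfl
  · rintro ⟨φ, ψ, hφ, hψ, rfl⟩
    exact hprodirr φ ψ hφ hψ

end Cfsg.Agent.S0188
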