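import Cfsg.Statements.S0189
import Cfsg.Agent.H4.Perm

set_option autoImplicit false
open Cfsg

namespace Cfsg.Agent.S0189

/-- If a complex character of a finite group vanishes at every non-identity element of a Sylow p-subgroup P, then |P| divides its degree. -/
theorem result {G : Type*} [Group G] [Finite G] (p : ℕ) [Fact p.Prime] (P : Sylow p G) (χ : G → ℂ) (hχ : Cfsg.IsCharacter G χ) (hvan : ∀ g : G, g ∈ P → g ≠ 1 → χ g = 0) : ∃ k : ℕ, χ 1 = (Nat.card P : ℂ) * k := by
  classical
  have := Fintype.ofFinite G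
  have := Fintype.ofFinite P
  obtain ⟨k, hk⟩ := Cfsg.Agent.H4.classInner_char_one_nat (Cfsg.Agent.H4.IsChar.restrict (P : Subgroup G) hχ)
  refine ⟨k, ?_⟩
  have h1 : ∑ g : P, χ g = χ 1 := by
    refine (Fintype.sum_eq_single (1 : P) ?_).trans rfl
    intro b hb
    exact hvan b b.2 (fun h => hb (Subtype.ext h))
  have hk' : (Nat.card P : ℂ)⁻¹ * ∑ g : P, χ g = k := by
    convert hk using 2
  rw [h1] at hk'
  rw [← hk', ← mul_assoc, mul_inv_cancel₀ (Cfsg.Agent.H4.card_ne_zero' _), one_mul]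

end Cfsg.Agent.S0189
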