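import Cfsg.Statements.S0192
import Cfsg.Agent.H4.Mult

set_option autoImplicit false
open Cfsg

namespace Cfsg.Agent.S0192

/-- Brauer's generation criterion. Let G be a finite simple group, H₁ and H₂ subgroups, and χ a non-principal irreducible character. If the multiplicity of the principal character in χ restricted to H₁ ⊓ H₂ is less than the sum of the corresponding multiplicities for H₁ and H₂, then H₁ and H₂ do not generate G. -/
theorem result {G : Type*} [Group G] [Fintype G] [IsSimpleGroup G] (H₁ H₂ : Subgroup G) [Fintype H₁] [Fintype H₂] [Fintype ↥(H₁ ⊓ H₂)] (χ : G → ℂ) (hχ : Cfsg.IsIrrCharacter G χ) (hχ1 : χ ≠ fun _ => 1) (hlt : (Cfsg.classInner (fun x : ↥(H₁ ⊓ H₂) => χ x) (fun _ => 1)).re < (Cfsg.classInner (fun x : H₁ => χ x) (fun _ => 1)).re + (Cfsg.classInner (fun x : H₂ => χ x) (fun _ => 1)).re) : H₁ ⊔ H₂ ≠ ⊤ := by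
  classical
  obtain ⟨n, ρ, hρ, rfl⟩ := hχ
  intro htop
  have hirr := (Cfsg.Agent.H4.isIrreducible_iff ρ).1 hρ
  let fix : Subgroup G → Submodule ℂ (Fin n → ℂ) := fun K =>
    { carrier := {v | ∀ h ∈ K, ρ h v = v}
      add_mem' := fun {a b} ha hb h hh => by rw [map_add, ha h hh, hb h hh]
      zero_mem' := fun h _ => map_zero _
      smul_mem' := fun c v hv h hh => by rw [map_smul, hv h hh] }
  have hdim : ∀ (K : Subgroup G) [Fintype K],
      classInner (fun x : K => ρ.character x) (fun _ => 1) = Module.finrank ℂ (fix K) := by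
    intro K _
    have hinv : Invertible (Nat.card K : ℂ) := invertibleOfNonzero (Cfsg.Agent.H4.card_ne_zero' K)
    have h1 := Representation.card_inv_mul_sum_char_eq_finrank
      (ρ.comp K.subtype : Representation ℂ K (Fin n → ℂ))
    have h2 : (Representation.invariants (ρ.comp K.subtype : Representation ℂ K (Fin n → ℂ))) = fix K := by
      ext v
      rw [Representation.mem_invariants]
      exact ⟨fun h g hg => h ⟨g, hg⟩, fun h g => h g g.2⟩
    rw [h2] at h1
    rw [← h1]
    unfold classInner
    congr 1
    apply Finset.sum_congr rfl; intro g _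
    simp; rfl
  rw [hdim, hdim, hdim] at hlt
  have hle : fix H₁ ⊔ fix H₂ ≤ fix (H₁ ⊓ H₂) := by
    apply sup_le
    · intro v hv h hh; exact hv h hh.1
    · intro v hv h hh; exact hv h hh.2
  have hint : fix H₁ ⊓ fix H₂ = ⊥ := by
    have h3 : fix H₁ ⊓ fix H₂ = fix ⊤ := by
      apply le_antisymm
      · intro v hv
        show ∀ h ∈ (⊤ : Subgroup G), ρ h v = v
        let St : Subgroup G :=
          { carrier := {g | ρ g v = v}
            mul_mem' := fun {a b} ha hb => by
              show ρ (a * b) v = v
              rw [map_mul, Module.End.mul_apply, show ρ b v = v from hb, show ρ a v = v from ha]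
            one_mem' := by show ρ 1 v = v; simp
            inv_mem' := fun {a} ha => by
              show ρ a⁻¹ v = v
              have h4 : ρ a v = v := ha
              conv_lhs => rw [← h4]
              rw [← Module.End.mul_apply, ← map_mul, inv_mul_cancel, map_one]; rfl }
        have h5 : H₁ ⊔ H₂ ≤ St := sup_le (fun g hg => hv.1 g hg) (fun g hg => hv.2 g hg)
        intro h _
        exact h5 (by rw [htop]; trivial)
      · intro v hv
        exact ⟨fun h _ => hv h trivial, fun h _ => hv h trivial⟩
    rw [h3]
    rcases hirr.2 (fix ⊤) (fun g v hv => by rw [hv g trivial]; exact hv) with h6 | h6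
    · exact h6
    · exfalso
      have htriv : ∀ g, ρ g = 1 := by
        intro g
        apply LinearMap.ext; intro v
        have : v ∈ fix ⊤ := by rw [h6]; trivial
        exact this g trivial
      have hinj := Cfsg.Agent.H4.injective_of_simple ρ hρ hχ1
      have : ∀ g : G, g = 1 := fun g => hinj (by rw [htriv g, htriv 1])
      obtain ⟨g, hg⟩ := exists_ne (1 : G)
      exact hg (this g)
  have h7 := Submodule.finrank_sup_add_finrank_inf_eq (fix H₁) (fix H₂)
  rw [hint, finrank_bot, add_zero] at h7
  have h8 := Submodule.finrank_mono hle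
  rw [h7] at h8
  have h9 : ((Module.finrank ℂ (fix H₁) + Module.finrank ℂ (fix H₂) : ℕ) : ℝ) ≤ Module.finrank ℂ (fix (H₁ ⊓ H₂)) := by
    exact_mod_cast h8
  push_cast at h9
  simp only [Complex.natCast_re] at hlt
  linarith

end Cfsg.Agent.S0192
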