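import Cfsg.Statements.S0194
import Cfsg.Agent.H4.Clifford2

set_option autoImplicit false
open scoped ComplexConjugate
open Cfsg

namespace Cfsg.Agent.S0194

/-- Let G have odd order, H be a normal subgroup and θ a non-principal irreducible character of H. Then the function induced from θ is orthogonal to its complex conjugate. -/
theorem result {G : Type*} [Group G] [Fintype G] (hodd : Odd (Nat.card G)) (H : Subgroup G) [H.Normal] (θ : H → ℂ) (hθ : Cfsg.IsIrrCharacter H θ) (hθ1 : θ ≠ fun _ => 1) : Cfsg.classInner (fun g => conj (Cfsg.indFun H θ g)) (Cfsg.indFun H θ) = 0 := by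
  classical
  have hN : H.Normal := inferInstance
  have := Fintype.ofFinite H
  have hconj : (fun g => (starRingEnd ℂ) (indFun H θ g)) = indFun H (fun h => (starRingEnd ℂ) (θ h)) := by
    funext g
    simp only [indFun, map_mul, map_inv₀, map_sum, Complex.conj_natCast]
    congr 1
    apply Finset.sum_congr rfl; intro x _
    by_cases hx : x⁻¹ * g * x ∈ H
    · rw [Cfsg.Agent.H4.extendByZero_mem H _ hx, Cfsg.Agent.H4.extendByZero_mem H _ hx]
    · rw [Cfsg.Agent.H4.extendByZero_not_mem H _ hx, Cfsg.Agent.H4.extendByZero_not_mem H _ hx, map_zero]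
  rw [hconj, Cfsg.Agent.H4.frobenius_reciprocity H _ _ (Cfsg.Agent.H4.indFun_isClassFunction H θ),
    Cfsg.Agent.H4.inner_indFun_restrict hN]
  have hodd' : Odd (Nat.card H) := Odd.of_dvd_nat hodd H.card_subgroup_dvd_card
  have hzero : ∀ x : G, classInner (fun h : H => (starRingEnd ℂ) (θ h)) (Cfsg.Agent.H4.conjBy hN x θ) = 0 := by
    intro x
    rw [Cfsg.Agent.H4.inner_irr_eq (Cfsg.Agent.H4.IsIrr.conj hθ) (Cfsg.Agent.H4.conjBy_irr hN x hθ), if_neg]
    intro heq
    -- x² fixes θ
    have hsq : Cfsg.Agent.H4.conjBy hN (x * x) θ = θ := by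
      rw [Cfsg.Agent.H4.conjBy_mul, ← heq]
      funext n
      have h1 := congrFun heq (Cfsg.Agent.H4.conjAut hN x n)
      rw [Cfsg.Agent.H4.conjBy_apply]
      have h2 := congrFun heq n
      rw [Cfsg.Agent.H4.conjBy_apply] at h2
      rw [← h2, Complex.conj_conj]
    have hpow : ∀ k : ℕ, Cfsg.Agent.H4.conjBy hN ((x * x) ^ k) θ = θ := fun k =>
      (Cfsg.Agent.H4.inertia hN θ).pow_mem (show x * x ∈ Cfsg.Agent.H4.inertia hN θ from hsq) k
    have hoddx : Odd (orderOf x) := Odd.of_dvd_nat hodd (orderOf_dvd_natCard x)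
    obtain ⟨m, hm⟩ := hoddx
    have hx : (x * x) ^ (m + 1) = x := by
      rw [← sq, ← pow_mul]
      have : 2 * (m + 1) = orderOf x + 1 := by omega
      rw [this, pow_succ, pow_orderOf_eq_one, one_mul]
    have h3 := hpow (m + 1)
    rw [hx] at h3
    rw [h3] at heq
    apply hθ1
    exact Cfsg.Agent.H4.real_eq_one_of_odd hodd' ⟨θ, hθ⟩ (fun n => Complex.conj_eq_iff_im.1 (congrFun heq n))
  rw [Finset.sum_congr rfl (fun x _ => hzero x)]
  simp

end Cfsg.Agent.S0194
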