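import Cfsg.Statements.S0196
import Cfsg.Agent.H4.Perm

set_option autoImplicit false
open Cfsg

namespace Cfsg.Agent.S0196

/-- Let A be a subgroup of a finite group G that equals the centralizer of each of its non-identity elements, and let N be its normalizer. Then the index of A in N divides |A| − 1 (N/A permutes the non-identity elements of A in orbits of full length). -/
theorem result {G : Type*} [Group G] [Finite G] (A : Subgroup G) (hA : ∀ x ∈ A, x ≠ 1 → Subgroup.centralizer ({x} : Set G) = A) : (A.subgroupOf (Subgroup.normalizer (A : Set G))).index ∣ Nat.card A - 1 := by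
  classical
  set N := Subgroup.normalizer (A : Set G) with hN
  let X := {x : A // x ≠ 1}
  have hAN : ∀ a ∈ A, a ∈ N := fun a ha => Subgroup.le_normalizer ha
  let act : MulAction N X :=
    { smul := fun n x => ⟨⟨(n : G) * (x.1 : G) * (n : G)⁻¹, (Subgroup.mem_normalizer_iff.1 n.2 _).1 x.1.2⟩, by
        intro h
        apply x.2
        have h1 : (n : G) * (x.1 : G) * (n : G)⁻¹ = 1 := congrArg Subtype.val h
        apply Subtype.ext
        have h2 : (x.1 : G) = (n : G)⁻¹ * ((n : G) * (x.1 : G) * (n : G)⁻¹) * n := by group
        rw [h2, h1]; simp⟩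
      one_smul := by
        intro x
        apply Subtype.ext; apply Subtype.ext
        show (1 : G) * (x.1 : G) * (1 : G)⁻¹ = x.1
        simp
      mul_smul := by
        intro a b x
        apply Subtype.ext; apply Subtype.ext
        show ((a * b : N) : G) * (x.1 : G) * ((a * b : N) : G)⁻¹
          = (a : G) * ((b : G) * (x.1 : G) * (b : G)⁻¹) * (a : G)⁻¹
        simp only [Subgroup.coe_mul]; group }
  have hst : ∀ x : X, (MulAction.stabilizer N x) = A.subgroupOf N := by
    intro x
    ext n
    rw [MulAction.mem_stabilizer_iff, Subgroup.mem_subgroupOf]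
    have hx1 : (x.1 : G) ≠ 1 := fun h => x.2 (Subtype.ext h)
    have h1 := hA x.1 x.1.2 hx1
    rw [← h1, Subgroup.mem_centralizer_singleton_iff]
    constructor
    · intro h
      have h2 : (n : G) * (x.1 : G) * (n : G)⁻¹ = x.1 := congrArg (fun y : X => (y.1 : G)) h
      exact mul_inv_eq_iff_eq_mul.1 h2
    · intro h
      apply Subtype.ext; apply Subtype.ext
      show (n : G) * (x.1 : G) * (n : G)⁻¹ = x.1
      exact mul_inv_eq_iff_eq_mul.2 h
  have h3 := Cfsg.Agent.H4.index_dvd_of_stabilizer_eq (G := N) (X := X) (A.subgroupOf N).index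
    (fun x => by rw [hst x])
  have h4 : Nat.card X = Nat.card A - 1 := by
    have := Fintype.ofFinite A
    rw [Nat.card_eq_fintype_card, Nat.card_eq_fintype_card]
    simp [X, Fintype.card_subtype_compl]
  rwa [h4] at h3

end Cfsg.Agent.S0196
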