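import Cfsg.Statements.S0201
import Mathlib
import Cfsg.Agent.H1.BSQ

set_option autoImplicit false
open Cfsg

namespace Cfsg.Agent.S0201

open scoped commutatorElement Pointwise


/-- Brauer–Suzuki Theorem: if a Sylow 2-subgroup of a finite group is generalized quaternion (of order at least 8) and the group has no nontrivial normal subgroup of odd order, then its centre has order 2. -/
theorem result {G : Type*} [Group G] [Finite G] (S : Sylow 2 G) (n : ℕ) (e : (S : Subgroup G) ≃* QuaternionGroup (2 ^ (n + 1))) (hO : ∀ N : Subgroup G, N.Normal → Odd (Nat.card N) → N = ⊥) : Nat.card (Subgroup.center G) = 2 := by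
  refine Cfsg.Agent.H1.card_center_quat S (m := 2 ^ (n + 1)) ?_ e ?_
  · rw [pow_succ]; have := Nat.one_le_two_pow (n := n); omega
  · exact hO _ inferInstance (Cfsg.Agent.L0.odd_card_oddCore G)

end Cfsg.Agent.S0201
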