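import Cfsg.Statements.S0203
import Mathlib
import Cfsg.Agent.H1.Klein4

set_option autoImplicit false
open Cfsg

namespace Cfsg.Agent.S0203

open scoped commutatorElement Pointwise


/-- If a Sylow 2-subgroup P of a finite group G is a Klein four-group, then G has three classes of involutions if and only if P has a normal complement in G. -/
theorem result {G : Type*} [Group G] [Finite G] (P : Sylow 2 G) (hP : IsKleinFour (P : Subgroup G)) : Nat.card {C : ConjClasses G // ∃ t : G, orderOf t = 2 ∧ ConjClasses.mk t = C} = 3 ↔ ∃ N : Subgroup G, N.Normal ∧ Subgroup.IsComplement' N (P : Subgroup G) := by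
  haveI := hP
  haveI hPc : IsMulCommutative (P : Subgroup G) := IsKleinFour.isMulCommutative
  constructor
  · intro h
    rcases Cfsg.Agent.H1.klein_classes P hP with h1 | ⟨-, hinj⟩
    · rw [h1] at h; exact absurd h (by norm_num)
    · rw [Cfsg.Agent.H1.kleinMap_injective_iff] at hinj
      have hNC : Subgroup.normalizer (P : Set G) ≤ Subgroup.centralizer (P : Set G) := by
        intro n hn
        rw [Subgroup.mem_centralizer_iff]
        intro x hx
        by_cases hx1 : x = 1
        · rw [hx1, one_mul, mul_one]
        · have h2 : n * x * n⁻¹ ∈ (P : Subgroup G) := (Subgroup.mem_normalizer_iff.mp hn x).mp hx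
          have h3 := hinj x hx _ h2 hx1 (isConj_iff.mpr ⟨n, rfl⟩)
          calc x * n = (n * x * n⁻¹) * n := by rw [← h3]
            _ = n * x := by group
      exact ⟨_, inferInstance, MonoidHom.ker_transferSylow_isComplement' P hNC⟩
  · rintro ⟨N, hN, hc⟩
    rcases Cfsg.Agent.H1.klein_classes P hP with h1 | ⟨h1, -⟩
    · exfalso
      -- classes: use injectivity
      have hinj : Function.Injective (Cfsg.Agent.H1.kleinMap P hP) := by
        rw [Cfsg.Agent.H1.kleinMap_injective_iff]
        intro x hx y hy hx1 hcon
        obtain ⟨u, hu⟩ := isConj_iff.mp hcon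
        -- G/N ≃ P abelian
        have e := hc.symm.QuotientMulEquiv
        have hcomm : ∀ a b : G ⧸ N, a * b = b * a := by
          intro a b
          apply e.injective
          rw [map_mul, map_mul]
          exact mul_comm' _ _
        have h2 : (x : G ⧸ N) = (y : G ⧸ N) := by
          rw [← hu, QuotientGroup.mk_mul, QuotientGroup.mk_mul, hcomm (u : G ⧸ N), QuotientGroup.mk_inv, mul_inv_cancel_right]
        rw [QuotientGroup.eq] at h2
        have h3 : x⁻¹ * y ∈ N ⊓ (P : Subgroup G) := ⟨h2, (P : Subgroup G).mul_mem ((P : Subgroup G).inv_mem hx) hy⟩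
        rw [hc.disjoint.eq_bot, Subgroup.mem_bot, inv_mul_eq_one] at h3
        exact h3
      have := Nat.card_congr (Equiv.ofBijective _ ⟨hinj, Cfsg.Agent.H1.kleinMap_surjective P hP⟩)
      rw [Cfsg.Agent.H1.card_klein_ne_one hP, h1] at this
      exact absurd this (by norm_num)
    · exact h1

end Cfsg.Agent.S0203
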