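import Cfsg.Statements.S0207
import Mathlib
import Cfsg.Agent.H1.Invol

set_option autoImplicit false
open Cfsg

namespace Cfsg.Agent.S0207

open scoped commutatorElement Pointwise


/-- If x, y are distinct involutions, every element of the subgroup they generate that lies outside the cyclic subgroup generated by xy is an involution. -/
theorem result {G : Type*} [Group G] [Finite G] (x y : G) (hx : orderOf x = 2) (hy : orderOf y = 2) (hxy : x ≠ y) (d : G) (hd : d ∈ Subgroup.closure ({x, y} : Set G)) (hd' : d ∉ Subgroup.zpowers (x * y)) : orderOf d = 2 := by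
  have hx1 := Cfsg.Agent.H1.inv_mul_self_of_two hx
  have hy1 := Cfsg.Agent.H1.inv_mul_self_of_two hy
  obtain ⟨k, rfl | rfl⟩ := (Cfsg.Agent.H1.mem_closure_pair_iff hx1 hy1).mp hd
  · exact absurd (Subgroup.zpow_mem_zpowers _ _) hd'
  · rw [Cfsg.Agent.H1.orderOf_eq_two_iff']
    constructor
    · intro h
      apply hd'
      rw [h]; exact Subgroup.one_mem _
    · calc (x * y) ^ k * x * ((x * y) ^ k * x) = (x * y) ^ k * (x * (x * y) ^ k) * x := by group
        _ = (x * y) ^ k * ((x * y) ^ (-k) * x) * x := by rw [Cfsg.Agent.H1.invol_mul_zpow hx1 hy1]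
        _ = (x * x) := by group
        _ = 1 := hx1

end Cfsg.Agent.S0207
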