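import Cfsg.Statements.S0210
import Mathlib
import Cfsg.Agent.H1.Invol

set_option autoImplicit false
open Cfsg

namespace Cfsg.Agent.S0210

open scoped commutatorElement Pointwise


/-- If x, y are involutions whose product has even order, no element of the subgroup generated by x and y conjugates x to y. -/
theorem result {G : Type*} [Group G] [Finite G] (x y : G) (hx : orderOf x = 2) (hy : orderOf y = 2) (heven : Even (orderOf (x * y))) (d : G) (hd : d ∈ Subgroup.closure ({x, y} : Set G)) : d * x * d⁻¹ ≠ y := by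
  have hx1 := Cfsg.Agent.H1.inv_mul_self_of_two hx
  have hy1 := Cfsg.Agent.H1.inv_mul_self_of_two hy
  intro h
  obtain ⟨k, hk⟩ := Cfsg.Agent.H1.conj_invol_of_mem_closure hx1 hy1 hd
  rw [h] at hk
  have h1 : (x * y) ^ (2 * k + 1) = 1 := by
    have h2 : y = (x * y) ^ (-1 : ℤ) * x := by
      rw [zpow_neg, zpow_one, mul_inv_rev, Cfsg.Agent.H1.inv_eq_of_two hx, Cfsg.Agent.H1.inv_eq_of_two hy, mul_assoc, hx1, mul_one]
    have h3 : (x * y) ^ (2 * k) = (x * y) ^ (-1 : ℤ) := by
      apply mul_right_cancel (b := x)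
      rw [← hk, ← h2]
    rw [zpow_add, h3, ← zpow_add]; simp
  have h4 := orderOf_dvd_iff_zpow_eq_one.mpr h1
  have h5 : (2 : ℤ) ∣ 2 * k + 1 := dvd_trans (by exact_mod_cast heven.two_dvd) h4
  omega

end Cfsg.Agent.S0210
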