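import Cfsg.Statements.S0211
import Mathlib
import Cfsg.Agent.H1.Invol

set_option autoImplicit false
open Cfsg

namespace Cfsg.Agent.S0211

open scoped commutatorElement Pointwise


/-- Let x, y be involutions with xy of even order n and z = (xy)^(n/2). Then xz is conjugate to x by an element of the subgroup generated by x, y if and only if 4 divides n. -/
theorem result {G : Type*} [Group G] [Finite G] (x y : G) (hx : orderOf x = 2) (hy : orderOf y = 2) (heven : Even (orderOf (x * y))) : (∃ d ∈ Subgroup.closure ({x, y} : Set G), d * x * d⁻¹ = x * (x * y) ^ (orderOf (x * y) / 2)) ↔ 4 ∣ orderOf (x * y) := by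
  have hx1 := Cfsg.Agent.H1.inv_mul_self_of_two hx
  have hy1 := Cfsg.Agent.H1.inv_mul_self_of_two hy
  have hpos : 0 < orderOf (x * y) := orderOf_pos _
  obtain ⟨m, hm⟩ := heven
  have hm2 : orderOf (x * y) / 2 = m := by omega
  rw [hm2]
  have hxz : x * (x * y) ^ m = (x * y) ^ (m : ℤ) * x := by
    have h1 := Cfsg.Agent.H1.invol_mul_zpow hx1 hy1 (m : ℤ)
    rw [zpow_natCast] at h1
    rw [h1]
    congr 1
    rw [zpow_neg, zpow_natCast, inv_eq_iff_mul_eq_one, ← pow_add, ← hm]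
    exact pow_orderOf_eq_one _
  rw [hxz]
  constructor
  · rintro ⟨d, hd, h⟩
    obtain ⟨k, hk⟩ := Cfsg.Agent.H1.conj_invol_of_mem_closure hx1 hy1 hd
    rw [h] at hk
    have h2 := mul_right_cancel hk
    have h3 : (x * y) ^ ((m : ℤ) - 2 * k) = 1 := by rw [zpow_sub, h2, mul_inv_cancel]
    have h4 := orderOf_dvd_iff_zpow_eq_one.mpr h3
    have h5 : (2 : ℤ) ∣ (m : ℤ) - 2 * k := dvd_trans (by rw [hm]; exact ⟨m, by push_cast; ring⟩) h4
    omega
  · intro h4
    obtain ⟨l, hl⟩ := h4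
    refine ⟨(x * y) ^ (l : ℤ), (Cfsg.Agent.H1.mem_closure_pair_iff hx1 hy1).mpr ⟨l, Or.inl rfl⟩, ?_⟩
    rw [← zpow_neg, mul_assoc, Cfsg.Agent.H1.invol_mul_zpow hx1 hy1, neg_neg, ← mul_assoc, ← zpow_add]
    congr 2
    omega

end Cfsg.Agent.S0211
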