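import Cfsg.Statements.S0212
import Mathlib
import Cfsg.Agent.H1.Invol

set_option autoImplicit false
open Cfsg

namespace Cfsg.Agent.S0212

open scoped commutatorElement Pointwise


/-- The Brauer–Fowler bound: if G is a finite simple group and t an involution of G whose centralizer has order n, then |G| ≤ (2n^2)!. -/
theorem result {G : Type*} [Group G] [Finite G] [IsSimpleGroup G] (t : G) (ht : orderOf t = 2) : Nat.card G ≤ Nat.factorial (2 * (Nat.card (Subgroup.centralizer ({t} : Set G))) ^ 2) := by
  classical
  haveI : Fintype G := Fintype.ofFinite G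
  set n := Nat.card (Subgroup.centralizer ({t} : Set G)) with hn
  have hnpos : 0 < n := Nat.card_pos
  by_cases hcen : t ∈ Subgroup.center G
  · -- then G has n = |G|
    have h1 : Subgroup.centralizer ({t} : Set G) = ⊤ := by
      rw [eq_top_iff]
      intro g _
      rw [Subgroup.mem_centralizer_singleton_iff]
      exact Subgroup.mem_center_iff.mp hcen g
    have h2 : n = Nat.card G := by rw [hn, h1, Subgroup.card_top]
    rw [← h2]
    calc n ≤ 2 * n ^ 2 := by nlinarith
      _ ≤ Nat.factorial (2 * n ^ 2) := Nat.self_le_factorial _
  · -- nontrivial real element with small class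
    have hcentriv : Subgroup.center G = ⊥ := by
      rcases (inferInstance : (Subgroup.center G).Normal).eq_bot_or_eq_top with h | h
      · exact h
      · exact absurd (h ▸ Subgroup.mem_top t) hcen
    let T : Finset G := Finset.univ.filter (fun v => IsConj t v)
    set m := T.card with hm
    have hTcard : m * n = Nat.card G := by
      have h1 : T.card = (Subgroup.centralizer ({t} : Set G)).index := by
        rw [Subgroup.index_eq_card]
        have h2 : T.card = Nat.card {v : G // IsConj t v} := by
          rw [Nat.card_eq_fintype_card, Fintype.card_subtype]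
        rw [h2]
        symm
        apply Nat.card_congr
        refine Equiv.ofBijective (fun q : G ⧸ Subgroup.centralizer ({t} : Set G) =>
          Quotient.liftOn' q (fun g => (⟨g * t * g⁻¹, isConj_iff.mpr ⟨g, rfl⟩⟩ : {v : G // IsConj t v})) ?_) ⟨?_, ?_⟩
        · intro a b hab
          rw [QuotientGroup.leftRel_apply, Subgroup.mem_centralizer_singleton_iff] at hab
          apply Subtype.ext
          show a * t * a⁻¹ = b * t * b⁻¹
          calc a * t * a⁻¹ = a * (t * (a⁻¹ * b)) * b⁻¹ := by group
            _ = a * (a⁻¹ * b * t) * b⁻¹ := by rw [hab]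
            _ = b * t * b⁻¹ := by group
        · intro a b
          induction a using Quotient.inductionOn' with | h a => ?_
          induction b using Quotient.inductionOn' with | h b => ?_
          intro hab
          have hab' : a * t * a⁻¹ = b * t * b⁻¹ := congrArg Subtype.val hab
          apply Quotient.sound'
          rw [QuotientGroup.leftRel_apply, Subgroup.mem_centralizer_singleton_iff]
          calc a⁻¹ * b * t = a⁻¹ * (b * t * b⁻¹) * b := by group
            _ = a⁻¹ * (a * t * a⁻¹) * b := by rw [hab']
            _ = t * (a⁻¹ * b) := by group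
        · rintro ⟨v, hv⟩
          obtain ⟨g, hg⟩ := isConj_iff.mp hv
          exact ⟨(g : G ⧸ Subgroup.centralizer ({t} : Set G)), Subtype.ext hg⟩
      rw [hm, h1]; exact Subgroup.index_mul_card _
    have htT : t ∈ T := by
      simp only [T, Finset.mem_filter, Finset.mem_univ, true_and]
      exact IsConj.refl t
    have hmpos : 0 < m := Finset.card_pos.mpr ⟨t, htT⟩
    have hm2 : 2 ≤ m := by
      by_contra h
      have h1 : m = 1 := by omega
      rw [hm, Finset.card_eq_one] at h1
      obtain ⟨a, ha⟩ := h1
      apply hcen
      rw [Subgroup.mem_center_iff]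
      intro g
      have h2 : t ∈ T := htT
      have h3 : g * t * g⁻¹ ∈ T := by
        simp only [T, Finset.mem_filter, Finset.mem_univ, true_and]
        exact isConj_iff.mpr ⟨g, rfl⟩
      rw [ha, Finset.mem_singleton] at h2 h3
      rw [← mul_inv_eq_iff_eq_mul, h3, h2]
    have hT2 : ∀ v ∈ T, orderOf v = 2 := by
      intro v hv
      simp only [T, Finset.mem_filter, Finset.mem_univ, true_and] at hv
      obtain ⟨g, rfl⟩ := isConj_iff.mp hv
      rw [Cfsg.Agent.H1.orderOf_conj, ht]
    -- counting
    have key : ∃ x : G, x ≠ 1 ∧ (Subgroup.centralizer ({x} : Set G)).index ≤ 2 * n ^ 2 := by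
      by_contra hno
      push Not at hno
      have hfib : (T ×ˢ T).card = ∑ x : G, ((T ×ˢ T).filter (fun p => p.1 * p.2 = x)).card := by
        exact Finset.card_eq_sum_card_fiberwise (fun p _ => Finset.mem_univ _)
      have hone : ((T ×ˢ T).filter (fun p => p.1 * p.2 = 1)).card ≤ m := by
        apply Finset.card_le_card_of_injOn (fun p => p.1)
        · intro p hp
          simp only [Finset.coe_filter, Finset.mem_product, Set.mem_setOf_eq] at hp
          exact hp.1.1
        · intro p hp q hq hpq
          simp only [Finset.coe_filter, Finset.mem_product, Set.mem_setOf_eq] at hp hq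
          have h1 : p.1 = q.1 := hpq
          apply Prod.ext h1
          have h2 := hp.2
          have h3 := hq.2
          rw [h1] at h2
          exact mul_left_cancel (h2.trans h3.symm)
      have hx : ∀ x : G, ((T ×ˢ T).filter (fun p => p.1 * p.2 = x)).card ≤ Nat.card (Subgroup.centralizer ({x} : Set G)) := by
        intro x
        rcases ((T ×ˢ T).filter (fun p => p.1 * p.2 = x)).eq_empty_or_nonempty with h | ⟨p0, hp0⟩
        · rw [h, Finset.card_empty]; exact Nat.zero_le _
        · simp only [Finset.mem_filter, Finset.mem_product] at hp0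
          have hreal : IsConj x x⁻¹ := isConj_iff.mpr ⟨p0.1, Cfsg.Agent.H1.fst_inverts (hT2 _ hp0.1.1) (hT2 _ hp0.1.2) hp0.2⟩
          rw [← Cfsg.Agent.H1.card_invert_eq hreal, Nat.card_eq_fintype_card, Fintype.card_subtype]
          apply Finset.card_le_card_of_injOn (fun p => p.1)
          · intro p hp
            simp only [Finset.coe_filter, Finset.mem_product, Set.mem_setOf_eq, Finset.mem_univ, true_and] at hp ⊢
            exact Cfsg.Agent.H1.fst_inverts (hT2 _ hp.1.1) (hT2 _ hp.1.2) hp.2
          · intro p hp q hq hpq
            simp only [Finset.coe_filter, Finset.mem_product, Set.mem_setOf_eq] at hp hq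
            have h1 : p.1 = q.1 := hpq
            apply Prod.ext h1
            have h2 := hp.2
            have h3 := hq.2
            rw [h1] at h2
            exact mul_left_cancel (h2.trans h3.symm)
      have hsum : 2 * n ^ 2 * (m * m) ≤ 2 * n ^ 2 * m + Nat.card G * (Nat.card G - 1) := by
        rw [Finset.card_product, ← hm] at hfib
        rw [hfib, ← Finset.add_sum_erase _ _ (Finset.mem_univ (1 : G)), mul_add]
        apply Nat.add_le_add
        · exact Nat.mul_le_mul_left _ hone
        · rw [Finset.mul_sum]
          have h1 : ∀ x ∈ Finset.univ.erase (1 : G), 2 * n ^ 2 * ((T ×ˢ T).filter (fun p => p.1 * p.2 = x)).card ≤ Nat.card G := by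
            intro x hx1
            have hx1' : x ≠ 1 := Finset.ne_of_mem_erase hx1
            calc 2 * n ^ 2 * _ ≤ 2 * n ^ 2 * Nat.card (Subgroup.centralizer ({x} : Set G)) := Nat.mul_le_mul_left _ (hx x)
              _ ≤ (Subgroup.centralizer ({x} : Set G)).index * Nat.card (Subgroup.centralizer ({x} : Set G)) :=
                  Nat.mul_le_mul_right _ (hno x hx1').le
              _ = Nat.card G := Subgroup.index_mul_card _
          have h2 := Finset.sum_le_card_nsmul _ _ _ h1
          rw [Finset.card_erase_of_mem (Finset.mem_univ _), Finset.card_univ, smul_eq_mul, ← Nat.card_eq_fintype_card, mul_comm (Nat.card G - 1)] at h2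
          exact h2
      rw [← hTcard] at hsum
      have h3 : m * n * (m * n - 1) ≤ m * n * (m * n) := Nat.mul_le_mul_left _ (Nat.sub_le _ _)
      have h4 : 2 * n ^ 2 * (m * m) ≤ 2 * n ^ 2 * m + m * n * (m * n) - m * n := by
        have h5 : m * n * (m * n - 1) = m * n * (m * n) - m * n := by
          rw [Nat.mul_sub, mul_one]
        have h6 : m * n ≤ m * n * (m * n) := Nat.le_mul_of_pos_right _ (Nat.mul_pos hmpos hnpos)
        omega
      have h7 : 0 < m * n := Nat.mul_pos hmpos hnpos
      have h8 : m * n * (m * n) = n ^ 2 * (m * m) := by ring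
      have h9 : 2 * n ^ 2 * (m * m) < 2 * n ^ 2 * m + n ^ 2 * (m * m) := by
        rw [← h8]
        have : 0 < 2 * n ^ 2 * m + m * n * (m * n) := by positivity
        omega
      have h10 : n ^ 2 * (m * m) < n ^ 2 * (2 * m) := by nlinarith
      have h11 : m * m < 2 * m := Nat.lt_of_mul_lt_mul_left h10
      have h12 : m < 2 := Nat.lt_of_mul_lt_mul_right h11
      omega
    obtain ⟨x, hx1, hxi⟩ := key
    set H := Subgroup.centralizer ({x} : Set G) with hH
    have hHcore : H.normalCore = ⊥ := by
      rcases (inferInstance : H.normalCore.Normal).eq_bot_or_eq_top with h | h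
      · exact h
      · exfalso
        have h1 : H = ⊤ := top_le_iff.mp (h ▸ Subgroup.normalCore_le H)
        apply hx1
        have h2 : x ∈ Subgroup.center G := by
          rw [Subgroup.mem_center_iff]
          intro g
          have : g ∈ H := h1 ▸ Subgroup.mem_top g
          exact Subgroup.mem_centralizer_singleton_iff.mp this
        rw [hcentriv] at h2
        exact Subgroup.mem_bot.mp h2
    have hinj : Function.Injective (MulAction.toPermHom G (G ⧸ H)) := by
      rw [← MonoidHom.ker_eq_bot_iff, ← Subgroup.normalCore_eq_ker, hHcore]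
    have h1 := Nat.card_le_card_of_injective _ hinj
    rw [Nat.card_perm, ← Subgroup.index_eq_card] at h1
    exact h1.trans (Nat.factorial_le hxi)

end Cfsg.Agent.S0212
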