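import Cfsg.Statements.S0215
import Mathlib
import Cfsg.Agent.H1.ZS3

set_option autoImplicit false
open Cfsg

namespace Cfsg.Agent.S0215

open scoped commutatorElement Pointwise


/-- Glauberman's Z*-Theorem: let u be an involution in a Sylow 2-subgroup P of a finite group G such that the only G-conjugate of u lying in P is u itself. Then there is a normal subgroup N of odd order such that every commutator of u with an element of G lies in N (that is, uN is central in G/N). -/
theorem result {G : Type*} [Group G] [Finite G] (P : Sylow 2 G) (u : G) (hu : orderOf u = 2) (huP : u ∈ P) (hiso : ∀ g : G, g * u * g⁻¹ ∈ P → g * u * g⁻¹ = u) : ∃ N : Subgroup G, N.Normal ∧ Odd (Nat.card N) ∧ ∀ g : G, (u * g * u⁻¹ * g⁻¹) ∈ N := by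
  haveI : Fact (Nat.Prime 2) := ⟨Nat.prime_two⟩
  refine ⟨oddCore G, inferInstance, Cfsg.Agent.L0.odd_card_oddCore G, fun g => Cfsg.Agent.H1.zstar ⟨hu, ?_⟩ g⟩
  intro g hg
  set u' := g * u * g⁻¹ with hu'
  by_contra hne
  have hu'o : orderOf u' = 2 := by rw [hu']; exact (Cfsg.Agent.H1.orderOf_conj g u).trans hu
  have hu1 : u ≠ 1 := by rintro rfl; rw [orderOf_one] at hu; omega
  have hu1' : u' ≠ 1 := by intro h; rw [h, orderOf_one] at hu'o; omega
  obtain ⟨K, hK, huK, huK', -⟩ := Cfsg.Agent.H1.exists_klein hu1 hu1' (fun h => hne h.symm) (Cfsg.Agent.H1.inv_mul_self_of_two hu)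
    (Cfsg.Agent.H1.inv_mul_self_of_two hu'o) hg.eq
  haveI := hK
  have hKp : IsPGroup 2 K := IsPGroup.of_card (n := 2) (by rw [IsKleinFour.card_four]; norm_num)
  obtain ⟨R, hR⟩ := hKp.exists_le_sylow
  obtain ⟨c, hc⟩ := MulAction.exists_smul_eq G R P
  have hmem : ∀ k ∈ K, c * k * c⁻¹ ∈ (P : Subgroup G) := by
    intro k hk
    rw [← hc]
    exact Subgroup.smul_mem_pointwise_smul _ (MulAut.conj c) _ (hR hk)
  have h1 := hiso c (hmem u huK)
  have h2 : c * u' * c⁻¹ = u := by
    have h3 := hmem u' huK'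
    have e : c * u' * c⁻¹ = (c * g) * u * (c * g)⁻¹ := by rw [hu']; group
    rw [e] at h3 ⊢
    exact hiso _ h3
  apply hne
  exact mul_left_cancel (mul_right_cancel (h2.trans h1.symm))

end Cfsg.Agent.S0215
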