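import Cfsg.Statements.S0216

-- import your own Cfsg.Agent.* helpers here

set_option autoImplicit false
open Cfsg

namespace Cfsg.Agent.S0216

/-- For an involution u in a Sylow 2-subgroup P of a finite group G, the following are equivalent: no G-conjugate of u other than u lies in P; every commutator of u with an element of G has odd order. -/
theorem result {G : Type*} [Group G] [Finite G] (P : Sylow 2 G) (u : G) (hu : orderOf u = 2) (huP : u ∈ P) : (∀ g : G, g * u * g⁻¹ ∈ P → g * u * g⁻¹ = u) ↔ (∀ g : G, Odd (orderOf (u * g * u⁻¹ * g⁻¹))) := by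
  have huu : u * u = 1 := by rw [← pow_two, ← hu, pow_orderOf_eq_one]
  have hui : u⁻¹ = u := inv_eq_of_mul_eq_one_left huu
  constructor
  · intro h g
    by_contra hcon
    rw [Nat.not_odd_iff_even] at hcon
    set v := g * u * g⁻¹ with hv
    have hvv : v * v = 1 := by
      calc v * v = g * (u * u) * g⁻¹ := by rw [hv]; group
        _ = 1 := by rw [huu]; group
    have hvi : v⁻¹ = v := inv_eq_of_mul_eq_one_left hvv
    have hc : u * g * u⁻¹ * g⁻¹ = u * v := by rw [hui, hv]; group
    rw [hc] at hcon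
    set c := u * v with hcdef
    obtain ⟨m, hm⟩ := hcon
    have hcm : c ^ (m + m) = 1 := by rw [← hm, pow_orderOf_eq_one]
    have hucu : u * c * u = c⁻¹ := by
      rw [hcdef, mul_inv_rev, hui, hvi, ← mul_assoc, huu, one_mul]
    have hvcv : v * c * v = c⁻¹ := by
      rw [hcdef, mul_inv_rev, hui, hvi]
      calc v * (u * v) * v = v * u * (v * v) := by group
        _ = v * u := by rw [hvv, mul_one]
    have conjpow : ∀ (a : G), a * a = 1 → a * c * a = c⁻¹ → ∀ k : ℕ, a * c ^ k * a = (c ^ k)⁻¹ := by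
      intro a ha hac k
      have hai : a⁻¹ = a := inv_eq_of_mul_eq_one_left ha
      have h1 : a * c ^ k * a⁻¹ = (a * c * a⁻¹) ^ k := by rw [conj_pow]
      rw [hai] at h1
      rw [h1, hac, inv_pow]
    set z := c ^ m with hz
    have hzz : z * z = 1 := by rw [hz, ← pow_add, hcm]
    have hzi : z⁻¹ = z := inv_eq_of_mul_eq_one_left hzz
    have hz1 : z ≠ 1 := by
      intro h1
      have h2 : orderOf c ∣ m := orderOf_dvd_of_pow_eq_one h1
      have h3 : 0 < orderOf c := orderOf_pos c
      have h4 := Nat.le_of_dvd (by omega) h2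
      omega
    have huz : u * z = z * u := by
      have h1 := conjpow u huu hucu m
      rw [← hz, hzi] at h1
      calc u * z = (u * z * u) * u := by rw [mul_assoc (u * z), huu, mul_one]
        _ = z * u := by rw [h1]
    obtain ⟨w, hw⟩ : ∃ w, w * u * w⁻¹ = u * z := by
      rcases Nat.even_or_odd' m with ⟨k, hk | hk⟩
      · refine ⟨c ^ k, ?_⟩
        have h1 := conjpow u huu hucu k
        have h2 : z = c ^ k * c ^ k := by rw [hz, hk, two_mul, pow_add]
        calc c ^ k * u * (c ^ k)⁻¹ = (u * u) * (c ^ k * u * (c ^ k)⁻¹) := by rw [huu, one_mul]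
          _ = u * (u * c ^ k * u) * (c ^ k)⁻¹ := by group
          _ = u * ((c ^ k)⁻¹ * (c ^ k)⁻¹) := by rw [h1]; group
          _ = u * z := by rw [← mul_inv_rev, ← h2, hzi]
      · refine ⟨(c ^ k)⁻¹ * g, ?_⟩
        have h1 := conjpow v hvv hvcv k
        have h3 : v * c ^ k = (c ^ k)⁻¹ * v := by
          rw [← h1, mul_assoc (v * c ^ k), hvv, mul_one]
        have h4 : u * z = v * (c ^ k * c ^ k) := by
          have h5 : z = c * (c ^ k * c ^ k) := by
            rw [hz, hk, ← pow_add, ← pow_succ']; congr 1; ring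
          rw [h5, ← mul_assoc, hcdef, ← mul_assoc u u, huu, one_mul]
        calc (c ^ k)⁻¹ * g * u * ((c ^ k)⁻¹ * g)⁻¹ = (c ^ k)⁻¹ * v * c ^ k := by rw [hv]; group
          _ = v * c ^ k * c ^ k := by rw [h3]
          _ = u * z := by rw [h4, mul_assoc]
    -- Sylow argument
    have h2p : ∀ y : G, y * y = 1 → IsPGroup 2 (Subgroup.zpowers y) := by
      rintro y hy ⟨x, hx⟩
      obtain ⟨i, rfl⟩ := Subgroup.mem_zpowers_iff.mp hx
      refine ⟨1, Subtype.ext ?_⟩
      change (y ^ i) ^ (2 ^ 1) = 1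
      rw [pow_one, ← zpow_natCast, ← zpow_mul, mul_comm, zpow_mul, zpow_natCast, pow_two, hy, one_zpow]
    have hn : Subgroup.zpowers z ≤ Subgroup.normalizer ((Subgroup.zpowers u : Subgroup G) : Set G) := by
      rw [Subgroup.zpowers_le]
      apply Subgroup.mem_normalizer_fintype
      intro y hy
      obtain ⟨i, rfl⟩ := Subgroup.mem_zpowers_iff.mp hy
      have h1 : z * u * z⁻¹ = u := by rw [← huz, mul_inv_cancel_right]
      have h2 : z * u ^ i * z⁻¹ = (z * u * z⁻¹) ^ i := by rw [conj_zpow]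
      rw [h2, h1]
      exact Subgroup.zpow_mem_zpowers u i
    have hQ := IsPGroup.to_sup_of_normal_right' (h2p z hzz) (h2p u huu) hn
    obtain ⟨R, hR⟩ := hQ.exists_le_sylow
    obtain ⟨x, hx⟩ := MulAction.exists_smul_eq G R P
    have huR : u ∈ (R : Subgroup G) := hR ((le_sup_right : Subgroup.zpowers u ≤ _) (Subgroup.mem_zpowers u))
    have hzR : z ∈ (R : Subgroup G) := hR ((le_sup_left : Subgroup.zpowers z ≤ _) (Subgroup.mem_zpowers z))
    have hmv : ∀ y ∈ (R : Subgroup G), x * y * x⁻¹ ∈ P := by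
      intro y hy
      rw [← hx]
      exact Subgroup.smul_mem_pointwise_smul y (MulAut.conj x) (R : Subgroup G) hy
    have h1 := h x (hmv u huR)
    have h2 := h (x * w) (by
      have h3 := hmv (u * z) ((R : Subgroup G).mul_mem huR hzR)
      rw [← hw] at h3
      have h4 : x * (w * u * w⁻¹) * x⁻¹ = x * w * u * (x * w)⁻¹ := by group
      rwa [h4] at h3)
    have h3 : x * w * u * (x * w)⁻¹ = x * (u * z) * x⁻¹ := by rw [← hw]; group
    rw [h3] at h2
    have h4 : u * z = u := by
      have h5 : x * (u * z) * x⁻¹ = x * u * x⁻¹ := by rw [h1, h2]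
      exact mul_left_cancel (mul_right_cancel h5)
    exact hz1 (mul_eq_left.mp h4)
  · intro h g hg
    have h1 := h g
    have h2 : u * g * u⁻¹ * g⁻¹ ∈ P := by
      have h3 : u * g * u⁻¹ * g⁻¹ = u * (g * u * g⁻¹) := by rw [hui]; group
      rw [h3]
      exact (P : Subgroup G).mul_mem huP hg
    obtain ⟨k, hk⟩ := P.isPGroup' ⟨_, h2⟩
    have h3 : (u * g * u⁻¹ * g⁻¹) ^ 2 ^ k = 1 := congrArg Subtype.val hk
    have h4 : orderOf (u * g * u⁻¹ * g⁻¹) ∣ 2 ^ k := orderOf_dvd_of_pow_eq_one h3
    obtain ⟨j, -, hj⟩ := (Nat.dvd_prime_pow Nat.prime_two).mp h4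
    have h5 : j = 0 := by
      by_contra hj0
      rw [hj] at h1
      rw [Nat.odd_iff] at h1
      obtain ⟨i, rfl⟩ := Nat.exists_eq_succ_of_ne_zero hj0
      rw [pow_succ] at h1
      omega
    rw [h5, pow_zero, orderOf_eq_one_iff] at hj
    have h6 : u * (g * u * g⁻¹) = 1 := by rw [← hj, hui]; group
    calc g * u * g⁻¹ = u⁻¹ := (inv_eq_of_mul_eq_one_right h6).symm
      _ = u := hui

end Cfsg.Agent.S0216
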