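import Cfsg.Statements.S0218
import Mathlib

set_option autoImplicit false
open Cfsg

namespace Cfsg.Agent.S0218

open scoped commutatorElement Pointwise


/-- The generalized quaternion group of order 2^(n+3) contains exactly one element of order 2. -/
theorem result (n : ℕ) : Nat.card {x : QuaternionGroup (2 ^ (n + 1)) // orderOf x = 2} = 1 := by
  haveI : NeZero (2 ^ (n + 1)) := ⟨by positivity⟩
  rw [Nat.card_eq_one_iff_unique]
  have key : ∀ x : QuaternionGroup (2 ^ (n + 1)), orderOf x = 2 → x = QuaternionGroup.a ((2 ^ (n + 1) : ℕ) : ZMod (2 * 2 ^ (n + 1))) := by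
    rintro (i | i) h
    · have h1 := pow_orderOf_eq_one (QuaternionGroup.a i : QuaternionGroup (2 ^ (n + 1)))
      rw [h] at h1
      have h0 : (QuaternionGroup.a i : QuaternionGroup (2 ^ (n + 1))) ≠ 1 := by
        intro h'; rw [h', orderOf_one] at h; omega
      rw [pow_two, QuaternionGroup.a_mul_a, QuaternionGroup.one_def] at h1
      have h2 : i + i = 0 := by
        injection h1
      have h3 : i ≠ 0 := by
        intro h'; apply h0; rw [h']; rfl
      congr 1
      have h4 : ((i.val + i.val : ℕ) : ZMod (2 * 2 ^ (n + 1))) = 0 := by push_cast; simpa using h2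
      rw [ZMod.natCast_eq_zero_iff] at h4
      have h5 : 2 ^ (n + 1) ∣ i.val := by
        have : 2 * 2 ^ (n + 1) ∣ 2 * i.val := by rw [two_mul i.val]; exact h4
        exact Nat.dvd_of_mul_dvd_mul_left (by norm_num) this
      obtain ⟨k, hk⟩ := h5
      have h6 := ZMod.val_lt i
      have h7 : i.val ≠ 0 := by
        intro h'; exact h3 ((ZMod.val_eq_zero i).mp h')
      have h8 : k = 1 := by
        have hp : 0 < 2 ^ (n + 1) := by positivity
        rcases k with _ | _ | k
        · simp at hk; exact absurd hk h3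
        · rfl
        · exfalso
          rw [hk] at h6
          have : 2 * 2 ^ (n + 1) ≤ 2 ^ (n + 1) * (k + 1 + 1) := by
            rw [mul_comm]; exact Nat.mul_le_mul_left _ (by omega)
          omega
      rw [h8, mul_one] at hk
      have h9 : ((i.val : ℕ) : ZMod (2 * 2 ^ (n + 1))) = i := ZMod.natCast_zmod_val i
      exact h9.symm.trans (congrArg (fun z : ℕ => (z : ZMod (2 * 2 ^ (n + 1)))) hk)
    · rw [QuaternionGroup.orderOf_xa] at h; omega
  refine ⟨⟨fun x y => Subtype.ext ((key x x.2).trans (key y y.2).symm)⟩, ?_⟩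
  refine ⟨⟨QuaternionGroup.a ((2 ^ (n + 1) : ℕ) : ZMod (2 * 2 ^ (n + 1))), ?_⟩⟩
  apply orderOf_eq_prime
  · rw [pow_two, QuaternionGroup.a_mul_a, QuaternionGroup.one_def]
    congr 1
    rw [← Nat.cast_add, ZMod.natCast_eq_zero_iff]
    exact ⟨1, by ring⟩
  · intro h
    rw [QuaternionGroup.one_def] at h
    have h1 : ((2 ^ (n + 1) : ℕ) : ZMod (2 * 2 ^ (n + 1))) = 0 := by
      injection h
    rw [ZMod.natCast_eq_zero_iff] at h1
    have := Nat.le_of_dvd (by positivity) h1
    have hp : 0 < 2 ^ (n + 1) := by positivity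
    omega

end Cfsg.Agent.S0218
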