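import Cfsg.Statements.S0219
import Mathlib
import Cfsg.Agent.H1.Transfer

set_option autoImplicit false
open Cfsg

namespace Cfsg.Agent.S0219

open scoped commutatorElement Pointwise


/-- If a finite group has even order and a cyclic Sylow 2-subgroup, then it has a subgroup of index 2 (consider the parity of permutations in the regular representation). -/
theorem result {G : Type*} [Group G] [Finite G] (heven : Even (Nat.card G)) (T : Sylow 2 G) (hT : IsCyclic (T : Subgroup G)) : ∃ H : Subgroup G, H.index = 2 := by
  have h2 : (Nat.card G).minFac = 2 := (Nat.minFac_eq_two_iff _).mpr heven.two_dvd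
  have hT' : IsCyclic T := hT
  have hc := IsCyclic.isComplement' h2 hT'
  have hN : Cfsg.HasNormalPComplement 2 G := ⟨T, _, inferInstance, hc⟩
  obtain ⟨M, -, hM, -⟩ := Cfsg.Agent.H1.exists_normal_index_of_pResidual_ne_top
    (Cfsg.Agent.H1.pResidual_ne_top_of_hasNormalPComplement hN heven.two_dvd)
  exact ⟨M, hM⟩

end Cfsg.Agent.S0219
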