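import Cfsg.Statements.S0220
import Mathlib
import Cfsg.Agent.H1.Invol
import Cfsg.Agent.S0219

set_option autoImplicit false
open Cfsg

namespace Cfsg.Agent.S0220

open scoped commutatorElement Pointwise


theorem aux {G : Type*} [Group G] [Finite G] (x : G) (hx : orderOf x = 2) (C : Subgroup G)
    (hC : C = Subgroup.centralizer ({x} : Set G)) (S : Sylow 2 C) (hS : IsCyclic (S : Subgroup C)) :
    ∃ H : Subgroup G, H.index = 2 := by
  have hxC : x ∈ C := by rw [hC]; exact Subgroup.mem_centralizer_singleton_iff.mpr rfl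
  have hxS : (⟨x, hxC⟩ : C) ∈ S := by
    -- zpowers x is normal in C
    have hn : (Subgroup.zpowers (⟨x, hxC⟩ : C)).Normal := by
      refine ⟨fun n hn g => ?_⟩
      obtain ⟨k, rfl⟩ := Subgroup.mem_zpowers_iff.mp hn
      have h1 : g * (⟨x, hxC⟩ : C) * g⁻¹ = ⟨x, hxC⟩ := by
        apply Subtype.ext
        have hg2 : (g : G) ∈ Subgroup.centralizer ({x} : Set G) := hC.le g.2
        have := Subgroup.mem_centralizer_singleton_iff.mp hg2
        show (g : G) * x * (g : G)⁻¹ = x
        rw [this]; group
      rw [← conj_zpow, h1]; exact Subgroup.zpow_mem_zpowers _ _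
    have hp : IsPGroup 2 (Subgroup.zpowers (⟨x, hxC⟩ : C)) := by
      apply IsPGroup.of_card (n := 1)
      rw [Nat.card_zpowers, Subgroup.orderOf_mk, hx, pow_one]
    exact Cfsg.Agent.L0.normal_le_sylow hp S (Subgroup.mem_zpowers _)
  set S0 := (S : Subgroup C).map C.subtype with hS0
  have hS0p : IsPGroup 2 S0 := S.isPGroup'.map _
  obtain ⟨T, hT⟩ := hS0p.exists_le_sylow
  have heq : S0 = (T : Subgroup G) := by
    by_contra hne
    have hlt : S0 < (T : Subgroup G) := lt_of_le_of_ne hT hne
    have h1 := Cfsg.Agent.H1.lt_normalizer_inf_of_lt T.isPGroup'.isNilpotent hlt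
    set K := Subgroup.normalizer (S0 : Set G) ⊓ (T : Subgroup G) with hK
    have hKC : K ≤ C := by
      intro g hg
      rw [hC, Subgroup.mem_centralizer_singleton_iff]
      have hxS0 : x ∈ S0 := ⟨⟨x, hxC⟩, hxS, rfl⟩
      have h2 : g * x * g⁻¹ ∈ S0 := (Subgroup.mem_normalizer_iff.mp hg.1 x).mp hxS0
      obtain ⟨y, hy, hyx⟩ := h2
      have hyx' : (y : G) = g * x * g⁻¹ := hyx
      have h3 : orderOf (⟨y, hy⟩ : (S : Subgroup C)) = 2 := by
        rw [Subgroup.orderOf_mk, ← Subgroup.orderOf_coe, hyx', Cfsg.Agent.H1.orderOf_conj, hx]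
      have h4 : orderOf (⟨⟨x, hxC⟩, hxS⟩ : (S : Subgroup C)) = 2 := by
        rw [Subgroup.orderOf_mk, Subgroup.orderOf_mk, hx]
      have h5 := Cfsg.Agent.H1.eq_of_orderOf_two_cyclic h3 h4
      have h6 : y = ⟨x, hxC⟩ := congrArg Subtype.val h5
      have h7 : (y : G) = x := congrArg Subtype.val h6
      rw [hyx'] at h7
      exact mul_inv_eq_iff_eq_mul.mp h7
    have hKp : IsPGroup 2 (K.subgroupOf C) := (T.isPGroup'.to_le inf_le_right).comap_of_injective _ C.subtype_injective
    have h8 : (S : Subgroup C) ≤ K.subgroupOf C := by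
      intro s hs
      exact h1.le ⟨s, hs, rfl⟩
    have h9 := S.is_maximal' hKp h8
    have h10 : K ≤ S0 := by
      intro k hk
      have : (⟨k, hKC hk⟩ : C) ∈ (S : Subgroup C) := by
        rw [← h9]; exact hk
      exact ⟨_, this, rfl⟩
    exact not_le_of_gt h1 h10
  have hTc : IsCyclic (T : Subgroup G) := by
    rw [← heq]
    exact isCyclic_of_surjective ((S : Subgroup C).equivMapOfInjective C.subtype C.subtype_injective) ((S : Subgroup C).equivMapOfInjective C.subtype C.subtype_injective).surjective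
  have heven : Even (Nat.card G) := by
    rw [even_iff_two_dvd, ← hx]; exact orderOf_dvd_natCard x
  exact Cfsg.Agent.S0219.result heven T hTc


/-- If x is an involution of a finite group G and a Sylow 2-subgroup of the centralizer of x is cyclic, then G has a subgroup of index 2; in particular G is not simple unless it has order 2. -/
theorem result {G : Type*} [Group G] [Finite G] (x : G) (hx : orderOf x = 2) (S : Sylow 2 ↥(Subgroup.centralizer ({x} : Set G))) (hS : IsCyclic (S : Subgroup ↥(Subgroup.centralizer ({x} : Set G)))) : ∃ H : Subgroup G, H.index = 2 := by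
  exact aux x hx _ rfl S hS

end Cfsg.Agent.S0220
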