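import Cfsg.Statements.S0226
import Mathlib

set_option autoImplicit false
open Cfsg

namespace Cfsg.Agent.S0226

open scoped commutatorElement Pointwise


/-- A finite group of even order has an odd number of involutions. -/
theorem result {G : Type*} [Group G] [Finite G] (heven : Even (Nat.card G)) : Odd (Nat.card {t : G // orderOf t = 2}) := by
  classical
  haveI : Fintype G := Fintype.ofFinite G
  let f : Function.End G := fun x => x⁻¹
  have hf : f ^ 2 ^ 1 = 1 := by
    funext x
    show (x⁻¹)⁻¹ = x
    exact inv_inv x
  have h1 := Equiv.Perm.card_fixedPoints_modEq hf
  have h2 : Fintype.card G % 2 = 0 := by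
    rw [← Nat.card_eq_fintype_card]; exact Nat.even_iff.mp heven
  have h3 : Fintype.card f.fixedPoints = Nat.card {x : G // x⁻¹ = x} := by
    rw [Nat.card_eq_fintype_card]; rfl
  have h4 : Nat.card {x : G // x⁻¹ = x} = Nat.card {t : G // orderOf t = 2} + 1 := by
    have e : {x : G // x⁻¹ = x} ≃ Option {t : G // orderOf t = 2} :=
      { toFun := fun x => if h : (x : G) = 1 then none else some ⟨x, by
            apply orderOf_eq_prime _ h
            rw [pow_two]
            nth_rewrite 1 [← x.2]
            exact inv_mul_cancel _⟩
        invFun := fun o => match o with
          | none => ⟨1, inv_one⟩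
          | some t => ⟨t, by
            have h5 := pow_orderOf_eq_one (t : G)
            rw [t.2] at h5
            rw [inv_eq_iff_mul_eq_one, ← pow_two]; exact h5⟩
        left_inv := by
          intro x
          by_cases h : (x : G) = 1
          · simp only [h, dif_pos]; exact Subtype.ext h.symm
          · simp only [h, dif_neg, not_false_eq_true]
        right_inv := by
          rintro (_ | t)
          · simp
          · have : (t : G) ≠ 1 := by
              intro h
              have := t.2
              rw [h, orderOf_one] at this; omega
            simp [this] }
    rw [Nat.card_congr e, Finite.card_option]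
  rw [h3, h4] at h1
  rw [Nat.odd_iff]
  unfold Nat.ModEq at h1
  omega

end Cfsg.Agent.S0226
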