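import Cfsg.Statements.S0228
import Mathlib
import Cfsg.Agent.H1.Transfer
import Cfsg.Agent.H1.Hall

set_option autoImplicit false
open Cfsg

namespace Cfsg.Agent.S0228

open scoped commutatorElement Pointwise


/-- A group of order 12 in which no involution is central is isomorphic to the alternating group on four letters. -/
theorem result {G : Type*} [Group G] [Finite G] (hG : Nat.card G = 12) (hz : ∀ z : G, orderOf z = 2 → z ∉ Subgroup.center G) : Nonempty (G ≃* alternatingGroup (Fin 4)) := by
  classical
  haveI : Fact (Nat.Prime 2) := ⟨Nat.prime_two⟩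
  haveI : Fact (Nat.Prime 3) := ⟨Nat.prime_three⟩
  obtain ⟨Q⟩ := (inferInstance : Nonempty (Sylow 3 G))
  have hfac3 : (12 : ℕ).factorization 3 = 1 := by
    rw [show (12 : ℕ) = 2 ^ 2 * 3 from rfl, Nat.factorization_mul (by norm_num) (by norm_num), Nat.factorization_pow]
    simp [Nat.prime_two.factorization, Nat.prime_three.factorization]
  have hfac2 : (12 : ℕ).factorization 2 = 2 := by
    rw [show (12 : ℕ) = 2 ^ 2 * 3 from rfl, Nat.factorization_mul (by norm_num) (by norm_num), Nat.factorization_pow]
    simp [Nat.prime_two.factorization, Nat.prime_three.factorization]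
  have hQc : Nat.card (Q : Subgroup G) = 3 := by
    have := Q.card_eq_multiplicity
    rw [hG, hfac3] at this
    exact this
  obtain ⟨T⟩ := (inferInstance : Nonempty (Sylow 2 G))
  have hTc : Nat.card (T : Subgroup G) = 4 := by
    have := T.card_eq_multiplicity
    rw [hG, hfac2] at this
    exact this
  have hTcomm : ∀ a ∈ (T : Subgroup G), ∀ b ∈ (T : Subgroup G), a * b = b * a := by
    letI := IsPGroup.commGroupOfCardEqPrimeSq (p := 2) (G := (T : Subgroup G)) hTc
    intro a ha b hb
    exact congrArg Subtype.val (mul_comm (⟨a, ha⟩ : (T : Subgroup G)) ⟨b, hb⟩)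
  have hQn : ¬ (Q : Subgroup G).Normal := by
    intro hQn
    -- T acts on Q with nontrivial kernel
    let f : (T : Subgroup G) →* MulAut (Q : Subgroup G) := (MulAut.conjNormal (H := (Q : Subgroup G))).comp (T : Subgroup G).subtype
    have hcyc : IsCyclic (Q : Subgroup G) := isCyclic_of_prime_card hQc
    have hker : f.ker ≠ ⊥ := by
      intro hk
      have hinj : Function.Injective f := (MonoidHom.ker_eq_bot_iff f).mp hk
      have h1 : Nat.card (T : Subgroup G) ≤ Nat.card (MulAut (Q : Subgroup G)) := Nat.card_le_card_of_injective f hinj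
      rw [hTc, IsCyclic.card_mulAut, hQc] at h1
      have : Nat.totient 3 = 2 := by decide
      omega
    have h2d : 2 ∣ Nat.card f.ker := by
      have h1 : Nat.card f.ker ∣ 2 ^ 2 := by
        have := Subgroup.card_subgroup_dvd_card f.ker
        rwa [hTc] at this
      obtain ⟨j, _, hj⟩ := (Nat.dvd_prime_pow Nat.prime_two).mp h1
      rw [hj]
      apply dvd_pow_self
      rintro rfl
      rw [pow_zero, Subgroup.card_eq_one] at hj
      exact hker hj
    obtain ⟨z, hz2⟩ := exists_prime_orderOf_dvd_card' 2 h2d
    have hz2' : orderOf (((z : (T : Subgroup G))) : G) = 2 := by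
      rw [Subgroup.orderOf_coe, Subgroup.orderOf_coe]; exact hz2
    apply hz _ hz2'
    have hzQ : ∀ q ∈ (Q : Subgroup G), ((z : (T : Subgroup G)) : G) * q = q * ((z : (T : Subgroup G)) : G) := by
      intro q hq
      have h1 := MonoidHom.mem_ker.mp z.2
      have h3 := congrArg (fun φ : MulAut (Q : Subgroup G) => ((φ ⟨q, hq⟩ : (Q : Subgroup G)) : G)) h1
      have h4 : ((z : (T : Subgroup G)) : G) * q * ((z : (T : Subgroup G)) : G)⁻¹ = q := by
        simpa [f] using h3
      calc ((z : (T : Subgroup G)) : G) * q = (((z : (T : Subgroup G)) : G) * q * ((z : (T : Subgroup G)) : G)⁻¹) * ((z : (T : Subgroup G)) : G) := by group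
        _ = _ := by rw [h4]
    have hsup : (Q : Subgroup G) ⊔ T = ⊤ := by
      apply Subgroup.eq_top_of_card_eq
      have hd : (Q : Subgroup G) ⊓ T = ⊥ := by
        apply disjoint_iff.mp
        apply Subgroup.disjoint_of_coprime_natCard
        rw [hQc, hTc]; norm_num
      have := Cfsg.Agent.L0.card_sup_of_normalizes (M := (Q : Subgroup G)) (A := T) (by rw [Subgroup.normalizer_eq_top]; exact le_top) hd
      rw [this, hQc, hTc, hG]
    rw [Subgroup.mem_center_iff]
    intro g
    have hg : g ∈ (Q : Subgroup G) ⊔ T := by rw [hsup]; trivial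
    obtain ⟨q, hq, t, ht, rfl⟩ := Subgroup.mem_sup_of_normal_left.mp hg
    calc q * t * ((z : (T : Subgroup G)) : G) = q * (t * ((z : (T : Subgroup G)) : G)) := by group
      _ = q * (((z : (T : Subgroup G)) : G) * t) := by rw [hTcomm t ht _ (z : (T : Subgroup G)).2]
      _ = (q * ((z : (T : Subgroup G)) : G)) * t := by group
      _ = (((z : (T : Subgroup G)) : G) * q) * t := by rw [hzQ q hq]
      _ = _ := by group
  -- number of Sylow 3-subgroups is 4
  have hn4 : Nat.card (Sylow 3 G) = 4 := by
    have h1 := card_sylow_modEq_one 3 G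
    have h2 : Nat.card (Sylow 3 G) ∣ 4 := by
      have := Q.card_dvd_index
      have h3 := (Q : Subgroup G).card_mul_index
      rw [hQc, hG] at h3
      have h4 : (Q : Subgroup G).index = 4 := by omega
      rwa [h4] at this
    have h5 : Nat.card (Sylow 3 G) ≠ 1 := by
      intro h
      apply hQn
      have : Subsingleton (Sylow 3 G) := (Nat.card_eq_one_iff_unique.mp h).1
      exact Sylow.normal_of_subsingleton Q
    have h6 : Nat.card (Sylow 3 G) ≤ 4 := Nat.le_of_dvd (by norm_num) h2
    have h7 : Nat.card (Sylow 3 G) % 3 = 1 % 3 := h1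
    interval_cases (Nat.card (Sylow 3 G)) <;> simp_all
  have hNQ : Subgroup.normalizer (Q : Set G) = Q := by
    symm
    apply Subgroup.eq_of_le_of_card_ge Subgroup.le_normalizer
    have h1 := Sylow.card_eq_index_normalizer Q
    have h2 := (Subgroup.normalizer (Q : Set G)).card_mul_index
    rw [← h1, hn4, hG] at h2
    have h3 : Nat.card (Subgroup.normalizer (Q : Set G)) = 3 := by omega
    rw [hQc]; exact h3.le
  -- action on Sylow 3-subgroups
  let e : Sylow 3 G ≃ Fin 4 := by
    have : Finite (Sylow 3 G) := inferInstance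
    exact (Finite.equivFin (Sylow 3 G)).trans (finCongr hn4)
  let φ : G →* Equiv.Perm (Fin 4) := (e.permCongrHom.toMonoidHom).comp (MulAction.toPermHom G (Sylow 3 G))
  have hφker : φ.ker = ⊥ := by
    have hk0 : φ.ker ≤ Q := by
      intro g hg
      rw [← hNQ]
      rw [← Sylow.smul_eq_iff_mem_normalizer]
      have h1 : e.permCongrHom (MulAction.toPermHom G (Sylow 3 G) g) = 1 := MonoidHom.mem_ker.mp hg
      have h2 : MulAction.toPermHom G (Sylow 3 G) g = 1 := by
        apply e.permCongrHom.injective
        rw [h1, map_one]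
      exact congrArg (fun σ : Equiv.Perm (Sylow 3 G) => σ Q) h2
    have h1 : Nat.card φ.ker ∣ 3 := by rw [← hQc]; exact Subgroup.card_dvd_of_le hk0
    rcases (Nat.dvd_prime Nat.prime_three).mp h1 with h2 | h2
    · exact Subgroup.card_eq_one.mp h2
    · exfalso
      apply hQn
      have : φ.ker = Q := Subgroup.eq_of_le_of_card_ge hk0 (by rw [h2, hQc])
      rw [← this]
      infer_instance
  have hinj : Function.Injective φ := (MonoidHom.ker_eq_bot_iff φ).mp hφker
  have hidx : φ.range.index = 2 := by
    have h1 := φ.range.card_mul_index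
    have h2 : Nat.card φ.range = 12 := by
      rw [← Nat.card_congr (MonoidHom.ofInjective hinj).toEquiv, hG]
    rw [h2] at h1
    have h3 : Nat.card (Equiv.Perm (Fin 4)) = 24 := by
      rw [Nat.card_eq_fintype_card, Fintype.card_perm]; rfl
    omega
  have hrange := Equiv.Perm.eq_alternatingGroup_of_index_eq_two hidx
  exact ⟨(MonoidHom.ofInjective hinj).trans (MulEquiv.subgroupCongr hrange)⟩

end Cfsg.Agent.S0228
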