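import Cfsg.Statements.S0229
import Mathlib
import Cfsg.Agent.H1.Invol
import Cfsg.Agent.S0208
import Cfsg.Agent.S0209
import Cfsg.Agent.S0211

set_option autoImplicit false
open Cfsg

namespace Cfsg.Agent.S0229

open scoped commutatorElement Pointwise


/-- Let t be an involution of a Sylow 2-subgroup S of a finite group G, conjugate in G to no other element of S, and let s be an involution of G not conjugate to t. Then the order of st is twice an odd number. -/
theorem result {G : Type*} [Group G] [Finite G] (S : Sylow 2 G) (t : G) (ht : orderOf t = 2) (htS : t ∈ S) (hiso : ∀ g : G, g * t * g⁻¹ ∈ S → g * t * g⁻¹ = t) (s : G) (hs : orderOf s = 2) (hns : ¬ IsConj s t) : orderOf (s * t) % 4 = 2 := by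
  have hord : orderOf (s * t) = orderOf (t * s) := by
    have : s * t = t⁻¹ * (t * s) * t := by group
    rw [this]
    have h1 := Cfsg.Agent.H1.orderOf_conj t⁻¹ (t * s)
    rwa [inv_inv] at h1
  rw [hord]
  have heven : Even (orderOf (t * s)) := by
    by_contra h
    rw [Nat.not_even_iff_odd] at h
    obtain ⟨d, -, hd⟩ := Cfsg.Agent.S0208.result t s ht hs h
    exact hns (isConj_iff.mpr ⟨d, hd⟩).symm
  by_contra hne
  have h4 : 4 ∣ orderOf (t * s) := by
    obtain ⟨m, hm⟩ := heven
    omega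
  obtain ⟨d, -, hd⟩ := (Cfsg.Agent.S0211.result t s ht hs heven).mpr h4
  obtain ⟨hz2, hzt, -⟩ := Cfsg.Agent.S0209.result t s ht hs heven
  set z := (t * s) ^ (orderOf (t * s) / 2) with hz
  -- the 2-group generated by t and z
  have hz1 := Cfsg.Agent.H1.inv_mul_self_of_two hz2
  have ht1 := Cfsg.Agent.H1.inv_mul_self_of_two ht
  have hpg : IsPGroup 2 (Subgroup.closure ({t, z} : Set G)) := by
    rintro ⟨w, hw⟩
    have hcomm : z * t = t * z := hzt.eq
    refine ⟨1, ?_⟩
    obtain ⟨k, hk⟩ := (Cfsg.Agent.H1.mem_closure_pair_iff ht1 hz1).mp hw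
    have htz : (t * z) * (t * z) = 1 := by
      calc (t * z) * (t * z) = t * (z * t) * z := by group
        _ = t * (t * z) * z := by rw [hcomm]
        _ = (t * t) * (z * z) := by group
        _ = 1 := by rw [ht1, hz1, one_mul]
    have hk2 : ∀ k : ℤ, (t * z) ^ k * (t * z) ^ k = 1 := by
      intro k
      rw [← (Commute.refl (t * z)).mul_zpow, htz, one_zpow]
    apply Subtype.ext
    show w ^ (2 ^ 1) = 1
    rw [pow_one, pow_two]
    rcases hk with rfl | rfl
    · exact hk2 k
    · have hc : Commute (t * z) t := by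
        show (t * z) * t = t * (t * z)
        rw [mul_assoc, hcomm]
      have hc' : Commute ((t * z) ^ k) t := hc.zpow_left k
      calc (t * z) ^ k * t * ((t * z) ^ k * t) = (t * z) ^ k * (t * (t * z) ^ k) * t := by group
        _ = (t * z) ^ k * ((t * z) ^ k * t) * t := by rw [hc'.eq]
        _ = ((t * z) ^ k * (t * z) ^ k) * (t * t) := by group
        _ = 1 := by rw [hk2, ht1, one_mul]
  obtain ⟨R, hR⟩ := hpg.exists_le_sylow
  obtain ⟨g, rfl⟩ := MulAction.exists_smul_eq G S R
  have e1 : g⁻¹ * t * g ∈ S := Cfsg.Agent.H1.mem_smul_sylow.mp (hR (Subgroup.subset_closure (by simp)))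
  have e2 : g⁻¹ * (t * z) * g ∈ S := Cfsg.Agent.H1.mem_smul_sylow.mp
    (hR (Subgroup.mul_mem _ (Subgroup.subset_closure (by simp)) (Subgroup.subset_closure (by simp))))
  have e3 : g⁻¹ * t * g = t := by
    have := hiso g⁻¹ (by rw [inv_inv]; exact e1)
    rwa [inv_inv] at this
  have e4 : g⁻¹ * (t * z) * g = t := by
    rw [← hd] at e2 ⊢
    have h5 : g⁻¹ * (d * t * d⁻¹) * g = (g⁻¹ * d) * t * (g⁻¹ * d)⁻¹ := by group
    rw [h5] at e2 ⊢
    exact hiso _ e2
  have e5 : g⁻¹ * t * g = g⁻¹ * (t * z) * g := by rw [e3, e4]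
  have e6 : z = 1 := by simpa using e5
  exact Cfsg.Agent.H1.ne_one_of_two hz2 e6

end Cfsg.Agent.S0229
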