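import Cfsg.Statements.S0231
import Mathlib
import Cfsg.Agent.H1.Invol
import Cfsg.Agent.S0208
import Cfsg.Agent.S0209

set_option autoImplicit false
open scoped Pointwise
open Cfsg

namespace Cfsg.Agent.S0231

open scoped commutatorElement Pointwise


/-- Let T be a Sylow 2-subgroup of the finite group G which is not normal and which intersects every other Sylow 2-subgroup trivially. Then G has a single conjugacy class of involutions. -/
theorem result {G : Type*} [Group G] [Finite G] (T : Sylow 2 G) (hnn : ¬ (T : Subgroup G).Normal) (hTI : ∀ g : G, MulAut.conj g • (T : Subgroup G) ≠ T → MulAut.conj g • (T : Subgroup G) ⊓ T = ⊥) (s t : G) (hs : orderOf s = 2) (ht : orderOf t = 2) : IsConj s t := by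
  by_contra hnc
  -- TI for arbitrary Sylow subgroups
  have hTI' : ∀ (P Q : Sylow 2 G) (z : G), z ≠ 1 → z ∈ P → z ∈ Q → P = Q := by
    intro P Q z hz hzP hzQ
    obtain ⟨a, rfl⟩ := MulAction.exists_smul_eq G T P
    obtain ⟨b, rfl⟩ := MulAction.exists_smul_eq G T Q
    rw [Cfsg.Agent.H1.mem_smul_sylow] at hzP hzQ
    by_contra hne
    have h1 : MulAut.conj (a⁻¹ * b) • (T : Subgroup G) ≠ T := by
      intro h
      apply hne
      have h2 : (a⁻¹ * b) • T = T := Sylow.ext h
      rw [← h2, smul_smul, mul_inv_cancel_left, h2]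
    have h3 := hTI _ h1
    have h4 : a⁻¹ * z * a ∈ MulAut.conj (a⁻¹ * b) • (T : Subgroup G) ⊓ T := by
      refine ⟨?_, hzP⟩
      show a⁻¹ * z * a ∈ MulAut.conj (a⁻¹ * b) • (T : Subgroup G)
      rw [Cfsg.Agent.H1.mem_conj_smul]
      have : (a⁻¹ * b)⁻¹ * (a⁻¹ * z * a) * (a⁻¹ * b) = b⁻¹ * z * b := by group
      rw [this]; exact hzQ
    rw [h3, Subgroup.mem_bot] at h4
    apply hz
    have : z = a * (a⁻¹ * z * a) * a⁻¹ := by group
    rw [this, h4]; group
  have hsyl : ∀ x : G, orderOf x = 2 → ∃ P : Sylow 2 G, x ∈ P := by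
    intro x hx
    have hp : IsPGroup 2 (Subgroup.zpowers x) := IsPGroup.of_card (n := 1) (by rw [Nat.card_zpowers, hx, pow_one])
    obtain ⟨P, hP⟩ := hp.exists_le_sylow
    exact ⟨P, hP (Subgroup.mem_zpowers x)⟩
  have hpair : ∀ (x z : G), orderOf x = 2 → orderOf z = 2 → Commute z x → ∃ P : Sylow 2 G, x ∈ P ∧ z ∈ P := by
    intro t z ht hz2 hzt
    have hz1 := Cfsg.Agent.H1.inv_mul_self_of_two hz2
    have ht1 := Cfsg.Agent.H1.inv_mul_self_of_two ht
    have hpg : IsPGroup 2 (Subgroup.closure ({t, z} : Set G)) := by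
      rintro ⟨w, hw⟩
      have hcomm : z * t = t * z := hzt.eq
      refine ⟨1, ?_⟩
      obtain ⟨k, hk⟩ := (Cfsg.Agent.H1.mem_closure_pair_iff ht1 hz1).mp hw
      have htz : (t * z) * (t * z) = 1 := by
        calc (t * z) * (t * z) = t * (z * t) * z := by group
          _ = t * (t * z) * z := by rw [hcomm]
          _ = (t * t) * (z * z) := by group
          _ = 1 := by rw [ht1, hz1, one_mul]
      have hk2 : ∀ k : ℤ, (t * z) ^ k * (t * z) ^ k = 1 := by
        intro k
        rw [← (Commute.refl (t * z)).mul_zpow, htz, one_zpow]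
      apply Subtype.ext
      show w ^ (2 ^ 1) = 1
      rw [pow_one, pow_two]
      rcases hk with rfl | rfl
      · exact hk2 k
      · have hc : Commute (t * z) t := by
          show (t * z) * t = t * (t * z)
          rw [mul_assoc, hcomm]
        have hc' : Commute ((t * z) ^ k) t := hc.zpow_left k
        calc (t * z) ^ k * t * ((t * z) ^ k * t) = (t * z) ^ k * (t * (t * z) ^ k) * t := by group
          _ = (t * z) ^ k * ((t * z) ^ k * t) * t := by rw [hc'.eq]
          _ = ((t * z) ^ k * (t * z) ^ k) * (t * t) := by group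
          _ = 1 := by rw [hk2, ht1, one_mul]
    obtain ⟨R, hR⟩ := hpg.exists_le_sylow
    exact ⟨R, hR (Subgroup.subset_closure (by simp)), hR (Subgroup.subset_closure (by simp))⟩
  -- conjugates of s and of t are in common Sylow subgroups
  have hcommon : ∀ (u v : G), IsConj s u → IsConj t v → ∀ P : Sylow 2 G, v ∈ P → u ∈ P := by
    intro u v hu hv P hvP
    have hu2 : orderOf u = 2 := by
      obtain ⟨g, rfl⟩ := isConj_iff.mp hu
      rw [Cfsg.Agent.H1.orderOf_conj, hs]
    have hv2 : orderOf v = 2 := by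
      obtain ⟨g, rfl⟩ := isConj_iff.mp hv
      rw [Cfsg.Agent.H1.orderOf_conj, ht]
    have heven : Even (orderOf (u * v)) := by
      by_contra h
      rw [Nat.not_even_iff_odd] at h
      obtain ⟨d, -, hd⟩ := Cfsg.Agent.S0208.result u v hu2 hv2 h
      exact hnc (hu.trans ((isConj_iff.mpr ⟨d, hd⟩).trans hv.symm))
    obtain ⟨h1, h2, h3⟩ := Cfsg.Agent.S0209.result u v hu2 hv2 heven
    obtain ⟨Q, hQ1, hQ2⟩ := hpair u _ hu2 h1 h2
    obtain ⟨R, hR1, hR2⟩ := hpair v _ hv2 h1 h3
    have e1 : Q = R := hTI' Q R _ (Cfsg.Agent.H1.ne_one_of_two h1) hQ2 hR2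
    have e2 : R = P := hTI' R P v (Cfsg.Agent.H1.ne_one_of_two hv2) hR1 hvP
    rw [← e2, ← e1]; exact hQ1
  -- every Sylow 2-subgroup equals P
  obtain ⟨P, hP⟩ := hsyl t ht
  have hall : ∀ Q : Sylow 2 G, Q = P := by
    intro Q
    obtain ⟨g, rfl⟩ := MulAction.exists_smul_eq G P Q
    have h1 : s ∈ P := hcommon s t (IsConj.refl s) (IsConj.refl t) P hP
    have h2 : g * t * g⁻¹ ∈ g • P := by
      rw [Cfsg.Agent.H1.mem_smul_sylow]
      have : g⁻¹ * (g * t * g⁻¹) * g = t := by group
      rw [this]; exact hP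
    have h3 : s ∈ g • P := hcommon s (g * t * g⁻¹) (IsConj.refl s) (isConj_iff.mpr ⟨g, rfl⟩) _ h2
    exact hTI' _ _ s (Cfsg.Agent.H1.ne_one_of_two hs) h3 h1
  apply hnn
  refine ⟨fun n hn g => ?_⟩
  have h4 : g • T = T := (hall _).trans (hall T).symm
  rw [← h4]
  show g * n * g⁻¹ ∈ g • T
  rw [Cfsg.Agent.H1.mem_smul_sylow]
  have : g⁻¹ * (g * n * g⁻¹) * g = n := by group
  rw [this]; exact hn

end Cfsg.Agent.S0231
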