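import Cfsg.Statements.S0238
import Mathlib
import Cfsg.Agent.H1.Invol
import Cfsg.Agent.S0236

set_option autoImplicit false
open Cfsg

namespace Cfsg.Agent.S0238

open scoped commutatorElement Pointwise


/-- For every x in a finite group G, the number c of ordered pairs (u, v) of involutions with uv = x is at most |C_G(x)|; c = 0 when x is not conjugate to x⁻¹; and c + 2 ≤ |C_G(x)| when x is an involution. -/
theorem result {G : Type*} [Group G] [Finite G] (x : G) : Nat.card {p : G × G // orderOf p.1 = 2 ∧ orderOf p.2 = 2 ∧ p.1 * p.2 = x} ≤ Nat.card (Subgroup.centralizer ({x} : Set G)) ∧ (¬ IsConj x x⁻¹ → Nat.card {p : G × G // orderOf p.1 = 2 ∧ orderOf p.2 = 2 ∧ p.1 * p.2 = x} = 0) ∧ (orderOf x = 2 → Nat.card {p : G × G // orderOf p.1 = 2 ∧ orderOf p.2 = 2 ∧ p.1 * p.2 = x} + 2 ≤ Nat.card (Subgroup.centralizer ({x} : Set G))) := by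
  classical
  refine ⟨?_, ?_, ?_⟩
  · by_cases hreal : IsConj x x⁻¹
    · rw [← Cfsg.Agent.H1.card_invert_eq hreal]
      apply Nat.card_le_card_of_injective (fun p : {p : G × G // orderOf p.1 = 2 ∧ orderOf p.2 = 2 ∧ p.1 * p.2 = x} =>
        (⟨p.1.1, Cfsg.Agent.H1.fst_inverts p.2.1 p.2.2.1 p.2.2.2⟩ : {g : G // g * x * g⁻¹ = x⁻¹}))
      rintro ⟨⟨u, v⟩, hu, hv, huv⟩ ⟨⟨u', v'⟩, hu', hv', huv'⟩ h
      have h1 : u = u' := congrArg Subtype.val h
      subst h1
      have h2 : u * v = x := huv
      have h3 : u * v' = x := huv'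
      have h4 : v = v' := by
        apply mul_left_cancel (a := u); rw [h2, h3]
      subst h4; rfl
    · have : IsEmpty {p : G × G // orderOf p.1 = 2 ∧ orderOf p.2 = 2 ∧ p.1 * p.2 = x} := by
        refine ⟨fun p => hreal ?_⟩
        exact isConj_iff.mpr ⟨p.1.1, Cfsg.Agent.H1.fst_inverts p.2.1 p.2.2.1 p.2.2.2⟩
      rw [Nat.card_of_isEmpty]; exact Nat.zero_le _
  · intro hreal
    have : IsEmpty {p : G × G // orderOf p.1 = 2 ∧ orderOf p.2 = 2 ∧ p.1 * p.2 = x} := by
      refine ⟨fun p => hreal ?_⟩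
      exact isConj_iff.mpr ⟨p.1.1, Cfsg.Agent.H1.fst_inverts p.2.1 p.2.2.1 p.2.2.2⟩
    exact Nat.card_of_isEmpty
  · intro hx
    have h1 := Cfsg.Agent.S0236.result x hx
    have h2 : Nat.card {t : G // orderOf t = 2 ∧ Commute t x} + 1 ≤ Nat.card (Subgroup.centralizer ({x} : Set G)) := by
      have h3 : Nat.card (Option {t : G // orderOf t = 2 ∧ Commute t x}) ≤ Nat.card (Subgroup.centralizer ({x} : Set G)) := by
        apply Nat.card_le_card_of_injective (fun o : Option {t : G // orderOf t = 2 ∧ Commute t x} =>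
          (match o with
            | none => 1
            | some t => ⟨t, Subgroup.mem_centralizer_singleton_iff.mpr t.2.2.eq⟩ : Subgroup.centralizer ({x} : Set G)))
        rintro (_ | t) (_ | t') h
        · rfl
        · exfalso
          have h5 : (1 : G) = t' := congrArg (fun z : Subgroup.centralizer ({x} : Set G) => (z : G)) h
          exact Cfsg.Agent.H1.ne_one_of_two t'.2.1 h5.symm
        · exfalso
          have h5 : (t : G) = 1 := congrArg (fun z : Subgroup.centralizer ({x} : Set G) => (z : G)) h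
          exact Cfsg.Agent.H1.ne_one_of_two t.2.1 h5
        · have h5 : (t : G) = t' := congrArg (fun z : Subgroup.centralizer ({x} : Set G) => (z : G)) h
          rw [Subtype.ext h5]
      rwa [Finite.card_option] at h3
    omega

end Cfsg.Agent.S0238
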