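import Cfsg.Statements.S0239
import Mathlib
import Cfsg.Agent.H1.Invol

set_option autoImplicit false
open Cfsg

namespace Cfsg.Agent.S0239

open scoped commutatorElement Pointwise


/-- If some nontrivial element x of a finite group G is conjugate to x⁻¹, then |G| is even. -/
theorem result {G : Type*} [Group G] [Finite G] (x : G) (hx : x ≠ 1) (hreal : IsConj x x⁻¹) : Even (Nat.card G) := by
  by_contra hodd
  rw [Nat.not_even_iff_odd] at hodd
  obtain ⟨g, hg⟩ := isConj_iff.mp hreal
  -- g^2 centralizes x
  have h2 : g ^ 2 * x = x * g ^ 2 := by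
    have h3 : g * x = x⁻¹ * g := by rw [← hg]; group
    have h4 : g * x⁻¹ = x * g := by
      have : g * x⁻¹ * g⁻¹ = x := by
        have := congrArg (fun z => z⁻¹) hg
        simp only [mul_inv_rev, inv_inv] at this
        rw [← mul_assoc] at this; exact this
      rw [mul_inv_eq_iff_eq_mul] at this; exact this
    calc g ^ 2 * x = g * (g * x) := by rw [pow_two]; group
      _ = (g * x⁻¹) * g := by rw [h3]; group
      _ = x * g ^ 2 := by rw [h4, pow_two]; group
  obtain ⟨m, hm⟩ := hodd
  have h5 : g = (g ^ 2) ^ (m + 1) := by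
    have h6 : g ^ (2 * m + 1) = 1 := by rw [← hm]; exact pow_card_eq_one'
    rw [← pow_mul]
    have : 2 * (m + 1) = (2 * m + 1) + 1 := by ring
    rw [this, pow_succ, h6, one_mul]
  have h7 : Commute g x := by
    rw [h5]; exact (show Commute (g ^ 2) x from h2).pow_left _
  have h8 : x⁻¹ = x := by rw [← hg, h7.eq]; group
  have h9 : orderOf x = 2 := by
    rw [Cfsg.Agent.H1.orderOf_eq_two_iff']
    exact ⟨hx, by nth_rewrite 1 [← h8]; exact inv_mul_cancel x⟩
  have h10 := orderOf_dvd_natCard x
  rw [h9, hm] at h10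
  omega

end Cfsg.Agent.S0239
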