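import Cfsg.Statements.S0240
import Mathlib
import Cfsg.Agent.H1.Invol

set_option autoImplicit false
open Cfsg

namespace Cfsg.Agent.S0240

open scoped commutatorElement Pointwise


/-- Let G be a finite group with n involutions and H a subgroup with |H|·(n+1) > |G|. Then some nontrivial h ∈ H is strongly real in G: an involution t of G satisfies t h t⁻¹ = h⁻¹. -/
theorem result {G : Type*} [Group G] [Finite G] (H : Subgroup G) (hH : Nat.card G < Nat.card H * (Nat.card {t : G // orderOf t = 2} + 1)) : ∃ h : G, h ∈ H ∧ h ≠ 1 ∧ ∃ t : G, orderOf t = 2 ∧ t * h * t⁻¹ = h⁻¹ := by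
  classical
  have h1 : Nat.card (G ⧸ H) < Nat.card (Option {t : G // orderOf t = 2}) := by
    rw [Finite.card_option]
    rw [Subgroup.card_eq_card_quotient_mul_card_subgroup H, mul_comm] at hH
    exact Nat.lt_of_mul_lt_mul_left hH
  let f : Option {t : G // orderOf t = 2} → G := fun o => match o with
    | none => 1
    | some t => t
  have hf1 : ∀ o, f o * f o = 1 := by
    rintro (_ | t)
    · exact one_mul 1
    · exact Cfsg.Agent.H1.inv_mul_self_of_two t.2
  have hf : Function.Injective f := by
    rintro (_ | t) (_ | t') h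
    · rfl
    · exact absurd (show (t' : G) = 1 from h.symm) (Cfsg.Agent.H1.ne_one_of_two t'.2)
    · exact absurd (show (t : G) = 1 from h) (Cfsg.Agent.H1.ne_one_of_two t.2)
    · rw [Subtype.ext (show (t : G) = t' from h)]
  have h2 : ¬ Function.Injective (fun o => ((f o : G) : G ⧸ H)) := by
    intro h
    exact absurd (Nat.card_le_card_of_injective _ h) (not_le_of_gt h1)
  obtain ⟨o, o', hoo, hne⟩ := Function.not_injective_iff.mp h2
  have h3 : (f o)⁻¹ * f o' ∈ H := QuotientGroup.eq.mp hoo
  have hu : (f o)⁻¹ = f o := inv_eq_of_mul_eq_one_right (hf1 o)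
  have hv : (f o')⁻¹ = f o' := inv_eq_of_mul_eq_one_right (hf1 o')
  have hord : ∀ o, f o ≠ 1 → orderOf (f o) = 2 := by
    rintro (_ | t) h
    · exact absurd rfl h
    · exact t.2
  refine ⟨(f o)⁻¹ * f o', h3, ?_, ?_⟩
  · intro h
    rw [inv_mul_eq_one] at h
    exact hne (hf h)
  · by_cases ho : f o = 1
    · have ho' : f o' ≠ 1 := by
        intro h; exact hne (hf (ho.trans h.symm))
      refine ⟨f o', hord o' ho', ?_⟩
      rw [ho, inv_one, one_mul, mul_inv_cancel_right, hv]
    · refine ⟨f o, hord o ho, ?_⟩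
      rw [mul_inv_rev, inv_inv, mul_inv_cancel_left, hv, hu]

end Cfsg.Agent.S0240
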