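import Cfsg.Statements.S0241
import Mathlib
import Cfsg.Agent.H1.Invol

set_option autoImplicit false
open Cfsg

namespace Cfsg.Agent.S0241

open scoped commutatorElement Pointwise


/-- If x ≠ 1 is conjugate to x⁻¹ in a finite group G and |C_G(x)| is odd, then some involution t satisfies t x t⁻¹ = x⁻¹. -/
theorem result {G : Type*} [Group G] [Finite G] (x : G) (hx : x ≠ 1) (hreal : IsConj x x⁻¹) (hodd : Odd (Nat.card (Subgroup.centralizer ({x} : Set G)))) : ∃ t : G, orderOf t = 2 ∧ t * x * t⁻¹ = x⁻¹ := by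
  obtain ⟨g, hg⟩ := isConj_iff.mp hreal
  -- powers of g
  have hxx : ¬ x * x = 1 := by
    intro h
    have hx2 : orderOf x = 2 := Cfsg.Agent.H1.orderOf_eq_two_iff'.mpr ⟨hx, h⟩
    have h1 : x ∈ Subgroup.centralizer ({x} : Set G) := Subgroup.mem_centralizer_singleton_iff.mpr rfl
    have h2 := Subgroup.orderOf_dvd_natCard _ h1
    rw [hx2] at h2
    exact (Nat.not_even_iff_odd.mpr hodd) (even_iff_two_dvd.mpr h2)
  have hodd' : ∀ k : ℕ, g ^ (2 * k + 1) * x * (g ^ (2 * k + 1))⁻¹ = x⁻¹ ∧ Commute (g ^ (2 * k)) x := by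
    have h4 : g * x⁻¹ = x * g := by
      have : g * x⁻¹ * g⁻¹ = x := by
        have := congrArg (fun z => z⁻¹) hg
        simp only [mul_inv_rev, inv_inv] at this
        rw [← mul_assoc] at this; exact this
      rw [mul_inv_eq_iff_eq_mul] at this; exact this
    have h3 : g * x = x⁻¹ * g := by rw [← hg]; group
    have h2 : Commute (g ^ 2) x := by
      show g ^ 2 * x = x * g ^ 2
      calc g ^ 2 * x = g * (g * x) := by rw [pow_two]; group
        _ = (g * x⁻¹) * g := by rw [h3]; group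
        _ = x * g ^ 2 := by rw [h4, pow_two]; group
    intro k
    have h5 : Commute (g ^ (2 * k)) x := by rw [pow_mul]; exact h2.pow_left k
    refine ⟨?_, h5⟩
    calc g ^ (2 * k + 1) * x * (g ^ (2 * k + 1))⁻¹ = g * (g ^ (2 * k) * x) * (g ^ (2 * k))⁻¹ * g⁻¹ := by
          rw [pow_succ']; group
      _ = g * x * g⁻¹ := by rw [h5.eq]; group
      _ = x⁻¹ := hg
  -- odd part
  obtain ⟨a, m, hm, hgm⟩ := Nat.exists_eq_two_pow_mul_odd (orderOf_pos g).ne'
  obtain ⟨k, hk⟩ := hm
  set t := g ^ m with ht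
  have ht1 : t * x * t⁻¹ = x⁻¹ := by rw [ht, hk]; exact (hodd' k).1
  have htord : orderOf t ∣ 2 ^ a := by
    apply orderOf_dvd_of_pow_eq_one
    rw [ht, ← pow_mul, mul_comm, ← hgm]; exact pow_orderOf_eq_one g
  have ht2 : t * t ∈ Subgroup.centralizer ({x} : Set G) := by
    rw [Subgroup.mem_centralizer_singleton_iff]
    have : Commute (g ^ (2 * m)) x := (hodd' m).2
    rw [two_mul, pow_add] at this
    exact this
  have ht3 : t * t = 1 := by
    have h6 := Subgroup.orderOf_dvd_natCard _ ht2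
    have h7 : orderOf (t * t) ∣ 2 ^ a := by
      have : orderOf (t * t) ∣ orderOf t := by rw [← pow_two]; exact orderOf_pow_dvd 2
      exact this.trans htord
    have h8 : Nat.Coprime (2 ^ a) (Nat.card (Subgroup.centralizer ({x} : Set G))) := by
      apply Nat.Coprime.pow_left
      exact (Nat.coprime_two_left).mpr hodd
    exact orderOf_eq_one_iff.mp (Nat.eq_one_of_dvd_coprimes h8 h7 h6)
  refine ⟨t, Cfsg.Agent.H1.orderOf_eq_two_iff'.mpr ⟨?_, ht3⟩, ht1⟩
  intro h
  rw [h] at ht1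
  apply hxx
  have : x = x⁻¹ := by simpa using ht1
  nth_rewrite 1 [this]; exact inv_mul_cancel x

end Cfsg.Agent.S0241
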