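import Cfsg.Statements.S0244
import Cfsg.Agent.H7.SympBridge

set_option autoImplicit false
open Cfsg
open Cfsg.Agent.H7.Tv Module Matrix

namespace Cfsg.Agent.S0244

/-- Sp_2 = SL_2: a matrix on Fin 1 ⊕ Fin 1 lies in Mathlib's symplectic group iff its determinant is 1. -/
theorem result {R : Type*} [CommRing R] (A : Matrix (Fin 1 ⊕ Fin 1) (Fin 1 ⊕ Fin 1) R) : A ∈ Matrix.symplecticGroup (Fin 1) R ↔ A.det = 1 := by
  rw [mem_symplectic_iff]
  have key : ∀ u v, sympForm 1 R (A *ᵥ u) (A *ᵥ v) = A.det * sympForm 1 R u v := by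
    intro u v
    have hsf : ∀ u v : Fin 1 ⊕ Fin 1 → R, sympForm 1 R u v = u (.inr 0) * v (.inl 0) - u (.inl 0) * v (.inr 0) := by
      intro u v
      have hJ : Matrix.J (Fin 1) R *ᵥ v = Sum.elim (fun i => - v (.inr i)) (fun i => v (.inl i)) := by
        have : v = Sum.elim (fun i => v (.inl i)) (fun i => v (.inr i)) := by
          funext j; cases j <;> rfl
        conv_lhs => rw [this]
        rw [Matrix.J, Matrix.fromBlocks_mulVec]
        simp [Matrix.neg_mulVec]
        rfl
      rw [sympForm, hJ, dotProduct, Fintype.sum_sum_type]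
      simp
      ring
    have hdet : A.det = A (.inl 0) (.inl 0) * A (.inr 0) (.inr 0) - A (.inl 0) (.inr 0) * A (.inr 0) (.inl 0) := by
      let e : Fin 1 ⊕ Fin 1 ≃ Fin 2 := finSumFinEquiv
      rw [← Matrix.det_reindex_self e, Matrix.det_fin_two]
      rfl
    rw [hsf, hsf, hdet]
    simp only [Matrix.mulVec, dotProduct, Fintype.sum_sum_type, Finset.univ_unique, Fin.default_eq_zero,
      Finset.sum_singleton]
    ring
  constructor
  · intro h
    have h1 := h (Pi.single (.inr 0) 1) (Pi.single (.inl 0) 1)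
    rw [key] at h1
    have h2 : sympForm 1 R (Pi.single (.inr 0) 1) (Pi.single (.inl 0) 1) = 1 := by
      rw [sympForm]
      simp [Matrix.J, Matrix.fromBlocks]
    rwa [h2, mul_one] at h1
  · intro h u v
    rw [key, h, one_mul]

end Cfsg.Agent.S0244
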