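import Cfsg.Statements.S0245
import Cfsg.Agent.H7.SympBridge
import Cfsg.Agent.H7.Orders

set_option autoImplicit false
open Cfsg
open Cfsg.Agent.H7.Tv Cfsg.Agent.H7.Witt Module Matrix

namespace Cfsg.Agent.S0245

/-- Order of the finite symplectic group: |Sp_{2m}(q)| = q^(m^2) * prod_{i=1}^{m} (q^(2i) - 1). -/
theorem result {F : Type*} [Field F] [Fintype F] {q : ℕ} (hF : Fintype.card F = q) (m : ℕ) : Nat.card (Matrix.symplecticGroup (Fin m) F) = q ^ (m ^ 2) * ∏ i ∈ Finset.range m, (q ^ (2 * (i + 1)) - 1) := by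
  have h0 : Nat.card (Matrix.symplecticGroup (Fin m) F) =
      Nat.card (isoGrp (F := F) (fun u v => sf m F u v) (fun _ : (Fin m ⊕ Fin m → F) => (0 : F))) := by
    rw [Nat.card_congr (spEquiv m F).toEquiv]
    refine Nat.card_congr
      { toFun := fun g => ⟨linE g.1, fun u v => g.2 u v, fun u => rfl⟩
        invFun := fun e => ⟨ofE e.1, ?_⟩
        left_inv := ?_
        right_inv := ?_ }
    · rw [mem_spGL_iff]
      intro u v
      rw [ap_ofE, ap_ofE]
      exact e.2.1 u v
    · intro g
      apply Subtype.ext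
      apply ap_ext
      intro v
      rw [ap_ofE, linE_apply]
    · intro e
      apply Subtype.ext
      apply LinearEquiv.ext
      intro v
      rw [linE_apply, ap_ofE]
  have hAlt := sf_alt (F := F) m
  rw [h0, card_symp m (sf m F) hAlt.1 hAlt.2 (by simp; ring)]
  rw [Finset.prod_mul_distrib, mul_comm, Nat.card_eq_fintype_card, hF]
  congr 1
  clear h0 hAlt hF
  rw [Finset.prod_pow_eq_pow_sum]
  congr 1
  induction m with
  | zero => simp
  | succ m ih => rw [Finset.sum_range_succ, ih]; ring

end Cfsg.Agent.S0245
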