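import Cfsg.Statements.S0247
import Cfsg.Agent.H7.PermMod
import Cfsg.Agent.S0245

set_option autoImplicit false
open Cfsg
open Cfsg.Agent.H7.PermMod

namespace Cfsg.Agent.S0247

/-- Sp_4(2) is isomorphic to the symmetric group S_6. -/
theorem result {F : Type*} [Field F] [Fintype F] (hF : Fintype.card F = 2) : Nonempty (Matrix.symplecticGroup (Fin 2) F ≃* Equiv.Perm (Fin 6)) := by
  have h2 : (2 : F) = 0 := by
    have h4 : ((Fintype.card F : ℕ) : F) = 0 := Nat.cast_card_eq_zero F
    rw [hF] at h4
    exact_mod_cast h4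
  obtain ⟨f, hf⟩ := exists_emb (F := F) h2 2 le_rfl
  have hc := S0245.result hF 2
  have hbij : Function.Bijective f := by
    haveI : Finite (Matrix.symplecticGroup (Fin 2) F) := inferInstance
    haveI := Fintype.ofFinite (Matrix.symplecticGroup (Fin 2) F)
    rw [Fintype.bijective_iff_injective_and_card]
    refine ⟨hf, ?_⟩
    rw [← Nat.card_eq_fintype_card, ← Nat.card_eq_fintype_card, hc, Nat.card_perm, Nat.card_eq_fintype_card, Fintype.card_fin]
    decide
  exact ⟨(MulEquiv.ofBijective f hbij).symm⟩

end Cfsg.Agent.S0247
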