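import Cfsg.Statements.S0250
import Cfsg.Agent.H7.PSLSmall

set_option autoImplicit false
open Cfsg
open Cfsg.Agent.H7.Tv Module Matrix

namespace Cfsg.Agent.S0250

/-- SL_2(2) is isomorphic to S_3. -/
theorem result {F : Type*} [Field F] [Fintype F] (hF : Fintype.card F = 2) : Nonempty (Matrix.SpecialLinearGroup (Fin 2) F ≃* Equiv.Perm (Fin 3)) := by
  classical
  obtain ⟨φ, hφ⟩ := exists_inj_perm hF
  have hc : Subgroup.center (Matrix.SpecialLinearGroup (Fin 2) F) = ⊥ := by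
    rw [← Subgroup.card_eq_one, card_sl_center hF 2 (by omega)]
    rfl
  have hinj : Function.Injective (φ.comp (QuotientGroup.mk' (Subgroup.center (Matrix.SpecialLinearGroup (Fin 2) F)))) := by
    refine hφ.comp ?_
    rw [← MonoidHom.ker_eq_bot_iff, QuotientGroup.ker_mk']
    exact hc
  have h2 := card_gl_eq_mul (F := F) 2 (by omega)
  rw [Matrix.card_GL_field, hF, Fin.prod_univ_two] at h2
  have h3 : Nat.card (Matrix.SpecialLinearGroup (Fin 2) F) = 6 := by
    rw [show (2 ^ 2 - 2 ^ ((0 : Fin 2) : ℕ)) * (2 ^ 2 - 2 ^ ((1 : Fin 2) : ℕ)) = 6 from rfl] at h2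
    omega
  refine ⟨MulEquiv.ofBijective (φ.comp (QuotientGroup.mk' (Subgroup.center (Matrix.SpecialLinearGroup (Fin 2) F)))) ?_⟩
  refine (Nat.bijective_iff_injective_and_card _).2 ⟨hinj, ?_⟩
  rw [h3, Nat.card_perm, Nat.card_eq_fintype_card, Fintype.card_fin]
  rfl

end Cfsg.Agent.S0250
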