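import Cfsg.Statements.S0252
import Cfsg.Agent.H7.PSLSmall

set_option autoImplicit false
open Cfsg
open Cfsg.Agent.H7.Tv Module Matrix

namespace Cfsg.Agent.S0252

/-- PSL_2(4) is isomorphic to A_5. -/
theorem result {F : Type*} [Field F] [Fintype F] (hF : Fintype.card F = 4) : Nonempty (Matrix.ProjectiveSpecialLinearGroup (Fin 2) F ≃* alternatingGroup (Fin 5)) := by
  obtain ⟨φ, hφ⟩ := exists_inj_perm hF
  refine equiv_alt_of_inj φ hφ ?_
  have := card_psl_two hF
  norm_num [Nat.factorial] at this ⊢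
  omega

end Cfsg.Agent.S0252
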