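import Cfsg.Statements.S0253
import Cfsg.Agent.H7.PSLSmall

set_option autoImplicit false
open Cfsg
open Cfsg.Agent.H7.Tv Module Matrix

namespace Cfsg.Agent.S0253

/-- PSL_2(5) is isomorphic to A_5. -/
theorem result {F : Type*} [Field F] [Fintype F] (hF : Fintype.card F = 5) : Nonempty (Matrix.ProjectiveSpecialLinearGroup (Fin 2) F ≃* alternatingGroup (Fin 5)) := by
  classical
  obtain ⟨φ, hφ⟩ := exists_inj_perm hF
  have hcard : Nat.card (Matrix.ProjectiveSpecialLinearGroup (Fin 2) F) = 60 := by
    have h := card_psl_two hF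
    rw [show Nat.gcd 2 (5 - 1) = 2 from rfl, show (5 ^ 2 - 1) * (5 ^ 2 - 5) = 480 from rfl] at h
    omega
  haveI hs : IsSimpleGroup (Matrix.ProjectiveSpecialLinearGroup (Fin 2) F) :=
    Matrix.ProjectiveSpecialLinearGroup.rank_two_simple (by rw [Nat.card_eq_fintype_card, hF]; norm_num)
  set G := Matrix.ProjectiveSpecialLinearGroup (Fin 2) F with hG
  -- the image is in the alternating group
  have hsign : ∀ g, φ g ∈ alternatingGroup (Fin 6) := by
    intro g
    have h1 : ((Equiv.Perm.sign (α := Fin 6)).comp φ).ker = ⊤ := by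
      rcases hs.eq_bot_or_eq_top_of_normal ((Equiv.Perm.sign (α := Fin 6)).comp φ).ker inferInstance with h | h
      · exfalso
        rw [MonoidHom.ker_eq_bot_iff] at h
        have h2 := Nat.card_le_card_of_injective _ h
        rw [hcard, Nat.card_eq_fintype_card, Fintype.card_units_int] at h2
        omega
      · exact h
    have h2 : g ∈ ((Equiv.Perm.sign (α := Fin 6)).comp φ).ker := by rw [h1]; trivial
    exact Equiv.Perm.mem_alternatingGroup.2 h2
  let A := alternatingGroup (Fin 6)
  let ψ : G →* A := φ.codRestrict A hsign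
  have hψ : Function.Injective ψ := fun a b h => hφ (congrArg Subtype.val h)
  let K : Subgroup A := ψ.range
  have hK : Nat.card K = 60 := by rw [← hcard]; exact (Nat.card_congr (Equiv.ofInjective ψ hψ)).symm
  have hA : Nat.card A = 360 := by
    have := nat_card_alternatingGroup (α := Fin 6)
    rw [this, Nat.card_eq_fintype_card, Fintype.card_fin]
    rfl
  have hidx : K.index = 6 := by
    have := Subgroup.card_mul_index K
    rw [hK, hA] at this
    omega
  -- the action on the cosets is faithful
  haveI : IsSimpleGroup A := alternatingGroup.isSimpleGroup (by simp)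
  have hker : (MulAction.toPermHom A (A ⧸ K)).ker = ⊥ := by
    rcases (inferInstance : IsSimpleGroup A).eq_bot_or_eq_top_of_normal (MulAction.toPermHom A (A ⧸ K)).ker inferInstance with h | h
    · exact h
    · exfalso
      have h1 : K = ⊤ := by
        rw [eq_top_iff]
        intro a _
        have h2 : a ∈ (MulAction.toPermHom A (A ⧸ K)).ker := by rw [h]; trivial
        have h3 : (MulAction.toPermHom A (A ⧸ K)) a ((1 : A) : A ⧸ K) = ((1 : A) : A ⧸ K) := by
          rw [MonoidHom.mem_ker.1 h2]
          rfl
        have h4 : ((a * 1 : A) : A ⧸ K) = ((1 : A) : A ⧸ K) := h3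
        rw [QuotientGroup.eq, mul_one, mul_one] at h4
        exact K.inv_mem_iff.1 h4
      rw [h1, Subgroup.index_top] at hidx
      omega
  -- `G` acts on the five other cosets
  let x0 : A ⧸ K := ((1 : A) : A ⧸ K)
  have hfix : ∀ g : G, (ψ g) • x0 = x0 := by
    intro g
    change ((ψ g * 1 : A) : A ⧸ K) = ((1 : A) : A ⧸ K)
    rw [QuotientGroup.eq, mul_one, mul_one]
    exact K.inv_mem ⟨g, rfl⟩
  let Y := {x : A ⧸ K // x ≠ x0}
  let act : G →* Equiv.Perm Y :=
    { toFun := fun g => (MulAction.toPerm (ψ g) : Equiv.Perm (A ⧸ K)).subtypePerm (fun x => by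
        change ψ g • x ≠ x0 ↔ _
        rw [not_iff_not]
        constructor
        · intro h
          rw [← hfix g] at h
          exact MulAction.injective (ψ g) h
        · rintro rfl
          exact hfix g)
      map_one' := by
        ext x
        change ((ψ 1) • (x : A ⧸ K)) = x
        rw [map_one, one_smul]
      map_mul' := fun a b => by
        ext x
        change ((ψ (a * b)) • (x : A ⧸ K)) = (ψ a) • (ψ b) • (x : A ⧸ K)
        rw [map_mul, mul_smul] }
  have hact : Function.Injective act := by
    rw [injective_iff_map_eq_one]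
    intro g hg
    have h1 : ψ g ∈ (MulAction.toPermHom A (A ⧸ K)).ker := by
      rw [MonoidHom.mem_ker]
      ext x
      by_cases hx : x = x0
      · rw [hx]
        exact hfix g
      · have h2 := congrArg (fun f : Equiv.Perm Y => (f ⟨x, hx⟩ : A ⧸ K)) hg
        exact h2
    rw [hker, Subgroup.mem_bot] at h1
    exact hψ (by rw [h1, map_one])
  haveI : Finite (A ⧸ K) := inferInstance
  have hY : Nat.card Y = 5 := by
    have h1 : Nat.card (A ⧸ K) = 6 := hidx
    have h2 : Nat.card Y + 1 = Nat.card (A ⧸ K) := by
      haveI := Fintype.ofFinite (A ⧸ K)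
      rw [Nat.card_eq_fintype_card, Nat.card_eq_fintype_card]
      change Fintype.card {x : A ⧸ K // ¬ (x = x0)} + 1 = _
      rw [Fintype.card_subtype_compl, Fintype.card_subtype_eq]
      have : 0 < Fintype.card (A ⧸ K) := Fintype.card_pos
      omega
    omega
  let e : Y ≃ Fin 5 := Finite.equivFinOfCardEq hY
  refine equiv_alt_of_inj ((e.permCongrHom.toMonoidHom).comp act) (e.permCongrHom.injective.comp hact) ?_
  rw [hcard]
  rfl

end Cfsg.Agent.S0253
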