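import Cfsg.Statements.S0300
import Cfsg.Agent.H7.QuadExt
import Cfsg.Agent.S0242

set_option autoImplicit false
open Cfsg
open Matrix Cfsg.Agent.H7.IsoCl Cfsg.Agent.H7.Orth Cfsg.Agent.H7.Rho Cfsg.Agent.H7.SL2 Cfsg.Agent.H7.QuadExt

namespace Cfsg.Agent.S0300

variable {F K : Type*} [Field F] [Field K] {f : F →+* K} {σ : K →+* K} {θ : K}

/-- Hermitian matrices -/
def E (f : F →+* K) (σ : K →+* K) (θ : K) (w : (Fin 1 ⊕ Fin 1) ⊕ Fin 2 → F) : Matrix (Fin 2) (Fin 2) K :=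
  !![f (w (.inl (.inl 0))), f (w (.inr 0)) + f (w (.inr 1)) * θ; f (w (.inr 0)) + f (w (.inr 1)) * σ θ, -f (w (.inl (.inr 0)))]

theorem E_add (v w : (Fin 1 ⊕ Fin 1) ⊕ Fin 2 → F) : E f σ θ (v + w) = E f σ θ v + E f σ θ w := by
  ext i j
  fin_cases i <;> fin_cases j <;> simp [E] <;> ring

theorem E_smul (c : F) (w : (Fin 1 ⊕ Fin 1) ⊕ Fin 2 → F) : E f σ θ (c • w) = f c • E f σ θ w := by
  ext i j
  fin_cases i <;> fin_cases j <;> simp [E] <;> ring

theorem E_q {a b : F} (h1 : θ + σ θ = f a) (h2 : θ * σ θ = f b) (w : (Fin 1 ⊕ Fin 1) ⊕ Fin 2 → F) :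
    - (E f σ θ w).det = f (quadFormMinus 1 F a b w) := by
  simp only [quadFormMinus, E, Matrix.det_fin_two_of, Finset.univ_unique, Fin.default_eq_zero, Fin.isValue, Finset.sum_singleton, map_add, map_mul, map_pow]
  rw [← h1, ← h2]
  ring

theorem decomp (hσσ : ∀ x, σ (σ x) = x) (hfix : ∀ x, σ x = x → ∃ y, f y = x) (hne : σ θ ≠ θ) (z : K) : ∃ z₁ z₂, z = f z₁ + f z₂ * θ := by
  have h0 : θ - σ θ ≠ 0 := sub_ne_zero.2 hne.symm
  obtain ⟨z₂, hz₂⟩ := hfix ((z - σ z) / (θ - σ θ)) (by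
    rw [map_div₀, map_sub, map_sub, hσσ, hσσ, ← neg_sub z, ← neg_sub θ, neg_div_neg_eq])
  have hf : σ (f z₂) = f z₂ := by
    rw [hz₂, map_div₀, map_sub, map_sub, hσσ, hσσ, ← neg_sub z, ← neg_sub θ, neg_div_neg_eq]
  have hz : z - σ z = f z₂ * (θ - σ θ) := by rw [hz₂, div_mul_cancel₀ _ h0]
  obtain ⟨z₁, hz₁⟩ := hfix (z - f z₂ * θ) (by
    rw [map_sub, map_mul, hf]
    linear_combination -hz)
  exact ⟨z₁, z₂, by rw [hz₁]; ring⟩

theorem E_herm (hσσ : ∀ x, σ (σ x) = x) (hσf : ∀ y, σ (f y) = f y) (w : (Fin 1 ⊕ Fin 1) ⊕ Fin 2 → F) :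
    ((E f σ θ w).map σ)ᵀ = E f σ θ w := by
  ext i j
  fin_cases i <;> fin_cases j <;> simp [E, hσσ, hσf]

theorem exists_E (hσσ : ∀ x, σ (σ x) = x) (hσf : ∀ y, σ (f y) = f y) (hfix : ∀ x, σ x = x → ∃ y, f y = x) (hne : σ θ ≠ θ)
    {H : Matrix (Fin 2) (Fin 2) K} (hH : (H.map σ)ᵀ = H) : ∃ w, E f σ θ w = H := by
  have h : ∀ i j, σ (H j i) = H i j := fun i j => congrFun (congrFun hH i) j
  obtain ⟨x, hx⟩ := hfix _ (h 0 0)
  obtain ⟨y, hy⟩ := hfix _ (h 1 1)
  obtain ⟨z₁, z₂, hz⟩ := decomp (θ := θ) hσσ hfix hne (H 0 1)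
  refine ⟨Sum.elim (Sum.elim (fun _ => x) (fun _ => -y)) ![z₁, z₂], ?_⟩
  ext i j
  fin_cases i <;> fin_cases j
  · simp [E, hx]
  · simp [E, hz]
  · change _ = H 1 0
    rw [← h 1 0, hz, map_add, map_mul, hσf, hσf]
    simp [E]
  · simp [E, hy]

/-- the embedding -/
def em {B : ((Fin 1 ⊕ Fin 1) ⊕ Fin 2 → F) →ₗ[F] ((Fin 1 ⊕ Fin 1) ⊕ Fin 2 → F) →ₗ[F] F} {a b : F} (hQ : Qf (quadFormMinus 1 F a b) B)
    (h1 : θ + σ θ = f a) (h2 : θ * σ θ = f b)
    (hσσ : ∀ x, σ (σ x) = x) (hσf : ∀ y, σ (f y) = f y) (hfix : ∀ x, σ x = x → ∃ y, f y = x) (hne : σ θ ≠ θ) :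
    Emb F (K := K) (quadFormMinus 1 F a b) (SpecialLinearGroup (Fin 2) K) (Matrix (Fin 2) (Fin 2) K) where
  f := f
  E := E f σ θ
  inj := inj_of_isometric hQ f (E f σ θ) E_add (fun A => - A.det) (E_q h1 h2)
  Eadd := E_add
  Esmul := E_smul
  q' := fun A => - A.det
  hq := E_q h1 h2
  A g H := g.1 * H * (g.1.map σ)ᵀ
  A_one H := by
    rw [Matrix.SpecialLinearGroup.coe_one, Matrix.map_one _ (map_zero σ) (map_one σ), transpose_one, one_mul, mul_one]
  A_mul g h H := by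
    rw [Matrix.SpecialLinearGroup.coe_mul, Matrix.map_mul, transpose_mul]
    simp only [mul_assoc]
  A_add g v w := by rw [mul_add, add_mul]
  A_smul g c w := by rw [mul_smul_comm, smul_mul_assoc]
  A_q g H := by
    rw [det_mul, det_mul, det_transpose, g.2]
    have : (g.1.map σ).det = 1 := by
      have := RingHom.map_det σ g.1
      rw [g.2, map_one] at this
      exact this.symm
    rw [this, one_mul, mul_one]
  range g w := by
    apply exists_E hσσ hσf hfix hne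
    have hm : ((g.1.map σ)ᵀ.map σ)ᵀ = g.1 := by
      ext i j; exact hσσ _
    rw [Matrix.map_mul, Matrix.map_mul, transpose_mul, transpose_mul, hm, E_herm hσσ hσf, mul_assoc]

theorem mem_ker {B : ((Fin 1 ⊕ Fin 1) ⊕ Fin 2 → F) →ₗ[F] ((Fin 1 ⊕ Fin 1) ⊕ Fin 2 → F) →ₗ[F] F} {a b : F} (hQ : Qf (quadFormMinus 1 F a b) B)
    (h1 : θ + σ θ = f a) (h2 : θ * σ θ = f b)
    (hσσ : ∀ x, σ (σ x) = x) (hσf : ∀ y, σ (f y) = f y) (hfix : ∀ x, σ x = x → ∃ y, f y = x) (hne : σ θ ≠ θ) (g : SpecialLinearGroup (Fin 2) K) :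
    g ∈ (em hQ h1 h2 hσσ hσf hfix hne).rep.rho.ker ↔ g = 1 ∨ g = -1 := by
  rw [Emb.mem_ker]
  change (∀ w, g.1 * E f σ θ w * (g.1.map σ)ᵀ = E f σ θ w) ↔ _
  constructor
  · intro h
    have e1 : E f σ θ (Sum.elim (Sum.elim (fun _ => 1) (fun _ => -1)) (fun _ => 0)) = 1 := by
      ext i j
      fin_cases i <;> fin_cases j <;> simp [E]
    have h3 := h (Sum.elim (Sum.elim (fun _ => 1) (fun _ => -1)) (fun _ => 0))
    rw [e1, mul_one] at h3
    have h4 : (g.1.map σ)ᵀ * g.1 = 1 := mul_eq_one_comm.1 h3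
    have h5 : ∀ w, g.1 * E f σ θ w = E f σ θ w * g.1 := by
      intro w
      calc g.1 * E f σ θ w = g.1 * E f σ θ w * ((g.1.map σ)ᵀ * g.1) := by rw [h4, mul_one]
        _ = g.1 * E f σ θ w * (g.1.map σ)ᵀ * g.1 := by rw [mul_assoc _ _ g.1]
        _ = _ := by rw [h]
    obtain ⟨x, y, z, t, hd, rfl⟩ := exists_S g
    have h6 := h5 (Sum.elim (Sum.elim (fun _ => 1) (fun _ => 0)) (fun _ => 0))
    have h7 := h5 (Sum.elim (fun _ => 0) ![1, 0])
    have e1 := congrFun (congrFun h6 0) 1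
    have e2 := congrFun (congrFun h6 1) 0
    have e3 := congrFun (congrFun h7 0) 1
    simp [E, coe_S, Matrix.mul_apply, Fin.sum_univ_two] at e1 e2 e3
    subst e1
    subst e2
    subst e3
    have h3 : (x - 1) * (x + 1) = 0 := by linear_combination hd
    rcases mul_eq_zero.1 h3 with h3 | h3
    · left
      rw [S_one]
      apply S_eq
      · linear_combination h3
      · rfl
      · rfl
      · linear_combination h3
    · right
      rw [S_neg_one]
      apply S_eq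
      · linear_combination h3
      · rfl
      · rfl
      · linear_combination h3
  · rintro (rfl | rfl) w
    · exact (em hQ h1 h2 hσσ hσf hfix hne).A_one _
    · rw [Matrix.SpecialLinearGroup.coe_neg, Matrix.SpecialLinearGroup.coe_one]
      have : ((-1 : Matrix (Fin 2) (Fin 2) K).map σ)ᵀ = -1 := by
        ext i j
        fin_cases i <;> fin_cases j <;> simp
      rw [this, neg_one_mul, mul_neg_one, neg_neg]

/-- PΩ^-_4(q) is isomorphic to PSL_2(q^2). -/
theorem result {F K : Type*} [Field F] [Fintype F] [Field K] [Fintype K] {q : ℕ} (hF : Fintype.card F = q) (hK : Fintype.card K = q ^ 2) (a b : F) (hab : ∀ z₁ z₂ : F, z₁ ^ 2 + a * z₁ * z₂ + b * z₂ ^ 2 = 0 → z₁ = 0 ∧ z₂ = 0) : Nonempty (Cfsg.POmega F (Cfsg.quadFormMinus 1 F a b) ≃* Matrix.ProjectiveSpecialLinearGroup (Fin 2) K) := by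
  obtain ⟨f, σ, θ, hσ, hσσ, hσf, hfix, h1, h2, hne⟩ := quad_ext hF hK hab
  obtain ⟨B, hQ⟩ := exists_qf_minus (F := F) 1 hab
  have hq : 2 ≤ q := by rw [← hF]; exact Fintype.one_lt_card
  have hK4 : 4 ≤ Fintype.card K := by rw [hK]; nlinarith
  have hsl := card_sl2 (S0242.result (F := K) rfl 2 (by norm_num))
  have ho := Cfsg.Agent.H7.Quad.card_O_minus hF 2 (by norm_num) a b hab
  have ho' : Nat.card (isometryGroup F (quadFormMinus 1 F a b)) = 2 * Nat.card (SpecialLinearGroup (Fin 2) K) := by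
    rw [hsl, hK]
    change Nat.card (isometryGroup F (quadFormMinus (2 - 1) F a b)) = _
    rw [ho]
    have e : (q ^ 2) ^ 2 - 1 = (q ^ 2 + 1) * (q ^ 2 - 1) := by
      rw [show (q ^ 2) ^ 2 - 1 = (q ^ 2) ^ 2 - 1 ^ 2 by norm_num, Nat.sq_sub_sq]
    rw [e]
    simp
    ring
  set em := em hQ h1 h2 hσσ hσf hfix hne
  have hk := mem_ker hQ h1 h2 hσσ hσf hfix hne
  have hcen : em.rep.rho.ker ≤ Subgroup.center (SpecialLinearGroup (Fin 2) K) := by
    intro g hg
    rw [Subgroup.mem_center_iff]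
    intro z
    rcases (hk g).1 hg with rfl | rfl
    · rw [mul_one, one_mul]
    · rw [mul_neg_one, neg_one_mul]
  have hc : ∀ a b : em.rep.rho.ker, a * b = b * a := by
    intro a b
    apply Subtype.ext
    exact (Subgroup.mem_center_iff.1 (hcen a.2) b).symm
  refine pomega_equiv2 hQ (by simp) em.rep.rho hcen (sl2_triv_comm hK4 mul_comm) (sl2_triv_comm hK4 hc) ?_ ?_
  · intro h2
    have h2K : (2 : K) = 0 := by rw [← map_ofNat f 2, h2, map_zero]
    have hk1 : Nat.card em.rep.rho.ker = 1 := by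
      rw [Nat.card_eq_one_iff_unique]
      have key : ∀ a : em.rep.rho.ker, a = 1 := by
        intro a
        apply Subtype.ext
        rcases (hk a.1).1 a.2 with h | h
        · exact h
        · rw [h, S_neg_one]
          change _ = (1 : SpecialLinearGroup (Fin 2) K)
          rw [S_one]
          apply S_eq
          · linear_combination -h2K
          · rfl
          · rfl
          · linear_combination -h2K
      exact ⟨⟨fun a b => by rw [key a, key b]⟩, ⟨1⟩⟩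
    rw [hk1, ho', one_mul]
  · intro h2
    have hne : (-1 : SpecialLinearGroup (Fin 2) K) ≠ 1 := by
      intro h
      have h3 := congrFun (congrFun (congrArg Subtype.val h) 0) 0
      have h4 : -(1 : K) = 1 := by simpa using h3
      apply h2
      apply f.injective
      rw [map_ofNat, map_zero]
      linear_combination -h4
    rw [card_two hne hk, ho']
    ring

end Cfsg.Agent.S0300
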