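import Cfsg.Statements.S0254
import Cfsg.Agent.H7.PermMod
import Cfsg.Agent.S0300

set_option autoImplicit false
open Cfsg
open Matrix Module Cfsg.Agent.H7.IsoCl Cfsg.Agent.H7.Orth Cfsg.Agent.H7.Rho Cfsg.Agent.H7.PermMod

namespace Cfsg.Agent.S0254

abbrev F3 := ZMod 3

abbrev V4 := (Fin 1 ⊕ Fin 1) ⊕ Fin 2 → F3

theorem hN : (Fintype.card (Fin 6) : F3) = 0 := by decide

/-- coordinates -/
def c (v : V4) : Fin 6 → F3 :=
  ![0, v (.inl (.inl 0)) + v (.inl (.inr 0)) + v (.inr 0), v (.inl (.inl 0)) + v (.inl (.inr 0)) + v (.inr 1),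
    v (.inl (.inl 0)) - (v (.inr 0) + v (.inr 1)), v (.inl (.inr 0)) - (v (.inr 0) + v (.inr 1)), v (.inr 0) + v (.inr 1)]

theorem c_mem (v : V4) : c v ∈ W F3 (0 : Fin 6) := by
  rw [mem_W]
  refine ⟨?_, rfl⟩
  simp only [c, Fin.sum_univ_succ, Matrix.cons_val_zero, Matrix.cons_val_succ, Finset.univ_unique, Fin.default_eq_zero, Finset.sum_singleton]
  generalize v (.inl (.inl 0)) = x
  generalize v (.inl (.inr 0)) = y
  generalize v (.inr 0) = z
  generalize v (.inr 1) = t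
  revert x y z t
  decide

/-- the quadratic form -/
def q' (v : W F3 (0 : Fin 6)) : F3 := ∑ i, v.1 i * v.1 i

/-- the embedding -/
def E (v : V4) : W F3 (0 : Fin 6) := ⟨c v, c_mem v⟩

theorem E_add (v w : V4) : E (v + w) = E v + E w := by
  apply Subtype.ext
  funext i
  fin_cases i <;> simp [E, c] <;> ring

theorem E_smul (a : F3) (v : V4) : E (a • v) = a • E v := by
  apply Subtype.ext
  funext i
  fin_cases i <;> simp [E, c] <;> ring

theorem E_q (v : V4) : q' (E v) = quadFormMinus 1 F3 0 1 v := by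
  simp only [q', E, c, quadFormMinus, Fin.sum_univ_succ, Matrix.cons_val_zero, Matrix.cons_val_succ, Finset.univ_unique, Fin.default_eq_zero, Finset.sum_singleton]
  generalize v (.inl (.inl 0)) = x
  generalize v (.inl (.inr 0)) = y
  generalize v (.inr 0) = z
  generalize v (.inr 1) = t
  revert x y z t
  decide

theorem hab : ∀ z₁ z₂ : F3, z₁ ^ 2 + 0 * z₁ * z₂ + 1 * z₂ ^ 2 = 0 → z₁ = 0 ∧ z₂ = 0 := by decide

theorem E_inj : Function.Injective E := by
  obtain ⟨B, hQ⟩ := exists_qf_minus (F := F3) 1 hab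
  exact inj_of_isometric hQ (RingHom.id F3) E E_add q' E_q

theorem E_surj : Function.Surjective E := by
  let L : V4 →ₗ[F3] W F3 (0 : Fin 6) := { toFun := E, map_add' := E_add, map_smul' := E_smul }
  have h1 : Function.Injective L := E_inj
  have h2 : finrank F3 V4 = finrank F3 (W F3 (0 : Fin 6)) := by
    have := finrank_W (F := F3) (0 : Fin 6) 1 (by decide)
    rw [Fintype.card_fin] at this
    rw [Module.finrank_fintype_fun_eq_card]
    simp
    omega
  exact (LinearMap.injective_iff_surjective_of_finrank_eq_finrank h2).1 h1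

theorem q_act (σ : Equiv.Perm (Fin 6)) (v : W F3 (0 : Fin 6)) : q' (actE 0 hN σ v) = q' v := by
  have h0 : ∀ i, (actE 0 hN σ v).1 i = v.1 (σ⁻¹ i) - v.1 (σ⁻¹ 0) := fun i => rfl
  simp only [q', h0]
  have h1 : ∀ i, (v.1 (σ⁻¹ i) - v.1 (σ⁻¹ 0)) * (v.1 (σ⁻¹ i) - v.1 (σ⁻¹ 0)) =
      v.1 (σ⁻¹ i) * v.1 (σ⁻¹ i) - 2 * v.1 (σ⁻¹ 0) * v.1 (σ⁻¹ i) + v.1 (σ⁻¹ 0) * v.1 (σ⁻¹ 0) := fun i => by ring
  rw [Finset.sum_congr rfl fun i _ => h1 i, Finset.sum_add_distrib, Finset.sum_sub_distrib, ← Finset.mul_sum, Equiv.sum_comp σ⁻¹ v.1, v.2.1,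
    Equiv.sum_comp σ⁻¹ (fun i => v.1 i * v.1 i), Finset.sum_const, Finset.card_univ, nsmul_eq_mul, hN]
  ring

/-- the embedding -/
noncomputable def em : Emb F3 (K := F3) (quadFormMinus 1 F3 0 1) (alternatingGroup (Fin 6)) (W F3 (0 : Fin 6)) where
  f := RingHom.id F3
  E := E
  inj := E_inj
  Eadd := E_add
  Esmul := E_smul
  q' := q'
  hq := E_q
  A g v := actE 0 hN g.1 v
  A_one v := by
    change actE 0 hN 1 v = v
    rw [map_one]; rfl
  A_mul g h v := by
    change actE 0 hN (g.1 * h.1) v = _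
    rw [map_mul]; rfl
  A_add g v w := map_add _ _ _
  A_smul g c w := map_smul _ _ _
  A_q g v := q_act _ _
  range g w := E_surj _

theorem ker_bot : em.rep.rho.ker = ⊥ := by
  haveI : IsSimpleGroup (alternatingGroup (Fin 6)) := alternatingGroup.isSimpleGroup (by simp)
  rcases (MonoidHom.normal_ker em.rep.rho).eq_bot_or_eq_top with h | h
  · exact h
  · exfalso
    have hg : (⟨Equiv.swap 1 2 * Equiv.swap 2 3, by rw [Equiv.Perm.mem_alternatingGroup]; decide⟩ : alternatingGroup (Fin 6)) ∈ em.rep.rho.ker := by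
      rw [h]; trivial
    rw [Emb.mem_ker] at hg
    have h1 := hg (Sum.elim (fun _ => 0) ![1, 0])
    have h2 := congrFun (congrArg Subtype.val h1) 1
    have h3 : c (Sum.elim (fun _ => 0) ![1, 0]) ((Equiv.swap 1 2 * Equiv.swap 2 3 : Equiv.Perm (Fin 6))⁻¹ 1) -
        c (Sum.elim (fun _ => 0) ![1, 0]) ((Equiv.swap 1 2 * Equiv.swap 2 3 : Equiv.Perm (Fin 6))⁻¹ 0)
        = c (Sum.elim (fun _ => 0) ![1, 0]) 1 := h2
    revert h3
    decide

/-- PSL_2(9) is isomorphic to A_6. -/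
theorem result {F : Type*} [Field F] [Fintype F] (hF : Fintype.card F = 9) : Nonempty (Matrix.ProjectiveSpecialLinearGroup (Fin 2) F ≃* alternatingGroup (Fin 6)) := by
  obtain ⟨e⟩ := S0300.result (F := F3) (K := F) (q := 3) (ZMod.card 3) (by rw [hF]; norm_num) 0 1 hab
  obtain ⟨B, hQ⟩ := exists_qf_minus (F := F3) 1 hab
  have hperf : commutator (alternatingGroup (Fin 6)) = ⊤ := commutator_alternatingGroup_eq_top (by simp)
  have ho := Cfsg.Agent.H7.Quad.card_O_minus (F := F3) (ZMod.card 3) 2 (by norm_num) 0 1 hab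
  have hc : Nat.card (alternatingGroup (Fin 6)) = 360 := by
    rw [nat_card_alternatingGroup]
    simp
    decide
  have h20 : ¬ (2 : F3) = 0 := by decide
  obtain ⟨e'⟩ := pomega_equiv' hQ (by simp) hperf em.rep.rho (by rw [ker_bot]; exact bot_le) (fun h => absurd h h20) (by
    intro _
    rw [ker_bot, hc]
    change _ = _ * Nat.card (isometryGroup F3 (quadFormMinus (2 - 1) F3 0 1))
    rw [ho]
    simp)
  have hcen : Subgroup.center (alternatingGroup (Fin 6)) = ⊥ := alternatingGroup.center_eq_bot (by simp)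
  exact ⟨e.symm.trans (e'.trans ((QuotientGroup.quotientMulEquivOfEq hcen).trans QuotientGroup.quotientBot))⟩

end Cfsg.Agent.S0254
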