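import Cfsg.Statements.S0255
import Cfsg.Agent.S0242
import Cfsg.Agent.S0249
import Cfsg.Agent.S0495

set_option autoImplicit false
open Cfsg

namespace Cfsg.Agent.S0255

/-- PSL_2(7) is isomorphic to PSL_3(2). -/
theorem result {F K : Type*} [Field F] [Fintype F] [Field K] [Fintype K] (hF : Fintype.card F = 7) (hK : Fintype.card K = 2) : Nonempty (Matrix.ProjectiveSpecialLinearGroup (Fin 2) F ≃* Matrix.ProjectiveSpecialLinearGroup (Fin 3) K) := by
  haveI hs : IsSimpleGroup (Matrix.ProjectiveSpecialLinearGroup (Fin 3) K) := S0249.result 3 le_rfl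
  haveI : Finite (Matrix.ProjectiveSpecialLinearGroup (Fin 3) K) := Quotient.finite _
  have hSL : Nat.card (Matrix.SpecialLinearGroup (Fin 3) K) = 168 := by
    have := S0242.result hK 3 (by norm_num)
    rw [Fin.prod_univ_three] at this
    simpa using this
  have hcen : Subgroup.center (Matrix.SpecialLinearGroup (Fin 3) K) = ⊥ := by
    rw [eq_bot_iff]
    intro A hA
    rw [Matrix.SpecialLinearGroup.mem_center_iff] at hA
    obtain ⟨r, hr, hA⟩ := hA
    have hr0 : r ≠ 0 := by
      rintro rfl
      rw [Fintype.card_fin] at hr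
      norm_num at hr
    have hr1 : r = 1 := by
      have := FiniteField.pow_card_sub_one_eq_one r hr0
      rwa [hK, show 2 - 1 = 1 by norm_num, pow_one] at this
    rw [Subgroup.mem_bot]
    apply Subtype.ext
    rw [← hA, hr1, map_one]
    rfl
  have hcard : Nat.card (Matrix.ProjectiveSpecialLinearGroup (Fin 3) K) = 168 := by
    have h1 := Subgroup.card_eq_card_quotient_mul_card_subgroup (Subgroup.center (Matrix.SpecialLinearGroup (Fin 3) K))
    rw [hSL, hcen, Subgroup.card_bot, mul_one] at h1
    have h2 : Nat.card (Matrix.ProjectiveSpecialLinearGroup (Fin 3) K) = Nat.card (Matrix.SpecialLinearGroup (Fin 3) K ⧸ (⊥ : Subgroup (Matrix.SpecialLinearGroup (Fin 3) K))) := by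
      rw [← hcen]
    rw [h2, ← h1]
  obtain ⟨e⟩ := S0495.result hcard hF
  exact ⟨e.symm⟩

end Cfsg.Agent.S0255
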