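import Cfsg.Statements.S0302
import Cfsg.Agent.H7.Wedge
import Cfsg.Agent.S0248
import Cfsg.Agent.S0242

set_option autoImplicit false
open Cfsg
open Cfsg.Agent.H7.Wedge Cfsg.Agent.H7.IsoCl Cfsg.Agent.H7.Orth

namespace Cfsg.Agent.S0302

theorem card_sl4 {F : Type*} [Field F] [Fintype F] {q : ℕ} (hF : Fintype.card F = q) :
    Nat.card (Matrix.SpecialLinearGroup (Fin 4) F) = q ^ 6 * (q ^ 2 - 1) * (q ^ 3 - 1) * (q ^ 4 - 1) := by
  have h := S0242.result hF 4 (by norm_num)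
  have hq : 2 ≤ q := by rw [← hF]; exact Fintype.one_lt_card
  rw [Fin.prod_univ_four] at h
  have e1 : q ^ 4 - q ^ 1 = q * (q ^ 3 - 1) := by rw [Nat.mul_sub, mul_one, pow_one]; congr 1; ring
  have e2 : q ^ 4 - q ^ 2 = q ^ 2 * (q ^ 2 - 1) := by rw [Nat.mul_sub, mul_one]; congr 1; ring
  have e3 : q ^ 4 - q ^ 3 = q ^ 3 * (q - 1) := by rw [Nat.mul_sub, mul_one]; congr 1
  have e0 : q ^ 4 - q ^ 0 = q ^ 4 - 1 := by rw [pow_zero]
  change (q - 1) * _ = (q ^ 4 - q ^ 0) * (q ^ 4 - q ^ 1) * (q ^ 4 - q ^ 2) * (q ^ 4 - q ^ 3) at h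
  rw [e0, e1, e2, e3] at h
  apply Nat.eq_of_mul_eq_mul_left (show 0 < q - 1 by omega)
  rw [h]
  ring

/-- PΩ^+_6(q) is isomorphic to PSL_4(q). -/
theorem result {F : Type*} [Field F] [Fintype F] : Nonempty (Cfsg.POmega F (Cfsg.quadFormPlus 3 F) ≃* Matrix.ProjectiveSpecialLinearGroup (Fin 4) F) := by
  obtain ⟨B, hQ⟩ := exists_qf_plus (F := F) 3
  have hsl := card_sl4 (F := F) rfl
  have ho := Cfsg.Agent.H7.Quad.card_O_plus (F := F) rfl 3 (by norm_num)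
  have hq : 2 ≤ Fintype.card F := Fintype.one_lt_card
  have ho' : Nat.card (isometryGroup F (quadFormPlus 3 F)) = 2 * Nat.card (Matrix.SpecialLinearGroup (Fin 4) F) := by
    rw [ho, hsl]
    simp [Finset.prod_range_succ]
    ring
  refine pomega_equiv' hQ (by simp) (S0248.result 4 (by norm_num)) (rho F) ker_le_center ?_ ?_
  · intro h2
    rw [card_ker_two h2, ho', one_mul]
  · intro h2
    rw [card_ker_odd h2, ho']
    ring

end Cfsg.Agent.S0302
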