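import Cfsg.Statements.S0256
import Cfsg.Agent.S0302

set_option autoImplicit false
open Cfsg
open Cfsg.Agent.H7.Wedge Cfsg.Agent.H7.IsoCl Cfsg.Agent.H7.Orth

namespace Cfsg.Agent.S0256

/-- PSL_4(2) is isomorphic to A_8. -/
theorem result {F : Type*} [Field F] [Fintype F] (hF : Fintype.card F = 2) : Nonempty (Matrix.ProjectiveSpecialLinearGroup (Fin 4) F ≃* alternatingGroup (Fin 8)) := by
  have h2 : (2 : F) = 0 := by
    have h4 : ((Fintype.card F : ℕ) : F) = 0 := Nat.cast_card_eq_zero F
    rw [hF] at h4
    exact_mod_cast h4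
  obtain ⟨e⟩ := Cfsg.Agent.H7.PermMod.main8 hF
  let f : Matrix.SpecialLinearGroup (Fin 4) F →* Equiv.Perm (Fin 8) := e.toMonoidHom.comp (rho F)
  have hker : (rho F).ker = ⊥ := by
    rw [← Subgroup.card_eq_one]
    exact card_ker_two h2
  have hinj : Function.Injective f := e.injective.comp ((MonoidHom.ker_eq_bot_iff _).1 hker)
  have hc : Nat.card (Matrix.SpecialLinearGroup (Fin 4) F) = 20160 := by
    rw [S0302.card_sl4 hF]
    norm_num
  have hr : Nat.card f.range = 20160 := by
    rw [← hc]
    exact (Nat.card_congr (MonoidHom.ofInjective hinj).toEquiv).symm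
  have hidx : f.range.index = 2 := by
    have h3 := Subgroup.index_mul_card f.range
    rw [hr, Nat.card_perm, Nat.card_eq_fintype_card, Fintype.card_fin] at h3
    have h4 : (8).factorial = 2 * 20160 := by decide
    rw [h4] at h3
    exact Nat.eq_of_mul_eq_mul_right (by norm_num) h3
  have halt := Equiv.Perm.eq_alternatingGroup_of_index_eq_two hidx
  have hcen : Subgroup.center (Matrix.SpecialLinearGroup (Fin 4) F) = ⊥ := by
    rw [Subgroup.eq_bot_iff_forall]
    intro g hg
    rw [Matrix.SpecialLinearGroup.mem_center_iff] at hg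
    obtain ⟨r, hr, hr'⟩ := hg
    have h01 : r = 1 := by
      have hr0 : r ≠ 0 := by
        rintro rfl
        rw [Fintype.card_fin] at hr
        norm_num at hr
      have := FiniteField.pow_card_sub_one_eq_one r hr0
      rw [hF] at this
      simpa using this
    apply Subtype.ext
    rw [← hr', h01, map_one]; rfl
  have e1 : Matrix.ProjectiveSpecialLinearGroup (Fin 4) F ≃* Matrix.SpecialLinearGroup (Fin 4) F :=
    (QuotientGroup.quotientMulEquivOfEq hcen).trans QuotientGroup.quotientBot
  exact ⟨(e1.trans (MonoidHom.ofInjective hinj)).trans (MulEquiv.subgroupCongr halt)⟩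

end Cfsg.Agent.S0256
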