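import Cfsg.Statements.S0257
import Cfsg.Agent.H7.SLCard
import Cfsg.Agent.H7.Quat
import Cfsg.Agent.H7.SL2

set_option autoImplicit false
open Cfsg
open Cfsg.Agent.H7 Cfsg.Agent.H7.Tv Cfsg.Agent.H7.SL2 Module Matrix

namespace Cfsg.Agent.S0257

/-- SL_2(3) has a normal subgroup of index 3 isomorphic to the quaternion group of order 8, and its centre has order 2. -/
theorem result {F : Type*} [Field F] [Fintype F] (hF : Fintype.card F = 3) : (∃ Q : Subgroup (Matrix.SpecialLinearGroup (Fin 2) F), Q.Normal ∧ Q.index = 3 ∧ Nonempty (Q ≃* QuaternionGroup 2)) ∧ Nat.card (Subgroup.center (Matrix.SpecialLinearGroup (Fin 2) F)) = 2 := by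
  classical
  refine ⟨?_, by rw [card_sl_center hF 2 (by omega)]; rfl⟩
  have h3 : (3 : F) = 0 := by
    have := FiniteField.cast_card_eq_zero F
    rw [hF] at this
    exact_mod_cast this
  have h1n : (1 : F) ≠ -1 := by
    intro h
    have : (1 : F) = 0 := by linear_combination h3 - h
    exact one_ne_zero this
  have hall : ∀ a : F, a = 0 ∨ a = 1 ∨ a = -1 := by
    intro a
    have h := FiniteField.pow_card a
    rw [hF] at h
    have h' : a * ((a - 1) * (a + 1)) = 0 := by linear_combination h
    rcases mul_eq_zero.1 h' with h | h
    · exact Or.inl h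
    rcases mul_eq_zero.1 h with h | h
    · exact Or.inr (Or.inl (by linear_combination h))
    · exact Or.inr (Or.inr (by linear_combination h))
  let x : Matrix.SpecialLinearGroup (Fin 2) F := S 0 (-1) 1 0 (by ring)
  let y : Matrix.SpecialLinearGroup (Fin 2) F := S 1 1 1 (-1) (by linear_combination -h3)
  have hxe : x = S 0 (-1) 1 0 (by ring) := rfl
  have hye : y = S 1 1 1 (-1) (by linear_combination -h3) := rfl
  have hx2 : x * x = -1 := by
    rw [hxe, S_mul, S_neg_one]
    apply S_eq <;> ring
  have hy2 : y * y = -1 := by
    rw [hye, S_mul, S_neg_one]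
    apply S_eq
    · linear_combination h3
    · ring
    · ring
    · linear_combination h3
  have hxie : x⁻¹ = -x := by
    rw [inv_eq_iff_mul_eq_one, mul_neg, hx2, neg_neg]
  have hxye : x * y = S (-1) 1 1 1 (by linear_combination -h3) := by
    rw [hxe, hye, S_mul]
    apply S_eq <;> ring
  have hxy : x * y = y * x⁻¹ := by
    rw [hxye, hxe, hye, S_inv, S_mul]
    apply S_eq <;> ring
  have hne : (-1 : Matrix.SpecialLinearGroup (Fin 2) F) ≠ 1 := by
    intro h
    rw [S_neg_one, S_one] at h
    exact h1n (S_inj h).1.symm
  have hord : orderOf x = 2 * 2 := by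
    have := orderOf_eq_prime_pow (p := 2) (n := 1) (x := x) (by rw [pow_one, pow_two, hx2]; exact hne)
      (by rw [show 2 ^ (1 + 1) = 2 * 2 from rfl, pow_mul, pow_two x, hx2, pow_two]; simp)
    exact this
  have hyx : y ∉ Subgroup.zpowers x := by
    intro h
    obtain ⟨k, hk⟩ := Subgroup.mem_zpowers_iff.1 h
    have h1 : x * y = y * x := by rw [← hk]; exact (Commute.refl x).zpow_right k
    rw [hxy] at h1
    have h2 : x⁻¹ = x := mul_left_cancel h1
    rw [inv_eq_iff_mul_eq_one, hx2] at h2
    exact hne h2
  obtain ⟨Φ, hΦ, hΦa, hΦxa⟩ := quaternion_hom (n := 2) x y (by rw [hy2, pow_two, hx2]) hxy hord hyx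
  have hcard : Nat.card Φ.range = 8 := by
    have h1 : Nat.card (QuaternionGroup 2) = Nat.card Φ.range := Nat.card_congr (Equiv.ofInjective Φ hΦ)
    rw [← h1, Nat.card_eq_fintype_card, QuaternionGroup.card]
  have hSL : Nat.card (Matrix.SpecialLinearGroup (Fin 2) F) = 24 := by
    have h2 := card_gl_eq_mul (F := F) 2 (by omega)
    rw [Matrix.card_GL_field, hF, Fin.prod_univ_two] at h2
    rw [show (3 ^ 2 - 3 ^ ((0 : Fin 2) : ℕ)) * (3 ^ 2 - 3 ^ ((1 : Fin 2) : ℕ)) = 48 from rfl] at h2
    omega
  -- trace zero matrices
  have hxm : x ∈ Φ.range := ⟨_, by simpa using hΦa 1⟩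
  have hym : y ∈ Φ.range := ⟨_, by simpa using hΦxa 0⟩
  have hn1 : (-1 : Matrix.SpecialLinearGroup (Fin 2) F) ∈ Φ.range := by rw [← hx2]; exact mul_mem hxm hxm
  have hneg : ∀ z ∈ Φ.range, -z ∈ Φ.range := by
    intro z hz
    have : -z = -1 * z := by rw [neg_one_mul]
    rw [this]
    exact mul_mem hn1 hz
  have htr : ∀ g : Matrix.SpecialLinearGroup (Fin 2) F, tr g = 0 → g ∈ Φ.range := by
    intro g hg
    obtain ⟨a, b, c, d, hd, rfl⟩ := exists_S g
    rw [tr_S] at hg
    have hd' : d = - a := by linear_combination hg
    subst hd'
    rcases hall a with rfl | rfl | rfl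
    · rcases hall b with rfl | rfl | rfl
      · exfalso
        apply one_ne_zero (α := F)
        linear_combination -hd
      · have : S 0 1 c (-0) hd = -x := by
          rw [hxe, S_neg]
          apply S_eq
          · ring
          · ring
          · linear_combination -hd
          · ring
        rw [this]
        exact hneg _ hxm
      · have : S 0 (-1) c (-0) hd = x := by
          rw [hxe]
          apply S_eq
          · ring
          · ring
          · linear_combination hd
          · ring
        rw [this]
        exact hxm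
    · rcases hall b with rfl | rfl | rfl
      · exfalso
        apply one_ne_zero (α := F)
        linear_combination hd + h3
      · have : S 1 1 c (-1) hd = y := by
          rw [hye]
          apply S_eq
          · ring
          · ring
          · linear_combination -hd - h3
          · ring
        rw [this]
        exact hym
      · have : S 1 (-1) c (-1) hd = -(x * y) := by
          rw [hxye, S_neg]
          apply S_eq
          · ring
          · ring
          · linear_combination hd + h3
          · ring
        rw [this]
        exact hneg _ (mul_mem hxm hym)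
    · rcases hall b with rfl | rfl | rfl
      · exfalso
        apply one_ne_zero (α := F)
        linear_combination hd + h3
      · have : S (-1) 1 c (- -1) hd = x * y := by
          rw [hxye]
          apply S_eq
          · ring
          · ring
          · linear_combination -hd - h3
          · ring
        rw [this]
        exact mul_mem hxm hym
      · have : S (-1) (-1) c (- -1) hd = -y := by
          rw [hye, S_neg]
          apply S_eq
          · ring
          · ring
          · linear_combination hd + h3
          · ring
        rw [this]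
        exact hneg _ hym
  have hiff : ∀ g ∈ Φ.range, g = 1 ∨ g = -1 ∨ tr g = 0 := by
    rintro g ⟨z, rfl⟩
    rcases z with i | i
    · have hi : (QuaternionGroup.a i : QuaternionGroup 2) = QuaternionGroup.a ((i.val : ℕ) : ZMod (2 * 2)) := by
        rw [ZMod.natCast_zmod_val]
      rw [hi, hΦa]
      have h4 := ZMod.val_lt i
      generalize i.val = k at h4
      interval_cases k
      · left; rw [pow_zero]
      · right; right; rw [pow_one, hxe, tr_S]; ring
      · right; left; rw [pow_two, hx2]
      · right; right
        rw [pow_succ, pow_two, hx2, neg_one_mul, hxe, S_neg, tr_S]; ring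
    · have hi : (QuaternionGroup.xa i : QuaternionGroup 2) = QuaternionGroup.xa ((i.val : ℕ) : ZMod (2 * 2)) := by
        rw [ZMod.natCast_zmod_val]
      rw [hi, hΦxa]
      have h4 := ZMod.val_lt i
      generalize i.val = k at h4
      right; right
      interval_cases k
      · rw [pow_zero, mul_one, hye, tr_S]; ring
      · rw [pow_one, hye, hxe, S_mul, tr_S]; ring
      · rw [pow_two, hx2, mul_neg, mul_one, hye, S_neg, tr_S]; ring
      · rw [pow_succ, pow_two, hx2, neg_one_mul, mul_neg, hxe, hye, S_mul, S_neg, tr_S]; ring
  refine ⟨Φ.range, ⟨?_⟩, ?_, ⟨(MonoidHom.ofInjective hΦ).symm⟩⟩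
  · intro n hn g
    rcases hiff n hn with rfl | rfl | h
    · rw [mul_one, mul_inv_cancel]
      exact one_mem _
    · have : g * -1 * g⁻¹ = -1 := by
        rw [mul_neg, mul_one, neg_mul, mul_inv_cancel]
      rw [this]
      exact hn1
    · apply htr
      rw [tr_conj, h]
  · have := Subgroup.card_mul_index Φ.range
    rw [hcard, hSL] at this
    omega

end Cfsg.Agent.S0257
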