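import Cfsg.Statements.S0259
import Cfsg.Agent.H7.GL2

set_option autoImplicit false
open Cfsg
open Cfsg.Agent.H7.Tv Cfsg.Agent.H7.GL2 Module Matrix

namespace Cfsg.Agent.S0259

/-- Distinct Sylow p-subgroups of GL_2(q), p the characteristic, intersect trivially. -/
theorem result {F : Type*} [Field F] [Fintype F] (p : ℕ) [Fact p.Prime] [CharP F p] (P Q : Sylow p (Matrix.GeneralLinearGroup (Fin 2) F)) (h : P ≠ Q) : (P : Subgroup (Matrix.GeneralLinearGroup (Fin 2) F)) ⊓ (Q : Subgroup (Matrix.GeneralLinearGroup (Fin 2) F)) = ⊥ := by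
  obtain ⟨v, hv, hP⟩ := sylow_eq_Uv p P
  obtain ⟨w, hw, hQ⟩ := sylow_eq_Uv p Q
  rw [hP, hQ]
  apply Uv_inf
  intro h0
  obtain ⟨c, rfl⟩ := df_zero hv h0
  have hc : c ≠ 0 := by
    rintro rfl
    simp at hw
  rw [Uv_smul hc] at hQ
  exact h (Sylow.ext (by rw [hP, hQ]))

end Cfsg.Agent.S0259
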