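import Cfsg.Statements.S0260
import Cfsg.Agent.H7.GL2

set_option autoImplicit false
open Cfsg
open Cfsg.Agent.H7.Tv Cfsg.Agent.H7.GL2 Module Matrix

namespace Cfsg.Agent.S0260

/-- Any two distinct Sylow p-subgroups of SL_2(q), p the characteristic, generate SL_2(q). -/
theorem result {F : Type*} [Field F] [Fintype F] (p : ℕ) [Fact p.Prime] [CharP F p] (P Q : Sylow p (Matrix.SpecialLinearGroup (Fin 2) F)) (h : P ≠ Q) : (P : Subgroup (Matrix.SpecialLinearGroup (Fin 2) F)) ⊔ (Q : Subgroup (Matrix.SpecialLinearGroup (Fin 2) F)) = ⊤ := by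
  have key : ∀ P : Sylow p (Matrix.SpecialLinearGroup (Fin 2) F), ∃ v : Fin 2 → F, v ≠ 0 ∧
      (P : Subgroup (Matrix.SpecialLinearGroup (Fin 2) F)) = (Uv v).comap SpecialLinearGroup.toGL := by
    intro P
    obtain ⟨v, hv, h1⟩ := fixes_of_pgroup p (P.2.map SpecialLinearGroup.toGL)
    refine ⟨v, hv, ?_⟩
    obtain ⟨f, hf, hq⟩ := q_eq_pow (F := F) rfl p
    have h2 : IsPGroup p (Uv v) := IsPGroup.of_card (p := p) (n := f) (by rw [card_Uv hv, hq])
    exact (P.3 (h2.comap_of_injective _ SpecialLinearGroup.toGL_injective) (Subgroup.map_le_iff_le_comap.1 h1)).symm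
  obtain ⟨v, hv, hP⟩ := key P
  obtain ⟨w, hw, hQ⟩ := key Q
  have hvw : df F v w ≠ 0 := by
    intro h0
    obtain ⟨c, rfl⟩ := df_zero hv h0
    have hc : c ≠ 0 := by
      rintro rfl
      simp at hw
    rw [Uv_smul hc] at hQ
    exact h (Sylow.ext (by rw [hP, hQ]))
  set M := (P : Subgroup (Matrix.SpecialLinearGroup (Fin 2) F)) ⊔ (Q : Subgroup (Matrix.SpecialLinearGroup (Fin 2) F)) with hM
  have hctr : ∀ u : Fin 2 → F, (Uv u).comap SpecialLinearGroup.toGL ≤ M → Ctr (df F) (M.map SpecialLinearGroup.toGL) u := by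
    intro u hu c g hg
    have hgu : g ∈ Uv u := by
      refine ⟨-c, fun x => ?_⟩
      rw [hg, LinearMap.smul_apply, df_alt.skew u x]
      simp
    have hd := Uv_det hgu
    obtain ⟨A, hgA⟩ : ∃ A : Matrix.SpecialLinearGroup (Fin 2) F, SpecialLinearGroup.toGL A = g :=
      ⟨⟨(g : Matrix (Fin 2) (Fin 2) F), hd⟩, Units.ext rfl⟩
    refine ⟨A, hu ?_, hgA⟩
    rw [Subgroup.mem_comap, hgA]
    exact hgu
  have h1 : Ctr (df F) (M.map SpecialLinearGroup.toGL) v := hctr v (by rw [← hP]; exact le_sup_left)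
  have h2 : Ctr (df F) (M.map SpecialLinearGroup.toGL) w := hctr w (by rw [← hQ]; exact le_sup_right)
  have h3 : ∀ u, Ctr (df F) (M.map SpecialLinearGroup.toGL) u := by
    intro u
    -- coordinates
    have h4 : u = (df F u w * (df F v w)⁻¹) • v + (df F v u * (df F v w)⁻¹) • w := by
      have h5 : ∀ i, df F v w * u i = df F u w * v i + df F v u * w i := by
        intro i
        fin_cases i <;> simp only [df_apply, Fin.zero_eta, Fin.mk_one] <;> ring
      funext i
      simp only [Pi.add_apply, Pi.smul_apply, smul_eq_mul]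
      have h6 := h5 i
      generalize df F v w = z at *
      field_simp
      linear_combination h6
    rw [h4]
    generalize df F u w * (df F v w)⁻¹ = a
    generalize df F v u * (df F v w)⁻¹ = b
    by_cases ha : a = 0
    · rw [ha, zero_smul, zero_add]
      exact h2.smul b
    · have h5 := Ctr.smul (Ctr.line df_alt h1 h2 hvw (a⁻¹ * b)) a
      rwa [smul_add, smul_smul, ← mul_assoc, mul_inv_cancel₀ ha, one_mul] at h5
  rw [eq_top_iff]
  intro A _
  have h4 : SpecialLinearGroup.toGL A ∈ M.map SpecialLinearGroup.toGL := by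
    apply iso_mem df_alt h3
    intro x y
    rw [df_ap]
    have : ((SpecialLinearGroup.toGL A : GL (Fin 2) F) : Matrix (Fin 2) (Fin 2) F).det = 1 := A.2
    rw [this, one_mul]
  obtain ⟨B, hB, hBA⟩ := h4
  rw [← SpecialLinearGroup.toGL_injective hBA]
  exact hB

end Cfsg.Agent.S0260
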