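import Cfsg.Statements.S0263
import Cfsg.Agent.H7.SLCard

set_option autoImplicit false
open Cfsg
open Cfsg.Agent.H7.Tv Module Matrix

namespace Cfsg.Agent.S0263

/-- A Sylow p-subgroup of GL_n(q), p the characteristic, has order q^(n(n-1)/2). -/
theorem result {F : Type*} [Field F] [Fintype F] {q : ℕ} (hF : Fintype.card F = q) (p : ℕ) [Fact p.Prime] [CharP F p] (n : ℕ) (P : Sylow p (Matrix.GeneralLinearGroup (Fin n) F)) : Nat.card P = q ^ (n * (n - 1) / 2) := by
  obtain ⟨f, hf, hq⟩ := q_eq_pow hF p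
  refine sylow_card_of hq (m := ∏ i : Fin n, (q ^ (n - (i : ℕ)) - 1)) ?_ ?_ P
  · rw [Matrix.card_GL_field, hF, prod_gl_eq]
  · rw [(Fact.out : p.Prime).prime.dvd_finset_prod_iff]
    rintro ⟨i, -, hi⟩
    exact not_dvd_pow_sub_one hF p (by omega) hi

end Cfsg.Agent.S0263
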