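import Cfsg.Statements.S0264
import Cfsg.Agent.H7.SLSimple

set_option autoImplicit false
open Cfsg
open Cfsg.Agent.H7.Tv Module Matrix

namespace Cfsg.Agent.S0264

/-- GL_n(F)' = SL_n(F) (as the kernel of det), for every field F and every n, except n = 2 over the field of two elements. -/
theorem result {F : Type*} [Field F] (n : ℕ) (h : n = 2 → ∃ a : F, a ≠ 0 ∧ a ≠ 1) : commutator (Matrix.GeneralLinearGroup (Fin n) F) = (Matrix.GeneralLinearGroup.det : Matrix.GeneralLinearGroup (Fin n) F →* Fˣ).ker := by
  classical
  apply le_antisymm
  · exact Abelianization.commutator_subset_ker _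
  change Geo.specialLinear (Fin n) F ≤ _
  rcases Nat.lt_or_ge n 3 with hn | hn
  · apply SL_le
    intro u l hl g hg
    by_cases hu : u = 0
    · exact In.zero_left _ l g (by rw [← hu]; exact hg)
    by_cases hl0 : l = 0
    · exact In.zero _ u g (by rw [← hl0]; exact hg)
    have hn2 : n = 2 := by
      by_contra hne
      have hn1 : n ≤ 1 := by omega
      -- `u` spans
      obtain ⟨x, hx⟩ : ∃ x, l x ≠ 0 := by
        by_contra hcon
        push Not at hcon
        exact hl0 (LinearMap.ext hcon)
      have h1 : x ∉ Submodule.span F {u} := by
        intro h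
        obtain ⟨c, rfl⟩ := Submodule.mem_span_singleton.1 h
        rw [map_smul, hl, smul_zero] at hx
        exact hx rfl
      have h2 : Module.finrank F (Submodule.span F {u}) = 1 := finrank_span_singleton hu
      have h3 : Submodule.span F {u} = ⊤ := by
        apply Submodule.eq_top_of_finrank_eq
        have := Submodule.finrank_le (Submodule.span F {u})
        rw [Module.finrank_fintype_fun_eq_card, Fintype.card_fin] at *
        omega
      apply h1
      rw [h3]
      trivial
    obtain ⟨a, ha0, ha1⟩ := h hn2
    have hus : u ∉ (⊥ : Submodule F (Fin n → F)) := by simpa using hu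
    obtain ⟨ψ, hψ, -⟩ := exists_dual_one hus
    have ha1' : a - 1 ≠ 0 := sub_ne_zero.2 ha1
    -- a dilation
    let D : (Fin n → F) ≃ₗ[F] (Fin n → F) :=
      LinearEquiv.ofLinearMap (LinearMap.id + (a - 1) • ψ.smulRight u) (LinearMap.id + (a⁻¹ - 1) • ψ.smulRight u)
        (by
          apply LinearMap.ext
          intro y
          simp only [LinearMap.comp_apply, LinearMap.add_apply, LinearMap.id_apply, LinearMap.smul_apply,
            LinearMap.smulRight_apply, map_add, map_smul, hψ, smul_eq_mul]
          match_scalars
          · ring
          · field_simp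
            ring)
        (by
          apply LinearMap.ext
          intro y
          simp only [LinearMap.comp_apply, LinearMap.add_apply, LinearMap.id_apply, LinearMap.smul_apply,
            LinearMap.smulRight_apply, map_add, map_smul, hψ, smul_eq_mul]
          match_scalars
          · ring
          · field_simp
            ring)
    obtain ⟨d, hd⟩ := exists_ap D
    have hdx : ∀ x, ap d x = x + ((a - 1) * ψ x) • u := by
      intro x
      rw [hd]
      change x + (a - 1) • (ψ x • u) = _
      rw [smul_smul]
    have hdi : ∀ x, ap d⁻¹ x = x + ((a⁻¹ - 1) * ψ x) • u := by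
      intro x
      apply ap_injective d
      rw [ap_ap_inv, hdx]
      simp only [map_add, map_smul, hψ, smul_eq_mul]
      match_scalars
      · ring
      · field_simp
        ring
    have hl' : ((a - 1)⁻¹ • l) u = 0 := by simp [hl]
    obtain ⟨t, ht⟩ := exists_tv hl'
    have : g = d * t * d⁻¹ * t⁻¹ := by
      apply ap_ext
      intro x
      rw [hg, ap_mul, ap_mul, ap_mul, ht.inv hl', hdi, ht, hdx]
      simp only [map_add, map_smul, hψ, smul_eq_mul, LinearMap.neg_apply, LinearMap.smul_apply, hl, neg_smul, map_neg, mul_zero]
      match_scalars
      · ring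
      · field_simp
        ring
    rw [this]
    have h5 := Subgroup.commutator_mem_commutator (Subgroup.mem_top d) (Subgroup.mem_top t)
    rwa [commutatorElement_def] at h5
  · exact (SL_perfect (by simpa using hn)).trans (Subgroup.commutator_mono le_top le_top)

end Cfsg.Agent.S0264
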