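import Cfsg.Statements.S0265
import Cfsg.Agent.H7.SLCard

set_option autoImplicit false
open Cfsg
open Cfsg.Agent.H7.Tv Module Matrix

namespace Cfsg.Agent.S0265

/-- |PGL_n(q)| = |SL_n(q)|: GL_n modulo its centre (the q-1 non-zero scalars) has the same order as the kernel of det. -/
theorem result {F : Type*} [Field F] [Fintype F] (n : ℕ) : Nat.card (Matrix.ProjGenLinGroup (Fin n) F) = Nat.card (Matrix.SpecialLinearGroup (Fin n) F) := by
  classical
  rcases Nat.eq_zero_or_pos n with rfl | hn
  · haveI : Subsingleton (GL (Fin 0) F) := by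
      constructor
      intro a b
      exact Units.ext (Subsingleton.elim _ _)
    haveI : Subsingleton (Matrix.ProjGenLinGroup (Fin 0) F) :=
      (ProjGenLinGroup.mk_surjective (n := Fin 0) (R := F)).subsingleton
    haveI : Subsingleton (Matrix.SpecialLinearGroup (Fin 0) F) := by
      constructor
      intro a b
      exact Subtype.ext (Subsingleton.elim _ _)
    rw [Nat.card_eq_one_iff_unique.2 ⟨inferInstance, ⟨1⟩⟩, Nat.card_eq_one_iff_unique.2 ⟨inferInstance, ⟨1⟩⟩]
  · have h1 : Nat.card (GL (Fin n) F) =
      Nat.card (Matrix.ProjGenLinGroup (Fin n) F) * (Fintype.card F - 1) := by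
      rw [Subgroup.card_eq_card_quotient_mul_card_subgroup (Subgroup.center (GL (Fin n) F)),
        card_gl_center n hn]
      rfl
    rw [card_gl_eq_mul n hn, mul_comm] at h1
    have h2 : 0 < Fintype.card F - 1 := by
      have := Fintype.one_lt_card (α := F)
      omega
    exact (Nat.eq_of_mul_eq_mul_right h2 h1).symm

end Cfsg.Agent.S0265
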