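import Cfsg.Statements.S0266
import Cfsg.Agent.H7.PL2

set_option autoImplicit false
open scoped MatrixGroups
open Cfsg
open Cfsg.Agent.H7 Cfsg.Agent.H7.Tv Cfsg.Agent.H7.GL2 Module Matrix

namespace Cfsg.Agent.S0266

/-- PGL_2(F) is sharply 3-transitive on the projective line: it is 3-transitive and the stabiliser of three distinct points is trivial. -/
theorem result {F : Type*} [Field F] : MulAction.IsMultiplyPretransitive (Matrix.ProjGenLinGroup (Fin 2) F) (Projectivization F (Fin 2 → F)) 3 ∧ ∀ (g : Matrix.ProjGenLinGroup (Fin 2) F) (a b c : Projectivization F (Fin 2 → F)), a ≠ b → a ≠ c → b ≠ c → g • a = a → g • b = b → g • c = c → g = 1 := by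
  constructor
  · constructor
    intro f f'
    have hne : ∀ (f : Fin 3 ↪ Projectivization F (Fin 2 → F)) (i j : Fin 3), i ≠ j → f i ≠ f j := fun f i j h h' => h (f.injective h')
    obtain ⟨g, h0, h1, h2⟩ := exists_perm_points (hne f 0 1 (by decide)) (hne f 0 2 (by decide)) (hne f 1 2 (by decide))
      (hne f' 0 1 (by decide)) (hne f' 0 2 (by decide)) (hne f' 1 2 (by decide))
    have key : ∀ i : Fin 3, (∀ (v : Fin 2 → F) (hv : v ≠ 0), f i = Projectivization.mk F v hv →
        f' i = Projectivization.mk F (ap g v) (fun h => hv (ap_eq_zero.1 h))) →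
        (ProjGenLinGroup.mk g : Matrix.ProjGenLinGroup (Fin 2) F) • f i = f' i := by
      intro i hi
      have h3 := (f i).mk_rep
      have h4 := hi (f i).rep (f i).rep_nonzero h3.symm
      rw [h4]
      conv_lhs => rw [← h3]
      rfl
    refine ⟨ProjGenLinGroup.mk g, ?_⟩
    ext i
    rw [Function.Embedding.smul_apply]
    fin_cases i
    · exact key 0 h0
    · exact key 1 h1
    · exact key 2 h2
  · intro g a b c hab hac hbc ha hb hc
    obtain ⟨x, y, hx, hy, hxy, hd, rfl, rfl, rfl⟩ := exists_frame hab hac hbc
    obtain ⟨g, rfl⟩ := ProjGenLinGroup.mk_surjective g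
    have hact : ∀ (v : Fin 2 → F) (hv : v ≠ 0), (ProjGenLinGroup.mk g : Matrix.ProjGenLinGroup (Fin 2) F) •
        (Projectivization.mk F v hv : Projectivization F (Fin 2 → F)) =
        Projectivization.mk F (ap g v) (fun h => hv (ap_eq_zero.1 h)) := fun v hv => rfl
    rw [hact, Projectivization.mk_eq_mk_iff'] at ha hb hc
    obtain ⟨α, hα⟩ := ha
    obtain ⟨β, hβ⟩ := hb
    obtain ⟨γ, hγ⟩ := hc
    rw [ap_add, ← hα, ← hβ, smul_add] at hγ
    -- compare coordinates
    have e1 : γ * df F x y = α * df F x y := by
      have := congrArg (fun v => df F v y) hγ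
      simpa [df_alt.alt] using this
    have e2 : γ * df F x y = β * df F x y := by
      have := congrArg (fun v => df F x v) hγ
      simpa [df_alt.alt] using this
    have h1 : γ = α := mul_right_cancel₀ hd e1
    have h2 : γ = β := mul_right_cancel₀ hd e2
    subst h1
    subst h2
    have hγ0 : γ ≠ 0 := by
      rintro rfl
      rw [zero_smul] at hα
      exact hx (ap_eq_zero.1 hα.symm)
    have h3 : g = GeneralLinearGroup.scalar (Fin 2) (Units.mk0 γ hγ0) := by
      apply ap_ext
      intro v
      rw [ap_scalar]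
      have h5 : df F x y • v = df F v y • x + df F x v • y := by
        funext i
        simp only [Pi.smul_apply, Pi.add_apply, smul_eq_mul]
        fin_cases i <;> simp only [df_apply, Fin.zero_eta, Fin.mk_one] <;> ring
      have h6 : df F x y • ap g v = df F x y • (γ • v) := by
        rw [← ap_smul, h5, ap_add, ap_smul, ap_smul, ← hα, ← hβ, smul_comm (df F x y) γ v, h5, smul_add, smul_comm γ, smul_comm γ]
      exact (smul_right_injective _ hd) h6
    rw [h3, ProjGenLinGroup.mk_scalar]

end Cfsg.Agent.S0266
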