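import Cfsg.Statements.S0267
import Cfsg.Agent.H7.PL2

set_option autoImplicit false
open Cfsg
open Cfsg.Agent.H7 Cfsg.Agent.H7.Tv Cfsg.Agent.H7.GL2 Module Matrix

namespace Cfsg.Agent.S0267

/-- SL_2(q) is 3-transitive on the q+1 points of the projective line if and only if q is even. -/
theorem result {F : Type*} [Field F] [Fintype F] : MulAction.IsMultiplyPretransitive (Matrix.SpecialLinearGroup (Fin 2) F) (Projectivization F (Fin 2 → F)) 3 ↔ ringChar F = 2 := by
  constructor
  · intro h
    by_contra hch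
    obtain ⟨δ, hδ⟩ := FiniteField.exists_nonsquare hch
    have hδ0 : δ ≠ 0 := by
      rintro rfl
      exact hδ ⟨0, by simp⟩
    have hδ1 : (1 : F) ≠ 0 := one_ne_zero
    have h10 : (![1, 0] : Fin 2 → F) ≠ 0 := fun h => by simpa using congrFun h 0
    have h01 : (![0, 1] : Fin 2 → F) ≠ 0 := fun h => by simpa using congrFun h 1
    have h11 : ∀ c : F, (![1, c] : Fin 2 → F) ≠ 0 := fun c h => by simpa using congrFun h 0
    -- the frames
    let P : F → Fin 3 → Projectivization F (Fin 2 → F) := fun c =>
      ![Projectivization.mk F _ h10, Projectivization.mk F _ h01, Projectivization.mk F _ (h11 c)]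
    have hPne : ∀ c : F, c ≠ 0 → Function.Injective (P c) := by
      intro c hc i j hij
      have e01 : (Projectivization.mk F _ h10 : Projectivization F (Fin 2 → F)) ≠ Projectivization.mk F _ h01 := by
        rw [Ne, mk_eq_iff_df, df_apply]; simp
      have e02 : (Projectivization.mk F _ h10 : Projectivization F (Fin 2 → F)) ≠ Projectivization.mk F _ (h11 c) := by
        rw [Ne, mk_eq_iff_df, df_apply]; simpa using hc
      have e12 : (Projectivization.mk F _ h01 : Projectivization F (Fin 2 → F)) ≠ Projectivization.mk F _ (h11 c) := by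
        rw [Ne, mk_eq_iff_df, df_apply]; simp
      fin_cases i <;> fin_cases j
      · rfl
      · exact absurd hij e01
      · exact absurd hij e02
      · exact absurd hij.symm e01
      · rfl
      · exact absurd hij e12
      · exact absurd hij.symm e02
      · exact absurd hij.symm e12
      · rfl
    obtain ⟨g, hg⟩ := h.exists_smul_eq ⟨P 1, hPne 1 one_ne_zero⟩ ⟨P δ, hPne δ hδ0⟩
    have hgi : ∀ i, g • P 1 i = P δ i := by
      intro i
      have := congrArg (fun f : Fin 3 ↪ Projectivization F (Fin 2 → F) => f i) hg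
      exact this
    have hact : ∀ (v : Fin 2 → F) (hv : v ≠ 0), g • (Projectivization.mk F v hv : Projectivization F (Fin 2 → F)) =
        Projectivization.mk F (ap (SpecialLinearGroup.toGL g) v) (fun h => hv (ap_eq_zero.1 h)) := fun v hv => rfl
    have g0 := hgi 0
    have g1 := hgi 1
    have g2 := hgi 2
    change g • (Projectivization.mk F _ h10) = Projectivization.mk F _ h10 at g0
    change g • (Projectivization.mk F _ h01) = Projectivization.mk F _ h01 at g1
    change g • (Projectivization.mk F _ (h11 1)) = Projectivization.mk F _ (h11 δ) at g2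
    rw [hact, mk_eq_iff_df, df_apply] at g0 g1 g2
    have hd : (g : Matrix (Fin 2) (Fin 2) F).det = 1 := g.2
    rw [Matrix.det_fin_two] at hd
    have hap : ∀ (v : Fin 2 → F) (i : Fin 2), ap (SpecialLinearGroup.toGL g) v i =
        (g : Matrix (Fin 2) (Fin 2) F) i 0 * v 0 + (g : Matrix (Fin 2) (Fin 2) F) i 1 * v 1 := by
      intro v i
      rw [ap_def]
      simp [Matrix.mulVec, dotProduct, Fin.sum_univ_two]
    simp only [hap] at g0 g1 g2
    simp at g0 g1 g2
    rw [g0, mul_zero, sub_zero] at hd
    rw [g0] at g2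
    rw [g1] at g2
    apply hδ
    refine ⟨(g : Matrix (Fin 2) (Fin 2) F) 1 1, ?_⟩
    have h3 : (g : Matrix (Fin 2) (Fin 2) F) 0 0 * δ = (g : Matrix (Fin 2) (Fin 2) F) 1 1 := by linear_combination g2
    calc δ = ((g : Matrix (Fin 2) (Fin 2) F) 0 0 * (g : Matrix (Fin 2) (Fin 2) F) 1 1) * δ := by rw [hd, one_mul]
      _ = (g : Matrix (Fin 2) (Fin 2) F) 1 1 * (g : Matrix (Fin 2) (Fin 2) F) 1 1 := by rw [← h3]; ring
  · intro hch
    constructor
    intro f f'
    have hne : ∀ (f : Fin 3 ↪ Projectivization F (Fin 2 → F)) (i j : Fin 3), i ≠ j → f i ≠ f j := fun f i j h h' => h (f.injective h')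
    obtain ⟨g, h0, h1, h2⟩ := exists_perm_points (hne f 0 1 (by decide)) (hne f 0 2 (by decide)) (hne f 1 2 (by decide))
      (hne f' 0 1 (by decide)) (hne f' 0 2 (by decide)) (hne f' 1 2 (by decide))
    -- make the determinant one
    obtain ⟨s, hs⟩ := FiniteField.isSquare_of_char_two hch (g : Matrix (Fin 2) (Fin 2) F).det
    have hd0 : (g : Matrix (Fin 2) (Fin 2) F).det ≠ 0 := (Matrix.isUnits_det_units g).ne_zero
    have hs0 : s ≠ 0 := by
      rintro rfl
      rw [mul_zero] at hs
      exact hd0 hs
    let k : Matrix.SpecialLinearGroup (Fin 2) F := ⟨s⁻¹ • (g : Matrix (Fin 2) (Fin 2) F), by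
      rw [Matrix.det_smul, hs, Fintype.card_fin]
      field_simp⟩
    have hk : ∀ v, ap (SpecialLinearGroup.toGL k) v = s⁻¹ • ap g v := by
      intro v
      change (s⁻¹ • (g : Matrix (Fin 2) (Fin 2) F)) *ᵥ v = _
      rw [Matrix.smul_mulVec]
      rfl
    have key : ∀ i : Fin 3, (∀ (v : Fin 2 → F) (hv : v ≠ 0), f i = Projectivization.mk F v hv →
        f' i = Projectivization.mk F (ap g v) (fun h => hv (ap_eq_zero.1 h))) → k • f i = f' i := by
      intro i hi
      have h3 := (f i).mk_rep
      have h4 := hi (f i).rep (f i).rep_nonzero h3.symm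
      rw [h4]
      conv_lhs => rw [← h3]
      exact (Projectivization.mk_eq_mk_iff' F (ap (SpecialLinearGroup.toGL k) (f i).rep) (ap g (f i).rep) _ _).2
        ⟨s⁻¹, (hk _).symm⟩
    refine ⟨k, ?_⟩
    ext i
    rw [Function.Embedding.smul_apply]
    fin_cases i
    · exact key 0 h0
    · exact key 1 h1
    · exact key 2 h2

end Cfsg.Agent.S0267
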