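import Cfsg.Statements.S0270
import Cfsg.Agent.H7.SympSimple

set_option autoImplicit false
open Cfsg
open Cfsg.Agent.H7.Tv Module Matrix

namespace Cfsg.Agent.S0270

/-- PSp_{2m}(q) is simple for m at least 2 and (m, q) other than (2, 2). -/
theorem result {F : Type*} [Field F] [Fintype F] (m : ℕ) (hm : 2 ≤ m) (h : m = 2 → 3 ≤ Fintype.card F) : IsSimpleGroup (Cfsg.PSp m F) := by
  have hperf : commutator (Matrix.symplecticGroup (Fin m) F) = ⊤ := sp_perfect m (by
    rcases Nat.lt_or_ge m 3 with h1 | h1
    · have : m = 2 := by omega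
      exact Or.inr (Or.inl ⟨this, h this⟩)
    · exact Or.inl h1)
  have hnt : Nontrivial (Cfsg.PSp m F) := by
    rw [QuotientGroup.nontrivial_iff]
    intro h1
    have h2 : commutator (Matrix.symplecticGroup (Fin m) F) = ⊥ := by
      rw [commutator_eq_bot_iff_center_eq_top]
      exact h1
    rw [hperf] at h2
    exact sp_ne_bot (by omega) h2
  refine { eq_bot_or_eq_top_of_normal := fun K hK => ?_ }
  by_cases hKc : K.comap (QuotientGroup.mk' (Subgroup.center (Matrix.symplecticGroup (Fin m) F))) ≤ Subgroup.center (Matrix.symplecticGroup (Fin m) F)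
  · left
    rw [eq_bot_iff]
    intro x hx
    obtain ⟨g, rfl⟩ := QuotientGroup.mk'_surjective _ x
    rw [Subgroup.mem_bot]
    have : g ∈ Subgroup.center (Matrix.symplecticGroup (Fin m) F) := hKc hx
    exact (QuotientGroup.eq_one_iff g).2 this
  · right
    have h1 := sp_normal_eq_top hm hperf (K.comap (QuotientGroup.mk' (Subgroup.center (Matrix.symplecticGroup (Fin m) F)))) hKc
    rw [eq_top_iff]
    intro x _
    obtain ⟨g, rfl⟩ := QuotientGroup.mk'_surjective _ x
    have : g ∈ K.comap (QuotientGroup.mk' (Subgroup.center (Matrix.symplecticGroup (Fin m) F))) := by rw [h1]; trivial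
    exact this

end Cfsg.Agent.S0270
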