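import Cfsg.Statements.S0271
import Cfsg.Agent.H7.SympBridge

set_option autoImplicit false
open Cfsg
open Cfsg.Agent.H7.Tv Module Matrix

namespace Cfsg.Agent.S0271

/-- Sp_{2m}(F) is transitive on non-zero vectors. -/
theorem result {F : Type*} [Field F] (m : ℕ) (v w : Fin m ⊕ Fin m → F) (hv : v ≠ 0) (hw : w ≠ 0) : ∃ g : Matrix.symplecticGroup (Fin m) F, (g : Matrix (Fin m ⊕ Fin m) (Fin m ⊕ Fin m) F).mulVec v = w := by
  classical
  have hf := sf_alt (F := F) m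
  have hM : ∀ u ∈ (⊤ : Submodule F (Fin m ⊕ Fin m → F)), Ctr (sf m F) (spGL m F) u := by
    intro u _ c g hg
    exact stv_mem_spGL hg
  obtain ⟨g, hg, -, hgv, -⟩ := move hf hM hf.nd_top (Submodule.mem_top (x := v)) (Submodule.mem_top (x := w)) hv hw
  obtain ⟨A, hA⟩ := exists_spToGL hg
  refine ⟨A, ?_⟩
  rw [← hgv, ← hA]
  rfl

end Cfsg.Agent.S0271
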