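import Cfsg.Statements.S0276
import Cfsg.Agent.S0243
import Cfsg.Agent.S0268
import Cfsg.Agent.S0800

set_option autoImplicit false
open Cfsg

namespace Cfsg.Agent.S0276

/-- For q = 3 or 5 mod 8 the Sylow 2-subgroups of PSL_2(q) are elementary abelian of order 4. -/
theorem result {F : Type*} [Field F] [Fintype F] {q : ℕ} (hF : Fintype.card F = q) (hq : q % 8 = 3 ∨ q % 8 = 5) (P : Sylow 2 (Matrix.ProjectiveSpecialLinearGroup (Fin 2) F)) : IsKleinFour (P : Subgroup (Matrix.ProjectiveSpecialLinearGroup (Fin 2) F)) := by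
  classical
  set G := Matrix.ProjectiveSpecialLinearGroup (Fin 2) F with hG
  have hodd : q % 2 = 1 := by omega
  have hq3 : 3 ≤ q := by omega
  haveI : Finite G := inferInstance
  -- the order
  have hcard : 2 * Nat.card G = (q + 1) * q * (q - 1) := by
    have h := S0243.result hF 2 le_rfl
    have hg : Nat.gcd 2 (q - 1) = 2 := by
      apply Nat.gcd_eq_left
      omega
    rw [hg, Fin.prod_univ_two] at h
    simp only [Fin.val_zero, Fin.val_one, pow_zero, pow_one] at h
    obtain ⟨k, rfl⟩ : ∃ k, q = k + 1 := ⟨q - 1, by omega⟩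
    have e1 : (k + 1) ^ 2 - 1 = k * (k + 2) := by
      have : (k + 1) ^ 2 = k * (k + 2) + 1 := by ring
      omega
    have e2 : (k + 1) ^ 2 - (k + 1) = k * (k + 1) := by
      have : (k + 1) ^ 2 = k * (k + 1) + (k + 1) := by ring
      omega
    rw [e1, e2, Nat.add_sub_cancel] at h
    have hk : 0 < k := by omega
    apply Nat.eq_of_mul_eq_mul_left hk
    rw [Nat.add_sub_cancel]
    rw [show k * (2 * Nat.card G) = 2 * (k * Nat.card G) by ring]
    rw [h]; ring
  obtain ⟨c, hc⟩ : ∃ c, Nat.card G = 4 * (2 * c + 1) := by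
    have h8 : ∃ d, (q + 1) * (q - 1) = 8 * (2 * d + 1) := by
      rcases hq with h | h
      · obtain ⟨k, rfl⟩ : ∃ k, q = 8 * k + 3 := ⟨q / 8, by omega⟩
        refine ⟨4 * k * k + 3 * k, ?_⟩
        rw [show 8 * k + 3 + 1 = 4 * (2 * k + 1) by ring, show 8 * k + 3 - 1 = 2 * (4 * k + 1) by omega]
        ring
      · obtain ⟨k, rfl⟩ : ∃ k, q = 8 * k + 5 := ⟨q / 8, by omega⟩
        refine ⟨4 * k * k + 5 * k + 1, ?_⟩
        rw [show 8 * k + 5 + 1 = 2 * (4 * k + 3) by ring, show 8 * k + 5 - 1 = 4 * (2 * k + 1) by omega]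
        ring
    obtain ⟨d, hd⟩ := h8
    obtain ⟨m, hm⟩ : ∃ m, q = 2 * m + 1 := ⟨q / 2, by omega⟩
    refine ⟨m * (2 * d + 1) + d, ?_⟩
    have : 2 * Nat.card G = 2 * (4 * (2 * (m * (2 * d + 1) + d) + 1)) := by
      rw [hcard, mul_right_comm, hd, hm]; ring
    omega
  have hP4 : Nat.card P = 4 := by
    rw [Sylow.card_eq_multiplicity, hc]
    have h1 : (4 * (2 * c + 1)).factorization 2 = 2 := by
      rw [Nat.factorization_mul (by norm_num) (by omega)]
      have h2 : (2 * c + 1).factorization 2 = 0 := Nat.factorization_eq_zero_of_not_dvd (by omega)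
      have h3 : (4 : ℕ).factorization 2 = 2 := by
        rw [show (4 : ℕ) = 2 ^ 2 by norm_num, Nat.Prime.factorization_pow Nat.prime_two]
        simp
      simp [h2, h3]
    rw [h1]; norm_num
  obtain ⟨p, hp⟩ := CharP.exists F
  haveI := hp
  have hpp : p.Prime := (CharP.char_is_prime_or_zero F p).resolve_right (by
    rintro rfl
    haveI := CharP.charP_to_charZero F
    exact not_finite F)
  haveI : Fact p.Prime := ⟨hpp⟩
  have hp2 : p ≠ 2 := by
    rintro rfl
    obtain ⟨n, -, hn⟩ := FiniteField.card F 2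
    rw [hF] at hn
    have : q % 2 = 0 := by
      rw [hn]
      exact Nat.mod_eq_zero_of_dvd (dvd_pow_self 2 n.ne_zero)
    omega
  have hsq : ∀ g : P, g ^ 2 = 1 := by
    intro g
    by_contra hne
    have h4 : g ^ 4 = 1 := by rw [← hP4]; exact pow_card_eq_one'
    obtain ⟨x, hx⟩ := QuotientGroup.mk_surjective (g : G)
    have hx4 : x ^ 4 ∈ Subgroup.center (Matrix.SpecialLinearGroup (Fin 2) F) := by
      rw [← QuotientGroup.eq_one_iff, QuotientGroup.mk_pow, hx]
      have := congrArg Subtype.val h4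
      simpa using this
    have hx2 : x ^ 2 ∉ Subgroup.center (Matrix.SpecialLinearGroup (Fin 2) F) := by
      intro h
      rw [← QuotientGroup.eq_one_iff, QuotientGroup.mk_pow, hx] at h
      exact hne (Subtype.ext (by simpa using h))
    have hneg : ∀ y : Matrix.SpecialLinearGroup (Fin 2) F, (y : Matrix (Fin 2) (Fin 2) F) = -1 →
        y ∈ Subgroup.center (Matrix.SpecialLinearGroup (Fin 2) F) := by
      intro y hy
      rw [Subgroup.mem_center_iff]
      intro z
      apply Subtype.ext
      change (z : Matrix (Fin 2) (Fin 2) F) * y = y * z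
      rw [hy]; simp
    have hord : x ^ 4 ≠ 1 := by
      intro h
      apply hx2
      apply hneg
      refine S0268.result ?_ (x ^ 2) (fun h2 => hx2 (by rw [h2]; exact Subgroup.one_mem _)) ?_
      · rw [hF]; exact Nat.odd_iff.2 hodd
      · rw [← pow_add]; exact h
    have h8 : x ^ 8 = 1 := by
      rw [Matrix.SpecialLinearGroup.mem_center_iff] at hx4
      obtain ⟨r, hr, hr'⟩ := hx4
      rw [show (8 : ℕ) = 4 * 2 by norm_num, pow_mul]
      apply Subtype.ext
      rw [Matrix.SpecialLinearGroup.coe_pow, ← hr', ← map_pow]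
      rw [Fintype.card_fin] at hr
      rw [hr, map_one]; rfl
    have ho : orderOf x = 8 := by
      have h1 : orderOf x ∣ 2 ^ 3 := orderOf_dvd_of_pow_eq_one h8
      obtain ⟨k, hk, hk'⟩ := (Nat.dvd_prime_pow Nat.prime_two).1 h1
      interval_cases k
      · exact absurd (by rw [← orderOf_dvd_iff_pow_eq_one, hk']; norm_num) hord
      · exact absurd (by rw [← orderOf_dvd_iff_pow_eq_one, hk']; norm_num) hord
      · exact absurd (by rw [← orderOf_dvd_iff_pow_eq_one, hk']; norm_num) hord
      · exact hk'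
    have h9 := S0800.result hF p x (by
      rw [ho]
      exact (Nat.coprime_pow_left_iff (n := 3) (by norm_num) 2 p).2 ((Nat.coprime_primes Nat.prime_two hpp).2 hp2.symm))
    rw [ho] at h9
    omega
  refine ⟨hP4, ?_⟩
  have h1 : Monoid.exponent P ∣ 2 := Monoid.exponent_dvd_of_forall_pow_eq_one hsq
  rcases (Nat.dvd_prime Nat.prime_two).1 h1 with h | h
  · exfalso
    rw [Monoid.exp_eq_one_iff] at h
    have : Nat.card P = 1 := Nat.card_unique
    omega
  · exact h

end Cfsg.Agent.S0276
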