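import Cfsg.Statements.S0282
import Cfsg.Agent.H7.PSU32

set_option autoImplicit false
open Cfsg
open Cfsg.Agent.H7 Cfsg.Agent.H7.UTv

namespace Cfsg.Agent.S0282

/-- PSU_3(2) is a solvable group of order 72. -/
theorem result {F : Type*} [Field F] [Fintype F] (hF : Fintype.card F = 4) : Nat.card (Cfsg.PSU 3 F 2) = 72 ∧ Group.IsSolvable (Cfsg.PSU 3 F 2) := by
  obtain ⟨h1, N, hN, hN9, -, ⟨e⟩⟩ := psu32 hF
  refine ⟨h1, ?_⟩
  haveI : Fact (Nat.Prime 3) := ⟨Nat.prime_three⟩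
  haveI : Fact (Nat.Prime 2) := ⟨Nat.prime_two⟩
  have hp1 : IsPGroup 3 N := IsPGroup.of_card (n := 2) (by rw [hN9]; norm_num)
  have hp2 : IsPGroup 2 (Cfsg.PSU 3 F 2 ⧸ N) := IsPGroup.of_card (n := 3) (by
    rw [Nat.card_congr e.toEquiv, Nat.card_eq_fintype_card, QuaternionGroup.card]
    norm_num)
  haveI : Finite (Cfsg.PSU 3 F 2 ⧸ N) := Finite.of_equiv _ e.symm.toEquiv
  haveI : Finite N := Nat.finite_of_card_ne_zero (by rw [hN9]; norm_num)
  haveI := hp1.isNilpotent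
  haveI := hp2.isNilpotent
  exact Group.isSolvable_of_ker_le_range N.subtype (QuotientGroup.mk' N) (by
    rw [QuotientGroup.ker_mk', Subgroup.range_subtype])

end Cfsg.Agent.S0282
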