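import Cfsg.Statements.S0292
import Cfsg.Agent.H7.OrthOrder

set_option autoImplicit false
open Cfsg
open Module Cfsg.Agent.H7 Cfsg.Agent.H7.Orth Cfsg.Agent.H7.Tv

namespace Cfsg.Agent.S0292

/-- 2 |PΩ_{2m+1}(q)| = q^(m^2) prod_{i=1}^{m} (q^(2i) - 1), for q odd and m at least 3 (type B_m). -/
theorem result {F : Type*} [Field F] [Fintype F] {q : ℕ} (hF : Fintype.card F = q) (hodd : Odd q) (m : ℕ) (hm : 3 ≤ m) : 2 * Nat.card (Cfsg.POmega F (Cfsg.quadFormOdd m F)) = q ^ (m ^ 2) * ∏ i ∈ Finset.range m, (q ^ (2 * (i + 1)) - 1) := by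
  have h2 : (2 : F) ≠ 0 := two_ne_zero_of_odd (by rw [hF]; exact hodd)
  obtain ⟨B, hQ⟩ := exists_qf_odd (F := F) m h2
  have hc : Fintype.card (Unit ⊕ (Fin m ⊕ Fin m)) = 1 + (m + m) := by simp
  have h1 := card_pomega hQ
  rw [Quad.card_O_odd hF hodd, omega_index hQ h2 (by omega), card_center_one hQ (by omega) (Or.inr ?_)] at h1
  · rw [mul_one, mul_assoc 2] at h1
    omega
  · intro h
    have h3 : detH (quadFormOdd m F) (ngI hQ) = 1 := by
      have h5 : ngI hQ ∈ (detH (quadFormOdd m F)).ker := Abelianization.commutator_subset_ker _ h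
      exact h5
    have h4 : ((-1 : Matrix.GeneralLinearGroup (Unit ⊕ (Fin m ⊕ Fin m)) F) :
        Matrix (Unit ⊕ (Fin m ⊕ Fin m)) (Unit ⊕ (Fin m ⊕ Fin m)) F).det = 1 := congrArg Units.val h3
    rw [Units.val_neg, Units.val_one, Matrix.det_neg, Matrix.det_one, mul_one, hc,
      Odd.neg_one_pow ⟨m, by ring⟩] at h4
    exact h2 (by linear_combination -h4)

end Cfsg.Agent.S0292
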