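import Cfsg.Statements.S0293
import Cfsg.Agent.H7.OrthOrder

set_option autoImplicit false
open Cfsg
open Module Cfsg.Agent.H7 Cfsg.Agent.H7.Orth Cfsg.Agent.H7.Tv

namespace Cfsg.Agent.S0293

/-- gcd(4, q^m - 1) |PΩ^+_{2m}(q)| = q^(m(m-1)) (q^m - 1) prod_{i=1}^{m-1} (q^(2i) - 1), m at least 4 (type D_m). -/
theorem result {F : Type*} [Field F] [Fintype F] {q : ℕ} (hF : Fintype.card F = q) (m : ℕ) (hm : 4 ≤ m) : Nat.gcd 4 (q ^ m - 1) * Nat.card (Cfsg.POmega F (Cfsg.quadFormPlus m F)) = q ^ (m * (m - 1)) * (q ^ m - 1) * ∏ i ∈ Finset.range (m - 1), (q ^ (2 * (i + 1)) - 1) := by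
  obtain ⟨B, hQ⟩ := exists_qf_plus (F := F) m
  have hc : Fintype.card (Fin m ⊕ Fin m) = m + m := by simp
  have h7 : 7 ≤ Fintype.card (Fin m ⊕ Fin m) := by rw [hc]; omega
  have h1 := card_pomega hQ
  rw [Quad.card_O_plus hF m (by omega)] at h1
  have hqp : 0 < q := by rw [← hF]; exact Fintype.card_pos
  have hqm : 1 ≤ q ^ m := Nat.one_le_pow _ _ hqp
  by_cases hodd : Odd q
  · have h2 : (2 : F) ≠ 0 := two_ne_zero_of_odd (by rw [hF]; exact hodd)
    rw [omega_index hQ h2 (by omega)] at h1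
    have h3 := ng_mem_omega hQ h2 (by omega) (by rw [hc]; exact ⟨m, rfl⟩)
    rw [card_plus_one hF] at h3
    have hq1 : Odd (q ^ m) := hodd.pow
    have hq2 : Odd (q ^ (m - 1)) := hodd.pow
    have hcop : Nat.Coprime 4 (q ^ (m - 1)) := by
      have h4 : Nat.Coprime 2 (q ^ (m - 1)) := (Nat.coprime_two_left).2 hq2
      have := Nat.Coprime.pow_left 2 h4
      exact this
    rw [hcop.dvd_mul_right] at h3
    obtain ⟨k, hk⟩ := hq1
    by_cases h4 : 4 ∣ (q ^ m - 1)
    · rw [card_center_two hQ h7 h2 (h3.2 h4)] at h1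
      rw [Nat.gcd_eq_left h4]
      have h5 : 2 * (4 * Nat.card (POmega F (quadFormPlus m F))) = 2 * (q ^ (m * (m - 1)) * (q ^ m - 1) * ∏ i ∈ Finset.range (m - 1), (q ^ (2 * (i + 1)) - 1)) := by
        rw [show 2 * (4 * Nat.card (POmega F (quadFormPlus m F))) = Nat.card (POmega F (quadFormPlus m F)) * 2 * 4 by ring, h1]
        ring
      omega
    · rw [card_center_one hQ h7 (Or.inr (fun h => h4 (h3.1 h)))] at h1
      have h6 : Nat.gcd 4 (q ^ m - 1) = 2 := by
        have h8 : 2 ∣ (q ^ m - 1) := by rw [hk]; omega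
        obtain ⟨j, hj⟩ := h8
        rw [hj] at h4 ⊢
        have h9 : Nat.gcd 4 (2 * j) = 2 * Nat.gcd 2 j := by rw [show 4 = 2 * 2 by norm_num, Nat.gcd_mul_left]
        have h10 : Nat.Coprime 2 j := (Nat.coprime_two_left).2 (by
          rw [← Nat.not_even_iff_odd]
          rintro ⟨r, hr⟩
          exact h4 ⟨r, by omega⟩)
        rw [h9, h10.gcd_eq_one]
      rw [h6]
      have h5 : 2 * (2 * Nat.card (POmega F (quadFormPlus m F))) = 2 * (q ^ (m * (m - 1)) * (q ^ m - 1) * ∏ i ∈ Finset.range (m - 1), (q ^ (2 * (i + 1)) - 1)) := by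
        rw [show 2 * (2 * Nat.card (POmega F (quadFormPlus m F))) = Nat.card (POmega F (quadFormPlus m F)) * 1 * 4 by ring, h1]
        ring
      omega
  · have h2 : (2 : F) = 0 := two_zero_of_even (by rw [hF]; exact hodd)
    rw [index_even' hQ h7 h2, card_center_one hQ h7 (Or.inl h2)] at h1
    have h6 : Nat.gcd 4 (q ^ m - 1) = 1 := by
      rw [Nat.not_odd_iff_even] at hodd
      have h8 : Even (q ^ m) := (Nat.even_pow).2 ⟨hodd, by omega⟩
      have h9 : Odd (q ^ m - 1) := by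
        obtain ⟨r, hr⟩ := h8
        rw [hr] at hqm ⊢
        exact ⟨r - 1, by omega⟩
      have h4 : Nat.Coprime 2 (q ^ m - 1) := (Nat.coprime_two_left).2 h9
      exact Nat.Coprime.pow_left 2 h4
    rw [h6]
    have h5 : 2 * (1 * Nat.card (POmega F (quadFormPlus m F))) = 2 * (q ^ (m * (m - 1)) * (q ^ m - 1) * ∏ i ∈ Finset.range (m - 1), (q ^ (2 * (i + 1)) - 1)) := by
      rw [show 2 * (1 * Nat.card (POmega F (quadFormPlus m F))) = Nat.card (POmega F (quadFormPlus m F)) * 1 * 2 by ring, h1]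
      ring
    omega

end Cfsg.Agent.S0293
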