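import Cfsg.Statements.S0298
import Cfsg.Agent.H7.IsoCl2
import Cfsg.Agent.S0242

set_option autoImplicit false
open Cfsg
open Matrix Cfsg.Agent.H7.IsoCl Cfsg.Agent.H7.Orth Cfsg.Agent.H7.Rho Cfsg.Agent.H7.SL2

namespace Cfsg.Agent.S0298

variable {F : Type*} [Field F]

abbrev V3 (F : Type*) := Unit ⊕ (Fin 1 ⊕ Fin 1) → F

/-- the trace zero matrices -/
def E (w : V3 F) : Matrix (Fin 2) (Fin 2) F := !![w (.inl ()), w (.inr (.inl 0)); w (.inr (.inr 0)), -w (.inl ())]

/-- coordinates -/
def D (A : Matrix (Fin 2) (Fin 2) F) : V3 F := Sum.elim (fun _ => A 0 0) (Sum.elim (fun _ => A 0 1) (fun _ => A 1 0))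

theorem D_E (w : V3 F) : D (E w) = w := by
  ext (i | (i | i))
  · rfl
  · fin_cases i; rfl
  · fin_cases i; rfl

theorem E_D (A : Matrix (Fin 2) (Fin 2) F) (h : A 1 1 = - A 0 0) : E (D A) = A := by
  ext i j
  fin_cases i <;> fin_cases j <;> simp [D, E, h]

theorem E_add (v w : V3 F) : E (v + w) = E v + E w := by
  ext i j
  fin_cases i <;> fin_cases j <;> simp [E] ; ring

theorem E_smul (c : F) (w : V3 F) : E (c • w) = c • E w := by
  ext i j
  fin_cases i <;> fin_cases j <;> simp [E]

theorem E_inj {v w : V3 F} (h : E v = E w) : v = w := by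
  rw [← D_E v, h, D_E]

theorem E_q (w : V3 F) : - (E w).det = quadFormOdd 1 F w := by
  simp [quadFormOdd, E, Matrix.det_fin_two]
  ring

/-- the action -/
def ac (g : SpecialLinearGroup (Fin 2) F) (w : V3 F) : V3 F := D (g.1 * E w * (g⁻¹).1)

theorem inv_mul (g : SpecialLinearGroup (Fin 2) F) : (g⁻¹).1 * g.1 = 1 := by
  rw [← Matrix.SpecialLinearGroup.coe_mul, inv_mul_cancel, Matrix.SpecialLinearGroup.coe_one]

theorem mul_inv (g : SpecialLinearGroup (Fin 2) F) : g.1 * (g⁻¹).1 = 1 := by
  rw [← Matrix.SpecialLinearGroup.coe_mul, mul_inv_cancel, Matrix.SpecialLinearGroup.coe_one]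

theorem E_ac (g : SpecialLinearGroup (Fin 2) F) (w : V3 F) : E (ac g w) = g.1 * E w * (g⁻¹).1 := by
  rw [ac, E_D]
  have h : (g.1 * E w * (g⁻¹).1).trace = (E w).trace := by
    rw [Matrix.trace_mul_comm, ← mul_assoc, inv_mul, one_mul]
  rw [Matrix.trace_fin_two, Matrix.trace_fin_two] at h
  have h1 : E w 0 0 + E w 1 1 = 0 := by simp [E]
  linear_combination h + h1

/-- the representation -/
def rep (F : Type*) [Field F] : Rep F (quadFormOdd 1 F) (SpecialLinearGroup (Fin 2) F) where
  act := ac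
  one w := by
    apply E_inj
    rw [E_ac, inv_one, Matrix.SpecialLinearGroup.coe_one, one_mul, mul_one]
  mul g h w := by
    apply E_inj
    rw [E_ac, E_ac, E_ac, _root_.mul_inv_rev, Matrix.SpecialLinearGroup.coe_mul, Matrix.SpecialLinearGroup.coe_mul]
    simp only [mul_assoc]
  add g v w := by
    apply E_inj
    rw [E_ac, E_add, E_add, E_ac, E_ac, mul_add, add_mul]
  smul g c w := by
    apply E_inj
    rw [E_ac, E_smul, E_smul, E_ac, mul_smul_comm, smul_mul_assoc]
  q g w := by
    rw [← E_q, E_ac, Matrix.det_mul, Matrix.det_mul, g.2, (g⁻¹).2, one_mul, mul_one, E_q]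

theorem scalar_of_comm (g : SpecialLinearGroup (Fin 2) F) (h : ∀ w : V3 F, g.1 * E w = E w * g.1) : g = 1 ∨ g = -1 := by
  obtain ⟨a, b, c, d, hd, rfl⟩ := exists_S g
  have h1 := h (Sum.elim (fun _ => 0) (Sum.elim (fun _ => 1) (fun _ => 0)))
  have h2 := h (Sum.elim (fun _ => 0) (Sum.elim (fun _ => 0) (fun _ => 1)))
  have e1 := congrFun (congrFun h1 0) 0
  have e2 := congrFun (congrFun h1 0) 1
  have e3 := congrFun (congrFun h2 0) 0
  simp [E, coe_S, Matrix.mul_apply, Fin.sum_univ_two] at e1 e2 e3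
  subst e1
  subst e2
  subst e3
  have h3 : (a - 1) * (a + 1) = 0 := by linear_combination hd
  rcases mul_eq_zero.1 h3 with h3 | h3
  · left
    rw [S_one]
    apply S_eq
    · linear_combination h3
    · rfl
    · rfl
    · linear_combination h3
  · right
    rw [S_neg_one]
    apply S_eq
    · linear_combination h3
    · rfl
    · rfl
    · linear_combination h3

theorem mem_ker (g : SpecialLinearGroup (Fin 2) F) : g ∈ (rep F).rho.ker ↔ g = 1 ∨ g = -1 := by
  rw [(rep F).mem_ker]
  change (∀ w, ac g w = w) ↔ _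
  constructor
  · intro h
    apply scalar_of_comm
    intro w
    have h1 := E_ac g w
    rw [h] at h1
    calc g.1 * E w = g.1 * E w * ((g⁻¹).1 * g.1) := by rw [inv_mul, mul_one]
      _ = g.1 * E w * (g⁻¹).1 * g.1 := by rw [mul_assoc _ (g⁻¹).1 g.1]
      _ = E w * g.1 := by rw [← h1]
  · rintro (rfl | rfl) w
    · exact (rep F).one w
    · apply E_inj
      rw [E_ac, inv_neg, inv_one, Matrix.SpecialLinearGroup.coe_neg, Matrix.SpecialLinearGroup.coe_one, neg_one_mul, mul_neg_one, neg_neg]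

/-- PΩ_3(q) is isomorphic to PSL_2(q) for q odd. -/
theorem result {F : Type*} [Field F] [Fintype F] (hodd : Odd (Fintype.card F)) : Nonempty (Cfsg.POmega F (Cfsg.quadFormOdd 1 F) ≃* Matrix.ProjectiveSpecialLinearGroup (Fin 2) F) := by
  have h2 := two_ne hodd
  obtain ⟨B, hQ⟩ := exists_qf_odd (F := F) 1 h2
  have hsl := S0242.result (F := F) rfl 2 (by norm_num)
  have ho := Cfsg.Agent.H7.Quad.card_O_odd (F := F) rfl hodd 1
  have hq : 2 ≤ Fintype.card F := Fintype.one_lt_card
  have ho' : Nat.card (isometryGroup F (quadFormOdd 1 F)) = 2 * Nat.card (SpecialLinearGroup (Fin 2) F) := by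
    have e : Nat.card (SpecialLinearGroup (Fin 2) F) = Fintype.card F * (Fintype.card F ^ 2 - 1) := by
      rw [Fin.prod_univ_two] at hsl
      change (Fintype.card F - 1) * _ = (Fintype.card F ^ 2 - Fintype.card F ^ 0) * (Fintype.card F ^ 2 - Fintype.card F ^ 1) at hsl
      have e1 : Fintype.card F ^ 2 - Fintype.card F ^ 1 = Fintype.card F * (Fintype.card F - 1) := by
        rw [Nat.mul_sub, mul_one, pow_one]; congr 1; ring
      rw [e1, pow_zero] at hsl
      apply Nat.eq_of_mul_eq_mul_left (show 0 < Fintype.card F - 1 by omega)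
      rw [hsl]
      ring
    rw [ho, e]
    simp [Finset.prod_range_succ]
    ring
  have hne : (-1 : SpecialLinearGroup (Fin 2) F) ≠ 1 := by
    intro h
    have h3 := congrFun (congrFun (congrArg Subtype.val h) 0) 0
    have h4 : -(1 : F) = 1 := by simpa using h3
    exact h2 (by linear_combination -h4)
  have hA : ∀ a : (rep F).rho.ker, a ^ 4 = 1 := by
    intro a
    have := pow_card_eq_one' (x := a)
    rw [card_two hne mem_ker] at this
    rw [show (4 : ℕ) = 2 * 2 by norm_num, pow_mul, this, one_pow]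
  refine pomega_equiv2 hQ (by simp) (rep F).rho ?_ (sl2_triv hodd (ab_pow_four hQ h2 (by simp))) (sl2_triv hodd hA) (fun h => absurd h h2) ?_
  · intro g hg
    rw [Subgroup.mem_center_iff]
    intro z
    rcases (mem_ker g).1 hg with rfl | rfl
    · rw [mul_one, one_mul]
    · rw [mul_neg_one, neg_one_mul]
  · intro _
    rw [card_two hne mem_ker, ho']
    ring

end Cfsg.Agent.S0298
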