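import Cfsg.Statements.S0299
import Cfsg.Agent.H7.IsoCl2
import Cfsg.Agent.S0242

set_option autoImplicit false
open Cfsg
open Matrix Cfsg.Agent.H7.IsoCl Cfsg.Agent.H7.Orth Cfsg.Agent.H7.Rho Cfsg.Agent.H7.SL2

namespace Cfsg.Agent.S0299

variable {F : Type*} [Field F]

abbrev V4 (F : Type*) := Fin 2 ⊕ Fin 2 → F

/-- the matrices -/
def E (w : V4 F) : Matrix (Fin 2) (Fin 2) F := !![w (.inl 0), w (.inl 1); -w (.inr 1), w (.inr 0)]

/-- coordinates -/
def D (A : Matrix (Fin 2) (Fin 2) F) : V4 F := Sum.elim ![A 0 0, A 0 1] ![A 1 1, -A 1 0]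

theorem D_E (w : V4 F) : D (E w) = w := by
  ext (i | i) <;> fin_cases i <;> simp [D, E]

theorem E_D (A : Matrix (Fin 2) (Fin 2) F) : E (D A) = A := by
  ext i j
  fin_cases i <;> fin_cases j <;> simp [D, E]

theorem E_add (v w : V4 F) : E (v + w) = E v + E w := by
  ext i j
  fin_cases i <;> fin_cases j <;> simp [E] ; ring

theorem E_smul (c : F) (w : V4 F) : E (c • w) = c • E w := by
  ext i j
  fin_cases i <;> fin_cases j <;> simp [E]

theorem E_inj {v w : V4 F} (h : E v = E w) : v = w := by
  rw [← D_E v, h, D_E]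

theorem E_q (w : V4 F) : (E w).det = quadFormPlus 2 F w := by
  simp [quadFormPlus, E, Matrix.det_fin_two, Fin.sum_univ_two]

/-- the action -/
def ac (g : SpecialLinearGroup (Fin 2) F × SpecialLinearGroup (Fin 2) F) (w : V4 F) : V4 F := D (g.1.1 * E w * (g.2⁻¹).1)

theorem inv_mul (g : SpecialLinearGroup (Fin 2) F) : (g⁻¹).1 * g.1 = 1 := by
  rw [← Matrix.SpecialLinearGroup.coe_mul, inv_mul_cancel, Matrix.SpecialLinearGroup.coe_one]

theorem E_ac (g : SpecialLinearGroup (Fin 2) F × SpecialLinearGroup (Fin 2) F) (w : V4 F) : E (ac g w) = g.1.1 * E w * (g.2⁻¹).1 := by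
  rw [ac, E_D]

/-- the representation -/
def rep (F : Type*) [Field F] : Rep F (quadFormPlus 2 F) (SpecialLinearGroup (Fin 2) F × SpecialLinearGroup (Fin 2) F) where
  act := ac
  one w := by
    apply E_inj
    rw [E_ac, Prod.fst_one, Prod.snd_one, inv_one, Matrix.SpecialLinearGroup.coe_one, one_mul, mul_one]
  mul g h w := by
    apply E_inj
    rw [E_ac, E_ac, E_ac, Prod.fst_mul, Prod.snd_mul, _root_.mul_inv_rev, Matrix.SpecialLinearGroup.coe_mul, Matrix.SpecialLinearGroup.coe_mul]
    simp only [mul_assoc]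
  add g v w := by
    apply E_inj
    rw [E_ac, E_add, E_add, E_ac, E_ac, mul_add, add_mul]
  smul g c w := by
    apply E_inj
    rw [E_ac, E_smul, E_smul, E_ac, mul_smul_comm, smul_mul_assoc]
  q g w := by
    rw [← E_q, E_ac, Matrix.det_mul, Matrix.det_mul, g.1.2, (g.2⁻¹).2, one_mul, mul_one, E_q]

theorem scalar_of_comm (g : SpecialLinearGroup (Fin 2) F) (h : ∀ A : Matrix (Fin 2) (Fin 2) F, g.1 * A = A * g.1) : g = 1 ∨ g = -1 := by
  obtain ⟨a, b, c, d, hd, rfl⟩ := exists_S g
  have h1 := h !![0, 1; 0, 0]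
  have h2 := h !![0, 0; 1, 0]
  have e1 := congrFun (congrFun h1 0) 0
  have e2 := congrFun (congrFun h1 0) 1
  have e3 := congrFun (congrFun h2 0) 0
  simp [coe_S, Matrix.mul_apply, Fin.sum_univ_two] at e1 e2 e3
  subst e1
  subst e2
  subst e3
  have h3 : (a - 1) * (a + 1) = 0 := by linear_combination hd
  rcases mul_eq_zero.1 h3 with h3 | h3
  · left
    rw [S_one]
    apply S_eq
    · linear_combination h3
    · rfl
    · rfl
    · linear_combination h3
  · right
    rw [S_neg_one]
    apply S_eq
    · linear_combination h3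
    · rfl
    · rfl
    · linear_combination h3

theorem mem_ker (g : SpecialLinearGroup (Fin 2) F × SpecialLinearGroup (Fin 2) F) : g ∈ (rep F).rho.ker ↔ g = 1 ∨ g = (-1, -1) := by
  rw [(rep F).mem_ker]
  change (∀ w, ac g w = w) ↔ _
  constructor
  · intro h
    have h1 : ∀ A : Matrix (Fin 2) (Fin 2) F, g.1.1 * A = A * g.2.1 := by
      intro A
      have h1 := E_ac g (D A)
      rw [h, E_D] at h1
      calc g.1.1 * A = g.1.1 * A * ((g.2⁻¹).1 * g.2.1) := by rw [inv_mul, mul_one]
        _ = g.1.1 * A * (g.2⁻¹).1 * g.2.1 := by rw [mul_assoc _ (g.2⁻¹).1 g.2.1]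
        _ = A * g.2.1 := by rw [← h1]
    have h2 : g.1 = g.2 := by
      apply Subtype.ext
      have := h1 1
      rwa [mul_one, one_mul] at this
    rw [← h2] at h1
    rcases scalar_of_comm g.1 h1 with h3 | h3
    · left
      exact Prod.ext h3 (h2 ▸ h3)
    · right
      exact Prod.ext h3 (h2 ▸ h3)
  · rintro (rfl | rfl) w
    · exact (rep F).one w
    · apply E_inj
      rw [E_ac]
      change (-1 : SpecialLinearGroup (Fin 2) F).1 * _ * ((-1 : SpecialLinearGroup (Fin 2) F)⁻¹).1 = _
      rw [inv_neg, inv_one, Matrix.SpecialLinearGroup.coe_neg, Matrix.SpecialLinearGroup.coe_one, neg_one_mul, mul_neg_one, neg_neg]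

theorem ker_le_center : (rep F).rho.ker ≤ Subgroup.center (SpecialLinearGroup (Fin 2) F × SpecialLinearGroup (Fin 2) F) := by
  intro g hg
  rw [Subgroup.mem_center_iff]
  intro z
  rcases (mem_ker g).1 hg with rfl | rfl
  · rw [mul_one, one_mul]
  · apply Prod.ext
    · change z.1 * (-1) = (-1) * z.1
      rw [mul_neg_one, neg_one_mul]
    · change z.2 * (-1) = (-1) * z.2
      rw [mul_neg_one, neg_one_mul]

theorem prod_triv {A : Type*} [Group A] (h : ∀ (χ : SpecialLinearGroup (Fin 2) F →* A) g, χ g = 1)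
    (χ : SpecialLinearGroup (Fin 2) F × SpecialLinearGroup (Fin 2) F →* A) (g : SpecialLinearGroup (Fin 2) F × SpecialLinearGroup (Fin 2) F) :
    χ g = 1 := by
  have h1 : g = (g.1, 1) * (1, g.2) := by
    apply Prod.ext
    · simp
    · simp
  rw [h1, map_mul]
  have h2 := h (χ.comp (MonoidHom.inl _ _)) g.1
  have h3 := h (χ.comp (MonoidHom.inr _ _)) g.2
  change χ (g.1, 1) = 1 at h2
  change χ (1, g.2) = 1 at h3
  rw [h2, h3, one_mul]

theorem quot_prod {G : Type*} [Group G] : Nonempty ((G × G) ⧸ Subgroup.center (G × G) ≃* (G ⧸ Subgroup.center G) × (G ⧸ Subgroup.center G)) := by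
  let φ : G × G →* (G ⧸ Subgroup.center G) × (G ⧸ Subgroup.center G) :=
    MonoidHom.prodMap (QuotientGroup.mk' (Subgroup.center G)) (QuotientGroup.mk' (Subgroup.center G))
  have hφ : Function.Surjective φ := by
    rintro ⟨a, b⟩
    obtain ⟨a, rfl⟩ := QuotientGroup.mk'_surjective _ a
    obtain ⟨b, rfl⟩ := QuotientGroup.mk'_surjective _ b
    exact ⟨(a, b), rfl⟩
  have hk : φ.ker = Subgroup.center (G × G) := by
    rw [Subgroup.center_prod, MonoidHom.ker_prodMap, QuotientGroup.ker_mk']
  exact ⟨(QuotientGroup.quotientMulEquivOfEq hk).symm.trans (QuotientGroup.quotientKerEquivOfSurjective φ hφ)⟩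

/-- PΩ^+_4(q) is isomorphic to PSL_2(q) x PSL_2(q) for q at least 3. -/
theorem result {F : Type*} [Field F] [Fintype F] (hF : 3 ≤ Fintype.card F) : Nonempty (Cfsg.POmega F (Cfsg.quadFormPlus 2 F) ≃* Matrix.ProjectiveSpecialLinearGroup (Fin 2) F × Matrix.ProjectiveSpecialLinearGroup (Fin 2) F) := by
  obtain ⟨B, hQ⟩ := exists_qf_plus (F := F) 2
  have hsl := card_sl2 (S0242.result (F := F) rfl 2 (by norm_num))
  have ho := Cfsg.Agent.H7.Quad.card_O_plus (F := F) rfl 2 (by norm_num)
  have ho' : Nat.card (isometryGroup F (quadFormPlus 2 F)) = 2 * Nat.card (SpecialLinearGroup (Fin 2) F × SpecialLinearGroup (Fin 2) F) := by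
    rw [Nat.card_prod, ho, hsl]
    simp [Finset.prod_range_succ]
    ring
  have hc : ∀ a b : (rep F).rho.ker, a * b = b * a := by
    intro a b
    apply Subtype.ext
    exact (Subgroup.mem_center_iff.1 (ker_le_center a.2) b).symm
  have main : Nonempty (POmega F (quadFormPlus 2 F) ≃* (SpecialLinearGroup (Fin 2) F × SpecialLinearGroup (Fin 2) F) ⧸
      Subgroup.center (SpecialLinearGroup (Fin 2) F × SpecialLinearGroup (Fin 2) F)) := by
    by_cases h2 : (2 : F) = 0
    · have hq4 : 4 ≤ Fintype.card F := by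
        have hp : CharP F 2 := CharTwo.of_one_ne_zero_of_two_eq_zero one_ne_zero h2
        obtain ⟨n, -, hn⟩ := FiniteField.card F 2
        have : Even (Fintype.card F) := by
          rw [hn]
          exact (Nat.even_pow.2 ⟨even_two, n.ne_zero⟩)
        obtain ⟨k, hk⟩ := this
        omega
      have hk1 : Nat.card (rep F).rho.ker = 1 := by
        rw [Nat.card_eq_one_iff_unique]
        have key : ∀ a : (rep F).rho.ker, a = 1 := by
          intro a
          apply Subtype.ext
          rcases (mem_ker a.1).1 a.2 with h | h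
          · exact h
          · rw [h]
            have hneg : (-1 : SpecialLinearGroup (Fin 2) F) = 1 := by
              rw [S_neg_one, S_one]
              apply S_eq
              · linear_combination -h2
              · rfl
              · rfl
              · linear_combination -h2
            rw [hneg]
            rfl
        exact ⟨⟨fun a b => by rw [key a, key b]⟩, ⟨1⟩⟩
      refine pomega_equiv2 hQ (by simp) (rep F).rho ker_le_center (prod_triv (sl2_triv_comm hq4 mul_comm)) (prod_triv (sl2_triv_comm hq4 hc)) ?_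
        (fun h => absurd h2 h)
      intro _
      rw [hk1, ho', one_mul]
    · have hodd : Odd (Fintype.card F) := by
        obtain ⟨p, hp⟩ := CharP.exists F
        obtain ⟨n, hpp, hn⟩ := FiniteField.card F p
        rw [hn]
        apply Odd.pow
        rcases hpp.eq_two_or_odd' with h | h
        · exfalso
          apply h2
          have := CharP.cast_eq_zero F p
          rw [h] at this
          exact_mod_cast this
        · exact h
      have hne : ((-1, -1) : SpecialLinearGroup (Fin 2) F × SpecialLinearGroup (Fin 2) F) ≠ 1 := by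
        intro h
        have h3 := congrFun (congrFun (congrArg Subtype.val (congrArg Prod.fst h)) 0) 0
        have h4 : -(1 : F) = 1 := by simpa using h3
        exact h2 (by linear_combination -h4)
      have hA : ∀ a : (rep F).rho.ker, a ^ 4 = 1 := by
        intro a
        have := pow_card_eq_one' (x := a)
        rw [card_two hne mem_ker] at this
        rw [show (4 : ℕ) = 2 * 2 by norm_num, pow_mul, this, one_pow]
      refine pomega_equiv2 hQ (by simp) (rep F).rho ker_le_center (prod_triv (sl2_triv hodd (ab_pow_four hQ h2 (by simp))))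
        (prod_triv (sl2_triv hodd hA)) (fun h => absurd h h2) ?_
      intro _
      rw [card_two hne mem_ker, ho']
      ring
  obtain ⟨e⟩ := main
  obtain ⟨e'⟩ := quot_prod (G := SpecialLinearGroup (Fin 2) F)
  exact ⟨e.trans e'⟩

end Cfsg.Agent.S0299
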