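import Cfsg.Statements.S0301
import Cfsg.Agent.H7.Wedge
import Cfsg.Agent.H7.Rho
import Cfsg.Agent.S0245
import Cfsg.Agent.S0269

set_option autoImplicit false
open Cfsg
open Matrix Cfsg.Agent.H7.Wedge Cfsg.Agent.H7.IsoCl Cfsg.Agent.H7.Orth Cfsg.Agent.H7.Rho

namespace Cfsg.Agent.S0301

variable {F : Type*} [Field F]

/-- reindexing -/
def r4 (g : Matrix (Fin 2 ⊕ Fin 2) (Fin 2 ⊕ Fin 2) F) : Matrix (Fin 4) (Fin 4) F :=
  g.submatrix (finSumFinEquiv (m := 2) (n := 2)).symm (finSumFinEquiv (m := 2) (n := 2)).symm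

theorem r4_mul (g h : Matrix (Fin 2 ⊕ Fin 2) (Fin 2 ⊕ Fin 2) F) : r4 (g * h) = r4 g * r4 h := by
  rw [r4, r4, r4, Matrix.submatrix_mul_equiv]

theorem r4_one : r4 (1 : Matrix (Fin 2 ⊕ Fin 2) (Fin 2 ⊕ Fin 2) F) = 1 := by
  rw [r4, Matrix.submatrix_one_equiv]

theorem r4_transpose (g : Matrix (Fin 2 ⊕ Fin 2) (Fin 2 ⊕ Fin 2) F) : r4 gᵀ = (r4 g)ᵀ := rfl

theorem r4_neg (g : Matrix (Fin 2 ⊕ Fin 2) (Fin 2 ⊕ Fin 2) F) : r4 (-g) = -r4 g := rfl

theorem r4_inj {g h : Matrix (Fin 2 ⊕ Fin 2) (Fin 2 ⊕ Fin 2) F} (hgh : r4 g = r4 h) : g = h := by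
  ext i j
  have := congrFun (congrFun hgh (finSumFinEquiv i)) (finSumFinEquiv j)
  simpa [r4] using this

/-- the form as a vector -/
def jv (F : Type*) [Field F] : V6 F := Sum.elim ![0, -1, 0] ![0, 1, 0]

theorem M_jv : M (jv F) = r4 (J (Fin 2) F) := by
  have e0 : (finSumFinEquiv (m := 2) (n := 2)).symm 0 = .inl 0 := by decide
  have e1 : (finSumFinEquiv (m := 2) (n := 2)).symm 1 = .inl 1 := by decide
  have e2 : (finSumFinEquiv (m := 2) (n := 2)).symm 2 = .inr 0 := by decide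
  have e3 : (finSumFinEquiv (m := 2) (n := 2)).symm 3 = .inr 1 := by decide
  ext i j
  rw [r4, Matrix.submatrix_apply]
  fin_cases i <;> fin_cases j <;>
    simp [M, jv, e0, e1, e2, e3, J]

theorem act_jv (g : symplecticGroup (Fin 2) F) : act (r4 g.1) (jv F) = jv F := by
  rw [act, M_jv, ← r4_transpose, ← r4_mul, ← r4_mul, SymplecticGroup.mem_iff.1 g.2, ← M_jv, N_M]

theorem q_jv : quadFormPlus 3 F (jv F) = -1 := by
  simp [quadFormPlus, Fin.sum_univ_three, jv]

theorem det_one (g : symplecticGroup (Fin 2) F) : (r4 g.1).det = 1 := by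
  have h := act_q (r4 g.1) (jv F)
  rw [act_jv, q_jv] at h
  linear_combination h

theorem act_q' (g : symplecticGroup (Fin 2) F) (v : V6 F) : quadFormPlus 3 F (act (r4 g.1) v) = quadFormPlus 3 F v := by
  rw [act_q, det_one, one_mul]

abbrev V5 (F : Type*) := Unit ⊕ (Fin 2 ⊕ Fin 2) → F

def E (w : V5 F) : V6 F := Sum.elim ![w (.inr (.inl 0)), w (.inl ()), w (.inr (.inl 1))] ![w (.inr (.inr 0)), w (.inl ()), w (.inr (.inr 1))]

def D (v : V6 F) : V5 F := Sum.elim (fun _ => v (.inl 1)) (Sum.elim ![v (.inl 0), v (.inl 2)] ![v (.inr 0), v (.inr 2)])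

theorem D_E (w : V5 F) : D (E w) = w := by
  ext (i | (i | i)) 
  · simp [D, E]
  · fin_cases i <;> simp [D, E]
  · fin_cases i <;> simp [D, E]

theorem E_D (v : V6 F) (h : v (.inl 1) = v (.inr 1)) : E (D v) = v := by
  ext (i | i) <;> fin_cases i <;> simp [D, E, h]

theorem E_add (v w : V5 F) : E (v + w) = E v + E w := by
  ext (i | i) <;> fin_cases i <;> simp [E]

theorem E_smul (c : F) (w : V5 F) : E (c • w) = c • E w := by
  ext (i | i) <;> fin_cases i <;> simp [E]

theorem E_inj {v w : V5 F} (h : E v = E w) : v = w := by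
  rw [← D_E v, h, D_E]

theorem E_q (w : V5 F) : quadFormPlus 3 F (E w) = quadFormOdd 2 F w := by
  simp [quadFormPlus, quadFormOdd, Fin.sum_univ_three, Fin.sum_univ_two, E]
  ring

theorem polar_jv (v : V6 F) : quadFormPlus 3 F (v + jv F) - quadFormPlus 3 F v - quadFormPlus 3 F (jv F) = v (.inl 1) - v (.inr 1) := by
  simp [quadFormPlus, Fin.sum_univ_three, jv]
  ring

theorem act_perp (g : symplecticGroup (Fin 2) F) (v : V6 F) (h : v (.inl 1) = v (.inr 1)) :
    act (r4 g.1) v (.inl 1) = act (r4 g.1) v (.inr 1) := by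
  rw [← sub_eq_zero, ← polar_jv]
  have h1 : act (r4 g.1) v + jv F = act (r4 g.1) (v + jv F) := by rw [act_add, act_jv]
  rw [h1, act_q', act_q', polar_jv, h, sub_self]

theorem act_E (g : symplecticGroup (Fin 2) F) (w : V5 F) : E (D (act (r4 g.1) (E w))) = act (r4 g.1) (E w) :=
  E_D _ (act_perp g _ (by simp [E]))

/-- the representation on the five-dimensional space -/
def rep (F : Type*) [Field F] : Rep F (quadFormOdd 2 F) (symplecticGroup (Fin 2) F) where
  act g w := D (act (r4 g.1) (E w))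
  one w := by
    change D (act (r4 (1 : Matrix (Fin 2 ⊕ Fin 2) (Fin 2 ⊕ Fin 2) F)) (E w)) = w
    rw [r4_one, act_one, D_E]
  mul g h w := by
    apply E_inj
    rw [act_E, act_E, act_E, ← act_mul, ← r4_mul]
    rfl
  add g v w := by
    apply E_inj
    rw [act_E, E_add, E_add, act_E, act_E, act_add]
  smul g c w := by
    apply E_inj
    rw [act_E, E_smul, E_smul, act_E, act_smul]
  q g w := by
    rw [← E_q, act_E, act_q', E_q]

/-- minus one -/
def ngs (F : Type*) [Field F] : symplecticGroup (Fin 2) F := ⟨-1, by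
  rw [SymplecticGroup.mem_iff, neg_one_mul, Matrix.transpose_neg, Matrix.transpose_one, mul_neg_one, neg_neg]⟩

theorem mem_ker (h2 : (2 : F) ≠ 0) (g : symplecticGroup (Fin 2) F) : g ∈ (rep F).rho.ker ↔ g = 1 ∨ g = ngs F := by
  rw [(rep F).mem_ker]
  change (∀ w, D (act (r4 g.1) (E w)) = w) ↔ _
  constructor
  · intro h
    have h1 : ∀ w, act (r4 g.1) (E w) = E w := by
      intro w
      rw [← act_E, h]
    have h3 : ∀ v, act (r4 g.1) v = v := by
      intro v
      set c : F := (v (.inr 1) - v (.inl 1)) / 2 with hc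
      have h4 : v = E (D (v - c • jv F)) + c • jv F := by
        rw [E_D, sub_add_cancel]
        simp [jv, hc]
        field_simp
        ring
      rw [h4, act_add, act_smul, act_jv, h1]
    have h5 := ker_le ⟨r4 g.1, det_one g⟩ h3
    rcases h5 with h5 | h5
    · left
      apply Subtype.ext
      apply r4_inj
      change r4 g.1 = r4 (1 : Matrix _ _ F)
      rw [r4_one]
      exact h5
    · right
      apply Subtype.ext
      apply r4_inj
      change r4 g.1 = r4 (-(1 : Matrix _ _ F))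
      rw [r4_neg, r4_one]
      exact h5
  · rintro (rfl | rfl) w
    · change D (act (r4 (1 : Matrix (Fin 2 ⊕ Fin 2) (Fin 2 ⊕ Fin 2) F)) (E w)) = w
      rw [r4_one, act_one, D_E]
    · change D (act (r4 (-(1 : Matrix (Fin 2 ⊕ Fin 2) (Fin 2 ⊕ Fin 2) F))) (E w)) = w
      rw [r4_neg, r4_one, act_neg, D_E]

/-- PΩ_5(q) is isomorphic to PSp_4(q) for q odd. -/
theorem result {F : Type*} [Field F] [Fintype F] (hodd : Odd (Fintype.card F)) : Nonempty (Cfsg.POmega F (Cfsg.quadFormOdd 2 F) ≃* Cfsg.PSp 2 F) := by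
  have hodd' : Odd (Fintype.card F) := hodd
  have h2 : (2 : F) ≠ 0 := by
    intro h
    haveI : CharP F 2 := CharTwo.of_one_ne_zero_of_two_eq_zero one_ne_zero h
    obtain ⟨n, -, hn⟩ := FiniteField.card F 2
    rw [hn] at hodd'
    exact absurd hodd' (by
      rw [Nat.not_odd_iff_even]
      exact (Nat.even_pow.2 ⟨even_two, n.ne_zero⟩))
  obtain ⟨B, hQ⟩ := exists_qf_odd (F := F) 2 h2
  have hq : 3 ≤ Fintype.card F := by
    have h1 : 1 < Fintype.card F := Fintype.one_lt_card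
    obtain ⟨k, hk⟩ := hodd'
    omega
  have hsp := S0245.result (F := F) rfl 2
  have ho := Cfsg.Agent.H7.Quad.card_O_odd (F := F) rfl hodd' 2
  have ho' : Nat.card (isometryGroup F (quadFormOdd 2 F)) = 2 * Nat.card (symplecticGroup (Fin 2) F) := by
    rw [ho, hsp]
    ring
  have hne : ngs F ≠ 1 := by
    intro h
    have h3 := congrFun (congrFun (congrArg Subtype.val h) (.inl 0)) (.inl 0)
    change (-(1 : Matrix _ _ F)) _ _ = (1 : Matrix _ _ F) _ _ at h3
    have h4 : -(1 : F) = 1 := by simpa using h3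
    exact h2 (by linear_combination -h4)
  refine pomega_equiv' hQ (by simp) (S0269.result 2 (Or.inr (Or.inl ⟨rfl, hq⟩))) (rep F).rho ?_ (fun h => absurd h h2) ?_
  · intro g hg
    rw [Subgroup.mem_center_iff]
    intro z
    rcases (mem_ker h2 g).1 hg with rfl | rfl
    · rw [mul_one, one_mul]
    · apply Subtype.ext
      change z.1 * -(1 : Matrix _ _ F) = -(1 : Matrix _ _ F) * z.1
      rw [mul_neg_one, neg_one_mul]
  · intro _
    rw [card_two hne (mem_ker h2), ho']
    ring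

end Cfsg.Agent.S0301
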