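import Cfsg.Statements.S0303
import Cfsg.Agent.H7.QuadExt
import Cfsg.Agent.H7.Wedge
import Cfsg.Agent.H7.UniStd
import Cfsg.Agent.H7.Uni2
import Cfsg.Agent.S0754

set_option autoImplicit false
open Cfsg
open Matrix Cfsg.Agent.H7.IsoCl Cfsg.Agent.H7.Orth Cfsg.Agent.H7.Rho Cfsg.Agent.H7.SL2 Cfsg.Agent.H7.QuadExt Cfsg.Agent.H7.Wedge Cfsg.Agent.H7.UTv

namespace Cfsg.Agent.S0303

section

variable {F K : Type*} [Field F] [Field K] {f : F →+* K} {σ : K →+* K} {θ ν ν' : K}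

/-- the twist -/
def tw (σ : K →+* K) (v : V6 K) : V6 K := Sum.elim (fun i => σ (v (.inr i))) (fun i => σ (v (.inl i)))

/-- the dot product -/
def dt (u v : V6 K) : K := ∑ i : Fin 3, (u (.inl i) * v (.inl i) + u (.inr i) * v (.inr i))

/-- the polar form -/
def bb (u v : V6 K) : K := ∑ i : Fin 3, (u (.inl i) * v (.inr i) + u (.inr i) * v (.inl i))

theorem bb_eq (u v : V6 K) : bb u v = quadFormPlus 3 K (u + v) - quadFormPlus 3 K u - quadFormPlus 3 K v := by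
  simp only [bb, quadFormPlus, Fin.sum_univ_three, Pi.add_apply]
  ring

theorem bb_act {g : Matrix (Fin 4) (Fin 4) K} (hg : g.det = 1) (u v : V6 K) : bb (act g u) (act g v) = bb u v := by
  rw [bb_eq, bb_eq, ← act_add, act_q, act_q, act_q, hg, one_mul, one_mul, one_mul]

set_option maxHeartbeats 4000000 in
theorem dt_act (g : Matrix (Fin 4) (Fin 4) K) (u v : V6 K) : dt u (act g v) = dt (act gᵀ u) v := by
  simp only [dt, Fin.sum_univ_three, act, N, Sum.elim_inl, Sum.elim_inr, Matrix.cons_val_zero, Matrix.cons_val_one, Matrix.cons_val,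
    Matrix.mul_apply, Fin.sum_univ_four, Matrix.transpose_apply]
  simp only [M, Matrix.of_apply, Matrix.cons_val', Matrix.cons_val_zero, Matrix.cons_val_one, Matrix.cons_val]
  ring

theorem dt_ext {x y : V6 K} (h : ∀ u, dt u x = dt u y) : x = y := by
  funext i
  have h1 := h (Pi.single i 1)
  simp only [dt, Fin.sum_univ_three] at h1
  rcases i with i | i <;> fin_cases i <;> simpa using h1

theorem act_map (g : Matrix (Fin 4) (Fin 4) K) (v : V6 K) : act (g.map σ) (fun i => σ (v i)) = fun i => σ (act g v i) := by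
  have h1 : M (fun i => σ (v i)) = (M v).map σ := by
    ext i j
    fin_cases i <;> fin_cases j <;> simp [M]
  have h2 : ∀ A : Matrix (Fin 4) (Fin 4) K, N (A.map σ) = fun i => σ (N A i) := by
    intro A
    ext (i | i) <;> fin_cases i <;> simp [N]
  rw [act, h1, ← Matrix.transpose_map, ← Matrix.map_mul, ← Matrix.map_mul, h2]
  rfl

theorem dt_tw (u v : V6 K) : dt (fun i => σ (u i)) (tw σ v) = σ (bb u v) := by
  simp only [dt, bb, tw, Fin.sum_univ_three, map_add, map_mul, Sum.elim_inl, Sum.elim_inr]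

theorem tw_act (hσσ : ∀ x, σ (σ x) = x) {h k : Matrix (Fin 4) (Fin 4) K} (hd : h.det = 1) (hk : h * k = 1) (hh : hᵀ * h.map σ = 1) (v : V6 K) :
    tw σ (act h v) = act h (tw σ v) := by
  have hkσ : k.map σ = hᵀ := by
    have h1 : h.map σ * k.map σ = 1 := by rw [← Matrix.map_mul, hk, Matrix.map_one _ (map_zero σ) (map_one σ)]
    calc k.map σ = (hᵀ * h.map σ) * k.map σ := by rw [hh, one_mul]
      _ = hᵀ := by rw [mul_assoc, h1, mul_one]
  apply dt_ext
  intro u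
  have hu : u = fun i => σ ((fun i => σ (u i)) i) := by
    funext i; exact (hσσ _).symm
  rw [dt_act]
  conv_lhs => rw [hu]
  rw [dt_tw]
  have h1 : bb (fun i => σ (u i)) (act h v) = bb (act k (fun i => σ (u i))) v := by
    rw [← bb_act hd (act k _) v, ← act_mul, hk, act_one]
  rw [h1, ← dt_tw, ← act_map, hkσ]
  congr 1
  funext i
  congr 1
  funext i
  exact hσσ _

/-- coordinates on the twisted form -/
def E (f : F →+* K) (σ : K →+* K) (θ ν ν' d : K) (w : (Fin 2 ⊕ Fin 2) ⊕ Fin 2 → F) : V6 K :=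
  Sum.elim
    ![(f (w (.inl (.inl 0))) + f (w (.inl (.inl 1))) * θ) + d * (f (w (.inl (.inr 1))) - f (w (.inl (.inr 0))) * θ),
      ν * (f (w (.inl (.inl 0))) + f (w (.inl (.inl 1))) * θ) + ν' * (d * (f (w (.inl (.inr 1))) - f (w (.inl (.inr 0))) * θ)),
      f (w (.inr 0)) + f (w (.inr 1)) * θ]
    ![(f (w (.inl (.inl 0))) + f (w (.inl (.inl 1))) * σ θ) + σ d * (f (w (.inl (.inr 1))) - f (w (.inl (.inr 0))) * σ θ),
      σ ν * (f (w (.inl (.inl 0))) + f (w (.inl (.inl 1))) * σ θ) + σ ν' * (σ d * (f (w (.inl (.inr 1))) - f (w (.inl (.inr 0))) * σ θ)),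
      f (w (.inr 0)) + f (w (.inr 1)) * σ θ]

variable {d : K}

theorem E_add (v w : (Fin 2 ⊕ Fin 2) ⊕ Fin 2 → F) : E f σ θ ν ν' d (v + w) = E f σ θ ν ν' d v + E f σ θ ν ν' d w := by
  ext (i | i) <;> fin_cases i <;> simp [E] <;> ring

theorem E_smul (c : F) (w : (Fin 2 ⊕ Fin 2) ⊕ Fin 2 → F) : E f σ θ ν ν' d (c • w) = f c • E f σ θ ν ν' d w := by
  ext (i | i) <;> fin_cases i <;> simp [E] <;> ring

theorem E_q {a b : F} (h1 : θ + σ θ = f a) (h2 : θ * σ θ = f b) (hν : ν * σ ν = -1) (hν' : ν' * σ ν' = -1)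
    (hd : d * (1 + σ ν * ν') * (σ θ - θ) = 1) (hd' : σ d * (1 + ν * σ ν') * (θ - σ θ) = 1) (hne : σ θ ≠ θ) (w : (Fin 2 ⊕ Fin 2) ⊕ Fin 2 → F) :
    quadFormPlus 3 K (E f σ θ ν ν' d w) = f (quadFormMinus 2 F a b w) := by
  simp only [quadFormPlus, quadFormMinus, E, Fin.sum_univ_three, Fin.sum_univ_two, Sum.elim_inl, Sum.elim_inr, Matrix.cons_val_zero, Matrix.cons_val_one,
    Matrix.cons_val, map_add, map_mul, map_pow]
  rw [← h1, ← h2]
  generalize f (w (.inl (.inl 0))) = x0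
  generalize f (w (.inl (.inl 1))) = x1
  generalize f (w (.inl (.inr 0))) = y0
  generalize f (w (.inl (.inr 1))) = y1
  generalize f (w (.inr 0)) = z0
  generalize f (w (.inr 1)) = z1
  have h0 : θ - σ θ ≠ 0 := sub_ne_zero.2 hne.symm
  apply mul_left_cancel₀ h0
  linear_combination (θ - σ θ) * ((x0 + x1 * θ) * (x0 + x1 * σ θ)) * hν + (θ - σ θ) * (d * (y1 - y0 * θ)) * (σ d * (y1 - y0 * σ θ)) * hν'
    + (x0 + x1 * θ) * (y1 - y0 * σ θ) * hd' - (x0 + x1 * σ θ) * (y1 - y0 * θ) * hd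

theorem decomp (hσσ : ∀ x, σ (σ x) = x) (hfix : ∀ x, σ x = x → ∃ y, f y = x) (hne : σ θ ≠ θ) (z : K) : ∃ z₁ z₂, z = f z₁ + f z₂ * θ := by
  have h0 : θ - σ θ ≠ 0 := sub_ne_zero.2 hne.symm
  obtain ⟨z₂, hz₂⟩ := hfix ((z - σ z) / (θ - σ θ)) (by
    rw [map_div₀, map_sub, map_sub, hσσ, hσσ, ← neg_sub z, ← neg_sub θ, neg_div_neg_eq])
  have hf : σ (f z₂) = f z₂ := by
    rw [hz₂, map_div₀, map_sub, map_sub, hσσ, hσσ, ← neg_sub z, ← neg_sub θ, neg_div_neg_eq]
  have hz : z - σ z = f z₂ * (θ - σ θ) := by rw [hz₂, div_mul_cancel₀ _ h0]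
  obtain ⟨z₁, hz₁⟩ := hfix (z - f z₂ * θ) (by
    rw [map_sub, map_mul, hf]
    linear_combination -hz)
  exact ⟨z₁, z₂, by rw [hz₁]; ring⟩

theorem tw_E (hσσ : ∀ x, σ (σ x) = x) (hσf : ∀ y, σ (f y) = f y) (w : (Fin 2 ⊕ Fin 2) ⊕ Fin 2 → F) :
    tw σ (E f σ θ ν ν' d w) = E f σ θ ν ν' d w := by
  ext (i | i) <;> fin_cases i <;> simp [E, tw, hσσ, hσf]

theorem exists_E (hσσ : ∀ x, σ (σ x) = x) (hσf : ∀ y, σ (f y) = f y) (hfix : ∀ x, σ x = x → ∃ y, f y = x) (hne : σ θ ≠ θ)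
    (hνν : ν' - ν ≠ 0) (hd : d ≠ 0) {x : V6 K} (hx : tw σ x = x) : ∃ w, E f σ θ ν ν' d w = x := by
  obtain ⟨x0, x1, h0⟩ := decomp (θ := θ) hσσ hfix hne (x (.inl 0) - (x (.inl 1) - ν * x (.inl 0)) / (ν' - ν))
  obtain ⟨y1, y0, h1⟩ := decomp (θ := θ) hσσ hfix hne ((x (.inl 1) - ν * x (.inl 0)) / (ν' - ν) / d)
  obtain ⟨z0, z1, h2⟩ := decomp (θ := θ) hσσ hfix hne (x (.inl 2))
  have h1' : (x (.inl 1) - ν * x (.inl 0)) / (ν' - ν) = d * (f y1 + f y0 * θ) := by
    rw [← h1, mul_div_cancel₀ _ hd]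
  have key : ∀ i, E f σ θ ν ν' d (Sum.elim (Sum.elim ![x0, x1] ![-y0, y1]) ![z0, z1]) (.inl i) = x (.inl i) := by
    intro i
    fin_cases i
    · simp only [E, Sum.elim_inl, Sum.elim_inr, Matrix.cons_val_zero, Matrix.cons_val_one, Matrix.cons_val, Fin.zero_eta, map_neg]
      linear_combination -h0 - h1'
    · simp only [E, Sum.elim_inl, Sum.elim_inr, Matrix.cons_val_zero, Matrix.cons_val_one, Matrix.cons_val, Fin.mk_one, map_neg]
      have h3 : (x (.inl 1) - ν * x (.inl 0)) / (ν' - ν) * (ν' - ν) = x (.inl 1) - ν * x (.inl 0) := div_mul_cancel₀ _ hνν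
      linear_combination -ν * h0 - ν' * h1' + h3
    · simp only [E, Sum.elim_inl, Sum.elim_inr, Matrix.cons_val_zero, Matrix.cons_val_one, Matrix.cons_val, Fin.reduceFinMk]
      linear_combination -h2
  refine ⟨Sum.elim (Sum.elim ![x0, x1] ![-y0, y1]) ![z0, z1], ?_⟩
  ext (i | i)
  · exact key i
  · rw [← tw_E hσσ hσf, ← hx]
    change σ _ = σ _
    rw [key]

theorem exists_span (hσσ : ∀ x, σ (σ x) = x) (hne : σ θ ≠ θ) (v : V6 K) : ∃ x y : V6 K, tw σ x = x ∧ tw σ y = y ∧ ∃ c c' : K, v = c • x + c' • y := by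
  have h0 : θ - σ θ ≠ 0 := sub_ne_zero.2 hne.symm
  refine ⟨θ • v + σ θ • tw σ v, v + tw σ v, ?_, ?_, 1 / (θ - σ θ), -σ θ / (θ - σ θ), ?_⟩
  · ext (i | i)
    · simp [tw, hσσ]; ring
    · simp [tw, hσσ]; ring
  · ext (i | i)
    · simp [tw, hσσ]; ring
    · simp [tw, hσσ]; ring
  · ext i
    simp only [Pi.add_apply, Pi.smul_apply, smul_eq_mul]
    field_simp
    ring

end

theorem su_mat {K : Type*} [Field K] {q : ℕ} {σ : K →+* K} (hσ : ∀ x, σ x = x ^ q) (g : SU 4 K q) : g.1.1ᵀ * g.1.1.map σ = 1 := by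
  ext i j
  have h := g.2 (Pi.single i 1) (Pi.single j 1)
  change hermForm 4 K q (g.1.1 *ᵥ _) (g.1.1 *ᵥ _) = _ at h
  rw [Matrix.mulVec_single_one, Matrix.mulVec_single_one] at h
  have hq : q ≠ 0 := by
    rintro rfl
    have := hσ 0
    rw [map_zero, pow_zero] at this
    exact zero_ne_one this
  rw [Matrix.mul_apply]
  calc ∑ k, g.1.1ᵀ i k * g.1.1.map σ k j = hermForm 4 K q (g.1.1.col i) (g.1.1.col j) := by
        rw [hermForm]
        apply Finset.sum_congr rfl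
        intro k _
        rw [← hσ]
        rfl
    _ = (1 : Matrix _ _ K) i j := by
        rw [h, hermForm, Finset.sum_eq_single i]
        · rw [Pi.single_eq_same, one_mul]
          by_cases hij : i = j
          · subst hij
            rw [Pi.single_eq_same, one_pow, Matrix.one_apply_eq]
          · rw [Pi.single_eq_of_ne hij, zero_pow hq, Matrix.one_apply_ne hij]
        · intro k _ hk
          rw [Pi.single_eq_of_ne hk, zero_mul]
        · intro h; exact absurd (Finset.mem_univ i) h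

theorem su_perfect {K : Type*} [Field K] [Fintype K] {q : ℕ} (hK : Fintype.card K = q ^ 2) : commutator (SU 4 K q) = ⊤ := by
  obtain ⟨σ, hσ, hB, hBq, hGU⟩ := hm_std hK 4
  have hr := suE_range (q := q) hGU
  have hgen := gen_cond hK hσ hB (Or.inl le_rfl)
  have h1 := SUn_perfect hB (by simp) hgen
  rw [eq_top_iff]
  intro g _
  have h2 : suE 4 K q g ∈ ⁅(suE 4 K q).range, (suE 4 K q).range⁆ := by
    rw [hr]
    apply h1
    rw [← hr]
    exact ⟨g, rfl⟩
  have h3 : ⁅(suE 4 K q).range, (suE 4 K q).range⁆ = (commutator (SU 4 K q)).map (suE 4 K q) := by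
    rw [commutator_def, Subgroup.map_commutator, MonoidHom.range_eq_map]
  rw [h3] at h2
  obtain ⟨x, hx, hxg⟩ := h2
  rw [← suE_inj 4 hxg]
  exact hx

section
variable {F K : Type*} [Field F] [Field K] {f : F →+* K} {σ : K →+* K} {θ ν ν' d : K} {q : ℕ}

theorem inv_eq (g : SU 4 K q) : g.1.1 * (g.1⁻¹).1 = 1 := by
  rw [← Matrix.SpecialLinearGroup.coe_mul, mul_inv_cancel, Matrix.SpecialLinearGroup.coe_one]

/-- the embedding -/
def em {B : ((Fin 2 ⊕ Fin 2) ⊕ Fin 2 → F) →ₗ[F] ((Fin 2 ⊕ Fin 2) ⊕ Fin 2 → F) →ₗ[F] F} {a b : F} (hQ : Qf (quadFormMinus 2 F a b) B)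
    (h1 : θ + σ θ = f a) (h2 : θ * σ θ = f b) (hσ : ∀ x, σ x = x ^ q)
    (hσσ : ∀ x, σ (σ x) = x) (hσf : ∀ y, σ (f y) = f y) (hfix : ∀ x, σ x = x → ∃ y, f y = x) (hne : σ θ ≠ θ)
    (hν : ν * σ ν = -1) (hν' : ν' * σ ν' = -1)
    (hd : d * (1 + σ ν * ν') * (σ θ - θ) = 1) (hd' : σ d * (1 + ν * σ ν') * (θ - σ θ) = 1) (hνν : ν' - ν ≠ 0) (hd0 : d ≠ 0) :
    Emb F (K := K) (quadFormMinus 2 F a b) (SU 4 K q) (V6 K) where
  f := f
  E := E f σ θ ν ν' d
  inj := inj_of_isometric hQ f (E f σ θ ν ν' d) E_add (quadFormPlus 3 K) (E_q h1 h2 hν hν' hd hd' hne)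
  Eadd := E_add
  Esmul := E_smul
  q' := quadFormPlus 3 K
  hq := E_q h1 h2 hν hν' hd hd' hne
  A g v := act g.1.1 v
  A_one v := act_one v
  A_mul g h v := act_mul g.1.1 h.1.1 v
  A_add g v w := act_add _ _ _
  A_smul g c w := act_smul _ _ _
  A_q g v := by rw [act_q, g.1.2, one_mul]
  range g w := by
    apply exists_E hσσ hσf hfix hne hνν hd0
    rw [tw_act hσσ g.1.2 (inv_eq g) (su_mat hσ g), tw_E hσσ hσf]

/-- minus one -/
def ngu (K : Type*) [Field K] {q : ℕ} (hq : (-1 : K) * (-1) ^ q = 1) : SU 4 K q := ⟨ng K, by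
  intro u v
  change hermForm 4 K q ((-1 : Matrix _ _ K) *ᵥ u) ((-1 : Matrix _ _ K) *ᵥ v) = _
  rw [hermForm, hermForm]
  apply Finset.sum_congr rfl
  intro i _
  rw [Matrix.neg_mulVec, Matrix.neg_mulVec, Matrix.one_mulVec, Matrix.one_mulVec, Pi.neg_apply, Pi.neg_apply, neg_pow (v i)]
  linear_combination u i * v i ^ q * hq⟩

theorem mem_ker {B : ((Fin 2 ⊕ Fin 2) ⊕ Fin 2 → F) →ₗ[F] ((Fin 2 ⊕ Fin 2) ⊕ Fin 2 → F) →ₗ[F] F} {a b : F} (hQ : Qf (quadFormMinus 2 F a b) B)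
    (h1 : θ + σ θ = f a) (h2 : θ * σ θ = f b) (hσ : ∀ x, σ x = x ^ q)
    (hσσ : ∀ x, σ (σ x) = x) (hσf : ∀ y, σ (f y) = f y) (hfix : ∀ x, σ x = x → ∃ y, f y = x) (hne : σ θ ≠ θ)
    (hν : ν * σ ν = -1) (hν' : ν' * σ ν' = -1)
    (hd : d * (1 + σ ν * ν') * (σ θ - θ) = 1) (hd' : σ d * (1 + ν * σ ν') * (θ - σ θ) = 1) (hνν : ν' - ν ≠ 0) (hd0 : d ≠ 0)
    (hm : (-1 : K) * (-1) ^ q = 1) (g : SU 4 K q) :
    g ∈ (em hQ h1 h2 hσ hσσ hσf hfix hne hν hν' hd hd' hνν hd0).rep.rho.ker ↔ g = 1 ∨ g = ngu K hm := by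
  rw [Emb.mem_ker]
  change (∀ w, act g.1.1 (E f σ θ ν ν' d w) = E f σ θ ν ν' d w) ↔ _
  constructor
  · intro h
    have h3 : ∀ v, act g.1.1 v = v := by
      intro v
      obtain ⟨x, y, hx, hy, c, c', rfl⟩ := exists_span (θ := θ) hσσ hne v
      obtain ⟨w, rfl⟩ := exists_E (ν := ν) (ν' := ν') (d := d) hσσ hσf hfix hne hνν hd0 hx
      obtain ⟨w', rfl⟩ := exists_E (ν := ν) (ν' := ν') (d := d) hσσ hσf hfix hne hνν hd0 hy
      rw [act_add, act_smul, act_smul, h, h]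
    rcases ker_le g.1 h3 with h4 | h4
    · left
      exact Subtype.ext (Subtype.ext h4)
    · right
      exact Subtype.ext (Subtype.ext h4)
  · rintro (rfl | rfl) w
    · exact act_one _
    · exact act_neg _

end

/-- PΩ^-_6(q) is isomorphic to PSU_4(q). -/
theorem result {F K : Type*} [Field F] [Fintype F] [Field K] [Fintype K] {q : ℕ} (hF : Fintype.card F = q) (hK : Fintype.card K = q ^ 2) (a b : F) (hab : ∀ z₁ z₂ : F, z₁ ^ 2 + a * z₁ * z₂ + b * z₂ ^ 2 = 0 → z₁ = 0 ∧ z₂ = 0) : Nonempty (Cfsg.POmega F (Cfsg.quadFormMinus 2 F a b) ≃* Cfsg.PSU 4 K q) := by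
  obtain ⟨f, σ, θ, hσ, hσσ, hσf, hfix, h1, h2, hne⟩ := quad_ext hF hK hab
  obtain ⟨B, hQ⟩ := exists_qf_minus (F := F) 2 hab
  have hq : 2 ≤ q := by rw [← hF]; exact Fintype.one_lt_card
  have hθ0 : θ ≠ 0 := by
    rintro rfl
    exact hne (map_zero σ)
  have hσθ0 : σ θ ≠ 0 := fun h => hθ0 ((map_eq_zero σ).1 h)
  have h0 : σ θ - θ ≠ 0 := sub_ne_zero.2 hne
  obtain ⟨ν, hν⟩ : ∃ ν : K, ν * σ ν = -1 := by
    have h3 := S0754.result hK (-1) (neg_ne_zero.2 one_ne_zero) (by rw [← hσ, map_neg, map_one])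
    have h4 : 0 < Nat.card {x : K // x ^ (q + 1) = -1} := by rw [h3]; omega
    obtain ⟨⟨x, hx⟩⟩ := (Nat.card_pos_iff.1 h4).1
    exact ⟨x, by rw [hσ, ← pow_succ', hx]⟩
  have hm : (-1 : K) * (-1) ^ q = 1 := by rw [← hσ, map_neg, map_one]; ring
  set η : K := θ / σ θ with hη
  have hη1 : η * σ η = 1 := by
    rw [hη, map_div₀, hσσ]
    field_simp
  have hc : 1 + σ ν * (ν * η) = (σ θ - θ) / σ θ := by
    rw [hη]
    field_simp
    linear_combination θ * hν
  have hc0 : 1 + σ ν * (ν * η) ≠ 0 := by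
    rw [hc]
    exact div_ne_zero h0 hσθ0
  have hν' : (ν * η) * σ (ν * η) = -1 := by
    rw [map_mul]
    linear_combination hν + ν * σ ν * hη1
  obtain ⟨d, hd⟩ : ∃ d : K, d * (1 + σ ν * (ν * η)) * (σ θ - θ) = 1 := by
    refine ⟨((1 + σ ν * (ν * η)) * (σ θ - θ))⁻¹, ?_⟩
    rw [mul_assoc, inv_mul_cancel₀ (mul_ne_zero hc0 h0)]
  have hd0 : d ≠ 0 := by
    rintro rfl
    rw [zero_mul, zero_mul] at hd
    exact zero_ne_one hd
  have hd' : σ d * (1 + ν * σ (ν * η)) * (θ - σ θ) = 1 := by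
    have := congrArg σ hd
    rw [map_mul, map_mul, map_add, map_one, map_mul σ (σ ν), hσσ, map_sub, hσσ] at this
    exact this
  have hνν : ν * η - ν ≠ 0 := by
    intro h
    apply hc0
    linear_combination hν + σ ν * h
  have hsu := Cfsg.Agent.H7.Herm.card_SU hK 4 (by norm_num)
  rw [Cfsg.Agent.H7.Herm.card_GU hK 4] at hsu
  have ho := Cfsg.Agent.H7.Quad.card_O_minus hF 3 (by norm_num) a b hab
  have ho' : Nat.card (isometryGroup F (quadFormMinus 2 F a b)) = 2 * Nat.card (SU 4 K q) := by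
    change Nat.card (isometryGroup F (quadFormMinus (3 - 1) F a b)) = _
    rw [ho]
    rw [Finset.prod_range_succ, Finset.prod_range_succ, Finset.prod_range_succ, Finset.prod_range_succ, Finset.prod_range_zero,
      if_pos (by decide), if_neg (by decide), if_pos (by decide), if_neg (by decide)] at hsu
    apply Nat.eq_of_mul_eq_mul_left (show 0 < q + 1 by omega)
    rw [mul_left_comm (q + 1) 2, hsu]
    simp [Finset.prod_range_succ]
    ring
  have hk := mem_ker hQ h1 h2 hσ hσσ hσf hfix hne hν hν' hd hd' hνν hd0 hm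
  set em := em hQ h1 h2 hσ hσσ hσf hfix hne hν hν' hd hd' hνν hd0
  have hcen : em.rep.rho.ker ≤ Subgroup.center (SU 4 K q) := by
    intro g hg
    rw [Subgroup.mem_center_iff]
    intro z
    rcases (hk g).1 hg with rfl | rfl
    · rw [mul_one, one_mul]
    · apply Subtype.ext
      apply Subtype.ext
      change z.1.1 * (-1) = (-1) * z.1.1
      rw [mul_neg_one, neg_one_mul]
  refine pomega_equiv' hQ (by simp) (su_perfect hK) em.rep.rho hcen ?_ ?_
  · intro h2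
    have h2K : (2 : K) = 0 := by rw [← map_ofNat f 2, h2, map_zero]
    have hk1 : Nat.card em.rep.rho.ker = 1 := by
      rw [Nat.card_eq_one_iff_unique]
      have key : ∀ a : em.rep.rho.ker, a = 1 := by
        intro a
        apply Subtype.ext
        rcases (hk a.1).1 a.2 with h | h
        · exact h
        · rw [h]
          apply Subtype.ext
          apply Subtype.ext
          change (-1 : Matrix _ _ K) = 1
          rw [neg_eq_iff_add_eq_zero]
          have : (1 : Matrix (Fin 4) (Fin 4) K) + 1 = (2 : K) • 1 := by rw [two_smul]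
          rw [this, h2K, zero_smul]
      exact ⟨⟨fun a b => by rw [key a, key b]⟩, ⟨1⟩⟩
    rw [hk1, ho', one_mul]
  · intro h2
    have hne : ngu K hm ≠ 1 := by
      intro h
      have h3 : (-1 : Matrix (Fin 4) (Fin 4) K) = 1 := congrArg (fun g => g.1.1) h
      have h4 := congrFun (congrFun h3 0) 0
      rw [Matrix.neg_apply, Matrix.one_apply_eq] at h4
      apply h2
      apply f.injective
      rw [map_ofNat, map_zero]
      linear_combination -h4
    rw [card_two hne hk, ho']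
    ring

end Cfsg.Agent.S0303
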