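import Cfsg.Statements.S0307
import Cfsg.Agent.H7.SLCard

set_option autoImplicit false
open Cfsg
open Cfsg.Agent.H7.Tv Module Matrix

namespace Cfsg.Agent.S0307

/-- PSL_n(q) is normal in PGL_n(q) with cyclic quotient of order gcd(n, q-1): the image of the natural map PSL_n → PGL_n is the kernel of a surjective homomorphism onto the cyclic group of that order. -/
theorem result {F : Type*} [Field F] [Fintype F] {q : ℕ} (hF : Fintype.card F = q) (n : ℕ) (hn : 1 ≤ n) : ∃ g : Matrix.ProjGenLinGroup (Fin n) F →* Multiplicative (ZMod (Nat.gcd n (q - 1))), Function.Surjective g ∧ g.ker = (Matrix.ProjectiveSpecialLinearGroup.toPGL : Matrix.ProjectiveSpecialLinearGroup (Fin n) F →* Matrix.ProjGenLinGroup (Fin n) F).range := by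
  classical
  -- the quotient of `Fˣ` by the `n`-th powers
  let R : Subgroup Fˣ := (powMonoidHom n : Fˣ →* Fˣ).range
  have hcard : Nat.card (Fˣ ⧸ R) = Nat.gcd n (q - 1) := by
    have h1 := IsCyclic.index_powMonoidHom_range Fˣ n
    have h0 : Nat.card Fˣ = q - 1 := by rw [Nat.card_eq_fintype_card, Fintype.card_units, hF]
    rw [h0, Nat.gcd_comm] at h1
    exact h1
  have hpos : 0 < Nat.gcd n (q - 1) := Nat.gcd_pos_of_pos_left _ hn
  haveI : NeZero (Nat.gcd n (q - 1)) := ⟨hpos.ne'⟩
  haveI : IsCyclic (Fˣ ⧸ R) := isCyclic_of_surjective (QuotientGroup.mk' R) (QuotientGroup.mk'_surjective R)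
  have e : (Fˣ ⧸ R) ≃* Multiplicative (ZMod (Nat.gcd n (q - 1))) :=
    mulEquivOfCyclicCardEq (by rw [hcard, Nat.card_congr Multiplicative.toAdd, Nat.card_zmod])
  let d : GL (Fin n) F →* (Fˣ ⧸ R) := (QuotientGroup.mk' R).comp GeneralLinearGroup.det
  have hd : Subgroup.center (GL (Fin n) F) ≤ d.ker := by
    intro z hz
    rw [GeneralLinearGroup.center_eq_range_scalar] at hz
    obtain ⟨u, rfl⟩ := hz
    rw [MonoidHom.mem_ker]
    change QuotientGroup.mk' R (GeneralLinearGroup.det (GeneralLinearGroup.scalar (Fin n) u)) = 1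
    rw [GeneralLinearGroup.det_scalar, Fintype.card_fin]
    exact (QuotientGroup.eq_one_iff _).2 ⟨u, rfl⟩
  let g0 : Matrix.ProjGenLinGroup (Fin n) F →* (Fˣ ⧸ R) := QuotientGroup.lift _ d hd
  have hg0 : ∀ x, g0 (ProjGenLinGroup.mk x) = QuotientGroup.mk' R (GeneralLinearGroup.det x) := fun x => rfl
  refine ⟨e.toMonoidHom.comp g0, ?_, ?_⟩
  · intro y
    obtain ⟨δ, hδ⟩ := QuotientGroup.mk'_surjective R (e.symm y)
    obtain ⟨x, hx⟩ := det_surjective (F := F) n hn δ
    refine ⟨ProjGenLinGroup.mk x, ?_⟩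
    change e (g0 _) = y
    rw [hg0, hx, hδ, MulEquiv.apply_symm_apply]
  · ext x
    obtain ⟨x, rfl⟩ := ProjGenLinGroup.mk_surjective x
    have h1 : ProjGenLinGroup.mk x ∈ (e.toMonoidHom.comp g0).ker ↔ GeneralLinearGroup.det x ∈ R := by
      rw [MonoidHom.mem_ker]
      change e (g0 _) = 1 ↔ _
      rw [hg0, MulEquiv.map_eq_one_iff]
      exact QuotientGroup.eq_one_iff _
    rw [h1]
    constructor
    · rintro ⟨c, hc⟩
      change c ^ n = _ at hc
      let y : GL (Fin n) F := x * GeneralLinearGroup.scalar (Fin n) c⁻¹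
      have hy : GeneralLinearGroup.det y = 1 := by
        change GeneralLinearGroup.det (x * GeneralLinearGroup.scalar (Fin n) c⁻¹) = 1
        rw [map_mul, GeneralLinearGroup.det_scalar, ← hc, Fintype.card_fin, inv_pow, mul_inv_cancel]
      let s : SpecialLinearGroup (Fin n) F := ⟨(y : Matrix (Fin n) (Fin n) F), congrArg Units.val hy⟩
      refine ⟨(QuotientGroup.mk s : Matrix.ProjectiveSpecialLinearGroup (Fin n) F), ?_⟩
      rw [ProjectiveSpecialLinearGroup.toPGL_mk]
      have hsy : SpecialLinearGroup.toGL s = y := Units.ext rfl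
      rw [hsy]
      change ProjGenLinGroup.mk (x * _) = _
      rw [map_mul, ProjGenLinGroup.mk_scalar, mul_one]
    · rintro ⟨s, hs⟩
      obtain ⟨s, rfl⟩ := QuotientGroup.mk_surjective s
      rw [ProjectiveSpecialLinearGroup.toPGL_mk, ProjGenLinGroup.mk_eq_mk_iff] at hs
      obtain ⟨u, hu⟩ := hs
      rw [← hu, map_mul, GeneralLinearGroup.det_scalar, Fintype.card_fin]
      have h2 : GeneralLinearGroup.det (SpecialLinearGroup.toGL s) = 1 := Units.ext s.2
      rw [h2, one_mul]
      exact ⟨u, rfl⟩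

end Cfsg.Agent.S0307
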