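import Cfsg.Statements.S0310
import Cfsg.Agent.H7.BNPair

set_option autoImplicit false
open Cfsg

namespace Cfsg.Agent.S0310

/-- For a set `J` of distinguished generators, the subgroup generated by `B` and `J` is exactly the union of
the double cosets `B n B` with `n` in the subgroup generated by `J` (so `B W_J B` is a subgroup). -/
theorem result {G : Type*} [Group G] (P : Cfsg.BNPair G) {J : Set G}
    (hJ : J ⊆ P.S) (g : G) :
    g ∈ P.parabolic J ↔ ∃ n ∈ Subgroup.closure J, g ∈ DoubleCoset.doubleCoset n (P.B : Set G) P.B := by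
  have hle : Subgroup.closure J ≤ P.N := (Subgroup.closure_le _).2 (fun x hx => P.subset (hJ hx))
  constructor
  · intro hg
    rw [H7.BN.parabolic_eq P hJ] at hg
    obtain ⟨l, hl, hg⟩ := hg
    have key : ∀ l : List (H7.BN.W P), H7.BN.IsWordJ P J l →
        ∃ n, ∃ hn : n ∈ P.N, n ∈ Subgroup.closure J ∧ l.prod = H7.BN.mkW P n hn := by
      intro l
      induction l with
      | nil =>
        intro _
        exact ⟨1, P.N.one_mem, Subgroup.one_mem _, rfl⟩
      | cons a l ih =>
        intro hl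
        obtain ⟨n, hn, hnJ, hn'⟩ := ih (fun x hx => hl x (List.mem_cons_of_mem _ hx))
        obtain ⟨s, hs, hsS, rfl⟩ := hl a List.mem_cons_self
        refine ⟨s * n, P.N.mul_mem (P.subset hsS) hn, Subgroup.mul_mem _ (Subgroup.subset_closure hs) hnJ, ?_⟩
        rw [List.prod_cons, hn']
        rfl
    obtain ⟨n, hn, hnJ, hn'⟩ := key l hl
    rw [hn', H7.BN.C_mk] at hg
    exact ⟨n, hnJ, hg⟩
  · rintro ⟨n, hn, hg⟩
    rw [DoubleCoset.mem_doubleCoset] at hg
    obtain ⟨a, ha, b, hb, rfl⟩ := hg
    exact Subgroup.mul_mem _ (Subgroup.mul_mem _ (Subgroup.mem_sup_left ha) (Subgroup.mem_sup_right hn))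
      (Subgroup.mem_sup_left hb)


end Cfsg.Agent.S0310
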