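import Cfsg.Statements.S0313
import Cfsg.Agent.H7.BNPair

set_option autoImplicit false
open Cfsg

namespace Cfsg.Agent.S0313

/-- Two standard parabolic subgroups of a group with a (B,N)-pair which are conjugate in `G` coincide. -/
theorem result {G : Type*} [Group G] (P : Cfsg.BNPair G) {J K : Set G}
    (hJ : J ⊆ P.S) (hK : K ⊆ P.S) (g : G)
    (h : (P.parabolic J).map (MulAut.conj g).toMonoidHom = P.parabolic K) :
    P.parabolic J = P.parabolic K := by
  have hg : g ∈ P.parabolic K := by
    apply H7.BN.mem_of_conj_le P _ le_sup_left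
    intro b hb
    have h0 : g * b * g⁻¹ ∈ (P.parabolic J).map (MulAut.conj g).toMonoidHom :=
      ⟨b, Subgroup.mem_sup_left hb, rfl⟩
    rw [h] at h0
    exact h0
  rw [← h] at hg
  have hg' : g ∈ P.parabolic J := by
    obtain ⟨x, hx, hx'⟩ := hg
    have : x = g := by
      have h1 : g * x * g⁻¹ = g := hx'
      have h2 : g * x = g * g := by
        calc g * x = (g * x * g⁻¹) * g := by group
          _ = g * g := by rw [h1]
      exact mul_left_cancel h2
    rw [← this]
    exact hx
  rw [← h]
  ext x
  constructor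
  · intro hx
    refine ⟨g⁻¹ * x * g, Subgroup.mul_mem _ (Subgroup.mul_mem _ (Subgroup.inv_mem _ hg') hx) hg', ?_⟩
    change g * (g⁻¹ * x * g) * g⁻¹ = x
    group
  · rintro ⟨y, hy, rfl⟩
    exact Subgroup.mul_mem _ (Subgroup.mul_mem _ hg' hy) (Subgroup.inv_mem _ hg')

end Cfsg.Agent.S0313
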