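import Cfsg.Statements.S0315
import Cfsg.Agent.H7.BNPair

set_option autoImplicit false
open Cfsg

namespace Cfsg.Agent.S0315

/-- Standard parabolic subgroups intersect as the index sets do: `P_J ⊓ P_K = P_{J ∩ K}`. -/
theorem result {G : Type*} [Group G] (P : Cfsg.BNPair G) {J K : Set G}
    (hJ : J ⊆ P.S) (hK : K ⊆ P.S) : P.parabolic J ⊓ P.parabolic K = P.parabolic (J ∩ K) := by
  have hB : P.B ≤ P.parabolic J ⊓ P.parabolic K := le_inf le_sup_left le_sup_left
  rw [H7.BN.eq_parabolic P _ hB]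
  congr 1
  rw [Subgroup.coe_inf]
  have h1 := H7.BN.S_inter_parabolic P hJ
  have h2 := H7.BN.S_inter_parabolic P hK
  conv_rhs => rw [← h1, ← h2]
  ext x
  simp only [Set.mem_inter_iff]
  tauto


end Cfsg.Agent.S0315
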