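import Cfsg.Statements.S0316
import Cfsg.Agent.H7.BNPair

set_option autoImplicit false
open Cfsg

namespace Cfsg.Agent.S0316

/-- The map `J ↦ P_J` is a lattice isomorphism from the power set of the set of distinguished generators onto the
subgroups containing `B`. -/
theorem result {G : Type*} [Group G] (P : Cfsg.BNPair G) :
    ∃ e : Set P.S ≃o {M : Subgroup G // P.B ≤ M},
      ∀ J : Set P.S, ((e J : {M : Subgroup G // P.B ≤ M}) : Subgroup G) = P.parabolic (Subtype.val '' J) := by
  let f : Set P.S → {M : Subgroup G // P.B ≤ M} := fun J => ⟨P.parabolic (Subtype.val '' J), le_sup_left⟩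
  have hsub : ∀ J : Set P.S, (Subtype.val '' J : Set G) ⊆ P.S := by
    rintro J x ⟨y, _, rfl⟩
    exact y.2
  have hle : ∀ J K : Set P.S, f J ≤ f K ↔ J ≤ K := by
    intro J K
    constructor
    · intro h x hx
      have h1 : (x : G) ∈ P.parabolic (Subtype.val '' J) :=
        Subgroup.mem_sup_right (Subgroup.subset_closure ⟨x, hx, rfl⟩)
      obtain ⟨y, hy, hyx⟩ := H7.BN.mem_parabolic_S P (hsub K) x.2 (h h1)
      rwa [Subtype.val_injective hyx] at hy
    · intro h
      exact H7.BN.parabolic_mono P (Set.image_mono h)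
  have hsurj : Function.Surjective f := by
    rintro ⟨M, hM⟩
    refine ⟨{s : P.S | (s : G) ∈ M}, ?_⟩
    apply Subtype.ext
    change P.parabolic _ = M
    conv_rhs => rw [H7.BN.eq_parabolic P M hM]
    congr 1
    ext x
    constructor
    · rintro ⟨y, hy, rfl⟩
      exact ⟨y.2, hy⟩
    · rintro ⟨h1, h2⟩
      exact ⟨⟨x, h1⟩, h2, rfl⟩
  have hinj : Function.Injective f := by
    intro J K h
    exact le_antisymm ((hle J K).1 h.le) ((hle K J).1 h.ge)
  refine ⟨⟨Equiv.ofBijective f ⟨hinj, hsurj⟩, ?_⟩, ?_⟩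
  · intro a b
    exact hle a b
  · intro J
    rfl


end Cfsg.Agent.S0316
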