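import Cfsg.Statements.S0319
import Cfsg.Agent.H7.BNPair

set_option autoImplicit false
open Cfsg

namespace Cfsg.Agent.S0319

/-- Simplicity criterion for groups with a (B,N)-pair: if the distinguished generators admit no
splitting into two non-empty mutually commuting parts, `B` is solvable, `G` is perfect and the intersection
of all conjugates of `B` is trivial, then `G` is simple. -/
theorem result {G : Type*} [Group G] [Nontrivial G]
    (P : Cfsg.BNPair G) (hirr : P.Irreducible) (hsolv : Group.IsSolvable P.B) (hperf : commutator G = ⊤)
    (hcore : P.B.normalCore = ⊥) : IsSimpleGroup G := by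
  have key : ∀ K : Subgroup G, K.Normal → K ≠ ⊥ → K = ⊤ := by
    intro K hK hKbot
    set M : Subgroup G := P.B ⊔ K with hM
    have hBM : P.B ≤ M := le_sup_left
    have hKM : K ≤ M := le_sup_right
    have hMJ := H7.BN.eq_parabolic P M hBM
    set J : Set G := P.S ∩ M with hJdef
    have hJS : J ⊆ P.S := Set.inter_subset_left
    have hcomm : ∀ s ∈ J, ∀ t ∈ P.S \ J, s * t * s⁻¹ * t⁻¹ ∈ P.B := by
      rintro s ⟨hsS, hsM⟩ t ⟨htS, htJ⟩
      have htM : t ∉ M := fun h => htJ ⟨htS, h⟩
      obtain ⟨b, hb, k, hk, hbk⟩ := (Subgroup.mem_sup_of_normal_right).1 hsM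
      set a := H7.BN.mkW P s (P.subset hsS) with ha
      set r := H7.BN.mkW P t (P.subset htS) with hr
      have haR : a ∈ H7.BN.R P := ⟨s, hsS, rfl⟩
      have hrR : r ∈ H7.BN.R P := ⟨t, htS, rfl⟩
      have hst : s ≠ t := by
        rintro rfl
        exact htM hsM
      have har : a ≠ r := by
        intro h
        rw [ha, hr, H7.BN.mkW_eq_iff] at h
        exact hst (P.inj s hsS t htS h)
      have hkC : k ∈ H7.BN.C P a := by
        have : k = b⁻¹ * s := by rw [← hbk]; group
        rw [this]
        exact H7.BN.B_mul_C P (P.B.inv_mem hb) (H7.BN.mem_C_self P (P.subset hsS))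
      have htC : t ∈ H7.BN.C P r := H7.BN.mem_C_self P (P.subset htS)
      have htC' : t⁻¹ ∈ H7.BN.C P r := by
        have := H7.BN.C_inv P htC
        rwa [H7.BN.R_inv P hrR] at this
      have hlr := H7.BN.len_R P hrR
      have hl2 : H7.BN.len P (a * r) = 2 := by
        have h1 := H7.BN.len_R_mul_le P haR r
        have h2 := H7.BN.len_R_mul_ne P (w := r) haR
        have h3 : H7.BN.len P (a * r) ≠ 0 := by
          intro h
          have := H7.BN.eq_one_of_len P h
          apply har
          rw [← H7.BN.R_inv P hrR]
          exact eq_inv_of_mul_eq_one_left this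
        omega
      have h1 : k * t⁻¹ ∈ H7.BN.C P (a * r) :=
        H7.BN.R_mul_C_of_le P r a haR (by omega) k hkC _ htC'
      have hne := H7.BN.len_R_mul_ne P (w := a * r) hrR
      rcases lt_or_gt_of_ne hne with hlt | hgt
      · have hw : H7.BN.IsWord P [a, r] := by
          intro x hx
          simp only [List.mem_cons, List.not_mem_nil, or_false] at hx
          rcases hx with rfl | rfl
          · exact haR
          · exact hrR
        obtain ⟨j, hj, hj'⟩ := H7.BN.exchange P hrR [a, r] hw (by simpa using hlt)
        have hj2 : j = 0 ∨ j = 1 := by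
          simp only [List.length_cons, List.length_nil] at hj
          omega
        rcases hj2 with rfl | rfl
        · exfalso
          simp only [List.prod_cons, List.prod_nil, mul_one, List.eraseIdx_cons_zero] at hj'
          have : a * r = 1 := mul_eq_left.1 hj'
          rw [this, H7.BN.len_one] at hl2
          omega
        · simp only [List.prod_cons, List.prod_nil, mul_one, List.eraseIdx_cons_succ,
            List.eraseIdx_cons_zero] at hj'
          have h5 : a * r * a⁻¹ * r⁻¹ = 1 := by
            rw [H7.BN.R_inv P haR, H7.BN.R_inv P hrR]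
            have : a * r = r * a := by
              calc a * r = r * (r * (a * r)) := by rw [H7.BN.R_mul_cancel P hrR]
                _ = r * a := by rw [hj']
            rw [this, H7.BN.mul_R_cancel P haR, H7.BN.R_sq P hrR]
          have h6 : H7.BN.mkW P (s * t * s⁻¹ * t⁻¹) (P.N.mul_mem (P.N.mul_mem (P.N.mul_mem (P.subset hsS)
            (P.subset htS)) (P.N.inv_mem (P.subset hsS))) (P.N.inv_mem (P.subset htS))) = 1 := h5
          rwa [H7.BN.mkW_eq_one_iff] at h6
      · exfalso
        have h2 : t * (k * t⁻¹) ∈ H7.BN.C P (r * (a * r)) :=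
          H7.BN.R_mul_C_of_le P (a * r) r hrR hgt.le t htC _ h1
        have h3 : t * (k * t⁻¹) ∈ M := by
          rw [← mul_assoc]
          exact hKM (hK.conj_mem k hk t)
        rw [hMJ, H7.BN.parabolic_eq P hJS] at h3
        obtain ⟨l, hl, hl'⟩ := h3
        have h4 := H7.BN.C_inj P h2 hl'
        have h5 : H7.BN.len P (r * l.prod) < H7.BN.len P l.prod := by
          rw [← h4, H7.BN.R_mul_cancel P hrR]
          exact hgt
        obtain ⟨j, hj, hj'⟩ := H7.BN.exchange P hrR l (H7.BN.IsWordJ.isWord P hl) h5
        have h6 : r = (l.eraseIdx j ++ l.reverse).prod := by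
          rw [List.prod_append, H7.BN.prod_reverse P (H7.BN.IsWordJ.isWord P hl), ← hj']
          group
        apply htJ
        apply H7.BN.mem_of_wordJ_R P htS _ _ h6.symm
        intro x hx
        rcases List.mem_append.1 hx with h | h
        · exact hl x (List.mem_of_mem_eraseIdx h)
        · exact hl x (List.mem_reverse.1 h)
    by_cases hJe : J.Nonempty
    · by_cases hJc : (P.S \ J).Nonempty
      · exfalso
        obtain ⟨s, hs, t, ht, hst⟩ := hirr J hJS hJe hJc
        exact hst (hcomm s hs t ht)
      · -- `J = S`
        have hJS' : J = P.S := by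
          apply Set.Subset.antisymm hJS
          rw [Set.not_nonempty_iff_eq_empty] at hJc
          exact Set.sdiff_eq_empty.1 hJc
        have hMtop : M = ⊤ := by
          rw [hMJ, hJS', eq_top_iff, ← P.sup_eq_top]
          refine sup_le le_sup_left ?_
          conv_lhs => rw [← P.closure_sup]
          exact sup_le le_sup_right (inf_le_left.trans le_sup_left)
        by_contra hKtop
        have hsurj : Function.Surjective ((QuotientGroup.mk' K).comp P.B.subtype) := by
          intro x
          obtain ⟨g, rfl⟩ := QuotientGroup.mk'_surjective K x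
          have hg : g ∈ M := by rw [hMtop]; trivial
          obtain ⟨b, hb, k, hk, hbk⟩ := (Subgroup.mem_sup_of_normal_right).1 hg
          refine ⟨⟨b, hb⟩, ?_⟩
          change QuotientGroup.mk' K b = QuotientGroup.mk' K g
          rw [← hbk, map_mul, (QuotientGroup.eq_one_iff k).2 hk |> (fun h => (h : QuotientGroup.mk' K k = 1)),
            mul_one]
        have hs : Group.IsSolvable (G ⧸ K) := solvable_of_surjective hsurj
        have hnt : Nontrivial (G ⧸ K) := by
          rw [QuotientGroup.nontrivial_iff]
          exact hKtop
        have h1 := Group.IsSolvable.commutator_lt_top_of_nontrivial (G ⧸ K)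
        have h2 : commutator (G ⧸ K) = ⊤ := by
          have h3 : (commutator G).map (QuotientGroup.mk' K) = commutator (G ⧸ K) := by
            rw [commutator_def, commutator_def, Subgroup.map_commutator,
              Subgroup.map_top_of_surjective _ (QuotientGroup.mk'_surjective K)]
          rw [← h3, hperf, Subgroup.map_top_of_surjective _ (QuotientGroup.mk'_surjective K)]
        rw [h2] at h1
        exact lt_irrefl _ h1
    · exfalso
      rw [Set.not_nonempty_iff_eq_empty] at hJe
      have hMB : M = P.B := by
        rw [hMJ, hJe]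
        change P.B ⊔ Subgroup.closure ∅ = P.B
        rw [Subgroup.closure_empty, sup_bot_eq]
      have hKB : K ≤ P.B := by
        rw [← hMB]
        exact hKM
      have h1 : K ≤ P.B.normalCore := Subgroup.normal_le_normalCore.2 hKB
      rw [hcore] at h1
      exact hKbot (le_bot_iff.1 h1)
  refine { eq_bot_or_eq_top_of_normal := fun K hK => ?_ }
  by_cases h : K = ⊥
  · exact Or.inl h
  · exact Or.inr (key K hK h)

end Cfsg.Agent.S0319
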