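import Cfsg.Statements.S0321
import Cfsg.Agent.H7.BNPair

set_option autoImplicit false
open Cfsg

namespace Cfsg.Agent.S0321

/-- For `n ∈ N` not in `B`, the union `B ∪ B n B` is (the underlying set of) a subgroup exactly when `n` agrees
modulo `B ⊓ N` with one of the distinguished representatives; thus the distinguished involutions are
determined by `B` and `N`. -/
theorem result {G : Type*} [Group G] (P : Cfsg.BNPair G) {n : G}
    (hn : n ∈ P.N) (hnB : n ∉ P.B) :
    (∃ H : Subgroup G, (H : Set G) = (P.B : Set G) ∪ DoubleCoset.doubleCoset n (P.B : Set G) P.B) ↔ ∃ s ∈ P.S, s⁻¹ * n ∈ P.B := by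
  constructor
  · rintro ⟨H, hH⟩
    have hBH : P.B ≤ H := by
      intro b hb
      have : b ∈ (H : Set G) := by rw [hH]; exact Or.inl hb
      exact this
    have hnH : n ∈ H := by
      have : n ∈ (H : Set G) := by
        rw [hH]
        right
        exact DoubleCoset.mem_doubleCoset_self _ _ _
      exact this
    have hHJ := H7.BN.eq_parabolic P H hBH
    by_cases hJ : (P.S ∩ (H : Set G)).Nonempty
    · obtain ⟨s, hs, hsH⟩ := hJ
      refine ⟨s, hs, ?_⟩
      rw [hH] at hsH
      rcases hsH with h | h
      · exact absurd h (H7.BN.notMem_of_mem_S P hs)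
      · rw [← H7.BN.C_mk P hn] at h
        rw [← H7.BN.mkW_eq_iff P (P.subset hs) hn]
        exact H7.BN.C_inj P (H7.BN.mem_C_self P (P.subset hs)) h
    · exfalso
      rw [Set.not_nonempty_iff_eq_empty] at hJ
      rw [hJ] at hHJ
      have : H = P.B := by
        rw [hHJ]
        change P.B ⊔ Subgroup.closure ∅ = P.B
        rw [Subgroup.closure_empty, sup_bot_eq]
      rw [this] at hnH
      exact hnB hnH
  · rintro ⟨s, hs, hsn⟩
    have hsub : ({s} : Set G) ⊆ P.S := Set.singleton_subset_iff.2 hs
    refine ⟨H7.BN.parW P {s}, ?_⟩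
    have e : H7.BN.mkW P n hn = H7.BN.mkW P s (P.subset hs) :=
      ((H7.BN.mkW_eq_iff P (P.subset hs) hn).2 hsn).symm
    rw [← H7.BN.C_mk P hn, e]
    have hsR : H7.BN.mkW P s (P.subset hs) ∈ H7.BN.R P := ⟨s, hs, rfl⟩
    have hword : ∀ l : List (H7.BN.W P), H7.BN.IsWordJ P {s} l → l.prod = 1 ∨ l.prod = H7.BN.mkW P s (P.subset hs) := by
      intro l
      induction l with
      | nil => intro _; exact Or.inl rfl
      | cons a l ih =>
        intro hl
        obtain ⟨t, ht, htS, hta⟩ := hl a List.mem_cons_self
        rw [Set.mem_singleton_iff] at ht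
        subst ht
        rw [List.prod_cons, ← hta]
        rcases ih (fun x hx => hl x (List.mem_cons_of_mem _ hx)) with h | h
        · right; rw [h, mul_one]
        · left; rw [h]; exact H7.BN.R_sq P hsR
    ext g
    constructor
    · rintro ⟨l, hl, hg⟩
      rcases hword l hl with h | h
      · rw [h, H7.BN.mem_C_one] at hg
        exact Or.inl hg
      · rw [h] at hg
        exact Or.inr hg
    · rintro (h | h)
      · exact H7.BN.B_le_parW P _ h
      · refine ⟨[H7.BN.mkW P s (P.subset hs)], ?_, by rwa [List.prod_singleton]⟩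
        intro x hx
        rw [List.mem_singleton] at hx
        exact ⟨s, rfl, hs, hx.symm⟩

end Cfsg.Agent.S0321
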