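import Cfsg.Statements.S0322
import Cfsg.Agent.H7.BNPair

set_option autoImplicit false
open Cfsg

namespace Cfsg.Agent.S0322

/-- A group with a (B,N)-pair of rank one acts doubly transitively on the left cosets of `B`. -/
theorem result {G : Type*} [Group G] (P : Cfsg.BNPair G) (h : P.rank = 1) : MulAction.IsMultiplyPretransitive G (G ⧸ P.B) 2 := by
  have h1 : ∃ s, P.S = {s} := by
    rw [Cfsg.BNPair.rank, Nat.card_coe_set_eq, Set.ncard_eq_one] at h
    exact h
  obtain ⟨s, hs⟩ := h1
  have hsS : s ∈ P.S := by rw [hs]; rfl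
  have hsR : H7.BN.mkW P s (P.subset hsS) ∈ H7.BN.R P := ⟨s, hsS, rfl⟩
  have hword : ∀ l : List (H7.BN.W P), H7.BN.IsWord P l → l.prod = 1 ∨ l.prod = H7.BN.mkW P s (P.subset hsS) := by
    intro l
    induction l with
    | nil => intro _; exact Or.inl rfl
    | cons a l ih =>
      intro hl
      obtain ⟨t, htS, hta⟩ := hl a List.mem_cons_self
      have ht : t = s := by
        have := htS
        rw [hs] at this
        exact this
      subst ht
      rw [List.prod_cons, ← hta]
      rcases ih (fun x hx => hl x (List.mem_cons_of_mem _ hx)) with h | h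
      · right; rw [h, mul_one]
      · left; rw [h]; exact H7.BN.R_sq P hsR
  have hC : ∀ g, g ∉ P.B → g ∈ H7.BN.C P (H7.BN.mkW P s (P.subset hsS)) := by
    intro g hg
    obtain ⟨w, hw⟩ := H7.BN.exists_mem_C P g
    obtain ⟨l, hl, rfl⟩ := H7.BN.exists_word P w
    rcases hword l hl with h | h
    · rw [h, H7.BN.mem_C_one] at hw
      exact absurd hw hg
    · rwa [h] at hw
  rw [MulAction.is_two_pretransitive_iff]
  intro a b c d hab hcd
  obtain ⟨x, rfl⟩ := QuotientGroup.mk_surjective a
  obtain ⟨y, rfl⟩ := QuotientGroup.mk_surjective b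
  obtain ⟨u, rfl⟩ := QuotientGroup.mk_surjective c
  obtain ⟨v, rfl⟩ := QuotientGroup.mk_surjective d
  rw [Ne, QuotientGroup.eq] at hab hcd
  obtain ⟨p, hp, q, hq, hpq⟩ := H7.BN.C_trans P (hC _ hab) (hC _ hcd)
  refine ⟨u * p * x⁻¹, ?_, ?_⟩
  · rw [MulAction.Quotient.smul_mk, QuotientGroup.eq]
    have : ((u * p * x⁻¹) • x)⁻¹ * u = p⁻¹ := by
      rw [smul_eq_mul]; group
    rw [this]
    exact P.B.inv_mem hp
  · rw [MulAction.Quotient.smul_mk, QuotientGroup.eq]
    have : ((u * p * x⁻¹) • y)⁻¹ * v = q := by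
      have h2 : v = u * (p * (x⁻¹ * y) * q) := by rw [← hpq]; group
      rw [smul_eq_mul, h2]; group
    rw [this]
    exact hq

end Cfsg.Agent.S0322
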