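import Cfsg.Statements.S0323
import Cfsg.Agent.H7.BNPair

set_option autoImplicit false
open scoped Pointwise
open Cfsg

namespace Cfsg.Agent.S0323

/-- A doubly transitive action on a set with at least three points yields a (B,N)-pair of rank one:
`B` is the stabiliser of a point `x`, `N` the setwise stabiliser of a pair `{x, y}`. -/
theorem result {G Ω : Type*} [Group G] [MulAction G Ω]
    (h2 : MulAction.IsMultiplyPretransitive G Ω 2) {x y z : Ω} (hxy : x ≠ y) (hyz : y ≠ z) (hxz : x ≠ z) :
    ∃ P : Cfsg.BNPair G, P.B = MulAction.stabilizer G x ∧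
      P.N = MulAction.stabilizer G ({x, y} : Set Ω) ∧ P.rank = 1 := by
  rw [MulAction.is_two_pretransitive_iff] at h2
  obtain ⟨s, hsx, hsy⟩ := h2 hxy hxy.symm
  have hsx' : s⁻¹ • x = y := by rw [inv_smul_eq_iff, hsy]
  have hsy' : s⁻¹ • y = x := by rw [inv_smul_eq_iff, hsx]
  have hmemN : ∀ g : G, g ∈ MulAction.stabilizer G ({x, y} : Set Ω) ↔
      (g • x = x ∧ g • y = y) ∨ (g • x = y ∧ g • y = x) := by
    intro g
    rw [MulAction.mem_stabilizer_iff, ← Set.image_smul, Set.image_pair]
    constructor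
    · intro h
      have hx : g • x ∈ ({x, y} : Set Ω) := by rw [← h]; simp
      have hy : g • y ∈ ({x, y} : Set Ω) := by rw [← h]; simp
      have hne : g • x ≠ g • y := fun h => hxy (smul_left_cancel g h)
      rcases hx with h1 | h1 <;> rcases hy with h3 | h3
      · exact absurd (h1.trans h3.symm) hne
      · exact Or.inl ⟨h1, h3⟩
      · exact Or.inr ⟨h1, h3⟩
      · exact absurd (h1.trans h3.symm) hne
    · rintro (⟨h1, h3⟩ | ⟨h1, h3⟩)
      · rw [h1, h3]
      · rw [h1, h3, Set.pair_comm]
  have hB : ∀ g : G, g ∈ MulAction.stabilizer G x ↔ g • x = x := fun g => MulAction.mem_stabilizer_iff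
  have hdc : ∀ g g' : G, g • x ≠ x → g' • x ≠ x → ∃ b : G, b • x = x ∧ ∃ b' : G, b' • x = x ∧ g' = b * g * b' := by
    intro g g' hg hg'
    obtain ⟨b, hb, hb'⟩ := h2 (Ne.symm hg) (Ne.symm hg')
    refine ⟨b, hb, g⁻¹ * b⁻¹ * g', ?_, by group⟩
    rw [mul_smul, mul_smul, ← hb', inv_smul_smul, inv_smul_smul]
  have hsN : s ∈ MulAction.stabilizer G ({x, y} : Set Ω) := (hmemN s).2 (Or.inr ⟨hsx, hsy⟩)
  refine ⟨{ B := MulAction.stabilizer G x
            N := MulAction.stabilizer G ({x, y} : Set Ω)
            S := {s}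
            sup_eq_top := ?_
            conj_mem := ?_
            subset := ?_
            sq_mem := ?_
            inj := ?_
            closure_sup := ?_
            mul_mem_union := ?_
            conj_ne := ?_ }, rfl, rfl, ?_⟩
  · rw [eq_top_iff]
    intro g _
    by_cases hg : g • x = x
    · exact Subgroup.mem_sup_left ((hB g).2 hg)
    · obtain ⟨b, hb, b', hb', rfl⟩ := hdc s g (by rw [hsx]; exact hxy.symm) hg
      exact Subgroup.mul_mem _ (Subgroup.mul_mem _ (Subgroup.mem_sup_left ((hB b).2 hb))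
        (Subgroup.mem_sup_right hsN)) (Subgroup.mem_sup_left ((hB b').2 hb'))
  · rintro n hn t ⟨ht, htN⟩
    have htx : t • x = x := (hB t).1 ht
    have hty : t • y = y := by
      rcases (hmemN t).1 htN with h | h
      · exact h.2
      · exact absurd (htx.symm.trans h.1) hxy
    rw [hB]
    rcases (hmemN n).1 hn with h | h
    · rw [mul_smul, mul_smul, inv_smul_eq_iff.2 h.1.symm, htx, h.1]
    · rw [mul_smul, mul_smul, inv_smul_eq_iff.2 h.2.symm, hty, h.2]
  · rw [Set.singleton_subset_iff]
    exact hsN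
  · intro t ht
    rw [Set.mem_singleton_iff] at ht
    subst ht
    rw [hB, mul_smul, hsx, hsy]
  · intro a ha b hb _
    rw [Set.mem_singleton_iff] at ha hb
    rw [ha, hb]
  · apply le_antisymm
    · refine sup_le ((Subgroup.closure_le _).2 ?_) inf_le_right
      rw [Set.singleton_subset_iff]
      exact hsN
    · intro n hn
      rcases (hmemN n).1 hn with h | h
      · exact Subgroup.mem_sup_right ⟨(hB n).2 h.1, hn⟩
      · have h3 : s⁻¹ * n ∈ MulAction.stabilizer G x ⊓ MulAction.stabilizer G ({x, y} : Set Ω) := by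
          refine ⟨?_, Subgroup.mul_mem _ (Subgroup.inv_mem _ hsN) hn⟩
          change s⁻¹ * n ∈ MulAction.stabilizer G x
          rw [hB, mul_smul, h.1, hsy']
        have h4 : n = s * (s⁻¹ * n) := by group
        rw [h4]
        exact Subgroup.mul_mem _ (Subgroup.mem_sup_left (Subgroup.subset_closure rfl))
          (Subgroup.mem_sup_right h3)
  · intro t ht n hn b hb
    rw [Set.mem_singleton_iff] at ht
    subst ht
    rw [hB] at hb
    rcases (hmemN n).1 hn with h | h
    · left
      rw [DoubleCoset.mem_doubleCoset]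
      refine ⟨1, Subgroup.one_mem _, n⁻¹ * b * n, ?_, by group⟩
      change n⁻¹ * b * n ∈ MulAction.stabilizer G x
      rw [hB, mul_smul, mul_smul, h.1, hb, inv_smul_eq_iff, h.1]
    · by_cases hg : (t * b * n) • x = x
      · left
        rw [DoubleCoset.mem_doubleCoset]
        refine ⟨t * b * n * (t * n)⁻¹, ?_, 1, Subgroup.one_mem _, by group⟩
        change t * b * n * (t * n)⁻¹ ∈ MulAction.stabilizer G x
        have h5 : (t * n)⁻¹ • x = x := by rw [inv_smul_eq_iff, mul_smul, h.1, hsy]
        rw [hB, mul_smul, h5, hg]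
      · right
        rw [DoubleCoset.mem_doubleCoset]
        obtain ⟨p, hp, q, hq, hpq⟩ := hdc n (t * b * n) (by rw [h.1]; exact hxy.symm) hg
        exact ⟨p, (hB p).2 hp, q, (hB q).2 hq, hpq⟩
  · intro t ht heq
    rw [Set.mem_singleton_iff] at ht
    subst ht
    obtain ⟨b, hb, hbz⟩ := h2 hxy hxz
    have h3 : t * b * t ∈ (MulAction.stabilizer G x : Set G) := by
      rw [← heq]
      exact ⟨b, (hB b).2 hb, rfl⟩
    have h4 : (t * b * t) • x = x := (hB _).1 h3
    rw [mul_smul, mul_smul, hsx, hbz] at h4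
    have : z = y := by
      rw [← hsx', ← h4, inv_smul_smul]
    exact hyz this.symm
  · rw [Cfsg.BNPair.rank]
    simp

end Cfsg.Agent.S0323
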