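import Cfsg.Statements.S0327
import Mathlib
import Cfsg.Agent.H8.SzE
open Cfsg.Agent.H8.Suz

set_option autoImplicit false
open Cfsg

namespace Cfsg.Agent.S0327



/-- The Suzuki group (`m ≥ 1`) is a Zassenhaus group on the `q² + 1` points of the Suzuki–Tits ovoid. -/
theorem result {F : Type*} [Field F] [Fintype F] {m : ℕ} (hm : 1 ≤ m)
    (hF : Fintype.card F = 2 ^ (2 * m + 1)) :
    Cfsg.IsZassenhausGroup (Cfsg.Sz F m) (Cfsg.suzukiOvoid F m) := by
  haveI : Cfsg.Agent.H8.Suz.Hyp F m := ⟨hm, hF⟩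
  refine ⟨faithful m, two_trans m, ?_, ?_, ?_⟩
  · intro g a b c hab hbc hac ha hb hc
    exact three_pts m hab hbc hac ha hb hc
  · obtain ⟨k, hk⟩ := exists_unit_ne (F := F) m
    refine ⟨T m k, ?_, oi F m, op m 0 0, (op_ne_oi (F := F) m 0 0).symm, T_oi m k, T_op0 m k⟩
    intro h
    rw [← map_one (T m)] at h
    exact hk (congrArg Units.val (T_inj m h))
  · intro N hN htr
    haveI := simple (F := F) m
    refine ⟨oi F m, ?_⟩
    rcases hN.eq_bot_or_eq_top with h | h
    · exfalso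
      obtain ⟨n, hn⟩ := htr.exists_smul_eq (oi F m) (op m 0 0)
      have h1 : (n : ↥(Cfsg.Sz F m)) = 1 := Subgroup.mem_bot.1 (h.le n.2)
      have h2 : (n : ↥(Cfsg.Sz F m)) • oi F m = op m 0 0 := hn
      rw [h1, one_smul] at h2
      exact op_ne_oi m 0 0 h2.symm
    · intro hbot
      have h1 : (⟨U m 0 1, by rw [h]; exact Subgroup.mem_top _⟩ : N) ∈ MulAction.stabilizer N (oi F m) := U_oi m 0 1
      rw [hbot, Subgroup.mem_bot] at h1
      have h2 : U m (0 : F) 1 = 1 := congrArg Subtype.val h1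
      rw [← U_zero m] at h2
      exact one_ne_zero (U_inj m h2).2

end Cfsg.Agent.S0327
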