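import Cfsg.Statements.S0328
import Mathlib
import Cfsg.Agent.H8.SzE
open Cfsg.Agent.H8.Suz

set_option autoImplicit false
open Cfsg

namespace Cfsg.Agent.S0328



/-- The stabiliser in the Suzuki group of the two ovoid points spanned by `(1,0,0,0)` and `(0,0,0,1)` is
isomorphic to the multiplicative group of the field (cyclic of order `q - 1`). -/
theorem result {F : Type*} [Field F] [Fintype F] {m : ℕ} (hm : 1 ≤ m)
    (hF : Fintype.card F = 2 ^ (2 * m + 1)) :
    Nonempty (↥(MulAction.stabilizer (Cfsg.Sz F m) (Cfsg.suzukiPointInfinity F) ⊓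
        MulAction.stabilizer (Cfsg.Sz F m) (Cfsg.suzukiPointZero F)) ≃* Fˣ) := by
  haveI : Cfsg.Agent.H8.Suz.Hyp F m := ⟨hm, hF⟩
  have h1 : MulAction.stabilizer (Cfsg.Sz F m) (Cfsg.suzukiPointInfinity F) ⊓ MulAction.stabilizer (Cfsg.Sz F m) (Cfsg.suzukiPointZero F) = (T m : Fˣ →* ↥(Cfsg.Sz F m)).range := by
    ext g
    rw [Subgroup.mem_inf, MulAction.mem_stabilizer_iff, MulAction.mem_stabilizer_iff, ← pt_zero m]
    constructor
    · rintro ⟨h1, h2⟩
      obtain ⟨k, rfl⟩ := two_pt' m h1 h2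
      exact ⟨k, rfl⟩
    · rintro ⟨k, rfl⟩
      exact ⟨T_inf m k, T_pt0 m k⟩
  rw [h1]
  exact ⟨(MonoidHom.ofInjective (T_inj (F := F) m)).symm⟩

end Cfsg.Agent.S0328
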