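import Cfsg.Statements.S0329
import Mathlib
import Cfsg.Agent.H8.SzE
open Cfsg.Agent.H8.Suz

set_option autoImplicit false
open Cfsg

namespace Cfsg.Agent.S0329



/-- The stabiliser in the Suzuki group of the ovoid point spanned by `(1,0,0,0)` has order `q² (q - 1)`. -/
theorem result {F : Type*} [Field F] [Fintype F] {m : ℕ} (hm : 1 ≤ m)
    (hF : Fintype.card F = 2 ^ (2 * m + 1)) :
    Nat.card (MulAction.stabilizer (Cfsg.Sz F m) (Cfsg.suzukiPointInfinity F)) =
      (2 ^ (2 * m + 1)) ^ 2 * (2 ^ (2 * m + 1) - 1) := by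
  haveI : Cfsg.Agent.H8.Suz.Hyp F m := ⟨hm, hF⟩
  have h1 : MulAction.stabilizer (Cfsg.Sz F m) (Cfsg.suzukiPointInfinity F) = B F m := by
    ext g
    rw [mem_B, MulAction.mem_stabilizer_iff]
    constructor
    · intro h; exact Subtype.ext h
    · intro h; exact congrArg Subtype.val h
  rw [h1, card_B]

end Cfsg.Agent.S0329
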