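import Cfsg.Statements.S0330
import Mathlib
import Cfsg.Agent.H8.SzG
open Cfsg.Agent.H8.Suz

set_option autoImplicit false
open Cfsg

namespace Cfsg.Agent.S0330



/-- A Sylow 2-subgroup `P` of the Suzuki group (field with `q = 2^(2m+1)` elements, `m ≥ 1`) has order `q²` and
exponent `4`; its centre coincides with its commutator subgroup and has order `q`. -/
theorem result {F : Type*} [Field F] [Fintype F] {m : ℕ} (hm : 1 ≤ m)
    (hF : Fintype.card F = 2 ^ (2 * m + 1)) (P : Sylow 2 (Cfsg.Sz F m)) :
    Nat.card P = (2 ^ (2 * m + 1)) ^ 2 ∧ Monoid.exponent P = 4 ∧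
      Subgroup.center P = commutator P ∧ Nat.card (Subgroup.center P) = 2 ^ (2 * m + 1) := by
  haveI : Cfsg.Agent.H8.Suz.Hyp F m := ⟨hm, hF⟩
  let e := sylE m P
  have h1 : Subgroup.center P = (Subgroup.center (Q F m)).map e.toMonoidHom := by
    ext x
    rw [Subgroup.mem_map, Subgroup.mem_center_iff]
    constructor
    · intro h
      refine ⟨e.symm x, ?_, e.apply_symm_apply x⟩
      rw [Subgroup.mem_center_iff]
      intro g
      apply e.injective
      rw [map_mul, map_mul, e.apply_symm_apply]
      exact h _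
    · rintro ⟨y, hy, rfl⟩ g
      rw [Subgroup.mem_center_iff] at hy
      have h2 := congrArg e (hy (e.symm g))
      rw [map_mul, map_mul, e.apply_symm_apply] at h2
      exact h2
  have h2 : commutator P = (commutator (Q F m)).map e.toMonoidHom := by
    rw [commutator_def, commutator_def, Subgroup.map_commutator, Subgroup.map_top_of_surjective _ e.surjective]
  have h3 : Nat.card P = Nat.card (Q F m) := (Nat.card_congr e.toEquiv).symm
  refine ⟨?_, ?_, ?_, ?_⟩
  · rw [h3, card_Q]
  · exact (Monoid.exponent_eq_of_mulEquiv e).symm.trans (exp_Q m)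
  · rw [h1, h2, center_Q, comm_Q]
  · rw [h1]
    have h4 : Nat.card ((Subgroup.center (Q F m)).map e.toMonoidHom) = Nat.card (Subgroup.center (Q F m)) := Nat.card_congr ((Subgroup.center (Q F m)).equivMapOfInjective e.toMonoidHom e.injective).toEquiv.symm
    rw [h4, center_Q, Nat.card_congr (Subgroup.subgroupOfEquivOfLe (Z_le_Q (F := F) m)).toEquiv, card_Z]

end Cfsg.Agent.S0330
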