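import Cfsg.Statements.S0331
import Mathlib
import Cfsg.Agent.H8.SzM
open Cfsg.Agent.H8.Suz

set_option autoImplicit false
open Cfsg

namespace Cfsg.Agent.S0331



/-- For every odd prime `p` the Sylow `p`-subgroups of the Suzuki group are cyclic. -/
theorem result {F : Type*} [Field F] [Fintype F] {m : ℕ} (hm : 1 ≤ m)
    (hF : Fintype.card F = 2 ^ (2 * m + 1)) {p : ℕ} [Fact p.Prime] (hp : p ≠ 2)
    (P : Sylow p (Cfsg.Sz F m)) : IsCyclic P := by
  haveI : Cfsg.Agent.H8.Suz.Hyp F m := ⟨hm, hF⟩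
  by_cases hP : Nontrivial (P : Subgroup ↥(Cfsg.Sz F m))
  · haveI := P.isPGroup'.center_nontrivial
    obtain ⟨⟨z, hz⟩, hz1⟩ := exists_ne (1 : Subgroup.center (P : Subgroup ↥(Cfsg.Sz F m)))
    have hz1' : (z : ↥(Cfsg.Sz F m)) ≠ 1 := fun h => hz1 (Subtype.ext (Subtype.ext h))
    rw [Subgroup.mem_center_iff] at hz
    obtain ⟨n, hn⟩ := P.isPGroup' z
    have hzn : (z : ↥(Cfsg.Sz F m)) ^ p ^ n = 1 := congrArg Subtype.val hn
    have hpp : p.Prime := Fact.out
    have hodd : Odd (p ^ n) := (hpp.odd_of_ne_two hp).pow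
    have h2 := not_unip_of_odd m hodd hzn hz1'
    obtain ⟨hc, -⟩ := cent_tor m h2
    have hle : (P : Subgroup ↥(Cfsg.Sz F m)) ≤ Subgroup.centralizer {(z : ↥(Cfsg.Sz F m))} := by
      intro y hy
      rw [Subgroup.mem_centralizer_singleton_iff]
      exact congrArg Subtype.val (hz ⟨y, hy⟩)
    exact isCyclic_of_injective (Subgroup.inclusion hle) (Subgroup.inclusion_injective hle)
  · rw [not_nontrivial_iff_subsingleton] at hP
    exact isCyclic_of_subsingleton

end Cfsg.Agent.S0331
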