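import Cfsg.Statements.S0332
import Mathlib
import Cfsg.Agent.H8.SzM
open Cfsg.Agent.H8.Suz

set_option autoImplicit false
open Cfsg

namespace Cfsg.Agent.S0332



/-- The Suzuki group is a CN-group: every non-identity element has nilpotent centraliser. -/
theorem result {F : Type*} [Field F] [Fintype F] {m : ℕ} (hm : 1 ≤ m)
    (hF : Fintype.card F = 2 ^ (2 * m + 1)) : Cfsg.IsCNGroup (Cfsg.Sz F m) := by
  haveI : Cfsg.Agent.H8.Suz.Hyp F m := ⟨hm, hF⟩
  intro g hg
  by_cases h : ∃ x, x⁻¹ * g * x ∈ Q F m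
  · obtain ⟨x, hx⟩ := h
    have h1 := cent_unip m hx hg
    haveI : Fact (Nat.Prime 2) := ⟨Nat.prime_two⟩
    have h2 : IsPGroup 2 (cj x (Q F m)) := (isPGroup_Q (F := F) m).map _
    have h3 : IsPGroup 2 (Subgroup.centralizer {g}) := h2.to_le h1
    exact h3.isNilpotent
  · obtain ⟨hc, -⟩ := cent_tor m h
    haveI := hc
    letI := IsCyclic.commGroup (α := Subgroup.centralizer {g})
    exact CommGroup.isNilpotent

end Cfsg.Agent.S0332
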