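import Cfsg.Statements.S0333
import Mathlib
import Cfsg.Agent.H8.SzM
open Cfsg.Agent.H8.Suz

set_option autoImplicit false
open Cfsg

namespace Cfsg.Agent.S0333



/-- With `q = 2^(2m+1)` and `r = 2^m`, the Suzuki group has cyclic subgroups of orders `q + 2r + 1` and
`q - 2r + 1`; each is the centraliser of each of its non-identity elements and has index `4` in its normaliser. -/
theorem result {F : Type*} [Field F] [Fintype F] {m : ℕ} (hm : 1 ≤ m)
    (hF : Fintype.card F = 2 ^ (2 * m + 1)) :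
    ∀ k ∈ ({2 ^ (2 * m + 1) + 2 ^ (m + 1) + 1, 2 ^ (2 * m + 1) - 2 ^ (m + 1) + 1} : Set ℕ),
      ∃ U : Subgroup (Cfsg.Sz F m), IsCyclic U ∧ Nat.card U = k ∧
        (∀ u ∈ U, u ≠ 1 → Subgroup.centralizer {u} = U) ∧ Nat.card (Subgroup.normalizer (U : Set (Cfsg.Sz F m))) = 4 * k := by
  haveI : Cfsg.Agent.H8.Suz.Hyp F m := ⟨hm, hF⟩
  obtain ⟨C, D, hC, hD, h1, h2, -, h4⟩ := tori (F := F) m
  rintro k (rfl | rfl)
  · refine ⟨C, tor_cyclic m hC, h1, fun u hu hu1 => tor_cent m hC hu hu1, ?_⟩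
    rw [(tor_four m hC).1, h1]
  · refine ⟨D, tor_cyclic m hD, h2, fun u hu hu1 => tor_cent m hD hu hu1, ?_⟩
    rw [(tor_four m hD).1, h2]

end Cfsg.Agent.S0333
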