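import Cfsg.Statements.S0335
import Mathlib
import Cfsg.Agent.H8.SzF
open Cfsg.Agent.H8.Suz

set_option autoImplicit false
open Cfsg

namespace Cfsg.Agent.S0335



/-- The Suzuki–Tits point set is an ovoid: any three distinct points of it are projectively independent
(no line of projective 3-space meets it in more than two points). -/
theorem result {F : Type*} [Field F] [Fintype F] {m : ℕ} (hm : 1 ≤ m)
    (hF : Fintype.card F = 2 ^ (2 * m + 1)) (p : Fin 3 ↪ Cfsg.suzukiOvoid F m) :
    Projectivization.Independent (fun i => (p i : Projectivization F (Fin 4 → F))) := by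
  haveI : Cfsg.Agent.H8.Suz.Hyp F m := ⟨hm, hF⟩
  have h01 : p 0 ≠ p 1 := fun h => by simpa using p.injective h
  have h02 : p 0 ≠ p 2 := fun h => by simpa using p.injective h
  have h12 : p 1 ≠ p 2 := fun h => by simpa using p.injective h
  obtain ⟨g, h1, h2⟩ := (MulAction.is_two_pretransitive_iff.1 (two_trans (F := F) m)) (op_ne_oi (F := F) m 0 0).symm h01
  obtain ⟨x, y, h3⟩ : ∃ x y : F, p 2 = g • op m x y := by
    rcases om_cases m (g⁻¹ • p 2) with h | ⟨x, y, h⟩
    · exfalso
      apply h02
      rw [← h1, ← h, smul_inv_smul]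
    · exact ⟨x, y, by rw [← h, smul_inv_smul]⟩
  have hxy : ¬ (x = 0 ∧ y = 0) := by
    rintro ⟨rfl, rfl⟩
    apply h12
    rw [← h2, h3]
  let v : Fin 3 → (Fin 4 → F) := ![![1, 0, 0, 0], ![ff m 0 0, 0, 0, 1], ![ff m x y, y, x, 1]]
  have hv : LinearIndependent F v := by
    rw [Fintype.linearIndependent_iff]
    intro c hc
    have hf : ff m (0 : F) 0 = 0 := (ff_eq_zero m).2 ⟨rfl, rfl⟩
    have e0 := congrFun hc 0
    have e1 := congrFun hc 1
    have e2 := congrFun hc 2
    have e3 := congrFun hc 3
    simp [v, Fin.sum_univ_three, hf] at e0 e1 e2 e3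
    have hc2 : c 2 = 0 := by
      by_contra hne
      apply hxy
      refine ⟨?_, ?_⟩
      · rcases e2 with h | h
        · exact absurd h hne
        · exact h
      · rcases e1 with h | h
        · exact absurd h hne
        · exact h
    rw [hc2] at e0 e3
    rw [zero_mul, add_zero] at e0
    rw [add_zero] at e3
    intro i
    fin_cases i
    · exact e0
    · exact e3
    · exact hc2
  have hgv : LinearIndependent F (fun i => (g : Matrix.SpecialLinearGroup (Fin 4) F) • v i) := by
    have h5 := hv.map' (Matrix.toLin' ((g : Matrix.SpecialLinearGroup (Fin 4) F) : Matrix (Fin 4) (Fin 4) F)) (by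
      rw [LinearMap.ker_eq_bot]
      intro a b hab
      have : (g : Matrix.SpecialLinearGroup (Fin 4) F) • a = (g : Matrix.SpecialLinearGroup (Fin 4) F) • b := hab
      exact smul_left_cancel _ this)
    exact h5
  have h6 := Projectivization.Independent.mk _ (fun i => hgv.ne_zero i) hgv
  convert h6 using 1
  funext i
  fin_cases i
  · show (p 0 : Projectivization F (Fin 4 → F)) = _
    rw [← h1]; rfl
  · show (p 1 : Projectivization F (Fin 4 → F)) = _
    rw [← h2]; rfl
  · show (p 2 : Projectivization F (Fin 4 → F)) = _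
    rw [h3]; rfl

end Cfsg.Agent.S0335
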