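import Cfsg.Statements.S0350
import Mathlib

set_option autoImplicit false
open Cfsg

namespace Cfsg.Agent.S0350

/-- Counting pairs (t-subset, block containing it) in two ways: the number of blocks of a Steiner system with parameters (t, k, v), multiplied by C(k, t), equals C(v, t). -/
theorem result {α : Type*} [Fintype α] [DecidableEq α] {t k : ℕ} {B : Set (Finset α)} (hB : Cfsg.IsSteinerSystem t k B) : B.ncard * Nat.choose k t = Nat.choose (Fintype.card α) t := by
  classical
  have hfin : B.Finite := Set.toFinite B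
  obtain ⟨Bf, hBf⟩ : ∃ Bf : Finset (Finset α), ∀ b, b ∈ Bf ↔ b ∈ B := ⟨hfin.toFinset, fun b => Set.Finite.mem_toFinset hfin⟩
  have hcard : B.ncard = Bf.card := by
    have : B = (Bf : Set (Finset α)) := by ext b; rw [Finset.mem_coe, hBf]
    rw [this, Set.ncard_coe_finset]
  have h1 : (Finset.powersetCard t (Finset.univ : Finset α)) = Bf.biUnion fun b => Finset.powersetCard t b := by
    ext s
    rw [Finset.mem_powersetCard, Finset.mem_biUnion]
    constructor
    · rintro ⟨-, hs⟩
      obtain ⟨b, ⟨hb, hsb⟩, -⟩ := hB.2 s hs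
      exact ⟨b, (hBf b).2 hb, Finset.mem_powersetCard.2 ⟨hsb, hs⟩⟩
    · rintro ⟨b, -, hs⟩
      exact ⟨Finset.subset_univ _, (Finset.mem_powersetCard.1 hs).2⟩
  have h2 : (Bf.biUnion fun b => Finset.powersetCard t b).card = ∑ b ∈ Bf, (Finset.powersetCard t b).card := by
    apply Finset.card_biUnion
    intro b hb b' hb' hne
    show Disjoint (Finset.powersetCard t b) (Finset.powersetCard t b')
    rw [Finset.disjoint_left]
    intro s hs hs'
    rw [Finset.mem_powersetCard] at hs hs'
    obtain ⟨c, -, hc⟩ := hB.2 s hs.2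
    exact hne ((hc b ⟨(hBf b).1 hb, hs.1⟩).trans (hc b' ⟨(hBf b').1 hb', hs'.1⟩).symm)
  have h3 : ∑ b ∈ Bf, (Finset.powersetCard t b).card = ∑ b ∈ Bf, Nat.choose k t := by
    refine Finset.sum_congr rfl fun b hb => ?_
    rw [Finset.card_powersetCard, hB.1 b ((hBf b).1 hb)]
  rw [hcard, ← Finset.card_univ, ← Finset.card_powersetCard, h1, h2, h3, Finset.sum_const, smul_eq_mul]

end Cfsg.Agent.S0350
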