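import Cfsg.Statements.S0351
import Mathlib

set_option autoImplicit false
open Cfsg

namespace Cfsg.Agent.S0351

/-- Derived design: removing a point p from the blocks through p of an S(t+1, k+1, v) yields an S(t, k, v-1) on the points other than p. -/
theorem result {α : Type*} [Fintype α] [DecidableEq α] {t k : ℕ} {B : Set (Finset α)} (hB : Cfsg.IsSteinerSystem (t + 1) (k + 1) B) (p : α) : Cfsg.IsSteinerSystem t k {b' : Finset {a : α // a ≠ p} | ∃ b ∈ B, p ∈ b ∧ b' = Finset.subtype (fun a => a ≠ p) b} := by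
  classical
  constructor
  · rintro b' ⟨b, hb, hp, rfl⟩
    rw [Finset.card_subtype]
    have h1 : (Finset.filter (fun a => a ≠ p) b) = b.erase p := by
      ext a; simp [and_comm]
    rw [h1, Finset.card_erase_of_mem hp, hB.1 b hb]; rfl
  · intro s hs
    have hps : p ∉ s.map (Function.Embedding.subtype _) := by
      intro h
      obtain ⟨a, -, ha⟩ := Finset.mem_map.1 h
      exact a.2 ha
    obtain ⟨b, ⟨hb, hsb⟩, huniq⟩ := hB.2 (insert p (s.map (Function.Embedding.subtype _))) (by
      rw [Finset.card_insert_of_notMem hps, Finset.card_map, hs])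
    have hpb : p ∈ b := hsb (Finset.mem_insert_self _ _)
    refine ⟨Finset.subtype (fun a => a ≠ p) b, ⟨⟨b, hb, hpb, rfl⟩, ?_⟩, ?_⟩
    · intro a ha
      rw [Finset.mem_subtype]
      exact hsb (Finset.mem_insert_of_mem (Finset.mem_map.2 ⟨a, ha, rfl⟩))
    · rintro c' ⟨⟨c, hc, hpc, rfl⟩, hsc⟩
      have h1 : c = b := by
        apply huniq
        refine ⟨hc, ?_⟩
        intro x hx
        rcases Finset.mem_insert.1 hx with rfl | hx
        · exact hpc
        · obtain ⟨a, ha, rfl⟩ := Finset.mem_map.1 hx
          exact Finset.mem_subtype.1 (hsc ha)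
      rw [h1]

end Cfsg.Agent.S0351
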