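import Cfsg.Statements.S0358
import Cfsg.Agent.H9.Oct

set_option autoImplicit false
open Cfsg

namespace Cfsg.Agent.S0358

/-- The length-24 code built from the squares modulo 23 has dimension 12 over the field with two elements. -/
theorem result : Module.finrank (ZMod 2) Cfsg.golayCode = 12 := by
  have h : Nat.card Cfsg.golayCode = 4096 := by
    have e : Fin 4096 ≃ Cfsg.golayCode := by
      refine Equiv.ofBijective (fun k => ⟨H9.wd (H9.enc k), H9.enc_mem k.2⟩) ⟨?_, ?_⟩
      · intro a b hab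
        have h1 : H9.wd (H9.enc a) = H9.wd (H9.enc b) := congrArg Subtype.val hab
        exact Fin.ext (H9.enc_inj a.2 b.2 (H9.wd_inj (H9.enc_lt _) (H9.enc_lt _) h1))
      · rintro ⟨w, hw⟩
        obtain ⟨k, hk, rfl⟩ := H9.mem_golay_iff.1 hw
        exact ⟨⟨k, hk⟩, rfl⟩
    rw [← Nat.card_congr e, Nat.card_fin]
  have h2 := Module.natCard_eq_pow_finrank (K := ZMod 2) (V := Cfsg.golayCode)
  rw [h, Nat.card_zmod] at h2
  have h3 : (4096 : ℕ) = 2 ^ 12 := by norm_num
  rw [h3] at h2
  exact (Nat.pow_right_injective le_rfl h2).symm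

end Cfsg.Agent.S0358
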