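import Cfsg.Statements.S0361
import Cfsg.Agent.H9.Oct

set_option autoImplicit false
open Cfsg

namespace Cfsg.Agent.S0361

/-- There are exactly 2576 dodecads (supports of weight-12 words) in the length-24 code. -/
theorem result : Cfsg.dodecads.ncard = 2576 := by
  exact H9.dodecads_ncard

end Cfsg.Agent.S0361
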