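import Cfsg.Statements.S0362
import Cfsg.Agent.H9.Oct

set_option autoImplicit false
open Cfsg

namespace Cfsg.Agent.S0362

/-- The length-24 code is self-orthogonal: the dot product over ZMod 2 of any two of its words vanishes (with dimension 12 this makes it self-dual). -/
theorem result (v w : Cfsg.GolayPt → ZMod 2) (hv : v ∈ Cfsg.golayCode) (hw : w ∈ Cfsg.golayCode) : ∑ i, v i * w i = 0 := by
  obtain ⟨j, hj, rfl⟩ := H9.mem_golay_iff.1 hv
  obtain ⟨k, hk, rfl⟩ := H9.mem_golay_iff.1 hw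
  have h1 : ∀ i, H9.wd (H9.enc j) i * H9.wd (H9.enc k) i = H9.wd (H9.enc j &&& H9.enc k) i := by
    intro i
    simp only [H9.wd, Nat.testBit_and]
    cases (H9.enc j).testBit (H9.idx i) <;> cases (H9.enc k).testBit (H9.idx i) <;> simp
  have h2 : ∑ i, H9.wd (H9.enc j &&& H9.enc k) i = ((H9.pc (H9.enc j &&& H9.enc k) : ℕ) : ZMod 2) := by
    rw [← H9.card_S, H9.S, Finset.card_filter, Nat.cast_sum]
    apply Finset.sum_congr rfl
    intro p _
    simp only [H9.wd]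
    split_ifs <;> simp
  rw [Finset.sum_congr rfl (fun i _ => h1 i), h2]
  have h3 := H9.pc_xor (H9.enc j) (H9.enc k)
  have hw : ∀ m, H9.isCW m = true → 4 ∣ H9.pc m := by
    intro m hm
    rcases H9.cw_weight hm with h | h | h | h | h
    · rw [h, H9.pc_zero]; exact dvd_zero 4
    all_goals rw [h]; decide
  have a1 := hw _ (H9.isCW_iff.2 ⟨j, hj, rfl⟩)
  have a2 := hw _ (H9.isCW_iff.2 ⟨k, hk, rfl⟩)
  have a3 := hw _ (H9.isCW_xor (H9.isCW_iff.2 ⟨j, hj, rfl⟩) (H9.isCW_iff.2 ⟨k, hk, rfl⟩))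
  rw [ZMod.natCast_eq_zero_iff]
  omega

end Cfsg.Agent.S0362
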