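import Cfsg.Statements.S0366
import Cfsg.Agent.H9.M24Orb

set_option autoImplicit false
open Cfsg

namespace Cfsg.Agent.S0366

/-- The permutation group preserving the length-24 code is 5-transitive on the 24 points. -/
theorem result : MulAction.IsMultiplyPretransitive Cfsg.M24 Cfsg.GolayPt 5 := by
  exact H9.five_trans'

end Cfsg.Agent.S0366
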