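import Cfsg.Statements.S0369
import Cfsg.Agent.H9.OrbTools

set_option autoImplicit false
open Cfsg

namespace Cfsg.Agent.S0369

/-- basis words as sums of three octads -/
def tri : ℕ := 0xe3a800c75001c75001b1d400c75001c750017b4200c75001c750013da100c75001c750011ed080c75001c75001ecc040c75001c75001b66020c75001c750019b3010c75001c750016e3008c75001c75001d4b004c75001c7500149f002c75001c75001c75001c75001c75001
theorem tri_ok : H9.allN (fun i => H9.band
    (H9.band (H9.band (Nat.beq (H9.pc (H9.look24 tri (Nat.mul 3 i))) 8) (H9.isCW (H9.look24 tri (Nat.mul 3 i))))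
      (H9.band (H9.band (Nat.beq (H9.pc (H9.look24 tri (Nat.add (Nat.mul 3 i) 1))) 8)
        (H9.isCW (H9.look24 tri (Nat.add (Nat.mul 3 i) 1))))
      (H9.band (Nat.beq (H9.pc (H9.look24 tri (Nat.add (Nat.mul 3 i) 2))) 8)
        (H9.isCW (H9.look24 tri (Nat.add (Nat.mul 3 i) 2))))))
    (Nat.beq (H9.enc (Nat.pow 2 i)) (Nat.xor (H9.look24 tri (Nat.mul 3 i)) (Nat.xor (H9.look24 tri (Nat.add (Nat.mul 3 i) 1))
      (H9.look24 tri (Nat.add (Nat.mul 3 i) 2)))))) 12 = true := by decide +kernel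
section
open scoped Pointwise
theorem main : Cfsg.M24 = Cfsg.setSystemAut Cfsg.octads := by
  apply le_antisymm
  · intro g hg
    rw [MulAction.mem_stabilizer_iff]
    have hsub : ∀ k ∈ Cfsg.M24, k • Cfsg.octads ⊆ Cfsg.octads := by
      rintro k hk _ ⟨s, hs, rfl⟩
      exact H9.smul_mem_octads hk hs
    apply Set.Subset.antisymm (hsub g hg)
    intro s hs
    rw [Set.mem_smul_set_iff_inv_smul_mem]
    exact H9.smul_mem_octads (Cfsg.M24.inv_mem hg) hs
  · intro g hg
    rw [MulAction.mem_stabilizer_iff] at hg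
    rw [H9.mem_M24_iff]
    intro w hw
    obtain ⟨k, hk, rfl⟩ := H9.mem_golay_iff.1 hw
    refine H9.enc_mem_of (Cfsg.golayCode.comap (LinearMap.funLeft (ZMod 2) (ZMod 2) g.symm)) ?_ hk
    intro i hi
    have hoct : ∀ m, Nat.beq (H9.pc m) 8 = true → H9.isCW m = true →
        H9.wd m ∈ Cfsg.golayCode.comap (LinearMap.funLeft (ZMod 2) (ZMod 2) g.symm) := by
      intro m h8 hcw
      show (fun p => H9.wd m (g.symm p)) ∈ Cfsg.golayCode
      have h1 : g • H9.S m ∈ g • Cfsg.octads :=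
        Set.smul_mem_smul_set (H9.S_mem_octads hcw (Nat.eq_of_beq_eq_true h8))
      rw [hg] at h1
      obtain ⟨v, hv, h2⟩ := h1.1
      have h3 : Cfsg.support₂ (fun p => H9.wd m (g.symm p)) = Cfsg.support₂ v := by
        rw [H9.support_comp, H9.support_wd]; exact h2.symm
      rw [H9.support_inj h3]; exact hv
    have h := (H9.allN_iff _ _).1 tri_ok i hi
    obtain ⟨h1, h2⟩ := H9.band_iff.1 h
    obtain ⟨ha, h1⟩ := H9.band_iff.1 h1
    obtain ⟨hb, hc⟩ := H9.band_iff.1 h1
    obtain ⟨ha1, ha2⟩ := H9.band_iff.1 ha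
    obtain ⟨hb1, hb2⟩ := H9.band_iff.1 hb
    obtain ⟨hc1, hc2⟩ := H9.band_iff.1 hc
    have h3 : H9.enc (2 ^ i) = H9.look24 tri (Nat.mul 3 i) ^^^ (H9.look24 tri (Nat.add (Nat.mul 3 i) 1) ^^^
      H9.look24 tri (Nat.add (Nat.mul 3 i) 2)) := Nat.eq_of_beq_eq_true h2
    rw [h3, H9.wd_xor, H9.wd_xor]
    exact Submodule.add_mem _ (hoct _ ha1 ha2) (Submodule.add_mem _ (hoct _ hb1 hb2) (hoct _ hc1 hc2))
end

/-- The group of the length-24 code coincides with the automorphism group of its octad system. -/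
theorem result : Cfsg.M24 = Cfsg.setSystemAut Cfsg.octads := by
  exact main

end Cfsg.Agent.S0369
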