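import Cfsg.Statements.S0370
import Cfsg.Agent.H9.Mathieu

set_option autoImplicit false
open Cfsg

namespace Cfsg.Agent.S0370

theorem aux : H9.toPerm (H9.pk H9.gstT 0) = Equiv.optionCongr (Equiv.addRight (1 : ZMod 23)) := by
  ext1 p
  apply H9.idx_inj
  rw [H9.idx_toPerm ((H9.allN_iff _ _).1 H9.gst_isPerm 0 (by norm_num))]
  revert p; decide +kernel

/-- The permutation x ↦ x + 1 of the residues modulo 23, fixing the extra point, lies in the group of the length-24 code. -/
theorem result : Equiv.optionCongr (Equiv.addRight (1 : ZMod 23)) ∈ Cfsg.M24 := by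
  rw [← aux]
  exact H9.checkM24_mem (by decide +kernel)

end Cfsg.Agent.S0370
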