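import Cfsg.Statements.S0371
import Cfsg.Agent.S0370

set_option autoImplicit false
open Cfsg

namespace Cfsg.Agent.S0371

theorem units_pow : ∀ v : (ZMod 23)ˣ, ∃ k : Fin 22, v ^ 2 = (Units.mk (2 : ZMod 23) 12 (by decide) (by decide)) ^ (k : ℕ) := by
  decide +kernel

theorem dbl_mem : Equiv.optionCongr (Units.mulLeft (Units.mk (2 : ZMod 23) 12 (by decide) (by decide))) ∈ Cfsg.M24 := by
  have h : H9.checkM24 0xbd6717b56939461b52507314831040 = true := by decide +kernel
  have e : H9.toPerm 0xbd6717b56939461b52507314831040 = Equiv.optionCongr (Units.mulLeft (Units.mk (2 : ZMod 23) 12 (by decide) (by decide))) := by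
    ext1 p
    apply H9.idx_inj
    rw [H9.idx_toPerm (H9.checkM24_perm h)]
    revert p; decide +kernel
  rw [← e]; exact H9.checkM24_mem h

/-- Multiplication by a nonzero square residue modulo 23, fixing the extra point, lies in the group of the length-24 code. -/
theorem result (u : (ZMod 23)ˣ) (hu : IsSquare u) : Equiv.optionCongr (Units.mulLeft u) ∈ Cfsg.M24 := by
  obtain ⟨v, hv⟩ := hu
  obtain ⟨k, hk⟩ := units_pow v
  have h1 : u = (Units.mk (2 : ZMod 23) 12 (by decide) (by decide)) ^ (k : ℕ) := by rw [hv, ← hk, pow_two]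
  rw [h1]
  generalize (k : ℕ) = n
  induction n with
  | zero =>
    have : Equiv.optionCongr (Units.mulLeft ((Units.mk (2 : ZMod 23) 12 (by decide) (by decide)) ^ 0)) = 1 := by
      ext1 p
      cases p with
      | none => rfl
      | some x => simp
    rw [this]; exact Cfsg.M24.one_mem
  | succ n ih =>
    have : Equiv.optionCongr (Units.mulLeft ((Units.mk (2 : ZMod 23) 12 (by decide) (by decide)) ^ (n+1))) =
        Equiv.optionCongr (Units.mulLeft ((Units.mk (2 : ZMod 23) 12 (by decide) (by decide)) ^ n)) *
        Equiv.optionCongr (Units.mulLeft (Units.mk (2 : ZMod 23) 12 (by decide) (by decide))) := by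
      ext1 p
      cases p with
      | none => rfl
      | some x =>
        show some _ = some _
        congr 1
        show (((Units.mk (2 : ZMod 23) 12 (by decide) (by decide)) ^ (n+1) : (ZMod 23)ˣ) : ZMod 23) * x =
          (((Units.mk (2 : ZMod 23) 12 (by decide) (by decide)) ^ n : (ZMod 23)ˣ) : ZMod 23) *
            (((Units.mk (2 : ZMod 23) 12 (by decide) (by decide)) : (ZMod 23)ˣ) * x)
        rw [pow_succ, Units.val_mul, mul_assoc]
    rw [this]
    exact Cfsg.M24.mul_mem ih dbl_mem

end Cfsg.Agent.S0371
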