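import Cfsg.Statements.S0372
import Cfsg.Agent.H9.Mathieu

set_option autoImplicit false
open Cfsg

namespace Cfsg.Agent.S0372

theorem aux : H9.toPerm (H9.pk H9.gstT 1) = Cfsg.projInv := by
  ext1 p
  apply H9.idx_inj
  rw [H9.idx_toPerm ((H9.allN_iff _ _).1 H9.gst_isPerm 1 (by norm_num))]
  revert p; decide +kernel

/-- The involution x ↦ -1/x of the projective line over ZMod 23 lies in the group of the length-24 code. -/
theorem result : Cfsg.projInv ∈ Cfsg.M24 := by
  rw [← aux]
  exact H9.checkM24_mem (by decide +kernel)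

end Cfsg.Agent.S0372
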