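import Cfsg.Statements.S0373
import Cfsg.Agent.H9.Mathieu

set_option autoImplicit false
open Cfsg

namespace Cfsg.Agent.S0373

theorem aux' : ∀ p, H9.im (H9.pk H9.gstT 2) (H9.idx p) = H9.idx (Cfsg.cubeTwistFun p) := by decide +kernel
theorem aux : H9.toPerm (H9.pk H9.gstT 2) = Cfsg.cubeTwist := by
  ext1 p
  apply H9.idx_inj
  rw [H9.idx_toPerm ((H9.allN_iff _ _).1 H9.gst_isPerm 2 (by norm_num)), aux']
  rfl

/-- The cube-twist permutation (squares t ↦ t^3/9, non-squares t ↦ 9t^3, extra point fixed) lies in the group of the length-24 code. -/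
theorem result : Cfsg.cubeTwist ∈ Cfsg.M24 := by
  rw [← aux]
  exact H9.checkM24_mem (by decide +kernel)

end Cfsg.Agent.S0373
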