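import Cfsg.Statements.S0374
import Cfsg.Agent.S0370
import Cfsg.Agent.S0372
import Cfsg.Agent.S0373

set_option autoImplicit false
open Cfsg

namespace Cfsg.Agent.S0374

/-- The group of the length-24 code is generated by x ↦ x+1, x ↦ -1/x and the cube-twist permutation. -/
theorem result : Subgroup.closure {Equiv.optionCongr (Equiv.addRight (1 : ZMod 23)), Cfsg.projInv, Cfsg.cubeTwist} = Cfsg.M24 := by
  have h := H9.gst_gen (G := Cfsg.M24) (by
    intro i hi
    interval_cases i
    · rw [Cfsg.Agent.S0370.aux]; exact Cfsg.Agent.S0370.result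
    · rw [Cfsg.Agent.S0372.aux]; exact Cfsg.Agent.S0372.result
    · rw [Cfsg.Agent.S0373.aux]; exact Cfsg.Agent.S0373.result) H9.card_M24
  rw [← h, H9.genG]
  congr 1
  ext g
  constructor
  · rintro (rfl | rfl | h)
    · exact ⟨0, by norm_num, Cfsg.Agent.S0370.aux.symm⟩
    · exact ⟨1, by norm_num, Cfsg.Agent.S0372.aux.symm⟩
    · rw [Set.mem_singleton_iff] at h; subst h
      exact ⟨2, by norm_num, Cfsg.Agent.S0373.aux.symm⟩
  · rintro ⟨i, hi, rfl⟩
    interval_cases i
    · left; exact Cfsg.Agent.S0370.aux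
    · right; left; exact Cfsg.Agent.S0372.aux
    · right; right; exact Cfsg.Agent.S0373.aux

end Cfsg.Agent.S0374
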