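import Cfsg.Statements.S0376
import Cfsg.Agent.H9.M24Orb

set_option autoImplicit false
open Cfsg

namespace Cfsg.Agent.S0376

/-- A point stabiliser in the group of the length-24 code has order 10200960 = 2^7·3^2·5·7·11·23. -/
theorem result (p : Cfsg.GolayPt) : Nat.card (MulAction.stabilizer Cfsg.M24 p) = 10200960 := by
  have h5 := H9.five_trans'
  have h1 : MulAction.IsPretransitive Cfsg.M24 Cfsg.GolayPt := by
    rw [← MulAction.is_one_pretransitive_iff]
    exact MulAction.isMultiplyPretransitive_of_le (n := 5) (by norm_num) (by simp)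
  have h2 := Subgroup.card_mul_index (MulAction.stabilizer Cfsg.M24 p)
  rw [MulAction.index_stabilizer, MulAction.orbit_eq_univ, Set.ncard_univ, Nat.card_eq_fintype_card (α := Cfsg.GolayPt), H9.card_pt,
    H9.card_M24] at h2
  omega

end Cfsg.Agent.S0376
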