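import Cfsg.Statements.S0383
import Cfsg.Agent.H9.Mathieu

set_option autoImplicit false
open scoped Pointwise
open Cfsg

namespace Cfsg.Agent.S0383

/-- A dodecad stabiliser in the group of the length-24 code is simple. -/
theorem result (d : Finset Cfsg.GolayPt) (hd : d ∈ Cfsg.dodecads) : IsSimpleGroup (MulAction.stabilizer Cfsg.M24 d) := by
  obtain ⟨e⟩ := H9.equivK12 hd
  have := H9.K12_simple
  exact e.isSimpleGroup

end Cfsg.Agent.S0383
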