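import Cfsg.Statements.S0384
import Cfsg.Agent.H9.OctStab

set_option autoImplicit false
open scoped Pointwise
open Cfsg

namespace Cfsg.Agent.S0384

theorem map_ofFn {n : ℕ} (x : Fin n → Cfsg.GolayPt) (g : Equiv.Perm Cfsg.GolayPt) :
    (List.ofFn x).map g = List.ofFn (fun i => g (x i)) := by
  rw [List.map_ofFn]; rfl

/-- A dodecad stabiliser is sharply 5-transitive on the dodecad. -/
theorem result (d : Finset Cfsg.GolayPt) (hd : d ∈ Cfsg.dodecads) (x y : Fin 5 ↪ Cfsg.GolayPt) (hx : ∀ i, x i ∈ d) (hy : ∀ i, y i ∈ d) : ∃! g : MulAction.stabilizer Cfsg.M24 d, ∀ i, ((g : Cfsg.M24) : Equiv.Perm Cfsg.GolayPt) (x i) = y i := by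
  have nd : ∀ z : Fin 5 ↪ Cfsg.GolayPt, (List.ofFn z).Nodup := fun z => List.nodup_ofFn.2 z.injective
  have md : ∀ z : Fin 5 ↪ Cfsg.GolayPt, (∀ i, z i ∈ d) → ∀ p ∈ List.ofFn z, p ∈ d := by
    intro z hz p hp
    rw [List.mem_ofFn] at hp
    obtain ⟨i, rfl⟩ := hp
    exact hz i
  obtain ⟨l, hl⟩ : ∃ l : List Cfsg.GolayPt, l = [H9.D 0, H9.D 1, H9.D 2, H9.D 3, H9.D 4] := ⟨_, rfl⟩
  have hln : l.Nodup := by
    rw [hl]
    simp only [List.nodup_cons, List.mem_cons, List.not_mem_nil, or_false, not_or, List.nodup_nil, not_false_iff,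
      and_true]
    refine ⟨⟨fun h => H9.D_ne (i := 1) (j := 0) (by norm_num) (by norm_num) h.symm,
      fun h => H9.D_ne (i := 2) (j := 0) (by norm_num) (by norm_num) h.symm,
      fun h => H9.D_ne (i := 3) (j := 0) (by norm_num) (by norm_num) h.symm,
      fun h => H9.D_ne (i := 4) (j := 0) (by norm_num) (by norm_num) h.symm⟩,
      ⟨fun h => H9.D_ne (i := 2) (j := 1) (by norm_num) (by norm_num) h.symm,
      fun h => H9.D_ne (i := 3) (j := 1) (by norm_num) (by norm_num) h.symm,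
      fun h => H9.D_ne (i := 4) (j := 1) (by norm_num) (by norm_num) h.symm⟩,
      ⟨fun h => H9.D_ne (i := 3) (j := 2) (by norm_num) (by norm_num) h.symm,
      fun h => H9.D_ne (i := 4) (j := 2) (by norm_num) (by norm_num) h.symm⟩,
      fun h => H9.D_ne (i := 4) (j := 3) (by norm_num) (by norm_num) h.symm⟩
  have hlD : ∀ x ∈ l, x ∈ H9.S H9.dod0 := by
    rw [hl]
    intro x hx
    simp only [List.mem_cons, List.not_mem_nil, or_false] at hx
    rcases hx with rfl | rfl | rfl | rfl | rfl <;> exact H9.D_mem (by norm_num)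
  have hll : l.length = 5 := by rw [hl]; rfl
  obtain ⟨u, hu, hu1, hu2⟩ := H9.dod_frame hd (List.ofFn x) l (nd x) hln (by simp [hll]) (by simp) (md x hx) hlD
  obtain ⟨v, hv, hv1, hv2⟩ := H9.dod_frame hd (List.ofFn y) l (nd y) hln (by simp [hll]) (by simp) (md y hy) hlD
  have key : ∀ i, u (x i) = v (y i) := by
    rw [← hv2, map_ofFn, map_ofFn] at hu2
    intro i
    exact congrFun (List.ofFn_injective hu2) i
  have hst : v⁻¹ * u ∈ Cfsg.M24 := Cfsg.M24.mul_mem (Cfsg.M24.inv_mem hv) hu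
  have hsd : (v⁻¹ * u) • d = d := by rw [mul_smul, hu1, ← hv1, inv_smul_smul]
  refine ⟨⟨⟨v⁻¹ * u, hst⟩, hsd⟩, fun i => ?_, ?_⟩
  · show v⁻¹ (u (x i)) = y i
    rw [key i, Equiv.Perm.inv_eq_iff_eq]
  · rintro ⟨⟨g, hg⟩, hgd⟩ hgx
    apply Subtype.ext
    apply Subtype.ext
    show g = v⁻¹ * u
    have hgx' : ∀ i, g (x i) = y i := hgx
    have hgd' : g • d = d := hgd
    -- v g u⁻¹ fixes the standard points
    have h1 : v * g * u⁻¹ ∈ H9.K12 := by
      refine ⟨Cfsg.M24.mul_mem (Cfsg.M24.mul_mem hv hg) (Cfsg.M24.inv_mem hu), ?_⟩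
      show (v * g * u⁻¹) • H9.S H9.dod0 = H9.S H9.dod0
      rw [mul_smul, mul_smul, ← hu1, inv_smul_smul, hgd', hv1, hu1]
    have h2 : v * g * u⁻¹ = 1 := by
      apply H9.K12_eq_one h1 l hln hll hlD
      intro p hp
      rw [← hu2, map_ofFn, List.mem_ofFn] at hp
      obtain ⟨i, rfl⟩ := hp
      show v (g (u⁻¹ (u (x i)))) = u (x i)
      rw [Equiv.Perm.inv_eq_iff_eq.2 rfl, hgx' i, key i]
    rw [mul_inv_eq_one] at h2
    rw [← h2, inv_mul_cancel_left]

end Cfsg.Agent.S0384
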