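import Cfsg.Statements.S0385
import Cfsg.Agent.H9.OctStab

set_option autoImplicit false
open Cfsg

namespace Cfsg.Agent.S0385

/-- The 6-point intersections of octads with a fixed dodecad form a Steiner system S(5, 6, 12) on the dodecad. -/
theorem result (d : Finset Cfsg.GolayPt) (hd : d ∈ Cfsg.dodecads) : Cfsg.IsSteinerSystem 5 6 {h : Finset {p : Cfsg.GolayPt // p ∈ d} | ∃ o ∈ Cfsg.octads, (o ∩ d).card = 6 ∧ h = Finset.subtype (fun p => p ∈ d) o} := by
  classical
  have hsub : ∀ o : Finset Cfsg.GolayPt, (Finset.subtype (fun p => p ∈ d) o).card = (o ∩ d).card := by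
    intro o
    rw [← Finset.card_map (Function.Embedding.subtype _), Finset.subtype_map, Finset.filter_mem_eq_inter]
  constructor
  · rintro b ⟨o, ho, h6, rfl⟩
    rw [hsub, h6]
  · intro s hs
    obtain ⟨o, ho, hso⟩ := H9.octad_through (s := s.map (Function.Embedding.subtype _)) (by rw [Finset.card_map, hs])
    have hso' : ∀ p ∈ s, (p : Cfsg.GolayPt) ∈ o := fun p hp => hso (Finset.mem_map.2 ⟨p, hp, rfl⟩)
    have h6 : (o ∩ d).card = 6 := by
      have h5 : 5 ≤ (o ∩ d).card := by
        rw [← hs, ← Finset.card_map (Function.Embedding.subtype _)]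
        apply Finset.card_le_card
        intro p hp
        rw [Finset.mem_inter]
        refine ⟨hso hp, ?_⟩
        obtain ⟨q, _, rfl⟩ := Finset.mem_map.1 hp
        exact q.2
      obtain ⟨m, hm, hm8, rfl⟩ := H9.octad_mask ho
      obtain ⟨n, hn, hn8, rfl⟩ := H9.dodecad_mask hd
      rw [H9.pc_and] at h5 ⊢
      have h1 := H9.pc_xor m n
      rcases H9.cw_weight (H9.isCW_xor hm hn) with h | h | h | h | h
      · exfalso
        have : m = n := by
          have := congrArg (· ^^^ n) h
          simpa [Nat.xor_assoc] using this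
        rw [this] at hm8; omega
      all_goals omega
    refine ⟨Finset.subtype (fun p => p ∈ d) o, ⟨⟨o, ho, h6, rfl⟩, ?_⟩, ?_⟩
    · intro p hp
      rw [Finset.mem_subtype]; exact hso' p hp
    · rintro b ⟨⟨o', ho', h6', rfl⟩, hb⟩
      have : o' = o := by
        apply H9.octad_eq_of_inter ho' ho
        rw [← hs, ← Finset.card_map (Function.Embedding.subtype _)]
        apply Finset.card_le_card
        intro p hp
        rw [Finset.mem_inter]
        refine ⟨?_, hso hp⟩
        obtain ⟨q, hq, rfl⟩ := Finset.mem_map.1 hp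
        exact Finset.mem_subtype.1 (hb hq)
      rw [this]

end Cfsg.Agent.S0385
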