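import Cfsg.Statements.S0386
import Cfsg.Agent.H9.M24Orb

set_option autoImplicit false
open Cfsg

namespace Cfsg.Agent.S0386

/-- For a fixed dodecad, 132 octads meet it in 6 points, 132 in 2 points and 495 in 4 points. -/
theorem result (d : Finset Cfsg.GolayPt) (hd : d ∈ Cfsg.dodecads) : {o : Finset Cfsg.GolayPt | o ∈ Cfsg.octads ∧ (o ∩ d).card = 6}.ncard = 132 ∧ {o : Finset Cfsg.GolayPt | o ∈ Cfsg.octads ∧ (o ∩ d).card = 2}.ncard = 132 ∧ {o : Finset Cfsg.GolayPt | o ∈ Cfsg.octads ∧ (o ∩ d).card = 4}.ncard = 495 := by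
  have key : ∀ j, {o : Finset Cfsg.GolayPt | o ∈ Cfsg.octads ∧ (o ∩ d).card = j}.ncard =
      H9.cnt (fun k => H9.band (Nat.beq (H9.pc (H9.enc k)) 8) (Nat.beq (H9.pc (Nat.land (H9.enc k) H9.dod0)) j)) := by
    intro j
    rw [← H9.dod_count hd j 8]
    congr 1
    ext s
    show (_ ∧ _) ↔ (_ ∧ _)
    rw [Finset.inter_comm]; rfl
  rw [key, key, key]
  refine ⟨?_, ?_, ?_⟩ <;> decide +kernel

end Cfsg.Agent.S0386
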