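import Cfsg.Statements.S0389
import Cfsg.Agent.H9.DodComp

set_option autoImplicit false
open scoped Pointwise
open Cfsg

namespace Cfsg.Agent.S0389

/-- The stabiliser of a dodecad and a point on it is 3-transitive on the complementary dodecad. -/
theorem result (d : Finset Cfsg.GolayPt) (hd : d ∈ Cfsg.dodecads) (p : Cfsg.GolayPt) (hp : p ∈ d) (x y : Fin 3 ↪ Cfsg.GolayPt) (hx : ∀ i, x i ∉ d) (hy : ∀ i, y i ∉ d) : ∃ g ∈ MulAction.stabilizer Cfsg.M24 d ⊓ MulAction.stabilizer Cfsg.M24 p, ∀ i, (g : Equiv.Perm Cfsg.GolayPt) (x i) = y i := by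
  obtain ⟨u, hu, h1, h2⟩ := H9.dod_frame hd [p] [H9.D 0] (by simp) (by simp) rfl (by simp) (by simpa using hp)
    (by simpa using H9.D_mem (by norm_num))
  simp only [List.map_cons, List.map_nil, List.cons.injEq, and_true] at h2
  have md : ∀ z : Fin 3 ↪ Cfsg.GolayPt, (∀ i, z i ∉ d) → ∀ q ∈ (List.ofFn z).map u, q ∈ (H9.S H9.dod0)ᶜ := by
    intro z hz q hq
    rw [List.mem_map] at hq
    obtain ⟨r, hr, rfl⟩ := hq
    rw [List.mem_ofFn] at hr
    obtain ⟨i, rfl⟩ := hr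
    rw [Finset.mem_compl, ← h1, H9.mem_smul_iff']
    exact hz i
  obtain ⟨g, hg, h3⟩ := H9.K11_comp_trans ((List.ofFn x).map u) ((List.ofFn y).map u)
    ((List.nodup_ofFn.2 x.injective).map u.injective) ((List.nodup_ofFn.2 y.injective).map u.injective) (by simp)
    (by simp) (md x hx) (md y hy)
  rw [H9.mem_chn] at hg
  have h4 : ∀ i, g (u (x i)) = u (y i) := by
    rw [List.map_ofFn, List.map_ofFn, List.map_ofFn] at h3
    intro i
    exact congrFun (List.ofFn_injective h3) i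
  refine ⟨⟨u⁻¹ * g * u, H9.back hu hg.1.1⟩, ⟨?_, ?_⟩, ?_⟩
  · show (u⁻¹ * g * u) • d = d
    apply H9.back_set
    rw [h1]; exact hg.1.2
  · show (u⁻¹ * g * u) p = p
    exact H9.back_pt h2 (hg.2 0 (by norm_num))
  · intro i
    show u⁻¹ (g (u (x i))) = y i
    rw [h4 i, Equiv.Perm.inv_eq_iff_eq]

end Cfsg.Agent.S0389
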