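import Cfsg.Statements.S0439
import Mathlib

set_option autoImplicit false
open Cfsg

namespace Cfsg.Agent.S0439


theorem swap_conj_helper {α : Type*} [DecidableEq α] (c : Equiv.Perm α) (x y : α) :
    c * Equiv.swap x y * c⁻¹ = Equiv.swap (c x) (c y) := by
  rw [Equiv.swap_apply_apply]

/-- In the symmetric group of degree n ≥ 2, the set of transpositions is a conjugacy class of 3-transpositions which generates the group. -/
theorem result (n : ℕ) (hn : 2 ≤ n) : Cfsg.IsThreeTranspositionClass {σ : Equiv.Perm (Fin n) | σ.IsSwap} := by
  refine ⟨⟨?_, ?_⟩, ?_, ?_⟩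
  · rintro _ ⟨x, y, hxy, rfl⟩
    exact orderOf_eq_prime (by rw [sq, Equiv.swap_mul_self]) (by
      intro h
      exact hxy (Equiv.swap_eq_one_iff.1 h))
  · rintro _ ⟨x, y, hxy, rfl⟩ _ ⟨z, w, hzw, rfl⟩
    have comm : ∀ a b : Equiv.Perm (Fin n), a * a = 1 → b * b = 1 → a * b = b * a → (a * b) ^ 2 = 1 := by
      intro a b ha hb hab
      rw [sq]
      calc a * b * (a * b) = a * (b * a) * b := by group
        _ = a * (a * b) * b := by rw [hab]
        _ = (a * a) * (b * b) := by group
        _ = 1 := by rw [ha, hb, one_mul]
    have three : ∀ a b c : Fin n, a ≠ b → a ≠ c → b ≠ c → (Equiv.swap a b * Equiv.swap a c) ^ 3 = 1 := by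
      intro a b c hab hac hbc
      have := (Equiv.Perm.isThreeCycle_swap_mul_swap_same hab hac hbc).orderOf
      rw [← this]; exact pow_orderOf_eq_one _
    by_cases h1 : x = z
    · subst h1
      by_cases h2 : y = w
      · subst h2; left; rw [Equiv.swap_mul_self, one_pow]
      · right; exact three x y w hxy hzw h2
    · by_cases h2 : x = w
      · subst h2
        rw [Equiv.swap_comm z x]
        by_cases h3 : y = z
        · subst h3; left; rw [Equiv.swap_mul_self, one_pow]
        · right; exact three x y z hxy h1 h3
      · by_cases h3 : y = z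
        · subst h3
          right
          rw [Equiv.swap_comm x y]
          exact three y x w hxy.symm hzw h2
        · by_cases h4 : y = w
          · subst h4
            right
            rw [Equiv.swap_comm x y, Equiv.swap_comm z y]
            exact three y x z hxy.symm hzw.symm h1
          · left
            apply comm _ _ (Equiv.swap_mul_self _ _) (Equiv.swap_mul_self _ _)
            have hd : Equiv.Perm.Disjoint (Equiv.swap x y) (Equiv.swap z w) := by
              intro a
              by_cases ha : a = x ∨ a = y
              · right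
                rcases ha with rfl | rfl
                · exact Equiv.swap_apply_of_ne_of_ne h1 h2
                · exact Equiv.swap_apply_of_ne_of_ne h3 h4
              · left
                rw [not_or] at ha
                exact Equiv.swap_apply_of_ne_of_ne ha.1 ha.2
            exact hd.commute.eq
  · refine ⟨Equiv.swap ⟨0, by omega⟩ ⟨1, by omega⟩, ⟨_, _, by simp [Fin.ext_iff], rfl⟩, ?_⟩
    ext σ
    constructor
    · rintro ⟨x, y, hxy, rfl⟩
      show IsConj _ _
      exact Equiv.Perm.isConj_swap (by simp [Fin.ext_iff]) hxy
    · intro hσ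
      have hσ' : IsConj _ σ := hσ
      rw [isConj_iff] at hσ'
      obtain ⟨c, rfl⟩ := hσ'
      refine ⟨c ⟨0, by omega⟩, c ⟨1, by omega⟩, ?_, ?_⟩
      · intro h
        have := c.injective h
        simp [Fin.ext_iff] at this
      · exact (swap_conj_helper c _ _)
  · exact Equiv.Perm.closure_isSwap

end Cfsg.Agent.S0439
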