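import Cfsg.Statements.S0442
import Mathlib

set_option autoImplicit false
open Cfsg

namespace Cfsg.Agent.S0442


theorem inv_rel {G : Type*} [Group G] {a b : G} (ha : a * a = 1) (hb : b * b = 1) (k : ℕ) :
    (a * b) ^ k * a * ((a * b) ^ k)⁻¹ = (a * b) ^ (2 * k) * a := by
  have hai : a⁻¹ = a := inv_eq_of_mul_eq_one_left ha
  have hbi : b⁻¹ = b := inv_eq_of_mul_eq_one_left hb
  have h1 : ∀ k : ℕ, a * ((a * b) ^ k)⁻¹ = (a * b) ^ k * a := by
    intro k
    induction k with
    | zero => simp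
    | succ k ih =>
      have e : ((a * b) ^ (k + 1))⁻¹ = ((a * b) ^ k)⁻¹ * (b * a) := by
        rw [pow_succ', mul_inv_rev, mul_inv_rev, hai, hbi]
      rw [e, ← mul_assoc, ih, pow_succ]; group
  rw [mul_assoc, h1, ← mul_assoc, ← pow_add, two_mul]

/-- A standard trick for producing elements of an involution centraliser: for an involution a and an element g, let b be the conjugate g⁻¹ * a * g. If a * b has odd order 2m + 1 then g * (a * b) ^ m commutes with a; if a * b has even order 2m then (a * b) ^ m and (a * (g * a * g⁻¹)) ^ m commute with a. -/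
theorem result {G : Type*} [Group G] (a g : G) (ha : orderOf a = 2) : (∀ m : ℕ, orderOf (a * (g⁻¹ * a * g)) = 2 * m + 1 → Commute (g * (a * (g⁻¹ * a * g)) ^ m) a) ∧ (∀ m : ℕ, orderOf (a * (g⁻¹ * a * g)) = 2 * m → Commute ((a * (g⁻¹ * a * g)) ^ m) a ∧ Commute ((a * (g * a * g⁻¹)) ^ m) a) := by
  have ha2 : a * a = 1 := by
    have := pow_orderOf_eq_one a
    rw [ha, sq] at this; exact this
  have hai : a⁻¹ = a := inv_eq_of_mul_eq_one_left ha2
  obtain ⟨b, hb⟩ : ∃ b, b = g⁻¹ * a * g := ⟨_, rfl⟩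
  have hb2 : b * b = 1 := by
    rw [hb]
    calc g⁻¹ * a * g * (g⁻¹ * a * g) = g⁻¹ * (a * a) * g := by group
      _ = 1 := by rw [ha2]; group
  rw [← hb]
  have hcomm : ∀ y : G, y * a * y⁻¹ = a → Commute y a := by
    intro y hy
    exact mul_inv_eq_iff_eq_mul.1 hy
  constructor
  · intro m hm
    apply hcomm
    have h1 := inv_rel ha2 hb2 m
    have h2 : (a * b) ^ (2 * m) * a = b := by
      have h3 : (a * b) ^ (2 * m + 1) = 1 := by rw [← hm]; exact pow_orderOf_eq_one _
      have h4 : (a * b) ^ (2 * m) = (a * b)⁻¹ := by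
        rw [eq_inv_iff_mul_eq_one, ← pow_succ]; exact h3
      rw [h4, mul_inv_rev, hai, inv_eq_of_mul_eq_one_left hb2, mul_assoc, ha2, mul_one]
    rw [h2] at h1
    calc g * (a * b) ^ m * a * (g * (a * b) ^ m)⁻¹ = g * ((a * b) ^ m * a * ((a * b) ^ m)⁻¹) * g⁻¹ := by group
      _ = g * b * g⁻¹ := by rw [h1]
      _ = a := by rw [hb]; group
  · intro m hm
    constructor
    · apply hcomm
      rw [inv_rel ha2 hb2 m, ← hm, pow_orderOf_eq_one, one_mul]
    · apply hcomm
      have hc2 : (g * a * g⁻¹) * (g * a * g⁻¹) = 1 := by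
        calc (g * a * g⁻¹) * (g * a * g⁻¹) = g * (a * a) * g⁻¹ := by group
          _ = 1 := by rw [ha2]; group
      have ho : orderOf (a * (g * a * g⁻¹)) = 2 * m := by
        rw [← hm]
        -- a * g a g⁻¹ = g (b a) g⁻¹ ; ba = (ab)⁻¹
        have e1 : a * (g * a * g⁻¹) = g * (a * b)⁻¹ * g⁻¹ := by
          rw [mul_inv_rev, hai, inv_eq_of_mul_eq_one_left hb2, hb]; group
        rw [e1]
        have := orderOf_injective (MulAut.conj g).toMonoidHom (MulAut.conj g).injective (a * b)⁻¹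
        rw [orderOf_inv] at this
        exact this
      rw [inv_rel ha2 hc2 m, ← ho, pow_orderOf_eq_one, one_mul]

end Cfsg.Agent.S0442
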