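import Cfsg.Statements.S0443
import Mathlib

set_option autoImplicit false
open Cfsg

namespace Cfsg.Agent.S0443

/-- Two definitions of a 2-central involution agree: an element t of order 2 of a finite group lies in the centre of some Sylow 2-subgroup if and only if its centraliser contains some Sylow 2-subgroup. -/
theorem result {G : Type*} [Group G] [Finite G] (t : G) (ht : orderOf t = 2) : Cfsg.IsTwoCentralInvolution t ↔ ∃ P : Sylow 2 G, (P : Subgroup G) ≤ Subgroup.centralizer ({t} : Set G) := by
  constructor
  · rintro ⟨-, P, hP, h⟩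
    refine ⟨P, fun x hx => ?_⟩
    rw [Subgroup.mem_centralizer_singleton_iff]
    exact h x hx
  · rintro ⟨P, hP⟩
    refine ⟨ht, P, ?_, fun x hx => Subgroup.mem_centralizer_singleton_iff.1 (hP hx)⟩
    haveI : Fact (Nat.Prime 2) := ⟨Nat.prime_two⟩
    have htp : IsPGroup 2 (Subgroup.zpowers t) := IsPGroup.of_card (n := 1) (by rw [Nat.card_zpowers, ht, pow_one])
    have hn : Subgroup.zpowers t ≤ Subgroup.normalizer ((P : Subgroup G) : Set G) := by
      rw [Subgroup.zpowers_le, Subgroup.mem_normalizer_iff]
      intro y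
      constructor
      · intro hy
        have h1 : t * y * t⁻¹ = y := by
          have := Subgroup.mem_centralizer_singleton_iff.1 (hP hy)
          rw [← this]; group
        rw [h1]; exact hy
      · intro hy
        have h1 := Subgroup.mem_centralizer_singleton_iff.1 (hP hy)
        have h2 : y = t * y * t⁻¹ := by
          have h3 : t⁻¹ * (t * y * t⁻¹ * t) * t⁻¹ = t⁻¹ * (t * (t * y * t⁻¹)) * t⁻¹ := by rw [h1]
          have e1 : t⁻¹ * (t * y * t⁻¹ * t) * t⁻¹ = y * t⁻¹ := by group
          have e2 : t⁻¹ * (t * (t * y * t⁻¹)) * t⁻¹ = t * y * t⁻¹ * t⁻¹ := by group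
          rw [e1, e2] at h3
          exact mul_right_cancel h3
        rw [h2]; exact hy
    have h1 : IsPGroup 2 ((P : Subgroup G) ⊔ Subgroup.zpowers t : Subgroup G) := P.2.to_sup_of_normal_left' htp hn
    have h2 := P.3 h1 le_sup_left
    show t ∈ (P : Subgroup G)
    rw [← h2]
    exact Subgroup.mem_sup_right (Subgroup.mem_zpowers t)

end Cfsg.Agent.S0443
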