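import Cfsg.Statements.S0444
import Cfsg.Agent.H7.Dihedral
import Cfsg.Agent.L0.Coprime
import Mathlib

set_option autoImplicit false
open Cfsg

namespace Cfsg.Agent.S0444

open Cfsg.Agent.L0

/-- Two members of a set of 3-transpositions which do not commute generate a subgroup isomorphic to the symmetric group on three letters. -/
theorem result {G : Type*} [Group G] {E : Set G} (hE : Cfsg.IsThreeTranspositionSet E) {d e : G} (hd : d ∈ E) (he : e ∈ E) (h : ¬ Commute d e) : Nonempty (Subgroup.closure ({d, e} : Set G) ≃* Equiv.Perm (Fin 3)) := by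
  have hsq : ∀ d ∈ E, d * d = 1 := by
    intro d hd
    have := pow_orderOf_eq_one d
    rw [hE.1 d hd, sq] at this; exact this
  have hd2 := hsq d hd
  have he2 := hsq e he
  have hdi : d⁻¹ = d := inv_eq_of_mul_eq_one_left hd2
  have hei : e⁻¹ = e := inv_eq_of_mul_eq_one_left he2
  have h3 : (d * e) ^ 3 = 1 := by
    refine (hE.2 d hd e he).resolve_left fun h1 => h ?_
    have h2 : d * e = (d * e)⁻¹ := by rw [eq_inv_iff_mul_eq_one, ← sq]; exact h1
    show d * e = e * d
    rw [h2, mul_inv_rev, hdi, hei]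
  have hR1 : d * e ≠ 1 := by
    intro h1
    apply h
    have : d = e⁻¹ := eq_inv_of_mul_eq_one_left h1
    rw [this, hei]
  have hRo : orderOf (d * e) = 3 := by
    have h4 := orderOf_dvd_of_pow_eq_one h3
    rcases (Nat.dvd_prime Nat.prime_three).1 h4 with h5 | h5
    · exact absurd (orderOf_eq_one_iff.1 h5) hR1
    · exact h5
  have hd1 : orderOf d = 2 := hE.1 d hd
  obtain ⟨H, hH⟩ : ∃ H, H = Subgroup.closure ({d, e} : Set G) := ⟨_, rfl⟩
  have hdH : d ∈ H := by rw [hH]; exact Subgroup.subset_closure (by simp)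
  have heH : e ∈ H := by rw [hH]; exact Subgroup.subset_closure (by simp)
  have hconj : d * (d * e) * d = (d * e)⁻¹ := by
    rw [mul_inv_rev, hdi, hei]
    calc d * (d * e) * d = (d * d) * e * d := by group
      _ = e * d := by rw [hd2, one_mul]
  have hnorm : Subgroup.zpowers d ≤ Subgroup.normalizer (Subgroup.zpowers (d * e) : Set G) := by
    rw [Subgroup.zpowers_le, Subgroup.mem_normalizer_iff]
    have key : ∀ y ∈ Subgroup.zpowers (d * e), d * y * d⁻¹ ∈ Subgroup.zpowers (d * e) := by
      intro y hy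
      obtain ⟨k, rfl⟩ := Subgroup.mem_zpowers_iff.1 hy
      rw [← conj_zpow]
      refine Subgroup.zpow_mem _ ?_ k
      rw [hdi, hconj]
      exact Subgroup.inv_mem _ (Subgroup.mem_zpowers _)
    intro y
    constructor
    · exact key y
    · intro hy
      have := key _ hy
      have e1 : d * (d * y * d⁻¹) * d⁻¹ = y := by
        rw [hdi]
        calc d * (d * y * d) * d = (d * d) * y * (d * d) := by group
          _ = y := by rw [hd2]; group
      rwa [e1] at this
  have hinf : Subgroup.zpowers (d * e) ⊓ Subgroup.zpowers d = ⊥ := by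
    apply inf_eq_bot_of_coprime'
    rw [Nat.card_zpowers, Nat.card_zpowers, hRo, hd1]; norm_num
  have hHs : H = Subgroup.zpowers (d * e) ⊔ Subgroup.zpowers d := by
    apply le_antisymm
    · rw [hH, Subgroup.closure_le]
      intro x hx
      rcases hx with hx | hx
      · rw [hx]; exact Subgroup.mem_sup_right (Subgroup.mem_zpowers d)
      · rw [Set.mem_singleton_iff] at hx
        rw [hx]
        have h9 : d⁻¹ * (d * e) ∈ Subgroup.zpowers (d * e) ⊔ Subgroup.zpowers d :=
          Subgroup.mul_mem _ (Subgroup.inv_mem _ (Subgroup.mem_sup_right (Subgroup.mem_zpowers d))) (Subgroup.mem_sup_left (Subgroup.mem_zpowers (d * e)))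
        have e1 : d⁻¹ * (d * e) = e := by group
        rwa [e1] at h9
    · refine sup_le ?_ ?_
      · rw [Subgroup.zpowers_le]; exact H.mul_mem hdH heH
      · rw [Subgroup.zpowers_le]; exact hdH
  have hcard : Nat.card H = 2 * 3 := by
    rw [hHs, card_sup_of_normalizes hnorm hinf, Nat.card_zpowers, Nat.card_zpowers, hRo, hd1]
  haveI : Finite H := Nat.finite_of_card_ne_zero (by rw [hcard]; norm_num)
  obtain ⟨f⟩ := Cfsg.Agent.H7.dihedral_equiv (G := H) (n := 3) ⟨d * e, H.mul_mem hdH heH⟩ ⟨d, hdH⟩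
    (by rw [Subgroup.orderOf_mk]; exact hRo) (Subtype.ext hd2) (Subtype.ext hconj) (by
      intro hm
      obtain ⟨k, hk⟩ := Subgroup.mem_zpowers_iff.1 hm
      have h4 : (d * e) ^ k = d := congrArg Subtype.val hk
      have h5 : d ∈ Subgroup.zpowers (d * e) ⊓ Subgroup.zpowers d := ⟨Subgroup.mem_zpowers_iff.2 ⟨k, h4⟩, Subgroup.mem_zpowers d⟩
      rw [hinf, Subgroup.mem_bot] at h5
      rw [h5, orderOf_one] at hd1; omega) hcard
  obtain ⟨g⟩ := Cfsg.Agent.H7.dihedral_equiv (G := Equiv.Perm (Fin 3)) (n := 3) (finRotate 3) (Equiv.swap 0 1)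
    (by
      have h4 : (finRotate 3) ^ 3 = 1 := by decide
      rcases (Nat.dvd_prime Nat.prime_three).1 (orderOf_dvd_of_pow_eq_one h4) with h5 | h5
      · exfalso
        have h6 := orderOf_eq_one_iff.1 h5
        exact absurd h6 (by decide)
      · exact h5) (by decide) (by decide) (by
      intro hm
      obtain ⟨k, hk⟩ := Subgroup.mem_zpowers_iff.1 hm
      have h4 : Equiv.Perm.sign (finRotate 3) = 1 := by decide
      have h5 := congrArg Equiv.Perm.sign hk
      rw [map_zpow, h4, one_zpow, Equiv.Perm.sign_swap (by decide)] at h5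
      exact absurd h5 (by decide)) (by
      rw [Nat.card_perm, Nat.card_eq_fintype_card, Fintype.card_fin]; rfl)
  rw [← hH]
  exact ⟨f.trans g.symm⟩

end Cfsg.Agent.S0444
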