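import Cfsg.Statements.S2572
import Mathlib
import Cfsg.Agent.H8.GLType

set_option autoImplicit false
open Cfsg

namespace Cfsg.Agent.S2572

open Cfsg.Agent.H8 Cfsg.Agent.H8.RCF Polynomial Matrix

abbrev Idx (m : ℕ) := Unit ⊕ (Fin m ⊕ Unit)

def bigE (F : Type*) [Field F] (m : ℕ) : Matrix (Idx m) (Idx m) F := Matrix.single (Sum.inl ()) (Sum.inr (Sum.inr ())) 1

def G {F : Type*} [Field F] {m : ℕ} (a : F) (r : Fin m → F) (s : F) (c : Fin m → F) (B : Matrix (Fin m) (Fin m) F) : Matrix (Idx m) (Idx m) F :=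
  Matrix.fromBlocks (Matrix.of fun _ _ => a) (Matrix.of fun _ j => Sum.elim r (fun _ => s) j) 0
    (Matrix.fromBlocks B (Matrix.of fun i _ => c i) 0 (Matrix.of fun _ _ => a))

theorem G_comm {F : Type*} [Field F] {m : ℕ} (a : F) (r : Fin m → F) (s : F) (c : Fin m → F) (B : Matrix (Fin m) (Fin m) F) :
    G a r s c B * bigE F m = bigE F m * G a r s c B := by
  ext i j
  rw [bigE, Matrix.mul_apply, Matrix.mul_apply]
  rcases i with i | i | i <;> rcases j with j | j | j <;> simp [G, Matrix.single_apply, Fintype.sum_sum_type]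

theorem G_det {F : Type*} [Field F] {m : ℕ} (a : F) (r : Fin m → F) (s : F) (c : Fin m → F) (B : Matrix (Fin m) (Fin m) F) :
    (G a r s c B).det = a * (B.det * a) := by
  rw [G, Matrix.det_fromBlocks_zero₂₁, Matrix.det_fromBlocks_zero₂₁]
  simp

theorem eq_G {F : Type*} [Field F] {m : ℕ} (M : Matrix (Idx m) (Idx m) F) (h : M * bigE F m = bigE F m * M) :
    M = G (M (Sum.inl ()) (Sum.inl ())) (fun j => M (Sum.inl ()) (Sum.inr (Sum.inl j))) (M (Sum.inl ()) (Sum.inr (Sum.inr ())))
      (fun i => M (Sum.inr (Sum.inl i)) (Sum.inr (Sum.inr ()))) (Matrix.of fun i j => M (Sum.inr (Sum.inl i)) (Sum.inr (Sum.inl j))) := by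
  have h1 : ∀ i j, (M * bigE F m) i j = (bigE F m * M) i j := fun i j => by rw [h]
  simp only [bigE, Matrix.mul_apply, Matrix.single_apply, Fintype.sum_sum_type] at h1
  ext i j
  rcases i with i | i | i <;> rcases j with j | j | j
  · simp [G]
  · simp [G]
  · simp [G]
  · have := h1 (Sum.inr (Sum.inl i)) (Sum.inr (Sum.inr ()))
    simpa [G] using this
  · simp [G]
  · simp [G]
  · have := h1 (Sum.inr (Sum.inr ())) (Sum.inr (Sum.inr ()))
    simpa [G] using this
  · have := h1 (Sum.inl ()) (Sum.inr (Sum.inl j))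
    simpa [G] using this.symm
  · have := h1 (Sum.inl ()) (Sum.inr (Sum.inr ()))
    simpa [G] using this.symm

theorem card_cent {F : Type*} [Field F] [Fintype F] (m : ℕ) :
    Nat.card {M : (Matrix (Idx m) (Idx m) F)ˣ // (M : Matrix (Idx m) (Idx m) F) * bigE F m = bigE F m * M} =
      (Fintype.card F) ^ (2 * m + 1) * (Fintype.card F - 1) * Nat.card (GL (Fin m) F) := by
  classical
  let φ : (Fˣ × (Fin m → F) × F × (Fin m → F) × GL (Fin m) F) → {M : (Matrix (Idx m) (Idx m) F)ˣ // (M : Matrix (Idx m) (Idx m) F) * bigE F m = bigE F m * M} :=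
    fun x => ⟨(show IsUnit (G (x.1 : F) x.2.1 x.2.2.1 x.2.2.2.1 (x.2.2.2.2 : Matrix (Fin m) (Fin m) F)) from by
      rw [Matrix.isUnit_iff_isUnit_det, G_det]
      exact x.1.isUnit.mul (((Matrix.isUnit_iff_isUnit_det _).1 x.2.2.2.2.isUnit).mul x.1.isUnit)).unit, G_comm _ _ _ _ _⟩
  have hφ : Function.Bijective φ := by
    constructor
    · rintro ⟨a, r, s, c, B⟩ ⟨a', r', s', c', B'⟩ h
      have h1 : G (a : F) r s c (B : Matrix (Fin m) (Fin m) F) = G (a' : F) r' s' c' (B' : Matrix (Fin m) (Fin m) F) := congrArg (fun x => (x.1.val : Matrix (Idx m) (Idx m) F)) h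
      have e : ∀ i j, G (a : F) r s c (B : Matrix (Fin m) (Fin m) F) i j = G (a' : F) r' s' c' (B' : Matrix (Fin m) (Fin m) F) i j := fun i j => by rw [h1]
      have e1 : a = a' := Units.ext (by simpa [G] using e (Sum.inl ()) (Sum.inl ()))
      have e2 : r = r' := funext fun j => by simpa [G] using e (Sum.inl ()) (Sum.inr (Sum.inl j))
      have e3 : s = s' := by simpa [G] using e (Sum.inl ()) (Sum.inr (Sum.inr ()))
      have e4 : c = c' := funext fun j => by simpa [G] using e (Sum.inr (Sum.inl j)) (Sum.inr (Sum.inr ()))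
      have e5 : B = B' := Units.ext (by ext i j; simpa [G] using e (Sum.inr (Sum.inl i)) (Sum.inr (Sum.inl j)))
      rw [e1, e2, e3, e4, e5]
    · rintro ⟨M, hM⟩
      have h1 := eq_G _ hM
      have h2 : IsUnit (M : Matrix (Idx m) (Idx m) F).det := (Matrix.isUnit_iff_isUnit_det _).1 M.isUnit
      rw [h1, G_det] at h2
      have h3 := isUnit_of_mul_isUnit_left h2
      have h4 := isUnit_of_mul_isUnit_left (isUnit_of_mul_isUnit_right h2)
      refine ⟨(h3.unit, (fun j => (M : Matrix (Idx m) (Idx m) F) (Sum.inl ()) (Sum.inr (Sum.inl j))), (M : Matrix (Idx m) (Idx m) F) (Sum.inl ()) (Sum.inr (Sum.inr ())),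
        (fun i => (M : Matrix (Idx m) (Idx m) F) (Sum.inr (Sum.inl i)) (Sum.inr (Sum.inr ()))), ((Matrix.isUnit_iff_isUnit_det _).2 h4).unit), ?_⟩
      apply Subtype.ext
      apply Units.ext
      exact h1.symm
  rw [← Nat.card_congr (Equiv.ofBijective φ hφ)]
  rw [Nat.card_prod, Nat.card_prod, Nat.card_prod, Nat.card_prod, Nat.card_fun, Nat.card_fin, Nat.card_eq_fintype_card (α := F), Nat.card_eq_fintype_card (α := Fˣ), Fintype.card_units]
  ring

theorem card_cent_conj {G : Type*} [Group G] {x y : G} (h : IsConj x y) :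
    Nat.card (Subgroup.centralizer ({x} : Set G)) = Nat.card (Subgroup.centralizer ({y} : Set G)) := by
  obtain ⟨g, rfl⟩ := isConj_iff.1 h
  apply Nat.card_congr
  refine (MulAut.conj g).toEquiv.subtypeEquiv ?_
  intro a
  rw [Subgroup.mem_centralizer_singleton_iff, Subgroup.mem_centralizer_singleton_iff]
  show a * x = x * a ↔ (g * a * g⁻¹) * (g * x * g⁻¹) = (g * x * g⁻¹) * (g * a * g⁻¹)
  constructor
  · intro h
    have e1 : (g * a * g⁻¹) * (g * x * g⁻¹) = g * (a * x) * g⁻¹ := by group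
    have e2 : (g * x * g⁻¹) * (g * a * g⁻¹) = g * (x * a) * g⁻¹ := by group
    rw [e1, e2, h]
  · intro h
    have e1 : (g * a * g⁻¹) * (g * x * g⁻¹) = g * (a * x) * g⁻¹ := by group
    have e2 : (g * x * g⁻¹) * (g * a * g⁻¹) = g * (x * a) * g⁻¹ := by group
    rw [e1, e2] at h
    exact mul_left_cancel (mul_right_cancel h)

/-- Centraliser of a transvection in GL_n(q), n ≥ 2: if t − 1 has rank one and square zero, the centraliser of t in GL_n(q) has order q^(2n−3) (q − 1) |GL_(n−2)(q)| (a group of order q^(2n−3) extended by GL_1(q) × GL_(n−2)(q)). -/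
theorem result {F : Type*} [Field F] [Fintype F] {q n : ℕ} (hF : Fintype.card F = q) (hn : 2 ≤ n) (t : GL (Fin n) F) (ht : Cfsg.IsTransvection (t : Matrix (Fin n) (Fin n) F)) : Nat.card ↥(Subgroup.centralizer ({t} : Set (GL (Fin n) F))) = q ^ (2 * n - 3) * (q - 1) * ∏ i : Fin (n - 2), (q ^ (n - 2) - q ^ (i : ℕ)) := by
  classical
  obtain ⟨m, rfl⟩ : ∃ m, n = m + 2 := ⟨n - 2, by omega⟩
  have hcard : Fintype.card (Fin (m + 2)) = Fintype.card (Idx m) := by simp [Idx]; omega
  let e : Fin (m + 2) ≃ Idx m := Fintype.equivOfCardEq hcard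
  let Ψ : Matrix (Fin (m + 2)) (Fin (m + 2)) F ≃ₐ[F] Matrix (Idx m) (Idx m) F := Matrix.reindexAlgEquiv F F e
  have hE2 : bigE F m * bigE F m = 0 := by
    rw [bigE, Matrix.single_mul_single_of_ne]
    simp
  have hErank : (bigE F m).rank = 1 := by
    rw [bigE]
    have : Matrix.single (Sum.inl ()) (Sum.inr (Sum.inr ())) (1 : F) = Matrix.vecMulVec (Pi.single (Sum.inl () : Idx m) 1) (Pi.single (Sum.inr (Sum.inr ()) : Idx m) 1) := by
      ext i j
      rw [Matrix.single_apply, Matrix.vecMulVec_apply, Pi.single_apply, Pi.single_apply]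
      by_cases h1 : i = Sum.inl () <;> by_cases h2 : j = Sum.inr (Sum.inr ()) <;> simp [h1, h2, eq_comm]
    rw [this]
    apply le_antisymm
    · exact Matrix.rank_vecMulVec_le _ _
    · rw [Nat.one_le_iff_ne_zero]
      intro h0
      have h : Matrix.vecMulVec (Pi.single (Sum.inl () : Idx m) (1 : F)) (Pi.single (Sum.inr (Sum.inr ()) : Idx m) 1) = 0 := by
        rw [Matrix.rank, Submodule.finrank_eq_zero, LinearMap.range_eq_bot] at h0
        rw [← Matrix.toLin'_apply'] at h0
        exact (LinearEquiv.map_eq_zero_iff (Matrix.toLin' (R := F) (m := Idx m) (n := Idx m))).1 h0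
      have := congrFun (congrFun h (Sum.inl ())) (Sum.inr (Sum.inr ()))
      simp [Matrix.vecMulVec_apply] at this
  have hu : IsUnit (Ψ.symm (1 + bigE F m)) := by
    apply IsUnit.map
    apply IsUnit.of_mul_eq_one (1 - bigE F m)
    rw [mul_sub, add_mul, add_mul, hE2]
    simp
  have hΨ : ((hu.unit : GL (Fin (m + 2)) F) : Matrix (Fin (m + 2)) (Fin (m + 2)) F) = Ψ.symm (1 + bigE F m) := rfl
  have hsub : ((hu.unit : GL (Fin (m + 2)) F) : Matrix (Fin (m + 2)) (Fin (m + 2)) F) - 1 = Ψ.symm (bigE F m) := by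
    rw [hΨ, map_add, map_one]; simp
  have hconj : IsConj t hu.unit := by
    refine gl_conj_of_unip_ranks (N := 2) _ _ (by rw [sq]; exact ht.2) (by rw [hsub, ← map_pow, sq, hE2, map_zero]) ?_
    intro k
    match k with
    | 0 => simp
    | 1 =>
      rw [pow_one, pow_one, hsub, ht.1]
      show 1 = ((Matrix.reindex e.symm e.symm) (bigE F m)).rank
      rw [Matrix.rank_reindex, hErank]
    | k + 2 =>
      rw [pow_add, pow_add, hsub, sq, sq, ht.2, ← map_mul, hE2, map_zero]
      simp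
  rw [card_cent_conj hconj]
  have hc : Nat.card (Subgroup.centralizer ({hu.unit} : Set (GL (Fin (m + 2)) F))) = Nat.card {M : (Matrix (Idx m) (Idx m) F)ˣ // (M : Matrix (Idx m) (Idx m) F) * bigE F m = bigE F m * M} := by
    apply Nat.card_congr
    refine (Units.mapEquiv Ψ.toMulEquiv).toEquiv.subtypeEquiv ?_
    intro a
    rw [Subgroup.mem_centralizer_singleton_iff]
    show a * hu.unit = hu.unit * a ↔ (Ψ (a : Matrix (Fin (m + 2)) (Fin (m + 2)) F)) * bigE F m = bigE F m * Ψ (a : Matrix (Fin (m + 2)) (Fin (m + 2)) F)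
    rw [Units.ext_iff, Units.val_mul, Units.val_mul, hΨ]
    constructor
    · intro h
      have := congrArg Ψ h
      rw [map_mul, map_mul, AlgEquiv.apply_symm_apply, mul_add, add_mul, mul_one, one_mul] at this
      exact add_left_cancel this
    · intro h
      apply Ψ.injective
      rw [map_mul, map_mul, AlgEquiv.apply_symm_apply, mul_add, add_mul, mul_one, one_mul, h]
  rw [hc, card_cent, Matrix.card_GL_field, hF]
  have : 2 * (m + 2) - 3 = 2 * m + 1 := by omega
  rw [this]
  rfl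

end Cfsg.Agent.S2572
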