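import Cfsg.Statements.S0445
import Cfsg.Agent.S2572
import Cfsg.Agent.L0.Misc.ToGL
-- import your own Cfsg.Agent.* helpers here

set_option autoImplicit false
open Cfsg

namespace Cfsg.Agent.S0445

/-- In the special linear group of dimension 5 over the field with two elements, the centraliser of a transvection has order 21504 = 2 ^ 7 · 168 (it is an extension of an extraspecial group of order 2 ^ 7 by the simple group of order 168). -/
theorem result (s : Matrix.SpecialLinearGroup (Fin 5) (ZMod 2)) (hs : (s : Matrix (Fin 5) (Fin 5) (ZMod 2)) = Matrix.transvection 0 1 1) : Nat.card (Subgroup.centralizer ({s} : Set (Matrix.SpecialLinearGroup (Fin 5) (ZMod 2)))) = 21504 := by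
  have htv : Cfsg.IsTransvection ((Matrix.SpecialLinearGroup.toGL s : GL (Fin 5) (ZMod 2)) : Matrix (Fin 5) (Fin 5) (ZMod 2)) := by
    unfold Cfsg.IsTransvection
    rw [Cfsg.Agent.L0.ToGL.coe, hs]
    exact Cfsg.Agent.L0.ToGL.trans_sub 0 1 (by decide)
  have hmain := Cfsg.Agent.S2572.result (F := ZMod 2) (q := 2) (n := 5) (ZMod.card 2) (by norm_num) _ htv
  have hprod : ∏ i : Fin (5 - 2), (2 ^ (5 - 2) - 2 ^ (i : ℕ)) = 168 := by decide
  rw [hprod] at hmain
  have h1 : ∀ x : ZMod 2, IsUnit x → x = 1 := by decide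
  rw [Cfsg.Agent.L0.ToGL.card_cent h1 s, hmain]
  norm_num

end Cfsg.Agent.S0445
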