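import Cfsg.Statements.S0493
import Mathlib
import Cfsg.Agent.S0144
import Cfsg.Agent.H3.NC
import Cfsg.Agent.H1.Transfer
import Cfsg.Agent.H1.Basic

set_option autoImplicit false
open Cfsg

namespace Cfsg.Agent.S0493

open scoped commutatorElement Pointwise
theorem three_primes {n : ℕ} (hn : 1 < n) (h : ∀ p q a b : ℕ, p.Prime → q.Prime → n ≠ p ^ a * q ^ b) :
    ∃ p q r : ℕ, p.Prime ∧ q.Prime ∧ r.Prime ∧ p < q ∧ q < r ∧ p * q * r ∣ n := by
  have hn0 : n ≠ 0 := by omega
  have hcard : 3 ≤ n.primeFactors.card := by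
    by_contra hlt
    push Not at hlt
    have hprod := Nat.prod_factorization_pow_eq_self hn0
    rw [Finsupp.prod, Nat.support_factorization] at hprod
    have h1 : n.primeFactors.card = 0 ∨ n.primeFactors.card = 1 ∨ n.primeFactors.card = 2 := by omega
    rcases h1 with h1 | h1 | h1
    · rw [Finset.card_eq_zero] at h1
      rw [h1, Finset.prod_empty] at hprod
      omega
    · obtain ⟨p, hp⟩ := Finset.card_eq_one.mp h1
      have hpp : p.Prime := Nat.prime_of_mem_primeFactors (by rw [hp]; exact Finset.mem_singleton_self _)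
      rw [hp, Finset.prod_singleton] at hprod
      exact h p p (n.factorization p) 0 hpp hpp (by rw [pow_zero, mul_one]; exact hprod.symm)
    · obtain ⟨p, q, hpq, hs⟩ := Finset.card_eq_two.mp h1
      have hpp : p.Prime := Nat.prime_of_mem_primeFactors (by rw [hs]; simp)
      have hqq : q.Prime := Nat.prime_of_mem_primeFactors (by rw [hs]; simp)
      rw [hs, Finset.prod_pair hpq] at hprod
      exact h p q _ _ hpp hqq hprod.symm
  obtain ⟨s, hs, hsc⟩ := Finset.exists_subset_card_eq hcard
  have hpr : ∀ x ∈ s, x.Prime := fun x hx => Nat.prime_of_mem_primeFactors (hs hx)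
  let f := s.orderEmbOfFin hsc
  have hf : ∀ i, f i ∈ s := fun i => Finset.orderEmbOfFin_mem s hsc i
  refine ⟨f 0, f 1, f 2, hpr _ (hf 0), hpr _ (hf 1), hpr _ (hf 2), f.strictMono (by decide), f.strictMono (by decide), ?_⟩
  have h01 : f 0 ≠ f 1 := f.injective.ne (by decide)
  have h02 : f 0 ≠ f 2 := f.injective.ne (by decide)
  have h12 : f 1 ≠ f 2 := f.injective.ne (by decide)
  have hd : ∀ i, f i ∣ n := fun i => Nat.dvd_of_mem_primeFactors (hs (hf i))
  have hc01 : Nat.Coprime (f 0) (f 1) := (Nat.coprime_primes (hpr _ (hf 0)) (hpr _ (hf 1))).mpr h01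
  have hc2 : Nat.Coprime (f 0 * f 1) (f 2) :=
    Nat.Coprime.mul_left ((Nat.coprime_primes (hpr _ (hf 0)) (hpr _ (hf 2))).mpr h02) ((Nat.coprime_primes (hpr _ (hf 1)) (hpr _ (hf 2))).mpr h12)
  exact hc2.mul_dvd_of_dvd_of_dvd (hc01.mul_dvd_of_dvd_of_dvd (hd 0) (hd 1)) (hd 2)

theorem list_cases {n p q r : ℕ} (hn : n ≤ 100) (hn1 : 1 < n) (hp : p.Prime) (hq : q.Prime) (hr : r.Prime) (hpq : p < q) (hqr : q < r)
    (hd : p * q * r ∣ n) : n = 60 ∨ n = 84 ∨ n % 4 = 2 := by
  have hp2 := hp.two_le
  have hle : p * q * r ≤ 100 := (Nat.le_of_dvd (by omega) hd).trans hn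
  have hp4 : p ≤ 4 := by
    by_contra h
    push Not at h
    have : 5 * 6 * 7 ≤ p * q * r := Nat.mul_le_mul (Nat.mul_le_mul (by omega) (by omega)) (by omega)
    omega
  have hq7 : q ≤ 7 := by
    by_contra h
    push Not at h
    have : 2 * 8 * 9 ≤ p * q * r := Nat.mul_le_mul (Nat.mul_le_mul (by omega) (by omega)) (by omega)
    omega
  have hr17 : r ≤ 16 := by
    by_contra h
    push Not at h
    have : 2 * 3 * 17 ≤ p * q * r := Nat.mul_le_mul (Nat.mul_le_mul (by omega) (by omega)) (by omega)
    omega
  obtain ⟨k, rfl⟩ := hd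
  interval_cases p <;> interval_cases q <;> first | (exfalso; revert hp; norm_num; done) | (exfalso; revert hq; norm_num; done) | (interval_cases r <;> first | (exfalso; revert hr; norm_num; done) | omega)

/-- A finite simple group of order at most 100 that is not cyclic has order 60. -/
theorem result {G : Type*} [Group G] [Finite G] [IsSimpleGroup G]
    (hG : ¬ IsCyclic G) (h : Nat.card G ≤ 100) : Nat.card G = 60 := by
  classical
  have hns : ¬ Group.IsSolvable G := by
    intro hs
    apply hG
    letI : CommGroup G := { (inferInstance : Group G) with mul_comm := IsSimpleGroup.comm_iff_isSolvable.mpr hs }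
    exact inferInstance
  have hcard1 : 1 < Nat.card G := Finite.one_lt_card
  have h1 : ∀ p q a b : ℕ, p.Prime → q.Prime → Nat.card G ≠ p ^ a * q ^ b := by
    intro p q a b hp hq he
    exact hns (Cfsg.Agent.S0144.result p q a b hp hq he)
  obtain ⟨p, q, r, hp, hq, hr, hpq, hqr, hd⟩ := three_primes hcard1 h1
  rcases list_cases h hcard1 hp hq hr hpq hqr hd with h2 | h2 | h2
  · exact h2
  · -- 84: Sylow 7 normal
    exfalso
    haveI : Fact (Nat.Prime 7) := ⟨by norm_num⟩
    have h3 := card_sylow_modEq_one 7 G
    obtain ⟨P⟩ : Nonempty (Sylow 7 G) := inferInstance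
    have hPc : Nat.card P = 7 := by
      rw [P.card_eq_multiplicity, h2]
      have : Nat.factorization 84 7 = 1 := by
        rw [show (84 : ℕ) = 7 * 12 by norm_num, Nat.factorization_mul (by norm_num) (by norm_num)]
        rw [Finsupp.add_apply, Nat.Prime.factorization_self (by norm_num), Nat.factorization_eq_zero_of_not_dvd (by norm_num)]
      rw [this, pow_one]
    have h4 : Nat.card (Sylow 7 G) ∣ 12 := by
      have h5 := P.card_dvd_index
      have h6 := (P : Subgroup G).card_mul_index
      rw [h2, hPc] at h6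
      have : (P : Subgroup G).index = 12 := by omega
      rwa [this] at h5
    have h7 : Nat.card (Sylow 7 G) = 1 := by
      have h8 : Nat.card (Sylow 7 G) ≤ 12 := Nat.le_of_dvd (by norm_num) h4
      have h9 : Nat.card (Sylow 7 G) % 7 = 1 := by simpa [Nat.ModEq] using h3
      generalize Nat.card (Sylow 7 G) = m at *
      interval_cases m <;> omega
    have h8 : (P : Subgroup G).Normal := by
      haveI : Subsingleton (Sylow 7 G) := (Nat.card_eq_one_iff_unique.mp h7).1
      exact Sylow.normal_of_subsingleton P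
    rcases h8.eq_bot_or_eq_top with h9 | h9
    · have : Nat.card P = 1 := by
        have : Nat.card (P : Subgroup G) = 1 := by rw [h9]; exact Subgroup.card_bot
        exact this
      omega
    · have : Nat.card P = Nat.card G := by
        have : Nat.card (P : Subgroup G) = Nat.card G := by rw [h9]; exact Subgroup.card_top
        exact this
      omega
  · -- 2 mod 4
    exfalso
    obtain ⟨P⟩ : Nonempty (Sylow 2 G) := inferInstance
    have hPc : Nat.card P = 2 := by
      rw [P.card_eq_multiplicity]
      have : (Nat.card G).factorization 2 = 1 := by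
        obtain ⟨m, hm⟩ : ∃ m, Nat.card G = 2 * (2 * m + 1) := ⟨Nat.card G / 4, by omega⟩
        rw [hm, Nat.factorization_mul (by norm_num) (by omega), Finsupp.add_apply,
          Nat.Prime.factorization_self (by norm_num), Nat.factorization_eq_zero_of_not_dvd (by omega)]
      rw [this, pow_one]
    have hcyc : IsCyclic (P : Subgroup G) := by
      haveI : Fact (Nat.Prime 2) := ⟨Nat.prime_two⟩
      exact isCyclic_of_prime_card (p := 2) hPc
    have hnc : Cfsg.HasNormalPComplement 2 G := by
      apply Cfsg.Agent.H1.hasNormalPComplement_of_normalizer_le_centralizer P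
      intro x hx
      apply Cfsg.Agent.H3.mem_centralizer_of_coprime _ hx
      rw [IsCyclic.card_mulAut]
      change (orderOf x).Coprime (Nat.totient (Nat.card P))
      rw [hPc]; simp
    obtain ⟨N, hN, hNc, k, hk⟩ := Cfsg.Agent.H1.hasNormalPComplement_iff.mp hnc
    rcases hN.eq_bot_or_eq_top with h9 | h9
    · rw [h9, Subgroup.index_bot] at hk
      exact h1 2 2 k 0 Nat.prime_two Nat.prime_two (by rw [pow_zero, mul_one]; exact hk)
    · rw [h9, Subgroup.card_top] at hNc
      have : Odd (Nat.card G) := Nat.coprime_two_right.mp hNc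
      rw [Nat.odd_iff] at this
      omega

end Cfsg.Agent.S0493
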