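import Cfsg.Statements.S0494
import Cfsg.Agent.H7.Zas2
import Cfsg.Agent.S0253

set_option autoImplicit false
open Cfsg
open Cfsg.Agent.H7.Zas

namespace Cfsg.Agent.S0494

/-- A simple group of order 60 is isomorphic to the alternating group of degree 5. -/
theorem result {G : Type*} [Group G] [Finite G] [IsSimpleGroup G]
    (h : Nat.card G = 60) : Nonempty (G ≃* alternatingGroup (Fin 5)) := by
  haveI : Fact (Nat.Prime 5) := ⟨by norm_num⟩
  obtain ⟨e⟩ := main_even (p := 5) (m := 2) (by norm_num) (by norm_num) (by rw [h]) (by decide) (ZMod.card 5)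
  obtain ⟨f⟩ := S0253.result (F := ZMod 5) (ZMod.card 5)
  exact ⟨e.trans f⟩

end Cfsg.Agent.S0494
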