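import Cfsg.Statements.S0498
import Cfsg.Agent.H7.Zas2

set_option autoImplicit false
open Cfsg
open Cfsg.Agent.H7.Zas

namespace Cfsg.Agent.S0498

/-- A simple group of order 660, respectively 1092, is isomorphic to the projective special linear group of dimension 2
over the field with 11, respectively 13, elements. -/
theorem result {G : Type*} [Group G] [Finite G] [IsSimpleGroup G] (p : ℕ)
    (hp : p = 11 ∨ p = 13) (h : 2 * Nat.card G = p * (p ^ 2 - 1)) {F : Type*} [Field F] [Fintype F]
    (hF : Fintype.card F = p) : Nonempty (G ≃* Matrix.ProjectiveSpecialLinearGroup (Fin 2) F) := by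
  rcases hp with rfl | rfl
  · haveI : Fact (Nat.Prime 11) := ⟨by norm_num⟩
    exact main_odd (p := 11) (m := 5) (by norm_num) (by norm_num) (by omega) (r := 5) (k := 1) Nat.prime_five (by norm_num) (by norm_num) (by norm_num) (by decide) hF
  · haveI : Fact (Nat.Prime 13) := ⟨by norm_num⟩
    exact main_even (p := 13) (m := 6) (by norm_num) (by norm_num) (by omega) (by decide) hF

end Cfsg.Agent.S0498
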