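import Cfsg.Statements.S0499
import Cfsg.Agent.H1.FrobPC
import Cfsg.Agent.H1.QS
-- import your own Cfsg.Agent.* helpers here

set_option autoImplicit false
open Cfsg commutatorElement

namespace Cfsg.Agent.S0499

/-- A non-abelian finite simple group of even order has order divisible by 12, 16 or 56. -/
theorem result {G : Type*} [Group G] [Finite G] [IsSimpleGroup G]
    (hG : ¬ IsMulCommutative G) (h2 : Even (Nat.card G)) :
    12 ∣ Nat.card G ∨ 16 ∣ Nat.card G ∨ 56 ∣ Nat.card G := by
  classical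
  by_contra hcon
  push Not at hcon
  obtain ⟨h12, h16, h56⟩ := hcon
  haveI : Fact (Nat.Prime 2) := ⟨Nat.prime_two⟩
  have hperf : commutator G = ⊤ := by
    rcases (inferInstance : (commutator G).Normal).eq_bot_or_eq_top with h | h
    · exfalso
      apply hG
      constructor; constructor
      intro a b
      have h1 : ⁅a, b⁆ ∈ commutator G := Subgroup.commutator_mem_commutator (Subgroup.mem_top _) (Subgroup.mem_top _)
      rw [h, Subgroup.mem_bot] at h1
      exact commutatorElement_eq_one_iff_mul_comm.mp h1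
    · exact h
  apply Cfsg.Agent.H1.not_npc_of_perfect hperf h2
  apply Cfsg.Agent.H1.frobenius_criterion
  intro Q hQ g hg hgo
  apply Cfsg.Agent.H3.mem_centralizer_of_coprime Q hg
  by_contra hnc
  obtain ⟨q, hq, hq1, hq2⟩ := Nat.Prime.not_coprime_iff_dvd.mp hnc
  haveI : Fact q.Prime := ⟨hq⟩
  have hqG : q ∣ Nat.card G := hq1.trans (orderOf_dvd_natCard g)
  have hqodd : q ≠ 2 := by
    rintro rfl
    have := Nat.Coprime.eq_one_of_dvd hgo.symm hq1
    omega
  obtain ⟨b, hb⟩ := IsPGroup.iff_card.mp hQ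
  have hbG : 2 ^ b ∣ Nat.card G := by rw [← hb]; exact Subgroup.card_subgroup_dvd_card Q
  have hb3 : b ≤ 3 := by
    by_contra h
    exact h16 ((pow_dvd_pow 2 (by omega : 4 ≤ b)).trans hbG)
  obtain ⟨σ, hσ⟩ := exists_prime_orderOf_dvd_card' q hq2
  have hσ1 : σ ≠ 1 := by
    rintro rfl
    rw [orderOf_one] at hσ
    exact hq.one_lt.ne hσ
  let F : Subgroup Q := { carrier := {x | σ x = x}, mul_mem' := by intro a b ha hb; change σ (a * b) = a * b; rw [map_mul, ha, hb], one_mem' := map_one σ, inv_mem' := by intro a ha; change σ a⁻¹ = a⁻¹; rw [map_inv, ha] }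
  have hFt : F ≠ ⊤ := by
    intro h
    apply hσ1
    ext x
    have : x ∈ F := by rw [h]; exact Subgroup.mem_top _
    exact congrArg Subtype.val (this : σ x = x)
  have hFd : Nat.card F ∣ 2 ^ b := by rw [← hb]; exact Subgroup.card_subgroup_dvd_card F
  obtain ⟨c, hc, hcF⟩ := (Nat.dvd_prime_pow Nat.prime_two).mp hFd
  have hcb : c < b := by
    rcases hc.lt_or_eq with h | h
    · exact h
    · exfalso
      apply hFt
      apply Subgroup.eq_top_of_card_eq
      rw [hcF, hb, h]
  have hmod : 2 ^ b ≡ 2 ^ c [MOD q] := by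
    haveI : Fintype Q := Fintype.ofFinite _
    let f : Function.End Q := fun x => σ x
    have hfk : ∀ k : ℕ, ∀ x : Q, (f ^ k : Function.End Q) x = (σ ^ k) x := by
      intro k
      induction k with
      | zero => intro v; rw [pow_zero, pow_zero]; rfl
      | succ k ih =>
        intro v
        rw [pow_succ, pow_succ]
        exact ih (f v)
    have hf : f ^ q ^ 1 = 1 := by
      rw [pow_one]
      funext v
      rw [hfk, ← hσ, pow_orderOf_eq_one]; rfl
    have h1 := Equiv.Perm.card_fixedPoints_modEq hf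
    rw [← Nat.card_eq_fintype_card, ← Nat.card_eq_fintype_card, hb] at h1
    have h2 : Nat.card (Function.fixedPoints f) = Nat.card F := rfl
    rw [h2, hcF] at h1
    exact h1
  have hdvd : q ∣ 2 ^ b - 2 ^ c := (Nat.modEq_iff_dvd' (Nat.pow_le_pow_right (by norm_num) hc)).mp hmod.symm
  have e3 : 2 ^ b - 2 ^ c = 2 ^ c * (2 ^ (b - c) - 1) := by
    rw [Nat.mul_sub, ← pow_add, mul_one, Nat.add_sub_cancel' hc]
  rw [e3] at hdvd
  have hq4 : q ∣ 2 ^ (b - c) - 1 := by
    rcases hq.dvd_mul.mp hdvd with h | h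
    · exfalso
      have := (Nat.prime_dvd_prime_iff_eq hq Nat.prime_two).mp (hq.dvd_of_dvd_pow h)
      exact hqodd this
    · exact h
  have hcases : b - c = 1 ∨ b - c = 2 ∨ b - c = 3 := by omega
  rcases hcases with h | h | h
  · rw [h] at hq4
    have : q ∣ 1 := hq4
    exact hq.one_lt.ne' (Nat.dvd_one.mp this)
  · rw [h] at hq4
    have h3 : q ∣ 3 := hq4
    have h4 : q = 3 := (Nat.prime_dvd_prime_iff_eq hq Nat.prime_three).mp h3
    rw [h4] at hqG
    apply h12
    have h5 : 4 ∣ Nat.card G := (pow_dvd_pow 2 (by omega : 2 ≤ b)).trans hbG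
    exact Nat.Coprime.mul_dvd_of_dvd_of_dvd (by norm_num) h5 hqG
  · rw [h] at hq4
    have h3 : q ∣ 7 := hq4
    have h4 : q = 7 := (Nat.prime_dvd_prime_iff_eq hq (by norm_num)).mp h3
    rw [h4] at hqG
    apply h56
    have h5 : 8 ∣ Nat.card G := (pow_dvd_pow 2 (by omega : 3 ≤ b)).trans hbG
    exact Nat.Coprime.mul_dvd_of_dvd_of_dvd (by norm_num) h5 hqG

end Cfsg.Agent.S0499
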