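import Cfsg.Statements.S0502
import Mathlib
import Cfsg.Agent.H1.Klein4
import Cfsg.Agent.H1.Basic

set_option autoImplicit false
open Cfsg

namespace Cfsg.Agent.S0502

open scoped commutatorElement Pointwise


/-- If a finite 2-group has a normal elementary abelian subgroup of order at least 8, then any two of its Klein
four-subgroups are joined by a chain of Klein four-subgroups with consecutive members commuting elementwise. -/
theorem result {P : Type*} [Group P] [Finite P] (hP : IsPGroup 2 P)
    (E : Subgroup P) [E.Normal] (hE : IsMulCommutative E) (hE2 : ∀ e ∈ E, e ^ 2 = 1) (hE8 : 8 ≤ Nat.card E) :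
    Cfsg.IsFourConnected P := by
  classical
  haveI := hP.isNilpotent
  set R := (fun A B : Subgroup P => IsKleinFour A ∧ IsKleinFour B ∧ ∀ a ∈ A, ∀ b ∈ B, a * b = b * a) with hR
  have hRsymm : ∀ A B, R A B → R B A := fun A B h => ⟨h.2.1, h.1, fun b hb a ha => (h.2.2 a ha b hb).symm⟩
  have hEc : ∀ a ∈ E, ∀ b ∈ E, a * b = b * a := fun a ha b hb => congrArg Subtype.val (hE.1.1 ⟨a, ha⟩ ⟨b, hb⟩)
  -- central involution in E
  have hEb : E ≠ ⊥ := by
    rintro rfl
    rw [Subgroup.card_bot] at hE8; omega
  have hz := Cfsg.Agent.H1.inf_center_ne_bot E hEb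
  obtain ⟨⟨z, hz⟩, hz1'⟩ := Subgroup.ne_bot_iff_exists_ne_one.mp hz
  have hz1 : z ≠ 1 := fun h => hz1' (Subtype.ext h)
  have hzE : (z : P) ∈ E := hz.1
  have hzc : ∀ g : P, (z : P) * g = g * z := fun g => (Subgroup.mem_center_iff.mp hz.2 g).symm
  have hzz : (z : P) * z = 1 := by rw [← pow_two]; exact hE2 _ hzE
  -- fixed points of an involution
  have hfix : ∀ v : P, v * v = 1 → 3 ≤ Nat.card ↥(E ⊓ Subgroup.centralizer {v}) := by
    intro v hv
    have hvi : v⁻¹ = v := inv_eq_of_mul_eq_one_right hv
    have hconj : ∀ e ∈ E, v * e * v⁻¹ ∈ E := fun e he => (inferInstance : E.Normal).conj_mem e he v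
    let f : E →* P :=
      { toFun := fun e => e * (v * e * v⁻¹)
        map_one' := by simp
        map_mul' := fun a b => by
          have h1 := hEc b b.2 _ (hconj a a.2)
          calc ((a * b : E) : P) * (v * ((a * b : E) : P) * v⁻¹) = a * (b * (v * a * v⁻¹)) * (v * b * v⁻¹) := by
                push_cast; group
            _ = a * ((v * a * v⁻¹) * b) * (v * b * v⁻¹) := by rw [h1]
            _ = _ := by group }
    have hker : Nat.card f.ker = Nat.card ↥(E ⊓ Subgroup.centralizer {v}) := by
      have h1 : f.ker.map E.subtype = E ⊓ Subgroup.centralizer {v} := by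
        ext x
        constructor
        · rintro ⟨e, he, rfl⟩
          refine ⟨e.2, ?_⟩
          apply Subgroup.mem_centralizer_singleton_iff.mpr
          have h2 : (e : P) * (v * e * v⁻¹) = 1 := he
          have h3 : (e : P) * e = 1 := by rw [← pow_two]; exact hE2 _ e.2
          have h4 : v * (e : P) * v⁻¹ = e := by
            have := h2.trans h3.symm
            exact mul_left_cancel this
          change (e : P) * v = v * e
          calc (e : P) * v = (v * e * v⁻¹) * v := by rw [h4]
            _ = _ := by group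
        · rintro ⟨hx, hxv⟩
          have h5 : x * v = v * x := Subgroup.mem_centralizer_singleton_iff.mp hxv
          refine ⟨⟨x, hx⟩, ?_, rfl⟩
          change x * (v * x * v⁻¹) = 1
          rw [← h5]
          have : x * (x * v * v⁻¹) = x * x := by group
          rw [this, ← pow_two]; exact hE2 x hx
      rw [← h1, Cfsg.Agent.L0.card_map_subtype]
    have hrange : Nat.card f.range ≤ Nat.card ↥(E ⊓ Subgroup.centralizer {v}) := by
      apply Subgroup.card_le_of_le
      rintro _ ⟨e, rfl⟩
      refine ⟨E.mul_mem e.2 (hconj e e.2), ?_⟩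
      apply Subgroup.mem_centralizer_singleton_iff.mpr
      change (e : P) * (v * e * v⁻¹) * v = v * (e * (v * e * v⁻¹))
      have h6 := hEc e e.2 _ (hconj e e.2)
      have h7 : v * (v * (e : P) * v⁻¹) * v⁻¹ = e := by
        calc v * (v * (e : P) * v⁻¹) * v⁻¹ = (v * v) * e * (v * v)⁻¹ := by group
          _ = e := by rw [hv]; group
      calc (e : P) * (v * e * v⁻¹) * v = (v * e * v⁻¹) * e * v := by rw [h6]
        _ = (v * e * v⁻¹) * (v * (v * e * v⁻¹) * v⁻¹) * v := by rw [h7]
        _ = _ := by group
    have h8 : Nat.card f.ker * Nat.card f.range = Nat.card E := by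
      rw [← Subgroup.index_ker]
      exact f.ker.card_mul_index
    rw [hker] at h8
    nlinarith
  -- an involution in a subgroup of E of order ≥ 3
  have hpick : ∀ v : P, v * v = 1 → ∃ U : Subgroup P, IsKleinFour U ∧ U ≤ E ∧ ∀ u ∈ U, u * v = v * u := by
    intro v hv
    have h3 := hfix v hv
    obtain ⟨x, hx, hx1⟩ : ∃ x ∈ E ⊓ Subgroup.centralizer {v}, x ≠ 1 := by
      by_contra hcon
      push Not at hcon
      have : E ⊓ Subgroup.centralizer {v} = ⊥ := by
        rw [eq_bot_iff]; intro y hy; exact hcon y hy
      rw [this, Subgroup.card_bot] at h3; omega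
    obtain ⟨y, hy, hy1, hyx⟩ : ∃ y ∈ E ⊓ Subgroup.centralizer {v}, y ≠ 1 ∧ y ≠ x := by
      by_contra hcon
      push Not at hcon
      have h4 : ((E ⊓ Subgroup.centralizer {v} : Subgroup P) : Set P) ⊆ ({1, x} : Finset P) := by
        intro w hw
        by_cases hw1 : w = 1
        · simp [hw1]
        · simp [hcon w hw hw1]
      have h5 : Nat.card ↥(E ⊓ Subgroup.centralizer {v}) ≤ 2 := by
        have h6 : Nat.card ↥(E ⊓ Subgroup.centralizer {v}) = Set.ncard ((E ⊓ Subgroup.centralizer {v} : Subgroup P) : Set P) := rfl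
        rw [h6]
        refine (Set.ncard_le_ncard h4 (Finset.finite_toSet _)).trans ?_
        rw [Set.ncard_coe_finset]
        exact Finset.card_le_two
      omega
    obtain ⟨U, hU, hxU, hyU, hUm⟩ := Cfsg.Agent.H1.exists_klein hx1 hy1 (Ne.symm hyx) (by rw [← pow_two]; exact hE2 x hx.1)
      (by rw [← pow_two]; exact hE2 y hy.1) (hEc x hx.1 y hy.1)
    have hUsub : U ≤ E ⊓ Subgroup.centralizer {v} := by
      intro u hu
      rcases (hUm u).mp hu with rfl | rfl | rfl | rfl
      · exact one_mem _
      · exact hx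
      · exact hy
      · exact mul_mem hx hy
    exact ⟨U, hU, fun u hu => (hUsub hu).1, fun u hu => Subgroup.mem_centralizer_singleton_iff.mp (hUsub hu).2⟩
  -- main step
  have key : ∀ V : Subgroup P, IsKleinFour V → ∃ U : Subgroup P, U ≤ E ∧ IsKleinFour U ∧
      Relation.ReflTransGen R V U ∧ Relation.ReflTransGen R U V := by
    intro V hV
    haveI := hV
    -- find v ∈ V not in {1, z}
    obtain ⟨v, hvV, hv1, hvz⟩ : ∃ v ∈ V, v ≠ 1 ∧ v ≠ z := by
      by_contra hcon
      push Not at hcon
      have h4 : (V : Set P) ⊆ ({1, (z : P)} : Finset P) := by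
        intro w hw
        by_cases hw1 : w = 1
        · simp [hw1]
        · simp [hcon w hw hw1]
      have h5 : Nat.card V ≤ 2 := by
        have h6 : Nat.card V = Set.ncard (V : Set P) := rfl
        rw [h6]
        refine (Set.ncard_le_ncard h4 (Finset.finite_toSet _)).trans ?_
        rw [Set.ncard_coe_finset]
        exact Finset.card_le_two
      have h7 : Nat.card V = 4 := hV.card_four
      omega
    have hvv : v * v = 1 := Cfsg.Agent.H1.klein_sq hV hvV
    obtain ⟨K, hK, hzK, hvK, hKm⟩ := Cfsg.Agent.H1.exists_klein hz1 hv1 (Ne.symm hvz) hzz hvv (hzc v)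
    obtain ⟨U, hU, hUE, hUv⟩ := hpick v hvv
    have h1 : R V K := by
      refine ⟨hV, hK, ?_⟩
      intro a ha b hb
      have hav : a * v = v * a := Cfsg.Agent.H1.klein_comm hV ha hvV
      rcases (hKm b).mp hb with rfl | rfl | rfl | rfl
      · simp
      · exact (hzc a).symm
      · exact hav
      · calc a * ((z : P) * v) = (a * z) * v := by group
          _ = (z * a) * v := by rw [hzc a]
          _ = z * (a * v) := by group
          _ = z * (v * a) := by rw [hav]
          _ = _ := by group
    have h2 : R K U := by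
      refine ⟨hK, hU, ?_⟩
      intro b hb a ha
      rcases (hKm b).mp hb with rfl | rfl | rfl | rfl
      · simp
      · exact hzc a
      · exact (hUv a ha).symm
      · calc ((z : P) * v) * a = z * (v * a) := by group
          _ = z * (a * v) := by rw [hUv a ha]
          _ = (z * a) * v := by group
          _ = (a * z) * v := by rw [hzc a]
          _ = _ := by group
    exact ⟨U, hUE, hU, (Relation.ReflTransGen.single h1).tail h2,
      (Relation.ReflTransGen.single (hRsymm _ _ h2)).tail (hRsymm _ _ h1)⟩
  intro U V hU hV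
  obtain ⟨U', hU'E, hU', h1, h2⟩ := key U hU
  obtain ⟨V', hV'E, hV', h3, h4⟩ := key V hV
  have h5 : R U' V' := ⟨hU', hV', fun a ha b hb => hEc a (hU'E ha) b (hV'E hb)⟩
  exact (h1.tail h5).trans h4

end Cfsg.Agent.S0502
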