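import Cfsg.Statements.S0505
import Cfsg.Agent.H6.CharP
import Cfsg.Agent.H2.OddCore
-- import your own Cfsg.Agent.* helpers here

set_option autoImplicit false
open Cfsg

namespace Cfsg.Agent.S0505

/-- Let G be a finite group of even order in which the centralizer of every involution is solvable and has trivial
core (no nontrivial normal subgroup of odd order). Then G is of characteristic 2 type. -/
theorem result {G : Type*} [Group G] [Finite G]
    (h2 : Even (Nat.card G))
    (hs : ∀ t : G, orderOf t = 2 → Group.IsSolvable (Subgroup.centralizer ({t} : Set G)))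
    (hc : ∀ t : G, orderOf t = 2 → Cfsg.oddCore (Subgroup.centralizer ({t} : Set G)) = ⊥) :
    Cfsg.IsCharacteristicTwoType G := by
  haveI : Fact (Nat.Prime 2) := ⟨Nat.prime_two⟩
  refine ⟨h2, ?_⟩
  intro T hT hT1
  obtain ⟨z, hzT, hz2, hzc⟩ := Cfsg.Agent.H6.exists_center_order_p hT hT1
  have h1 : Cfsg.Agent.H6.CP 2 (Subgroup.centralizer ({z} : Set G)) := by
    rw [Cfsg.Agent.H6.cp_iff_cent]
    have h3 := Cfsg.Agent.H2.map_subtype_le_sup (H := ↥(Subgroup.centralizer ({z} : Set G))) (p := 2)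
    have h4 : Cfsg.pPrimeCore 2 ↥(Subgroup.centralizer ({z} : Set G)) = ⊥ := hc z hz2
    rw [h4, sup_bot_eq] at h3
    have h5 : Cfsg.fittingSubgroup ↥(Subgroup.centralizer ({z} : Set G)) = Cfsg.pCore 2 ↥(Subgroup.centralizer ({z} : Set G)) :=
      le_antisymm h3 (Cfsg.Agent.L0.pCore_le_fittingSubgroup 2 _)
    have h6 := Cfsg.Agent.L0.centralizer_fitting_le_of_isSolvable (hs z hz2)
    rwa [h5] at h6
  have h7 := Cfsg.Agent.H6.cp_norm_of_cent hT hzT hzc h1
  exact Cfsg.Agent.H6.cp_iff_cent.mp h7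

end Cfsg.Agent.S0505
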