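import Cfsg.Statements.S0514
import Mathlib
import Cfsg.Agent.H1.FrobPC

set_option autoImplicit false
open Cfsg

namespace Cfsg.Agent.S0514

open scoped commutatorElement Pointwise


/-- In a finite group whose Sylow 2-subgroups are dihedral of order at least 4, the centralizer of any involution has a
normal subgroup of odd order whose index in the centralizer is a power of 2. -/
theorem result {X : Type*} [Group X] [Finite X]
    (S : Sylow 2 X) (n : ℕ) (hn : 2 ≤ n) (hS : Nonempty ((S : Subgroup X) ≃* DihedralGroup n)) (t : X)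
    (ht : orderOf t = 2) :
    ∃ N : Subgroup (Subgroup.centralizer ({t} : Set X)), N.Normal ∧ Odd (Nat.card N) ∧ ∃ k : ℕ, N.index = 2 ^ k := by
  classical
  have key : Cfsg.HasNormalPComplement 2 (Subgroup.centralizer ({t} : Set X)) := by
    apply Cfsg.Agent.H1.frobenius_criterion
    intro Q hQ g hg hgo
    have hgo' : Odd (orderOf (g : X)) := by rw [Subgroup.orderOf_coe]; exact Nat.coprime_two_right.mp hgo
    have htt : (t : X) ^ 2 = 1 := by rw [← ht]; exact pow_orderOf_eq_one t
    -- Q' = Q ⟨t⟩ in X
    set Q₁ := Q.map (Subgroup.centralizer ({t} : Set X)).subtype with hQ₁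
    have hQ₁c : ∀ x ∈ Q₁, x * t = t * x := by
      rintro _ ⟨x, _, rfl⟩
      exact Subgroup.mem_centralizer_singleton_iff.mp x.2
    have htn : Subgroup.zpowers t ≤ Subgroup.normalizer (Q₁ : Set X) := by
      rw [Subgroup.zpowers_le]
      apply Cfsg.Agent.H1.mem_normalizer_of_conj_mem
      intro x hx
      rw [← hQ₁c x hx, mul_assoc, mul_inv_cancel, mul_one]; exact hx
    have htp : IsPGroup 2 (Subgroup.zpowers t) := by
      apply IsPGroup.of_card (n := 1)
      rw [Nat.card_zpowers, ht, pow_one]
    have hQ₂p : IsPGroup 2 ↥(Q₁ ⊔ Subgroup.zpowers t) := by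
      exact IsPGroup.to_sup_of_normal_left' (hQ.map _) htp htn
    set Q₂ := Q₁ ⊔ Subgroup.zpowers t with hQ₂
    have htQ : t ∈ Q₂ := (le_sup_right : Subgroup.zpowers t ≤ _) (Subgroup.mem_zpowers t)
    have hgt : (g : X) * t = t * g := Subgroup.mem_centralizer_singleton_iff.mp g.2
    have hgn : (g : X) ∈ Subgroup.normalizer (Q₂ : Set X) := by
      apply Cfsg.Agent.H1.mem_normalizer_of_conj_mem
      intro x hx
      obtain ⟨y, hy, z, hz, rfl⟩ := (Cfsg.Agent.L0.mem_sup_of_normalizes htn).mp hx
      obtain ⟨k, rfl⟩ := Subgroup.mem_zpowers_iff.mp hz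
      have h1 : (g : X) * y * (g : X)⁻¹ ∈ Q₁ := by
        obtain ⟨w, hw, rfl⟩ := hy
        exact ⟨g * w * g⁻¹, (Subgroup.mem_normalizer_iff.mp hg w).mp hw, by simp⟩
      have h2 : Commute (g : X) (t ^ k) := (show Commute (g : X) t from hgt).zpow_right k
      have e : (g : X) * (y * t ^ k) * (g : X)⁻¹ = ((g : X) * y * (g : X)⁻¹) * t ^ k := by
        calc (g : X) * (y * t ^ k) * (g : X)⁻¹ = ((g : X) * y * (g : X)⁻¹) * ((g : X) * t ^ k * (g : X)⁻¹) := by group
          _ = _ := by rw [h2.eq]; group
      rw [e]
      exact Subgroup.mul_mem _ ((le_sup_left : Q₁ ≤ _) h1) ((le_sup_right : Subgroup.zpowers t ≤ _) (Subgroup.zpow_mem _ (Subgroup.mem_zpowers t) k))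
    have hQ₂t : ∀ x ∈ Q₂, x * t = t * x := by
      intro x hx
      obtain ⟨y, hy, z, hz, rfl⟩ := (Cfsg.Agent.L0.mem_sup_of_normalizes htn).mp hx
      obtain ⟨k, rfl⟩ := Subgroup.mem_zpowers_iff.mp hz
      calc y * t ^ k * t = y * t * t ^ k := by group
        _ = t * y * t ^ k := by rw [hQ₁c y hy]
        _ = _ := by group
    suffices h : (g : X) ∈ Subgroup.centralizer (Q₂ : Set X) by
      rw [Subgroup.mem_centralizer_iff]
      intro x hx
      exact Subtype.ext (Subgroup.mem_centralizer_iff.mp h x ((le_sup_left : Q₁ ≤ _) ⟨x, hx, rfl⟩))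
    -- embed Q₂ in a dihedral group
    obtain ⟨T, hT⟩ := hQ₂p.exists_le_sylow
    obtain ⟨e⟩ := hS
    obtain ⟨y, hy⟩ := MulAction.exists_smul_eq X T S
    let f : T ≃* S := (Sylow.equivSMul T y).trans (MulEquiv.subgroupCongr (congrArg Sylow.toSubgroup hy))
    let φ : Q₂ →* DihedralGroup n := (f.trans e).toMonoidHom.comp (Subgroup.inclusion hT)
    have hφ : Function.Injective φ := (f.trans e).injective.comp (Subgroup.inclusion_injective hT)
    haveI : NeZero n := ⟨by omega⟩
    by_cases hex : ∃ x ∈ Q₂, x * x ≠ 1
    · -- rotations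
      let A : Subgroup X := ((Subgroup.zpowers (DihedralGroup.r (1 : ZMod n))).comap φ).map Q₂.subtype
      have hAQ : A ≤ Q₂ := Subgroup.map_subtype_le _
      have hAcyc : IsCyclic A := by
        let ψ : A →* Subgroup.zpowers (DihedralGroup.r (1 : ZMod n)) :=
          { toFun := fun a => ⟨φ ⟨a, hAQ a.2⟩, by
              obtain ⟨w, hw, hwa⟩ := a.2
              have : (⟨(a : X), hAQ a.2⟩ : Q₂) = w := Subtype.ext hwa.symm
              rw [this]; exact hw⟩
            map_one' := Subtype.ext (map_one φ)
            map_mul' := fun a b => Subtype.ext (by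
              change φ _ = φ _ * φ _
              rw [← map_mul]; rfl) }
        apply isCyclic_of_injective ψ
        intro a b hab
        have h1 : φ ⟨a, hAQ a.2⟩ = φ ⟨b, hAQ b.2⟩ := congrArg Subtype.val hab
        have h2 := congrArg (fun z : Q₂ => (z : X)) (hφ h1)
        exact Subtype.ext h2
      have hrot : ∀ i : ZMod n, DihedralGroup.r i ∈ Subgroup.zpowers (DihedralGroup.r (1 : ZMod n)) := by
        intro i
        rw [Subgroup.mem_zpowers_iff]
        refine ⟨(i.val : ℤ), ?_⟩
        rw [zpow_natCast, DihedralGroup.r_one_pow, ZMod.natCast_zmod_val]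
      have hmemA : ∀ x (hx : x ∈ Q₂), x * x ≠ 1 → x ∈ A := by
        intro x hx hxx
        refine ⟨⟨x, hx⟩, ?_, rfl⟩
        change φ ⟨x, hx⟩ ∈ Subgroup.zpowers (DihedralGroup.r (1 : ZMod n))
        rcases h1 : φ ⟨x, hx⟩ with i | i
        · exact hrot i
        · exfalso
          apply hxx
          have h2 : φ (⟨x, hx⟩ * ⟨x, hx⟩) = 1 := by rw [map_mul, h1, DihedralGroup.sr_mul_self]
          have h3 := hφ (h2.trans (map_one φ).symm)
          exact congrArg Subtype.val h3
      have hAi : A.relIndex Q₂ ≤ 2 := by
        have h1 : A.relIndex Q₂ = ((Subgroup.zpowers (DihedralGroup.r (1 : ZMod n))).comap φ).index := by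
          rw [Subgroup.relIndex]
          congr 1
          exact Subgroup.comap_map_eq_self_of_injective Q₂.subtype_injective _
        rw [h1, Subgroup.index_comap]
        refine (Subgroup.relIndex_le_of_le_right le_top (by rw [Subgroup.relIndex_top_right]; exact Subgroup.index_ne_zero_of_finite)).trans ?_
        rw [Subgroup.relIndex_top_right]
        have h2 := (Subgroup.zpowers (DihedralGroup.r (1 : ZMod n))).card_mul_index
        rw [Nat.card_zpowers, DihedralGroup.orderOf_r_one, DihedralGroup.nat_card] at h2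
        have h3 : n * (Subgroup.zpowers (DihedralGroup.r (1 : ZMod n))).index = n * 2 := by rw [h2]; ring
        exact (Nat.eq_of_mul_eq_mul_left (by omega) h3).le
      -- A is normalized by g
      have hgA : (g : X) ∈ Subgroup.normalizer (A : Set X) := by
        -- A is generated by an element with nontrivial square
        obtain ⟨x, hx, hxx⟩ := hex
        obtain ⟨⟨a, ha⟩, hgen⟩ := hAcyc.exists_generator
        have haa : a * a ≠ 1 := by
          intro h
          apply hxx
          obtain ⟨k, hk⟩ := Subgroup.mem_zpowers_iff.mp (hgen ⟨x, hmemA x hx hxx⟩)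
          have h1 : a ^ k = x := congrArg Subtype.val hk
          rw [← h1, ← zpow_add, ← two_mul, zpow_mul, zpow_two, h, one_zpow]
        have h2 : (g : X) * a * (g : X)⁻¹ ∈ A := by
          apply hmemA _ ((Subgroup.mem_normalizer_iff.mp hgn a).mp (hAQ ha))
          intro h
          apply haa
          have : (g : X) * a * (g : X)⁻¹ * ((g : X) * a * (g : X)⁻¹) = (g : X) * (a * a) * (g : X)⁻¹ := by group
          rw [this] at h
          have h3 : (g : X) * (a * a) = g := by rw [mul_inv_eq_one] at h; exact h
          exact mul_eq_left.mp h3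
        apply Cfsg.Agent.H1.mem_normalizer_of_conj_mem
        intro b hb
        obtain ⟨k, hk⟩ := Subgroup.mem_zpowers_iff.mp (hgen ⟨b, hb⟩)
        have h1 : a ^ k = b := congrArg Subtype.val hk
        rw [← h1, ← conj_zpow]
        exact A.zpow_mem h2 k
      have hAc := Cfsg.Agent.H1.centralizes_of_cyclic_two (hQ₂p.to_le hAQ) hAcyc hgA hgo'
      exact Cfsg.Agent.H1.centralizes_of_relIndex_two hQ₂p hgn hgo' hAQ hAc hAi
    · push Not at hex
      -- Q₂ is elementary abelian, order at most 4
      have hcard : Nat.card Q₂ ≤ 4 := by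
        -- rotations in the image have order at most 2, at most 2 of them
        let B := (Subgroup.zpowers (DihedralGroup.r (1 : ZMod n))).comap φ
        have hBi : B.index ≤ 2 := by
          rw [Subgroup.index_comap]
          refine (Subgroup.relIndex_le_of_le_right le_top (by rw [Subgroup.relIndex_top_right]; exact Subgroup.index_ne_zero_of_finite)).trans ?_
          rw [Subgroup.relIndex_top_right]
          have h2 := (Subgroup.zpowers (DihedralGroup.r (1 : ZMod n))).card_mul_index
          rw [Nat.card_zpowers, DihedralGroup.orderOf_r_one, DihedralGroup.nat_card] at h2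
          have h3 : n * (Subgroup.zpowers (DihedralGroup.r (1 : ZMod n))).index = n * 2 := by rw [h2]; ring
          exact (Nat.eq_of_mul_eq_mul_left (by omega) h3).le
        have hBcyc : IsCyclic B := by
          let ψ : B →* Subgroup.zpowers (DihedralGroup.r (1 : ZMod n)) :=
            { toFun := fun a => ⟨φ a, a.2⟩
              map_one' := Subtype.ext (by simp)
              map_mul' := fun a b => Subtype.ext (by simp) }
          apply isCyclic_of_injective ψ
          intro a b hab
          have h1 : φ a = φ b := congrArg Subtype.val hab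
          exact Subtype.ext (hφ h1)
        have hB2 : Nat.card B ≤ 2 := by
          obtain ⟨a, ha⟩ := hBcyc.exists_generator
          rw [← orderOf_eq_card_of_forall_mem_zpowers ha]
          apply Nat.le_of_dvd (by norm_num)
          apply orderOf_dvd_of_pow_eq_one
          rw [pow_two]
          exact Subtype.ext (Subtype.ext (hex _ (a : Q₂).2))
        have := B.card_mul_index
        nlinarith
      have hzc : Nat.card (Subgroup.zpowers t) = 2 := by rw [Nat.card_zpowers, ht]
      have hle : Subgroup.zpowers t ≤ Q₂ := le_sup_right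
      apply Cfsg.Agent.H1.centralizes_of_relIndex_two hQ₂p hgn hgo' hle
      · rw [Subgroup.mem_centralizer_iff]
        intro z hz
        obtain ⟨k, rfl⟩ := Subgroup.mem_zpowers_iff.mp hz
        exact ((show Commute (g : X) t from hgt).zpow_right k).symm
      · have h1 := Subgroup.relIndex_mul_relIndex ⊥ (Subgroup.zpowers t) Q₂ bot_le hle
        rw [Subgroup.relIndex_bot_left, Subgroup.relIndex_bot_left, hzc] at h1
        omega
  obtain ⟨N, hN, hNc, k, hk⟩ := Cfsg.Agent.H1.hasNormalPComplement_iff.mp key
  exact ⟨N, hN, Nat.coprime_two_right.mp hNc, k, hk⟩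

end Cfsg.Agent.S0514
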