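import Cfsg.Statements.S0525
import Mathlib
import Cfsg.Agent.H1.SSolv

set_option autoImplicit false
open Cfsg

namespace Cfsg.Agent.S0525

open scoped commutatorElement Pointwise
theorem chain_inl {G H : Type*} [Group G] [Group H] {K : Subgroup G} (h : Cfsg.Agent.H1.SChain K) :
    Cfsg.Agent.H1.SChain (K.map (MonoidHom.inl G H)) := by
  induction h with
  | bot => rw [Subgroup.map_bot]; exact .bot
  | step A K g h hK e ih =>
    refine .step _ _ (MonoidHom.inl G H g) ih ?_ ?_
    · constructor
      rintro _ ⟨k, hk, rfl⟩ ⟨a, b⟩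
      refine ⟨a * k * a⁻¹, hK.conj_mem k hk a, ?_⟩
      simp
    · rw [e, Subgroup.map_sup, MonoidHom.map_zpowers]

/-- A direct product of two finite supersolvable groups is supersolvable. -/
theorem result {G H : Type*} [Group G] [Group H] [Finite G] [Finite H] (hG : Cfsg.IsSupersolvable G) (hH : Cfsg.IsSupersolvable H) : Cfsg.IsSupersolvable (G × H) := by
  rw [Cfsg.Agent.H1.isSupersolvable_iff] at hG hH ⊢
  have h1 := chain_inl (H := H) hG
  have h2 : (⊤ : Subgroup G).map (MonoidHom.inl G H) = (MonoidHom.snd G H).ker := by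
    ext ⟨a, b⟩
    constructor
    · rintro ⟨k, hk, e⟩
      rw [MonoidHom.mem_ker, ← e]; rfl
    · intro h
      rw [MonoidHom.mem_ker] at h
      change b = 1 at h
      exact ⟨a, Subgroup.mem_top _, by rw [h]; rfl⟩
  rw [h2] at h1
  have h3 := Cfsg.Agent.H1.SChain.comap_of_ker (MonoidHom.snd G H) Prod.snd_surjective h1 hH
  rwa [Subgroup.comap_top] at h3

end Cfsg.Agent.S0525
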