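import Cfsg.Statements.S0527
import Mathlib
import Cfsg.Agent.H1.SSolv

set_option autoImplicit false
open Cfsg

namespace Cfsg.Agent.S0527

open scoped commutatorElement Pointwise
universe u in
theorem aux (n : ℕ) : ∀ (G : Type u) [Group G] [Finite G], Nat.card G = n → Cfsg.Agent.H1.SChain (⊤ : Subgroup G) →
    ∀ (M : Subgroup G), IsCoatom M → M.index.Prime := by
  induction n using Nat.strong_induction_on with
  | _ n ih =>
  intro G _ _ hn hG M hM
  haveI : Nontrivial G := by
    by_contra h
    rw [not_nontrivial_iff_subsingleton] at h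
    exact hM.1 (Subsingleton.elim _ _)
  obtain ⟨N, hN, hNb, hmin⟩ := Cfsg.Agent.H1.exists_minimal_normal (G := G)
  haveI := hN
  have hp := hG.prime_of_minimal N hNb hmin le_top
  by_cases hNM : N ≤ M
  · have h1 : Nat.card (G ⧸ N) < n := by
      rw [← hn, ← Subgroup.index]
      have h2 := N.card_mul_index
      have h3 := hp.one_lt
      have h4 : 0 < N.index := Nat.pos_of_ne_zero N.index_ne_zero_of_finite
      nlinarith
    have hG' := hG.map (QuotientGroup.mk' N) (QuotientGroup.mk'_surjective N)
    rw [Subgroup.map_top_of_surjective _ (QuotientGroup.mk'_surjective N)] at hG'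
    have hco : IsCoatom (M.map (QuotientGroup.mk' N)) := by
      have hcm : (M.map (QuotientGroup.mk' N)).comap (QuotientGroup.mk' N) = M := by
        rw [Subgroup.comap_map_eq_self]; rw [QuotientGroup.ker_mk']; exact hNM
      constructor
      · intro h
        apply hM.1
        rw [← hcm, h, Subgroup.comap_top]
      · intro K hK
        have h2 : M < K.comap (QuotientGroup.mk' N) := by
          rw [← hcm]
          exact (Subgroup.comap_lt_comap_of_surjective (QuotientGroup.mk'_surjective N)).mpr hK
        have h3 := hM.2 _ h2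
        rw [← Subgroup.map_comap_eq_self_of_surjective (QuotientGroup.mk'_surjective N) K, h3,
          Subgroup.map_top_of_surjective _ (QuotientGroup.mk'_surjective N)]
    have h5 := ih _ h1 (G ⧸ N) rfl hG' _ hco
    rwa [Subgroup.index_map_eq _ (QuotientGroup.mk'_surjective N) (by rw [QuotientGroup.ker_mk']; exact hNM)] at h5
  · have h1 : M ⊔ N = ⊤ := hM.2 _ (lt_of_le_of_ne le_sup_left fun h => hNM (by rw [h]; exact le_sup_right))
    have h2 : N ⊓ M = ⊥ := by
      haveI : Fact (Nat.card N).Prime := ⟨hp⟩
      rcases Subgroup.eq_bot_or_eq_top_of_prime_card (M.subgroupOf N) with h | h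
      · rw [Subgroup.subgroupOf_eq_bot] at h
        exact inf_comm M N ▸ h.eq_bot
      · exact absurd (Subgroup.subgroupOf_eq_top.mp h) hNM
    have hc := Cfsg.Agent.H1.isComplement'_of_disjoint_sup (N := N) (H := M) h2 (by rw [sup_comm]; exact h1)
    rw [hc.index_eq_card]
    exact hp

/-- In a finite supersolvable group the index of any maximal subgroup is a prime number. -/
theorem result {G : Type*} [Group G] [Finite G] (hG : Cfsg.IsSupersolvable G) (M : Subgroup G) (hM : IsCoatom M) : M.index.Prime := by
  exact aux _ G rfl (Cfsg.Agent.H1.isSupersolvable_iff.mp hG) M hM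

end Cfsg.Agent.S0527
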