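import Cfsg.Statements.S0534
import Mathlib
import Cfsg.Agent.H1.Hall
import Cfsg.Agent.L0.Core

set_option autoImplicit false
open Cfsg

namespace Cfsg.Agent.S0534

open Subgroup

universe u

theorem comm_clt (n : ℕ) : ∀ (A : Type u) [CommGroup A] [Finite A], Nat.card A = n → ∀ d : ℕ, d ∣ Nat.card A → ∃ B : Subgroup A, Nat.card B = d := by
  induction n using Nat.strong_induction_on with
  | _ n ih =>
  intro A _ _ hn d hd
  by_cases hd1 : d = 1
  · exact ⟨⊥, by rw [hd1]; exact Subgroup.card_bot⟩
  · obtain ⟨p, hp, hpd⟩ := Nat.exists_prime_and_dvd hd1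
    haveI := Fact.mk hp
    obtain ⟨x, hx⟩ := exists_prime_orderOf_dvd_card' p (hpd.trans hd)
    have hN : Nat.card (zpowers x) = p := by rw [Nat.card_zpowers, hx]
    have hq : Nat.card A = Nat.card (A ⧸ zpowers x) * p := by
      rw [← hN]; exact Subgroup.card_eq_card_quotient_mul_card_subgroup _
    obtain ⟨e, he⟩ := hpd
    have hdq : e ∣ Nat.card (A ⧸ zpowers x) := by
      rw [hq, he, mul_comm p e] at hd
      exact Nat.dvd_of_mul_dvd_mul_right hp.pos hd
    have hlt : Nat.card (A ⧸ zpowers x) < n := by
      rw [← hn, hq]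
      exact lt_mul_of_one_lt_right Nat.card_pos hp.one_lt
    obtain ⟨K, hK⟩ := ih _ hlt (A ⧸ zpowers x) rfl e hdq
    refine ⟨K.comap (QuotientGroup.mk' (zpowers x)), ?_⟩
    rw [L0.card_comap_mk', hK, hN, he, mul_comm]

theorem arith (a b d : ℕ) (ha : a ≠ 0) (hb : b ≠ 0) (hd : d ∣ a * b) (hexp : ∀ p : ℕ, p.Prime → p ∣ a → b.factorization p + 1 = a.factorization p) :
    ∃ h e m : ℕ, a = h * m ∧ h.Coprime m ∧ d = h * e ∧ e ∣ b := by
  have hd0 : d ≠ 0 := by
    rintro rfl
    rw [zero_dvd_iff, mul_eq_zero] at hd
    tauto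
  classical
  let f : ℕ →₀ ℕ := a.factorization.filter (fun p => a.factorization p ≤ d.factorization p)
  have hfp : ∀ p ∈ f.support, p.Prime := by
    intro p hp
    rw [Finsupp.support_filter, Finset.mem_filter] at hp
    exact Nat.prime_of_mem_primeFactors (by rw [← Nat.support_factorization]; exact hp.1)
  have hf : (f.prod (· ^ ·)).factorization = f := Nat.prod_pow_factorization_eq_self hfp
  set h := f.prod (· ^ ·) with hh
  have hfa : ∀ p, f p = if a.factorization p ≤ d.factorization p then a.factorization p else 0 := fun p => Finsupp.filter_apply _ _ _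
  have hh0 : h ≠ 0 := by
    rw [hh, Finsupp.prod]
    exact Finset.prod_ne_zero_iff.mpr fun p hp => pow_ne_zero _ (hfp p hp).ne_zero
  have hha : h ∣ a := by
    rw [← Nat.factorization_le_iff_dvd hh0 ha, hf]
    intro p
    rw [hfa]; split_ifs <;> omega
  have hhd : h ∣ d := by
    rw [← Nat.factorization_le_iff_dvd hh0 hd0, hf]
    intro p
    rw [hfa]; split_ifs with hc
    · exact hc
    · exact Nat.zero_le _
  obtain ⟨m, hm⟩ := hha
  obtain ⟨e, he⟩ := hhd
  have hm0 : m ≠ 0 := by rintro rfl; exact ha (by rw [hm, mul_zero])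
  have he0 : e ≠ 0 := by rintro rfl; exact hd0 (by rw [he, mul_zero])
  have hma : ∀ p, a.factorization p = f p + m.factorization p := by
    intro p
    rw [hm, Nat.factorization_mul hh0 hm0, Finsupp.add_apply, hf]
  have hea : ∀ p, d.factorization p = f p + e.factorization p := by
    intro p
    rw [he, Nat.factorization_mul hh0 he0, Finsupp.add_apply, hf]
  refine ⟨h, e, m, hm, ?_, he, ?_⟩
  · rw [Nat.coprime_iff_gcd_eq_one]
    by_contra hne
    obtain ⟨p, hp, hpd⟩ := Nat.exists_prime_and_dvd hne
    have h1 : p ∣ h := hpd.trans (Nat.gcd_dvd_left _ _)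
    have h2 : p ∣ m := hpd.trans (Nat.gcd_dvd_right _ _)
    have h3 : 0 < h.factorization p := hp.factorization_pos_of_dvd hh0 h1
    have h4 : 0 < m.factorization p := hp.factorization_pos_of_dvd hm0 h2
    rw [hf] at h3
    have h5 := hma p
    have h6 := hfa p
    split_ifs at h6 <;> omega
  · rw [← Nat.factorization_le_iff_dvd he0 hb]
    intro p
    have h1 := hma p
    have h2 := hea p
    have h3 := hfa p
    have h4 : d.factorization p ≤ a.factorization p + b.factorization p := by
      have := (Nat.factorization_le_iff_dvd hd0 (mul_ne_zero ha hb)).mpr hd p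
      rwa [Nat.factorization_mul ha hb, Finsupp.add_apply] at this
    by_cases hpa : a.factorization p = 0
    · split_ifs at h3 <;> omega
    · have hp : p.Prime ∧ p ∣ a := by
        have : p ∈ a.primeFactors := by rw [← Nat.support_factorization, Finsupp.mem_support_iff]; exact hpa
        exact ⟨Nat.prime_of_mem_primeFactors this, Nat.dvd_of_mem_primeFactors this⟩
      have h5 := hexp p hp.1 hp.2
      split_ifs at h3 <;> omega

/-- Let G be a finite solvable group and A a finite abelian group such that every prime dividing the order of A divides the order of G and, for each prime p dividing the order of G, the exponent of p in the order of A is one less than its exponent in the order of G. Then G × A has a subgroup of every order dividing its order. -/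
theorem result {G A : Type*} [Group G] [CommGroup A] [Finite G] [Finite A] [Group.IsSolvable G] (hA : ∀ p : ℕ, p.Prime → p ∣ Nat.card A → p ∣ Nat.card G) (hexp : ∀ p : ℕ, p.Prime → p ∣ Nat.card G → (Nat.card A).factorization p + 1 = (Nat.card G).factorization p) : Cfsg.HasSubgroupOfEveryOrder (G × A) := by
  intro d hd
  rw [Nat.card_prod] at hd
  obtain ⟨h, e, m, hm, hcop, hde, heb⟩ := arith _ _ d Nat.card_pos.ne' Nat.card_pos.ne' hd hexp
  obtain ⟨H, hH⟩ := H1.hall_exists (G := G) inferInstance hm hcop
  obtain ⟨B, hB⟩ := comm_clt _ A rfl e heb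
  refine ⟨H.prod B, ?_⟩
  rw [hde, ← hH, ← hB, Nat.card_congr (Subgroup.prodEquiv H B).toEquiv, Nat.card_prod]

end Cfsg.Agent.S0534
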