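import Cfsg.Statements.S0535
import Mathlib
import Cfsg.Agent.H1.Prod

set_option autoImplicit false
open Cfsg

namespace Cfsg.Agent.S0535

open scoped commutatorElement Pointwise


/-- Suppose that for every nontrivial subgroup H of a finite group and every prime p dividing the order of H there is a proper subgroup of H whose index in H is a power of p. Then the group is solvable. -/
theorem result {G : Type*} [Group G] [Finite G] (h : ∀ H : Subgroup G, H ≠ ⊥ → ∀ p : ℕ, p.Prime → p ∣ Nat.card H → ∃ K : Subgroup H, K ≠ ⊤ ∧ ∃ k : ℕ, K.index = p ^ k) : Group.IsSolvable G := by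
  apply Cfsg.Agent.H1.hall_converse
  intro p hp hpd
  exact Cfsg.Agent.H1.exists_complement_of_descend hp (fun H hH hd => h H hH p hp hd) _ ⊤ rfl ⟨0, by rw [Subgroup.index_top, pow_zero]⟩

end Cfsg.Agent.S0535
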