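import Cfsg.Statements.S0539
import Mathlib
import Cfsg.Agent.H1.Subn

set_option autoImplicit false
open Pointwise
open Cfsg

namespace Cfsg.Agent.S0539

open scoped commutatorElement Pointwise


/-- Let S be a family of subnormal subgroups of a finite group that is closed under conjugation, and S₀ a proper subfamily. Then some member of S not in S₀ normalizes the join of S₀. -/
theorem result {G : Type*} [Group G] [Finite G] (S S₀ : Set (Subgroup G)) (hS : ∀ U ∈ S, U.IsSubnormal) (hconj : ∀ U ∈ S, ∀ g : G, MulAut.conj g • U ∈ S) (h₀ : S₀ ⊂ S) : ∃ X ∈ S, X ∉ S₀ ∧ X ≤ Subgroup.normalizer ((sSup S₀ : Subgroup G) : Set G) := by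
  set N := sSup S₀ with hN
  by_cases hn : N.Normal
  · obtain ⟨X, hX, hX0⟩ := Set.exists_of_ssubset h₀
    refine ⟨X, hX, hX0, ?_⟩
    rw [Subgroup.normalizer_eq_top]; exact le_top
  · have hNs : N.IsSubnormal := Cfsg.Agent.H1.sSup_isSubnormal S₀ (fun A hA => hS A (h₀.1 hA))
    obtain ⟨x, hx, hxn⟩ := Cfsg.Agent.H1.exists_conj_ne_le_normalizer hNs hn
    have hex : ∃ U ∈ S₀, ¬ (MulAut.conj x • U ≤ N) := by
      by_contra hno
      push Not at hno
      apply hx
      apply Cfsg.Agent.H1.mem_normalizer_of_conj_mem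
      intro y hy
      have hle : N ≤ N.comap (MulAut.conj x).toMonoidHom := by
        rw [hN]
        apply sSup_le
        intro U hU u hu
        apply hno U hU
        rw [Cfsg.Agent.H1.mem_conj_smul]
        show x⁻¹ * (x * u * x⁻¹) * x ∈ U
        have e : x⁻¹ * (x * u * x⁻¹) * x = u := by group
        rw [e]; exact hu
      exact hle hy
    obtain ⟨U, hU, hUn⟩ := hex
    refine ⟨MulAut.conj x • U, hconj U (h₀.1 hU) x, fun h => hUn (le_sSup h), ?_⟩
    refine le_trans ?_ hxn
    have : U ≤ N := le_sSup hU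
    intro y hy
    rw [Cfsg.Agent.H1.mem_conj_smul] at hy ⊢
    exact this hy

end Cfsg.Agent.S0539
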