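import Cfsg.Statements.S0540
import Mathlib
import Cfsg.Agent.S0539
import Cfsg.Agent.L0.SZ
import Cfsg.Agent.L0.Coprime

set_option autoImplicit false
open Pointwise
open Cfsg

namespace Cfsg.Agent.S0540

open Subgroup

theorem conj_sub {G : Type*} [Group G] {V B : Subgroup G} (v : V) (hB : B ≤ V) :
    (MulAut.conj (v : G) • B).subgroupOf V = MulAut.conj v • B.subgroupOf V := by
  ext x
  rw [Subgroup.mem_subgroupOf, L0.mem_conj_smul, L0.mem_conj_smul, Subgroup.mem_subgroupOf]
  rfl

theorem conj_le' {G : Type*} [Group G] {V B : Subgroup G} {v : G} (hv : v ∈ V) (hB : B ≤ V) : MulAut.conj v • B ≤ V := by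
  intro x hx
  rw [L0.mem_conj_smul] at hx
  have := V.mul_mem (V.mul_mem hv (hB hx)) (V.inv_mem hv)
  have e : v * (v⁻¹ * x * v) * v⁻¹ = x := by group
  rwa [e] at this

/-- A uniqueness lemma of zipper type. Let A be a subgroup of a finite group G and U a nonempty family of subgroups. For V in U write S(V) for the set of conjugates of A that lie in V and are subnormal in V. Assume: A belongs to S(V) for every V in U; a member of some S(W) that lies in V belongs to S(V); and for all V, W in U the normalizer of the join of S(V) ∩ S(W) lies in some member of U. Then U has a greatest element. -/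
theorem result {G : Type*} [Group G] [Finite G] (A : Subgroup G) (U : Set (Subgroup G)) (hU : U.Nonempty) (S : Subgroup G → Set (Subgroup G)) (hS : ∀ V B : Subgroup G, B ∈ S V ↔ (∃ g : G, B = MulAut.conj g • A) ∧ B ≤ V ∧ (B.subgroupOf V).IsSubnormal) (h1 : ∀ V ∈ U, A ∈ S V) (h2 : ∀ V ∈ U, ∀ W ∈ U, ∀ B ∈ S W, B ≤ V → B ∈ S V) (h3 : ∀ V ∈ U, ∀ W ∈ U, ∃ X ∈ U, Subgroup.normalizer ((sSup (S V ∩ S W) : Subgroup G) : Set G) ≤ X) : ∃ M ∈ U, ∀ V ∈ U, V ≤ M := by
  classical
  -- closure of S V under V
  have hclosed : ∀ V B : Subgroup G, B ∈ S V → ∀ v ∈ V, MulAut.conj v • B ∈ S V := by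
    intro V B hB v hv
    rw [hS] at hB ⊢
    obtain ⟨⟨g, hg⟩, hBV, hsn⟩ := hB
    refine ⟨⟨v * g, by rw [hg, map_mul, mul_smul]⟩, conj_le' hv hBV, ?_⟩
    rw [conj_sub ⟨v, hv⟩ hBV]
    exact hsn.smul _
  have hle : ∀ V B : Subgroup G, B ∈ S V → B ≤ V := fun V B hB => ((hS V B).mp hB).2.1
  -- V normalizes the join of S V
  have hVn : ∀ V : Subgroup G, V ≤ Subgroup.normalizer ((sSup (S V) : Subgroup G) : Set G) := by
    intro V v hv
    apply Subgroup.mem_normalizer_fintype
    intro x hx
    have hle : sSup (S V) ≤ (sSup (S V)).comap (MulAut.conj v).toMonoidHom := by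
      apply sSup_le
      intro B hB b hb
      exact (le_sSup (hclosed V B hB v hv)) (by
        rw [L0.mem_conj_smul]
        have e : v⁻¹ * ((MulAut.conj v).toMonoidHom b) * v = b := by
          show v⁻¹ * (v * b * v⁻¹) * v = b
          group
        rw [e]; exact hb)
    exact hle hx
  -- key step
  have step : ∀ V ∈ U, ∀ T : Set (Subgroup G), T ⊆ S V → V ≤ Subgroup.normalizer ((sSup T : Subgroup G) : Set G) ∨
      ∃ B ∈ S V, B ∉ T ∧ B ≤ Subgroup.normalizer ((sSup T : Subgroup G) : Set G) := by
    intro V hV T hT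
    by_cases hTe : T = S V
    · left; rw [hTe]; exact hVn V
    · right
      let F : Set (Subgroup V) := {B | B.map V.subtype ∈ S V}
      let F0 : Set (Subgroup V) := {B | B.map V.subtype ∈ T}
      have hFm : ∀ B ∈ S V, (B.subgroupOf V).map V.subtype = B := by
        intro B hB
        rw [Subgroup.subgroupOf_map_subtype, inf_eq_left.mpr (hle V B hB)]
      have hss : F0 ⊂ F := by
        refine ⟨fun B hB => hT hB, ?_⟩
        intro hsub
        apply hTe
        apply Set.Subset.antisymm hT
        intro B hB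
        have h1 : B.subgroupOf V ∈ F := by
          show (B.subgroupOf V).map V.subtype ∈ S V
          rw [hFm B hB]; exact hB
        have h2 : (B.subgroupOf V).map V.subtype ∈ T := hsub h1
        rwa [hFm B hB] at h2
      obtain ⟨X, hX, hX0, hXn⟩ := S0539.result F F0 (by
        intro B hB
        have h1 := ((hS V _).mp hB).2.2
        rwa [Subgroup.subgroupOf, Subgroup.comap_map_eq_self_of_injective V.subtype_injective] at h1) (by
        intro B hB v
        show (MulAut.conj v • B).map V.subtype ∈ S V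
        have h1 := hclosed V _ hB v v.2
        have h2 : (MulAut.conj v • B).map V.subtype = MulAut.conj (v : G) • B.map V.subtype := by
          apply le_antisymm
          · rintro _ ⟨x, hx, rfl⟩
            have hx' : v⁻¹ * x * v ∈ B := by
              have : x ∈ MulAut.conj v • B := hx
              rwa [L0.mem_conj_smul] at this
            rw [L0.mem_conj_smul]
            exact ⟨_, hx', rfl⟩
          · intro x hx
            rw [L0.mem_conj_smul] at hx
            obtain ⟨y, hy, hyx⟩ := hx
            have hyx' : (y : G) = (v : G)⁻¹ * x * v := hyx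
            refine ⟨v * y * v⁻¹, ?_, ?_⟩
            · show _ ∈ MulAut.conj v • B
              rw [L0.mem_conj_smul]
              have e : v⁻¹ * (v * y * v⁻¹) * v = y := by group
              rw [e]; exact hy
            · show (v : G) * y * (v : G)⁻¹ = x
              rw [hyx']; group
        rw [h2]; exact h1) hss
      refine ⟨X.map V.subtype, hX, hX0, ?_⟩
      rintro _ ⟨x, hx, rfl⟩
      have h1 := hXn hx
      apply Subgroup.mem_normalizer_fintype
      intro y hy
      -- y ∈ sSup T
      have hTle : ∀ B ∈ T, B ≤ V := fun B hB => hle V B (hT hB)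
      have hTV : sSup T ≤ V := sSup_le hTle
      have hsup : (sSup F0).map V.subtype = sSup T := by
        apply le_antisymm
        · rw [Subgroup.map_le_iff_le_comap]
          apply sSup_le
          intro B hB
          rw [← Subgroup.map_le_iff_le_comap]
          exact le_sSup hB
        · apply sSup_le
          intro B hB
          rw [← hFm B (hT hB)]
          apply Subgroup.map_mono
          apply le_sSup
          show (B.subgroupOf V).map V.subtype ∈ T
          rw [hFm B (hT hB)]; exact hB
      rw [← hsup] at hy ⊢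
      obtain ⟨z, hz, hzy⟩ := hy
      refine ⟨x * z * x⁻¹, (Subgroup.mem_normalizer_iff.mp h1 z).mp hz, ?_⟩
      rw [← hzy]; rfl
  -- maximal elements are equal
  have hUfin : U.Finite := Set.toFinite _
  have hmaxle : ∀ V ∈ U, ∃ M, M ∈ U ∧ V ≤ M ∧ ∀ W ∈ U, M ≤ W → W = M := by
    intro V hV
    obtain ⟨M, hVM, hM⟩ := hUfin.exists_le_maximal hV
    exact ⟨M, hM.prop, hVM, fun W hW hMW => le_antisymm (hM.2 hW hMW) hMW⟩
  have key : ∀ n : ℕ, ∀ V ∈ U, ∀ W ∈ U, (∀ X ∈ U, V ≤ X → X = V) → (∀ X ∈ U, W ≤ X → X = W) →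
      Nat.card (Subgroup G) - (S V ∩ S W).ncard = n → V = W := by
    intro n
    induction n using Nat.strong_induction_on with
    | _ n ih =>
    intro V hV W hW hVm hWm hn
    obtain ⟨X0, hX0, hNX0⟩ := h3 V hV W hW
    obtain ⟨X, hX, hXX, hXm⟩ := hmaxle X0 hX0
    have hNX := hNX0.trans hXX
    set T := S V ∩ S W with hT
    have hTX : T ⊆ S X := by
      intro B hB
      apply h2 X hX V hV B hB.1
      exact (le_sSup hB : B ≤ sSup T).trans (Subgroup.le_normalizer.trans hNX)
    have main : ∀ Y ∈ U, (∀ X ∈ U, Y ≤ X → X = Y) → T ⊆ S Y → Y = X := by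
      intro Y hY hYm hTY
      rcases step Y hY T hTY with h4 | ⟨B, hB, hBT, hBn⟩
      · exact (hYm X hX (h4.trans hNX)).symm
      · -- apply induction to Y, X
        have hBX : B ∈ S X := h2 X hX Y hY B hB (hBn.trans hNX)
        have hss : T ⊂ S Y ∩ S X := by
          refine ⟨fun Z hZ => ⟨hTY hZ, hTX hZ⟩, fun hsub => hBT (hsub ⟨hB, hBX⟩)⟩
        have hlt : T.ncard < (S Y ∩ S X).ncard := Set.ncard_lt_ncard hss (Set.toFinite _)
        have hle2 : (S Y ∩ S X).ncard ≤ Nat.card (Subgroup G) := by
          rw [← Set.ncard_univ]; exact Set.ncard_le_ncard (Set.subset_univ _) (Set.toFinite _)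
        exact ih _ (by omega) Y hY X hX hYm hXm rfl
    have e1 := main V hV hVm (fun B hB => hB.1)
    have e2 := main W hW hWm (fun B hB => hB.2)
    rw [e1, e2]
  obtain ⟨V0, hV0⟩ := hU
  obtain ⟨M, hM, hVM, hMm⟩ := hmaxle V0 hV0
  refine ⟨M, hM, ?_⟩
  intro V hV
  obtain ⟨M', hM', hVM', hMm'⟩ := hmaxle V hV
  rw [key _ M hM M' hM' hMm hMm' rfl]
  exact hVM'

end Cfsg.Agent.S0540
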