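import Cfsg.Statements.S0541
import Mathlib
import Cfsg.Agent.H1.Subn
import Cfsg.Agent.L0.Coprime

set_option autoImplicit false
open Pointwise
open Cfsg

namespace Cfsg.Agent.S0541

open Subgroup Pointwise

/-- the conjugates of `Z` inside `W` -/
def cj {G : Type*} [Group G] (Z W : Subgroup G) : Subgroup G := ⨆ g ∈ {g : G | MulAut.conj g • Z ≤ W}, MulAut.conj g • Z

theorem cj_le {G : Type*} [Group G] (Z W : Subgroup G) : cj Z W ≤ W := iSup_le fun g => iSup_le fun hg => hg

theorem le_cj {G : Type*} [Group G] {Z W : Subgroup G} {g : G} (h : MulAut.conj g • Z ≤ W) : MulAut.conj g • Z ≤ cj Z W :=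
  le_iSup₂_of_le g h le_rfl

theorem cj_mono {G : Type*} [Group G] {Z W W' : Subgroup G} (h : W ≤ W') : cj Z W ≤ cj Z W' :=
  iSup_le fun g => iSup_le fun hg => le_cj (hg.trans h)

theorem cj_sup {G : Type*} [Group G] {Z A B : Subgroup G} (hA : cj Z A = A) (hB : cj Z B = B) : cj Z (A ⊔ B) = A ⊔ B := by
  refine le_antisymm (cj_le _ _) (sup_le ?_ ?_)
  · calc A = cj Z A := hA.symm
      _ ≤ _ := cj_mono le_sup_left
  · calc B = cj Z B := hB.symm
      _ ≤ _ := cj_mono le_sup_right

theorem mem_normalizer_of {G : Type*} [Group G] [Finite G] {W : Subgroup G} {y : G} (h : W ≤ W.comap (MulAut.conj y).toMonoidHom) : y ∈ normalizer (W : Set G) :=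
  Subgroup.mem_normalizer_fintype fun x hx => h hx

theorem conj_mem_mul {G : Type*} [Group G] {Z : Subgroup G} {y g x : G} (hx : x ∈ MulAut.conj g • Z) : y * x * y⁻¹ ∈ MulAut.conj (y * g) • Z := by
  rw [L0.mem_conj_smul] at hx ⊢
  have e : (y * g)⁻¹ * (y * x * y⁻¹) * (y * g) = g⁻¹ * x * g := by group
  rw [e]; exact hx

theorem not_le_conj {G : Type*} [Group G] [Finite G] {W : Subgroup G} {x : G} (hx : x ∉ normalizer (W : Set G)) : ¬ MulAut.conj x • W ≤ W := by
  intro h
  apply hx
  apply Subgroup.mem_normalizer_fintype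
  intro w hw
  apply h
  rw [L0.mem_conj_smul]
  have e : x⁻¹ * (x * w * x⁻¹) * x = w := by group
  rw [e]; exact hw

/-- Let Z and Y be subgroups of a finite group G and p a prime. Suppose that for every g in G the subgroup generated by the conjugates of g Z g⁻¹ under Y is a p-group. Then there is a Sylow p-subgroup P of G such that Y normalizes the subgroup generated by all conjugates of Z contained in P. -/
theorem result {G : Type*} [Group G] [Finite G] (p : ℕ) [Fact p.Prime] (Z Y : Subgroup G) (h : ∀ g : G, IsPGroup p ↥(⨆ y ∈ Y, MulAut.conj (y * g) • Z)) : ∃ P : Sylow p G, Y ≤ Subgroup.normalizer ((⨆ g ∈ {g : G | MulAut.conj g • Z ≤ (P : Subgroup G)}, MulAut.conj g • Z : Subgroup G) : Set G) := by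
  classical
  -- the family
  let F : Set (Subgroup G) := {W | IsPGroup p W ∧ cj Z W = W ∧ Y ≤ Subgroup.normalizer (W : Set G)}
  have hbot : (⊥ : Subgroup G) ∈ F := by
    refine ⟨IsPGroup.of_bot, le_antisymm (cj_le _ _) bot_le, ?_⟩
    rw [Subgroup.normalizer_eq_top]; exact le_top
  obtain ⟨W, hW⟩ := (Set.toFinite F).exists_maximal ⟨_, hbot⟩
  obtain ⟨⟨hWp, hWZ, hYW⟩, hWmax⟩ := hW
  obtain ⟨P, hWP⟩ := hWp.exists_le_sylow
  refine ⟨P, ?_⟩
  change Y ≤ Subgroup.normalizer ((cj Z P : Subgroup G) : Set G)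
  have hWle : W ≤ cj Z P := by rw [← hWZ]; exact cj_mono hWP
  suffices hs : cj Z P ≤ W by
    rw [le_antisymm hs hWle]; exact hYW
  by_contra hnot
  -- find a conjugate of Z normalizing W, in P, not in W
  have hex : ∃ g : G, MulAut.conj g • Z ≤ Subgroup.normalizer (W : Set G) ∧ ¬ MulAut.conj g • Z ≤ W := by
    by_cases hn : (P : Subgroup G) ≤ Subgroup.normalizer (W : Set G)
    · by_contra hne
      apply hnot
      refine iSup_le fun g => iSup_le fun hg => ?_
      by_contra hgW
      exact hne ⟨g, le_trans hg hn, hgW⟩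
    · haveI : Group.IsNilpotent P := P.2.isNilpotent
      have hnc := Group.normalizerCondition_of_isNilpotent (G := P)
      have hlt : (Subgroup.normalizer (W : Set G)).subgroupOf P < ⊤ := by
        rw [lt_top_iff_ne_top]
        intro h
        apply hn
        rwa [Subgroup.subgroupOf_eq_top] at h
      obtain ⟨x, hx, hxn⟩ := SetLike.exists_of_lt (hnc _ hlt)
      rw [Subgroup.mem_subgroupOf] at hxn
      have h1 : MulAut.conj (x : G) • W ≤ Subgroup.normalizer (W : Set G) := by
        intro w hw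
        rw [L0.mem_conj_smul] at hw
        have h2 := (Subgroup.mem_normalizer_iff.mp hx (⟨(x : G)⁻¹ * w * x, hWP hw⟩ : P)).mp (by
          rw [Subgroup.mem_subgroupOf]
          exact Subgroup.le_normalizer hw)
        rw [Subgroup.mem_subgroupOf] at h2
        have e : ((x * (⟨(x : G)⁻¹ * w * x, hWP hw⟩ : P) * x⁻¹ : P) : G) = w := by
          show (x : G) * ((x : G)⁻¹ * w * x) * (x : G)⁻¹ = w
          group
        rwa [e] at h2
      by_contra hne
      apply not_le_conj hxn
      intro w hw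
      rw [L0.mem_conj_smul] at hw
      have hle : W ≤ W.comap (MulAut.conj (x : G)).toMonoidHom := by
        conv_lhs => rw [← hWZ]
        refine iSup_le fun g => iSup_le fun hg => ?_
        intro z hz
        show (x : G) * z * (x : G)⁻¹ ∈ W
        have h3 := conj_mem_mul (y := (x : G)) hz
        by_contra hzW
        apply hne
        refine ⟨x * g, ?_, fun h => hzW (h h3)⟩
        intro v hv
        apply h1
        rw [L0.mem_conj_smul] at hv ⊢
        apply hg
        rw [L0.mem_conj_smul]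
        have e : g⁻¹ * ((x : G)⁻¹ * v * x) * g = (x * g)⁻¹ * v * (x * g) := by group
        rw [e]; exact hv
      have h4 : (x : G) * ((x : G)⁻¹ * w * x) * (x : G)⁻¹ ∈ W := hle hw
      have e : (x : G) * ((x : G)⁻¹ * w * x) * (x : G)⁻¹ = w := by group
      rwa [e] at h4
  obtain ⟨g, hg1, hg2⟩ := hex
  set T : Subgroup G := ⨆ y ∈ Y, MulAut.conj (y * g) • Z with hT
  have hTN : T ≤ Subgroup.normalizer (W : Set G) := by
    refine iSup_le fun y => iSup_le fun hy => ?_
    intro v hv
    rw [L0.mem_conj_smul] at hv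
    have h1 : g * ((y * g)⁻¹ * v * (y * g)) * g⁻¹ ∈ Subgroup.normalizer (W : Set G) := by
      apply hg1
      rw [L0.mem_conj_smul]
      have e : g⁻¹ * (g * ((y * g)⁻¹ * v * (y * g)) * g⁻¹) * g = (y * g)⁻¹ * v * (y * g) := by group
      rw [e]; exact hv
    have hyN := hYW hy
    have h2 := mul_mem (mul_mem hyN h1) (inv_mem hyN)
    have e : y * (g * ((y * g)⁻¹ * v * (y * g)) * g⁻¹) * y⁻¹ = v := by group
    rwa [e] at h2
  have hTZ : cj Z T = T := by
    refine le_antisymm (cj_le _ _) (iSup_le fun y => iSup_le fun hy => le_cj ?_)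
    exact le_iSup₂_of_le y hy le_rfl
  have hYT : Y ≤ Subgroup.normalizer (T : Set G) := by
    intro y hy
    apply mem_normalizer_of
    refine iSup_le fun y' => iSup_le fun hy' => ?_
    intro v hv
    show y * v * y⁻¹ ∈ T
    have h1 := conj_mem_mul (y := y) hv
    rw [← mul_assoc] at h1
    exact (le_iSup₂_of_le (y * y') (mul_mem hy hy') le_rfl : MulAut.conj (y * y' * g) • Z ≤ T) h1
  have hnew : W ⊔ T ∈ F := by
    refine ⟨IsPGroup.to_sup_of_normal_left' hWp (h g) hTN, cj_sup hWZ hTZ, H1.le_normalizer_sup hYW hYT⟩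
  have h5 : W ⊔ T ≤ W := hWmax hnew le_sup_left
  apply hg2
  have h6 : MulAut.conj g • Z ≤ T := by
    have := (le_iSup₂_of_le (1 : G) (one_mem Y) le_rfl : MulAut.conj (1 * g) • Z ≤ T)
    rwa [one_mul] at this
  exact h6.trans (le_sup_right.trans h5)

end Cfsg.Agent.S0541
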