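import Cfsg.Statements.S0542
import Mathlib
import Cfsg.Agent.L0.Coprime

set_option autoImplicit false
open Cfsg

namespace Cfsg.Agent.S0542

open scoped commutatorElement Pointwise
theorem step {G : Type*} [Group G] [Finite G] {p : ℕ} [Fact p.Prime] {H K S : Subgroup G} (hHK : H ≤ K)
    (hn : (H.subgroupOf K).Normal) (h : ¬ p ∣ S.relIndex K) : ¬ p ∣ S.relIndex H := by
  have h1 : K ⊓ S ≤ Subgroup.normalizer (H : Set G) :=
    inf_le_left.trans ((Subgroup.normal_subgroupOf_iff_le_normalizer hHK).mp hn)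
  intro h2
  apply h
  have h3 := Cfsg.Agent.L0.card_sup_of_normalizes (M := H) (A := K ⊓ S) h1
  have h4 : (S ⊓ K).relIndex H = (S ⊓ K).relIndex ((S ⊓ K) ⊔ H) := by
    have h5 := Cfsg.Agent.L0.relIndex_sup_of_normalizes (M := H) (A := K ⊓ S) h1
    -- |A| |M ⊔ A : A| = |M ⊔ A| = |M| |M ⊔ A : M| = |M| |A : A ⊓ M|
    have e1 := Subgroup.relIndex_mul_relIndex ⊥ H (H ⊔ (K ⊓ S)) bot_le le_sup_left
    have e2 := Subgroup.relIndex_mul_relIndex ⊥ (K ⊓ S) (H ⊔ (K ⊓ S)) bot_le le_sup_right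
    have e3 := Subgroup.relIndex_mul_relIndex ⊥ ((K ⊓ S) ⊓ H) H bot_le inf_le_right
    have e4 := Subgroup.relIndex_mul_relIndex ⊥ ((K ⊓ S) ⊓ H) (K ⊓ S) bot_le inf_le_left
    rw [Subgroup.inf_relIndex_right] at e3
    rw [Subgroup.inf_relIndex_left] at e4
    simp only [Subgroup.relIndex_bot_left] at e1 e2 e3 e4
    rw [h5] at e1
    rw [inf_comm S K, sup_comm]
    have hp : 0 < Nat.card ↥(K ⊓ S) := Nat.card_pos
    have hp2 : 0 < Nat.card ↥((K ⊓ S) ⊓ H) := Nat.card_pos
    apply Nat.eq_of_mul_eq_mul_left hp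
    rw [e2, ← e1, ← e3, ← e4]
    ring
  have h6 : S.relIndex H = (S ⊓ K).relIndex H := by
    rw [← Subgroup.inf_relIndex_right S H, ← Subgroup.inf_relIndex_right (S ⊓ K) H, inf_assoc,
      inf_eq_right.mpr hHK]
  rw [h6, h4] at h2
  rw [← Subgroup.inf_relIndex_right]
  exact h2.trans (Dvd.intro _ (Subgroup.relIndex_mul_relIndex _ _ _ le_sup_left (sup_le inf_le_right hHK)))

/-- A Sylow p-subgroup of a finite group meets every subnormal subgroup H in a Sylow p-subgroup of H. -/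
theorem result {G : Type*} [Group G] [Finite G] (p : ℕ) [Fact p.Prime] (H : Subgroup G) (hH : H.IsSubnormal) (S : Sylow p G) : ∃ Q : Sylow p H, (Q : Subgroup H) = (S : Subgroup G).subgroupOf H := by
  have key : ¬ p ∣ (S : Subgroup G).relIndex H := by
    induction hH with
    | top => rw [Subgroup.relIndex_top_right]; exact S.not_dvd_index
    | step H K hHK hK hn ih => exact step hHK hn ih
  exact ⟨(Cfsg.Agent.L0.isPGroup_subgroupOf S.isPGroup').toSylow key, rfl⟩

end Cfsg.Agent.S0542
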