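import Cfsg.Statements.S0546
import Mathlib
import Cfsg.Agent.H3.SysN

set_option autoImplicit false
open Cfsg

namespace Cfsg.Agent.S0546

/-- The normal closure of a system normalizer of a finite solvable group is the whole group. -/
theorem result {G : Type*} [Group G] [Finite G] [Group.IsSolvable G] (K : Nat.Primes → Subgroup G) (hK : Cfsg.IsComplementSystem K) : Subgroup.normalClosure ((Cfsg.systemNormalizer K : Subgroup G) : Set G) = ⊤ := by
  by_contra hne
  set N0 := Subgroup.normalClosure ((Cfsg.systemNormalizer K : Subgroup G) : Set G) with hN0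
  have hMne : N0 ⊔ commutator G ≠ ⊤ := by
    intro h
    haveI : Nontrivial (G ⧸ N0) := by rwa [QuotientGroup.nontrivial_iff]
    have h1 : commutator (G ⧸ N0) = ⊤ := by
      have h2 : (commutator G).map (QuotientGroup.mk' N0) = commutator (G ⧸ N0) := by
        rw [commutator_def, commutator_def, Subgroup.map_commutator, ← MonoidHom.range_eq_map, MonoidHom.range_eq_top.mpr (QuotientGroup.mk'_surjective N0)]
      rw [← h2, eq_top_iff]
      intro x _
      obtain ⟨x, rfl⟩ := QuotientGroup.mk'_surjective N0 x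
      have hx : x ∈ N0 ⊔ commutator G := by rw [h]; trivial
      rw [Subgroup.mem_sup_of_normal_left] at hx
      obtain ⟨n, hn, c, hc, rfl⟩ := hx
      refine ⟨c, hc, ?_⟩
      rw [map_mul]
      have : QuotientGroup.mk' N0 n = 1 := (QuotientGroup.eq_one_iff n).mpr hn
      rw [this, one_mul]
    exact (IsSolvable.commutator_lt_top_of_nontrivial (G := G ⧸ N0)).ne h1
  set M := N0 ⊔ commutator G with hM
  have hq := H3.sys_quotient (inferInstance : Group.IsSolvable G) hK M
  have h1 : (Cfsg.systemNormalizer K).map (QuotientGroup.mk' M) = ⊥ := by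
    rw [eq_bot_iff]
    rintro _ ⟨x, hx, rfl⟩
    rw [Subgroup.mem_bot, QuotientGroup.mk'_apply, QuotientGroup.eq_one_iff]
    exact (le_sup_left : N0 ≤ M) (Subgroup.subset_normalClosure hx)
  have h2 : Cfsg.systemNormalizer (fun p => (K p).map (QuotientGroup.mk' M)) = ⊤ := by
    rw [eq_top_iff]
    refine le_iInf fun p => ?_
    intro x _
    obtain ⟨x, rfl⟩ := QuotientGroup.mk'_surjective M x
    apply Subgroup.mem_normalizer_fintype
    rintro _ ⟨y, hy, rfl⟩
    refine ⟨y, hy, ?_⟩
    rw [← map_inv, ← map_mul, ← map_mul, QuotientGroup.mk'_apply, QuotientGroup.mk'_apply, QuotientGroup.eq]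
    have e : y⁻¹ * (x * y * x⁻¹) = y⁻¹ * (x * y * x⁻¹ * y⁻¹) * y⁻¹⁻¹ := by group
    rw [e]
    have hc : x * y * x⁻¹ * y⁻¹ ∈ M := (le_sup_right : commutator G ≤ M) (Subgroup.commutator_mem_commutator (Subgroup.mem_top x) (Subgroup.mem_top y))
    exact (inferInstance : M.Normal).conj_mem _ hc _
  rw [h1, h2] at hq
  haveI : Nontrivial (G ⧸ M) := by rwa [QuotientGroup.nontrivial_iff]
  exact bot_ne_top hq.symm

end Cfsg.Agent.S0546
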