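import Cfsg.Statements.S0547
import Mathlib
import Cfsg.Agent.H1.Prim

set_option autoImplicit false
open Cfsg

namespace Cfsg.Agent.S0547

open scoped commutatorElement Pointwise


/-- Let a finite solvable group G act faithfully and primitively on a set, and let M be a minimal normal subgroup of G. Then M is transitive with trivial point stabilizers, and the number of points equals the order of M, which is a prime power p ^ d with d ≥ 1. -/
theorem result {G : Type*} [Group G] [Finite G] [Group.IsSolvable G] {Ω : Type*} [Nonempty Ω] [MulAction G Ω] [FaithfulSMul G Ω] (hprim : MulAction.IsPreprimitive G Ω) (M : Subgroup G) [M.Normal] (hM : M ≠ ⊥) (hmin : ∀ K : Subgroup G, K.Normal → K ≤ M → K = ⊥ ∨ K = M) : MulAction.IsPretransitive M Ω ∧ (∀ ω : Ω, MulAction.stabilizer M ω = ⊥) ∧ ∃ p d : ℕ, p.Prime ∧ 0 < d ∧ Nat.card Ω = p ^ d ∧ Nat.card M = p ^ d := by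
  obtain ⟨h1, h2⟩ := Cfsg.Agent.H1.minimal_normal_regular hprim M hM hmin
  refine ⟨h1, h2, ?_⟩
  haveI := h1
  obtain ⟨ω⟩ := (inferInstance : Nonempty Ω)
  haveI : Group.IsSolvable M := inferInstance
  haveI := Cfsg.Agent.H1.isMulCommutative_of_minimal_of_solvable M hM hmin
  obtain ⟨p, hp, hpx⟩ := Cfsg.Agent.H1.exists_prime_pow_eq_one_of_minimal M hM hmin
  haveI : Fact p.Prime := ⟨hp⟩
  have hMp := Cfsg.Agent.H1.isPGroup_of_pow_eq_one M hpx
  obtain ⟨d, hd⟩ := IsPGroup.iff_card.mp hMp
  refine ⟨p, d, hp, ?_, ?_, hd⟩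
  · rcases Nat.eq_zero_or_pos d with h | h
    · exfalso
      rw [h, pow_zero, Subgroup.card_eq_one] at hd
      exact hM hd
    · exact h
  · rw [← hd]
    symm
    refine Nat.card_congr (Equiv.ofBijective (fun m : M => m • ω) ⟨?_, ?_⟩)
    · intro a b hab
      have : (b⁻¹ * a) ∈ MulAction.stabilizer M ω := by
        rw [MulAction.mem_stabilizer_iff, mul_smul]
        exact inv_smul_eq_iff.mpr hab
      rw [h2 ω, Subgroup.mem_bot, inv_mul_eq_one] at this
      exact this.symm
    · intro x
      exact MulAction.exists_smul_eq M ω x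

end Cfsg.Agent.S0547
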