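import Cfsg.Statements.S0548
import Mathlib
import Cfsg.Agent.H1.Prim

set_option autoImplicit false
open Cfsg

namespace Cfsg.Agent.S0548

open scoped commutatorElement Pointwise


/-- Let a finite solvable group G act faithfully and primitively on a set, let M be a minimal normal subgroup and H the stabilizer of a point. Then H is a complement to M, no non-identity element of H centralizes M, and the only subgroups of M normalized by H are the trivial subgroup and M. -/
theorem result {G : Type*} [Group G] [Finite G] [Group.IsSolvable G] {Ω : Type*} [MulAction G Ω] [FaithfulSMul G Ω] (hprim : MulAction.IsPreprimitive G Ω) (M : Subgroup G) [M.Normal] (hM : M ≠ ⊥) (hmin : ∀ K : Subgroup G, K.Normal → K ≤ M → K = ⊥ ∨ K = M) (ω : Ω) : Subgroup.IsComplement' M (MulAction.stabilizer G ω) ∧ MulAction.stabilizer G ω ⊓ Subgroup.centralizer (M : Set G) = ⊥ ∧ ∀ K : Subgroup G, K ≤ M → MulAction.stabilizer G ω ≤ Subgroup.normalizer (K : Set G) → K = ⊥ ∨ K = M := by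
  haveI : Nonempty Ω := ⟨ω⟩
  obtain ⟨h1, h2⟩ := Cfsg.Agent.H1.minimal_normal_regular hprim M hM hmin
  haveI := h1
  haveI := Cfsg.Agent.H1.isMulCommutative_of_minimal_of_solvable M hM hmin
  have hinf : M ⊓ MulAction.stabilizer G ω = ⊥ := by
    rw [eq_bot_iff]
    intro x hx
    have : (⟨x, hx.1⟩ : M) ∈ MulAction.stabilizer M ω := hx.2
    rw [h2 ω, Subgroup.mem_bot] at this
    exact congrArg Subtype.val this
  have hfac : ∀ g : G, ∃ m ∈ M, ∃ h ∈ MulAction.stabilizer G ω, g = m * h := by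
    intro g
    obtain ⟨m, hm⟩ := MulAction.exists_smul_eq M ω (g • ω)
    refine ⟨m, m.2, (m : G)⁻¹ * g, ?_, by group⟩
    rw [MulAction.mem_stabilizer_iff, mul_smul, ← hm]
    exact inv_smul_smul (m : G) ω
  have hsup : M ⊔ MulAction.stabilizer G ω = ⊤ := by
    rw [eq_top_iff]
    intro g _
    obtain ⟨m, hm, h, hh, rfl⟩ := hfac g
    exact Subgroup.mul_mem _ ((le_sup_left : M ≤ _) hm) ((le_sup_right : MulAction.stabilizer G ω ≤ _) hh)
  refine ⟨Cfsg.Agent.H1.isComplement'_of_disjoint_sup hinf hsup, ?_, ?_⟩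
  · rw [eq_bot_iff]
    intro c hc
    rw [Subgroup.mem_bot]
    apply eq_of_smul_eq_smul (α := Ω)
    intro x
    obtain ⟨m, rfl⟩ := MulAction.exists_smul_eq M ω x
    have h3 := Subgroup.mem_centralizer_iff.mp hc.2 m m.2
    have h4 : c • ω = ω := hc.1
    show c • ((m : G) • ω) = (1 : G) • ((m : G) • ω)
    rw [← mul_smul, ← h3, mul_smul, h4, one_smul]
  · intro K hKM hKn
    apply hmin K _ hKM
    constructor
    intro x hx g
    obtain ⟨m, hm, h, hh, rfl⟩ := hfac g
    have h3 : h * x * h⁻¹ ∈ K := (Subgroup.mem_normalizer_iff.mp (hKn hh) x).mp hx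
    have h4 : m * (h * x * h⁻¹) = (h * x * h⁻¹) * m :=
      congrArg Subtype.val (mul_comm' (⟨m, hm⟩ : M) ⟨_, hKM h3⟩)
    have h5 : m * h * x * (m * h)⁻¹ = h * x * h⁻¹ := by
      calc m * h * x * (m * h)⁻¹ = (m * (h * x * h⁻¹)) * m⁻¹ := by group
        _ = ((h * x * h⁻¹) * m) * m⁻¹ := by rw [h4]
        _ = _ := by group
    rw [h5]; exact h3

end Cfsg.Agent.S0548
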