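import Cfsg.Statements.S0549
import Mathlib
import Cfsg.Agent.H1.Comm

set_option autoImplicit false
open Cfsg

namespace Cfsg.Agent.S0549

open scoped commutatorElement Pointwise


/-- Let U be a maximal subgroup of a finite group G whose normal core is trivial, and N a nontrivial normal subgroup with centralizer C. Then C ∩ U = 1, and either C = 1 or C is a minimal normal subgroup of G. -/
theorem result {G : Type*} [Group G] [Finite G] (U : Subgroup G) (hU : IsCoatom U) (hcore : U.normalCore = ⊥) (N : Subgroup G) [N.Normal] (hN : N ≠ ⊥) : Subgroup.centralizer (N : Set G) ⊓ U = ⊥ ∧ (Subgroup.centralizer (N : Set G) = ⊥ ∨ (Subgroup.centralizer (N : Set G) ≠ ⊥ ∧ ∀ K : Subgroup G, K.Normal → K ≤ Subgroup.centralizer (N : Set G) → K = ⊥ ∨ K = Subgroup.centralizer (N : Set G))) := by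
  have hcN : (Subgroup.centralizer (N : Set G)).Normal := inferInstance
  have hNU : N ⊔ U = ⊤ := by
    apply hU.2
    refine lt_of_le_of_ne le_sup_right ?_
    intro h
    apply hN
    have : N ≤ U := by rw [h]; exact le_sup_left
    have h2 := (Subgroup.normal_le_normalCore (H := U) (N := N)).mpr this
    rw [hcore] at h2
    exact le_bot_iff.mp h2
  have hnorm : (Subgroup.centralizer (N : Set G) ⊓ U).Normal := by
    constructor
    intro x hx g
    have hg : g ∈ N ⊔ U := by rw [hNU]; trivial
    obtain ⟨n, hn, u, hu, rfl⟩ := Subgroup.mem_sup_of_normal_left.mp hg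
    have h1 : u * x * u⁻¹ ∈ Subgroup.centralizer (N : Set G) := hcN.conj_mem x hx.1 u
    have h2 : n * (u * x * u⁻¹) * n⁻¹ = u * x * u⁻¹ := by
      rw [(Subgroup.mem_centralizer_iff.mp h1) n hn]; group
    have h3 : n * u * x * (n * u)⁻¹ = u * x * u⁻¹ := by rw [← h2]; group
    rw [h3]
    exact ⟨h1, U.mul_mem (U.mul_mem hu hx.2) (U.inv_mem hu)⟩
  have hbot : Subgroup.centralizer (N : Set G) ⊓ U = ⊥ := by
    have h2 := (Subgroup.normal_le_normalCore (H := U) (N := Subgroup.centralizer (N : Set G) ⊓ U)).mpr inf_le_right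
    rw [hcore] at h2
    exact le_bot_iff.mp h2
  refine ⟨hbot, ?_⟩
  by_cases hC : Subgroup.centralizer (N : Set G) = ⊥
  · exact Or.inl hC
  · refine Or.inr ⟨hC, ?_⟩
    intro K hK hKC
    by_cases hK0 : K = ⊥
    · exact Or.inl hK0
    · right
      apply le_antisymm hKC
      have hKU : K ⊔ U = ⊤ := by
        apply hU.2
        refine lt_of_le_of_ne le_sup_right ?_
        intro h
        apply hK0
        have : K ≤ U := by rw [h]; exact le_sup_left
        have h2 := (Subgroup.normal_le_normalCore (H := U) (N := K)).mpr this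
        rw [hcore] at h2
        exact le_bot_iff.mp h2
      intro c hc
      have hg : c ∈ K ⊔ U := by rw [hKU]; trivial
      obtain ⟨n, hn, u, hu, rfl⟩ := Subgroup.mem_sup_of_normal_left.mp hg
      have h1 : u ∈ Subgroup.centralizer (N : Set G) ⊓ U := by
        refine ⟨?_, hu⟩
        have : u = n⁻¹ * (n * u) := by group
        show u ∈ Subgroup.centralizer (N : Set G)
        rw [this]
        exact Subgroup.mul_mem _ (Subgroup.inv_mem _ (hKC hn)) hc
      rw [hbot, Subgroup.mem_bot] at h1
      rw [h1, mul_one]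
      exact hn

end Cfsg.Agent.S0549
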