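import Cfsg.Statements.S0550
import Mathlib
import Cfsg.Agent.S0549

set_option autoImplicit false
open Cfsg

namespace Cfsg.Agent.S0550

open Subgroup in
theorem equiv_of_sup_eq {G : Type*} [Group G] (X Y Z : Subgroup G) [X.Normal] (h1 : X ⊓ Y = ⊥) (h2 : X ⊓ Z = ⊥) (h3 : X ⊔ Y = X ⊔ Z) :
    Nonempty (Y ≃* Z) := by
  have key : ∀ W : Subgroup G, X ⊓ W = ⊥ → Nonempty (W ≃* W.map (QuotientGroup.mk' X)) := by
    intro W hW
    have hinj : Function.Injective ((QuotientGroup.mk' X).comp W.subtype) := by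
      rw [injective_iff_map_eq_one]
      intro w hw
      rw [MonoidHom.comp_apply, QuotientGroup.mk'_apply, QuotientGroup.eq_one_iff] at hw
      have : (w : G) ∈ X ⊓ W := ⟨hw, w.2⟩
      rw [hW, Subgroup.mem_bot] at this
      exact Subtype.ext this
    have e := MonoidHom.ofInjective hinj
    have h4 : ((QuotientGroup.mk' X).comp W.subtype).range = W.map (QuotientGroup.mk' X) := by
      rw [MonoidHom.range_comp, Subgroup.range_subtype]
    rw [h4] at e
    exact ⟨e⟩
  obtain ⟨e1⟩ := key Y h1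
  obtain ⟨e2⟩ := key Z h2
  have h5 : Y.map (QuotientGroup.mk' X) = Z.map (QuotientGroup.mk' X) := by
    rw [Subgroup.map_eq_map_iff, QuotientGroup.ker_mk', sup_comm, h3, sup_comm]
  exact ⟨e1.trans ((MulEquiv.subgroupCongr h5).trans e2.symm)⟩

open Subgroup in
theorem half {G : Type*} [Group G] [Finite G] (U : Subgroup G) (hU : IsCoatom U) (hcore : U.normalCore = ⊥) (A B : Subgroup G) [A.Normal] [B.Normal] (hA : A ≠ ⊥) (hB : B ≠ ⊥) (hAmin : ∀ K : Subgroup G, K.Normal → K ≤ A → K = ⊥ ∨ K = A) (hBmin : ∀ K : Subgroup G, K.Normal → K ≤ B → K = ⊥ ∨ K = B) (hAB : A ≠ B) :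
    centralizer (A : Set G) = B ∧ B ⊓ U = ⊥ ∧ A ⊔ U = ⊤ ∧ A ⊓ B = ⊥ := by
  have hinf : A ⊓ B = ⊥ := by
    rcases hAmin (A ⊓ B) inferInstance inf_le_left with h | h
    · exact h
    · exfalso
      have h1 : A ≤ B := by rw [← h]; exact inf_le_right
      rcases hBmin A inferInstance h1 with h2 | h2
      · exact hA h2
      · exact hAB h2
  have hBC : B ≤ centralizer (A : Set G) := by
    rw [← Subgroup.commutator_eq_bot_iff_le_centralizer, eq_bot_iff, ← hinf, inf_comm]
    exact Subgroup.commutator_le_inf _ _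
  obtain ⟨h1, h2⟩ := S0549.result U hU hcore A hA
  have hC : centralizer (A : Set G) = B := by
    rcases h2 with h2 | ⟨h2, h3⟩
    · rw [h2, le_bot_iff] at hBC
      exact absurd hBC hB
    · rcases h3 B inferInstance hBC with h4 | h4
      · exact absurd h4 hB
      · exact h4.symm
  refine ⟨hC, by rw [← hC]; exact h1, ?_, hinf⟩
  have hAU : ¬ A ≤ U := by
    intro h
    have : A ≤ U.normalCore := Subgroup.normal_le_normalCore.mpr h
    rw [hcore, le_bot_iff] at this
    exact hA this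
  rw [sup_comm]
  exact hU.2 _ (left_lt_sup.mpr hAU)

/-- Let U be a maximal subgroup with trivial normal core in a finite group G, and A ≠ B two minimal normal subgroups. Then A is the centralizer of B and B that of A, U complements each of them, A and B are non-abelian, and A, B and (A ⊔ B) ∩ U are pairwise isomorphic. -/
theorem result {G : Type*} [Group G] [Finite G] (U : Subgroup G) (hU : IsCoatom U) (hcore : U.normalCore = ⊥) (A B : Subgroup G) [A.Normal] [B.Normal] (hA : A ≠ ⊥) (hB : B ≠ ⊥) (hAmin : ∀ K : Subgroup G, K.Normal → K ≤ A → K = ⊥ ∨ K = A) (hBmin : ∀ K : Subgroup G, K.Normal → K ≤ B → K = ⊥ ∨ K = B) (hAB : A ≠ B) : Subgroup.centralizer (B : Set G) = A ∧ Subgroup.centralizer (A : Set G) = B ∧ Subgroup.IsComplement' A U ∧ Subgroup.IsComplement' B U ∧ ¬ IsMulCommutative A ∧ Nonempty (A ≃* B) ∧ Nonempty (A ≃* ↥((A ⊔ B) ⊓ U)) := by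
  obtain ⟨h1, h2, h3, h4⟩ := half U hU hcore A B hA hB hAmin hBmin hAB
  obtain ⟨h1', h2', h3', -⟩ := half U hU hcore B A hB hA hBmin hAmin hAB.symm
  have hc : ∀ X : Subgroup G, X.Normal → X ⊓ U = ⊥ → X ⊔ U = ⊤ → Subgroup.IsComplement' X U := by
    intro X hX hi hs
    exact Subgroup.isComplement'_of_disjoint_and_mul_eq_univ (disjoint_iff.mpr hi) (by
      rw [← Subgroup.coe_mul_of_right_le_normalizer_left X U (by rw [Subgroup.normalizer_eq_top]; exact le_top), hs]; rfl)
  have hDA : A ⊓ ((A ⊔ B) ⊓ U) = ⊥ := by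
    rw [eq_bot_iff, ← h2']; exact le_inf inf_le_left (inf_le_right.trans inf_le_right)
  have hDB : B ⊓ ((A ⊔ B) ⊓ U) = ⊥ := by
    rw [eq_bot_iff, ← h2]; exact le_inf inf_le_left (inf_le_right.trans inf_le_right)
  have key : ∀ X : Subgroup G, X.Normal → X ≤ A ⊔ B → X ⊔ U = ⊤ → X ⊔ ((A ⊔ B) ⊓ U) = A ⊔ B := by
    intro X hX hXle hXU
    apply le_antisymm (sup_le hXle inf_le_left)
    intro g hg
    have hg' : g ∈ X ⊔ U := by rw [hXU]; trivial
    rw [Subgroup.mem_sup_of_normal_left] at hg'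
    obtain ⟨x, hx, u, hu, rfl⟩ := hg'
    refine Subgroup.mul_mem_sup hx ⟨?_, hu⟩
    have := mul_mem (inv_mem (hXle hx)) hg
    rwa [inv_mul_cancel_left] at this
  have e1 := equiv_of_sup_eq A B ((A ⊔ B) ⊓ U) h4 hDA (key A inferInstance le_sup_left h3).symm
  have e2 := equiv_of_sup_eq B A ((A ⊔ B) ⊓ U) (by rw [inf_comm]; exact h4) hDB (by rw [key B inferInstance le_sup_right h3', sup_comm])
  obtain ⟨e1⟩ := e1
  obtain ⟨e2⟩ := e2
  refine ⟨h1', h1, hc A inferInstance h2' h3, hc B inferInstance h2 h3', ?_, ⟨e2.trans e1.symm⟩, ⟨e2⟩⟩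
  intro hab
  have : A ≤ Subgroup.centralizer (A : Set G) := by
    intro a ha
    rw [Subgroup.mem_centralizer_iff]
    intro b hb
    exact congrArg Subtype.val (hab.is_comm.comm (⟨b, hb⟩ : A) ⟨a, ha⟩)
  rw [h1] at this
  apply hA
  rw [eq_bot_iff, ← h4]
  exact le_inf le_rfl this

end Cfsg.Agent.S0550
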