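import Cfsg.Statements.S0551
import Mathlib
import Cfsg.Agent.H1.Prim
import Cfsg.Agent.S0549
import Cfsg.Agent.L0.SZ

set_option autoImplicit false
open Pointwise
open Cfsg

namespace Cfsg.Agent.S0551

open scoped commutatorElement Pointwise
theorem cent_eq {G : Type*} [Group G] [Finite G] (U : Subgroup G) (hU : IsCoatom U) (hcore : U.normalCore = ⊥)
    (M : Subgroup G) [M.Normal] [IsMulCommutative M] (hM : M ≠ ⊥) :
    Subgroup.centralizer (M : Set G) = M ∧ M ⊔ U = ⊤ ∧ M ⊓ U = ⊥ := by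
  have h1 := (Cfsg.Agent.S0549.result U hU hcore M hM).1
  have hMC : M ≤ Subgroup.centralizer (M : Set G) := Subgroup.le_centralizer_iff_isMulCommutative.mpr inferInstance
  have hsup : M ⊔ U = ⊤ := by
    apply hU.2
    refine lt_of_le_of_ne le_sup_right ?_
    intro h
    apply hM
    have : M ≤ U := by rw [h]; exact le_sup_left
    have h2 := (Subgroup.normal_le_normalCore (H := U) (N := M)).mpr this
    rw [hcore] at h2
    exact le_bot_iff.mp h2
  refine ⟨le_antisymm ?_ hMC, hsup, ?_⟩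
  · intro c hc
    have hg : c ∈ M ⊔ U := by rw [hsup]; trivial
    obtain ⟨m, hm, u, hu, rfl⟩ := Subgroup.mem_sup_of_normal_left.mp hg
    have h3 : u ∈ Subgroup.centralizer (M : Set G) ⊓ U := by
      refine ⟨?_, hu⟩
      have : u = m⁻¹ * (m * u) := by group
      show u ∈ Subgroup.centralizer (M : Set G)
      rw [this]
      exact Subgroup.mul_mem _ (Subgroup.inv_mem _ (hMC hm)) hc
    rw [h1, Subgroup.mem_bot] at h3
    rw [h3, mul_one]; exact hm
  · rw [eq_bot_iff, ← h1]
    exact inf_le_inf_right _ hMC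

theorem norm_eq {G : Type*} [Group G] {U N : Subgroup G} [N.Normal] (hU : IsCoatom U) (hcore : U.normalCore = ⊥)
    (h : N ⊓ U ≠ ⊥) : Subgroup.normalizer ((N ⊓ U : Subgroup G) : Set G) = U := by
  have h1 : U ≤ Subgroup.normalizer ((N ⊓ U : Subgroup G) : Set G) := by
    intro u hu
    rw [Subgroup.mem_normalizer_iff]
    intro x
    constructor
    · intro hx
      exact ⟨(inferInstance : N.Normal).conj_mem x hx.1 u, U.mul_mem (U.mul_mem hu hx.2) (U.inv_mem hu)⟩
    · intro hx
      have e : x = u⁻¹ * (u * x * u⁻¹) * u⁻¹⁻¹ := by group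
      rw [e]
      exact ⟨(inferInstance : N.Normal).conj_mem _ hx.1 u⁻¹, U.mul_mem (U.mul_mem (U.inv_mem hu) hx.2) (U.inv_mem (U.inv_mem hu))⟩
  rcases hU.le_iff.mp h1 with h2 | h2
  · exfalso
    apply h
    have h3 : (N ⊓ U).Normal := Subgroup.normalizer_eq_top_iff.mp h2
    have h4 := (Subgroup.normal_le_normalCore (H := U) (N := N ⊓ U)).mpr inf_le_right
    rw [hcore] at h4
    exact le_bot_iff.mp h4
  · exact h2

/-- In a finite solvable group all core-free maximal subgroups are conjugate. -/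
theorem result {G : Type*} [Group G] [Finite G] [Group.IsSolvable G] (U V : Subgroup G) (hU : IsCoatom U) (hV : IsCoatom V) (hUc : U.normalCore = ⊥) (hVc : V.normalCore = ⊥) : ∃ g : G, MulAut.conj g • U = V := by
  have hnt : Nontrivial G := by
    rw [← not_subsingleton_iff_nontrivial]
    intro hs
    exact hU.1 (Subsingleton.elim _ _)
  obtain ⟨M, hMn, hMb, hmin⟩ := Cfsg.Agent.H1.exists_minimal_normal (G := G)
  haveI : Group.IsSolvable M := inferInstance
  haveI := Cfsg.Agent.H1.isMulCommutative_of_minimal_of_solvable M hMb hmin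
  obtain ⟨p, hp, hpx⟩ := Cfsg.Agent.H1.exists_prime_pow_eq_one_of_minimal M hMb hmin
  haveI : Fact p.Prime := ⟨hp⟩
  have hMp := Cfsg.Agent.H1.isPGroup_of_pow_eq_one M hpx
  obtain ⟨hCM, hsU, hiU⟩ := cent_eq U hU hUc M hMb
  obtain ⟨-, hsV, hiV⟩ := cent_eq V hV hVc M hMb
  by_cases hMt : M = ⊤
  · rw [hMt, top_inf_eq] at hiU hiV
    exact ⟨1, by rw [hiU, hiV]; simp⟩
  have hq : Nontrivial (G ⧸ M) := by
    rw [← not_subsingleton_iff_nontrivial]
    intro hs
    exact hMt (QuotientGroup.subgroup_eq_top_of_subsingleton M hs)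
  obtain ⟨L, hLn, hLb, hLmin⟩ := Cfsg.Agent.H1.exists_minimal_normal (G := G ⧸ M)
  haveI : Group.IsSolvable L := inferInstance
  haveI := Cfsg.Agent.H1.isMulCommutative_of_minimal_of_solvable L hLb hLmin
  obtain ⟨q, hqp, hqx⟩ := Cfsg.Agent.H1.exists_prime_pow_eq_one_of_minimal L hLb hLmin
  haveI : Fact q.Prime := ⟨hqp⟩
  have hLq := Cfsg.Agent.H1.isPGroup_of_pow_eq_one L hqx
  set N := L.comap (QuotientGroup.mk' M) with hN
  haveI hNn : N.Normal := hLn.comap _
  have hMN : M ≤ N := by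
    intro x hx
    show QuotientGroup.mk' M x ∈ L
    rw [QuotientGroup.mk'_apply, (QuotientGroup.eq_one_iff x).mpr hx]
    exact L.one_mem
  have hcN : Nat.card N = Nat.card M * Nat.card L := Cfsg.Agent.L0.card_comap_mk' M L
  have hMNne : M ≠ N := by
    intro h
    have h1 : Nat.card L = 1 := by
      rw [← h] at hcN
      have : 0 < Nat.card M := Nat.card_pos
      nlinarith
    exact hLb (Subgroup.card_eq_one.mp h1)
  obtain ⟨a, ha⟩ := IsPGroup.iff_card.mp hMp
  obtain ⟨b, hb⟩ := IsPGroup.iff_card.mp hLq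
  have hpq : p ≠ q := by
    intro hpq
    subst hpq
    have hNp : IsPGroup p N := by
      rw [IsPGroup.iff_card]
      exact ⟨a + b, by rw [hcN, ha, hb, pow_add]⟩
    haveI : Group.IsNilpotent N := hNp.isNilpotent
    have h1 : M.subgroupOf N ≠ ⊥ := by
      rw [Ne, Subgroup.subgroupOf_eq_bot, disjoint_iff, inf_eq_left.mpr hMN]
      exact hMb
    have h2 := Cfsg.Agent.H1.inf_center_ne_bot (M.subgroupOf N) h1
    haveI : ((Subgroup.center N).map N.subtype).Normal := Cfsg.Agent.L0.normal_map_subtype_of_characteristic _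
    have h3 : M ⊓ ((Subgroup.center N).map N.subtype) ≠ ⊥ := by
      intro h
      apply h2
      rw [eq_bot_iff]
      intro x hx
      have : (x : G) ∈ M ⊓ ((Subgroup.center N).map N.subtype) := ⟨hx.1, ⟨x, hx.2, rfl⟩⟩
      rw [h, Subgroup.mem_bot] at this
      exact Subtype.ext this
    rcases hmin (M ⊓ ((Subgroup.center N).map N.subtype)) inferInstance inf_le_left with h | h
    · exact h3 h
    · apply hMNne
      apply le_antisymm hMN
      rw [← hCM]
      intro f hf
      rw [Subgroup.mem_centralizer_iff]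
      intro m hm
      have : m ∈ M ⊓ ((Subgroup.center N).map N.subtype) := by rw [h]; exact hm
      obtain ⟨m', hm', rfl⟩ := this.2
      exact (congrArg Subtype.val ((Subgroup.mem_center_iff.mp hm') ⟨f, hf⟩)).symm
  have hcard : ∀ W : Subgroup G, M ⊔ W = ⊤ → M ⊓ W = ⊥ → Nat.card ↥(N ⊓ W) = Nat.card L := by
    intro W h1 h2
    have h3 : M ⊔ (N ⊓ W) = N := by
      apply le_antisymm (sup_le hMN inf_le_left)
      intro x hx
      have hg : x ∈ M ⊔ W := by rw [h1]; trivial
      obtain ⟨m, hm, w, hw, rfl⟩ := Subgroup.mem_sup_of_normal_left.mp hg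
      have hwN : w ∈ N := by
        have : w = m⁻¹ * (m * w) := by group
        rw [this]; exact N.mul_mem (N.inv_mem (hMN hm)) hx
      exact Subgroup.mul_mem _ ((le_sup_left : M ≤ _) hm) ((le_sup_right : N ⊓ W ≤ _) ⟨hwN, hw⟩)
    have h4 : M ⊓ (N ⊓ W) = ⊥ := by
      rw [eq_bot_iff, ← h2]; exact inf_le_inf_left _ inf_le_right
    have h5 := Cfsg.Agent.H1.card_sup_of_inf_bot_normal h4
    rw [h3, hcN] at h5
    exact (Nat.eq_of_mul_eq_mul_left Nat.card_pos h5).symm
  have hrel : M.relIndex N = Nat.card L := by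
    have h1 := Subgroup.relIndex_mul_relIndex ⊥ M N bot_le hMN
    rw [Subgroup.relIndex_bot_left, Subgroup.relIndex_bot_left, hcN] at h1
    exact Nat.eq_of_mul_eq_mul_left Nat.card_pos h1
  have hcM : Nat.card (M.subgroupOf N) = Nat.card M := by
    rw [← Cfsg.Agent.L0.card_map_subtype N (M.subgroupOf N), Subgroup.map_subgroupOf_eq_of_le hMN]
  have hcop : (Nat.card (M.subgroupOf N)).Coprime (M.subgroupOf N).index := by
    rw [hcM]
    show (Nat.card M).Coprime (M.relIndex N)
    rw [hrel, ha, hb]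
    exact Nat.Coprime.pow _ _ ((Nat.coprime_primes hp hqp).mpr hpq)
  have hcW : ∀ W : Subgroup G, Nat.card (W.subgroupOf N) = Nat.card ↥(N ⊓ W) := by
    intro W
    rw [← Cfsg.Agent.L0.card_map_subtype N (W.subgroupOf N), Subgroup.subgroupOf_map_subtype, inf_comm]
  obtain ⟨g, hg, hgc⟩ := Cfsg.Agent.L0.sz_conj (M.subgroupOf N) hcop (Or.inl inferInstance) (U.subgroupOf N) (V.subgroupOf N)
    (by rw [hcW, hcard U hsU hiU]; exact hrel.symm) (by rw [hcW, hcard V hsV hiV]; exact hrel.symm)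
  have hLne : Nat.card L ≠ 1 := fun h => hLb (Subgroup.card_eq_one.mp h)
  have hbU : N ⊓ U ≠ ⊥ := by
    intro h; apply hLne; rw [← hcard U hsU hiU, h, Subgroup.card_bot]
  have hbV : N ⊓ V ≠ ⊥ := by
    intro h; apply hLne; rw [← hcard V hsV hiV, h, Subgroup.card_bot]
  have hNU := norm_eq hU hUc hbU
  have hNV := norm_eq hV hVc hbV
  have hgc' : MulAut.conj (g : G) • (N ⊓ U) = N ⊓ V := by
    ext x
    rw [Cfsg.Agent.H1.mem_conj_smul]
    constructor
    · intro hx
      have hxN : x ∈ N := by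
        have := hNn.conj_mem _ hx.1 (g : G)
        have e : (g : G) * ((g : G)⁻¹ * x * g) * (g : G)⁻¹ = x := by group
        rwa [e] at this
      refine ⟨hxN, ?_⟩
      have h1 : (⟨x, hxN⟩ : N) ∈ MulAut.conj g • (U.subgroupOf N) := by
        rw [Cfsg.Agent.H1.mem_conj_smul, Subgroup.mem_subgroupOf]
        exact hx.2
      rw [hgc] at h1
      exact h1
    · intro hx
      have h1 : (⟨x, hx.1⟩ : N) ∈ MulAut.conj g • (U.subgroupOf N) := by rw [hgc]; exact hx.2
      rw [Cfsg.Agent.H1.mem_conj_smul, Subgroup.mem_subgroupOf] at h1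
      refine ⟨?_, h1⟩
      exact N.mul_mem (N.mul_mem (N.inv_mem g.2) hx.1) g.2
  refine ⟨g, ?_⟩
  have hle : MulAut.conj (g : G) • U ≤ V := by
    rw [← hNV, ← hgc']
    intro x hx
    rw [Cfsg.Agent.H1.mem_conj_smul, ← hNU] at hx
    apply Cfsg.Agent.H1.mem_normalizer_of_conj_mem
    intro y hy
    rw [Cfsg.Agent.H1.mem_conj_smul] at hy ⊢
    have h1 := (Subgroup.mem_normalizer_iff.mp hx _).mp hy
    have e : (g : G)⁻¹ * x * g * ((g : G)⁻¹ * y * g) * ((g : G)⁻¹ * x * g)⁻¹ = (g : G)⁻¹ * (x * y * x⁻¹) * g := by group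
    rwa [e] at h1
  apply Subgroup.eq_of_le_of_card_ge hle
  have hcc : Nat.card (MulAut.conj (g : G) • U : Subgroup G) = Nat.card U := by
    rw [Cfsg.Agent.H1.conj_smul_eq_map]
    exact Nat.card_congr (U.equivMapOfInjective _ (MulAut.conj (g : G)).injective).symm.toEquiv
  rw [hcc]
  have h1 := Cfsg.Agent.H1.card_sup_of_inf_bot_normal hiU
  have h2 := Cfsg.Agent.H1.card_sup_of_inf_bot_normal hiV
  rw [hsU] at h1
  rw [hsV, h1] at h2
  exact (Nat.eq_of_mul_eq_mul_left Nat.card_pos h2).symm.le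

end Cfsg.Agent.S0551
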