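import Cfsg.Statements.S0552
import Mathlib
import Cfsg.Agent.H1.Comm

set_option autoImplicit false
open Cfsg

namespace Cfsg.Agent.S0552

open scoped commutatorElement Pointwise


/-- Let σ be an automorphism of a finite solvable group G fixing every element of the Fitting subgroup. If σ is not the identity then the order of σ and the order of G have a common prime factor. -/
theorem result {G : Type*} [Group G] [Finite G] [Group.IsSolvable G] (σ : G ≃* G) (hσ : ∀ x ∈ Cfsg.fittingSubgroup G, σ x = x) (hne : σ ≠ MulEquiv.refl G) : ¬ (orderOf σ).Coprime (Nat.card G) := by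
  intro hco
  apply hne
  refine Cfsg.Agent.H1.aut_eq_one_of_fix σ (Cfsg.fittingSubgroup G) (Cfsg.Agent.L0.centralizer_fitting_le_of_isSolvable (G := G) inferInstance) hσ (orderOf σ) (pow_orderOf_eq_one σ) ?_
  intro z hz hz1
  have h1 : orderOf z ∣ orderOf σ := orderOf_dvd_of_pow_eq_one hz1
  have h2 : orderOf z ∣ Nat.card G := orderOf_dvd_natCard z
  exact orderOf_eq_one_iff.mp (Nat.eq_one_of_dvd_coprimes hco h1 h2)

end Cfsg.Agent.S0552
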