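import Cfsg.Statements.S0553
import Mathlib
import Cfsg.Agent.H1.Hall
import Cfsg.Agent.H3.Omega
import Cfsg.Agent.L0.Coprime

set_option autoImplicit false
open Cfsg

namespace Cfsg.Agent.S0553

open Subgroup in
theorem exists_normal_not_le_frattini {G : Type*} [Group G] [Finite G] [Nontrivial G] [Group.IsSolvable G] :
    ∃ (p : ℕ) (_ : Fact p.Prime) (P : Subgroup G), P.Normal ∧ IsPGroup p P ∧ ¬ P ≤ frattini G := by
  haveI : Nontrivial (G ⧸ frattini G) := by
    rw [QuotientGroup.nontrivial_iff]
    exact H3.frattini_ne_top'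
  obtain ⟨N, hN, hNb, hmin⟩ := H1.exists_minimal_normal (G := G ⧸ frattini G)
  haveI : Group.IsSolvable N := inferInstance
  haveI hNc : IsMulCommutative N := H1.isMulCommutative_of_minimal_of_solvable N hNb hmin
  obtain ⟨p, hp, hNp⟩ := H1.exists_prime_pow_eq_one_of_minimal N hNb hmin
  haveI : Fact p.Prime := ⟨hp⟩
  have hNpg : IsPGroup p N := H1.isPGroup_of_pow_eq_one N hNp
  set K := N.comap (QuotientGroup.mk' (frattini G)) with hK
  have hFK : frattini G ≤ K := by
    intro x hx
    rw [hK, Subgroup.mem_comap, QuotientGroup.mk'_apply, (QuotientGroup.eq_one_iff x).mpr hx]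
    exact one_mem _
  obtain ⟨P⟩ : Nonempty (Sylow p K) := inferInstance
  have hfr := Sylow.normalizer_sup_eq_top P
  set P' := (P : Subgroup K).map K.subtype with hP'
  have hPF : K ≤ P' ⊔ frattini G := by
    -- image of P' in N is everything
    have h1 : P'.map (QuotientGroup.mk' (frattini G)) = N := by
      have hle : P'.map (QuotientGroup.mk' (frattini G)) ≤ N := by
        rw [Subgroup.map_le_iff_le_comap]
        exact Subgroup.map_subtype_le _
      by_contra hne
      -- index is coprime to p
      have h2 : ¬ p ∣ (P : Subgroup K).index := P.not_dvd_index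
      let f : K →* N := (QuotientGroup.mk' (frattini G)).subgroupComap N
      have hf : Function.Surjective f := (QuotientGroup.mk' (frattini G)).subgroupComap_surjective_of_surjective N (QuotientGroup.mk'_surjective _)
      have h3 : ((P : Subgroup K).map f).index ∣ (P : Subgroup K).index := Subgroup.index_map_dvd _ hf
      have h4 : (P : Subgroup K).map f ≠ ⊤ := by
        intro h5
        apply hne
        have h6 : ((P : Subgroup K).map f).map N.subtype = N := by rw [h5, ← MonoidHom.range_eq_map, Subgroup.range_subtype]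
        rw [← h6, hP', Subgroup.map_map, Subgroup.map_map]
        rfl
      obtain ⟨n, hn⟩ := IsPGroup.iff_card.mp hNpg
      have h7 : ((P : Subgroup K).map f).index ∣ p ^ n := by rw [← hn]; exact Subgroup.index_dvd_card _
      obtain ⟨m, -, hm⟩ := (Nat.dvd_prime_pow hp).mp h7
      have hm0 : m ≠ 0 := by
        rintro rfl
        rw [pow_zero, Subgroup.index_eq_one] at hm
        exact h4 hm
      exact h2 ((dvd_pow_self p hm0).trans (hm ▸ h3))
    intro x hx
    have h2 : QuotientGroup.mk' (frattini G) x ∈ P'.map (QuotientGroup.mk' (frattini G)) := by rw [h1]; exact hx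
    obtain ⟨y, hy, hyx⟩ := h2
    rw [QuotientGroup.mk'_apply, QuotientGroup.mk'_apply, QuotientGroup.eq] at hyx
    have := Subgroup.mul_mem_sup hy hyx
    rwa [mul_inv_cancel_left] at this
  have hnt : normalizer (P' : Set G) = ⊤ := by
    apply frattini_nongenerating
    rw [eq_top_iff, ← hfr]
    refine sup_le le_sup_left (hPF.trans (sup_le ?_ le_sup_right))
    exact Subgroup.le_normalizer.trans le_sup_left
  refine ⟨p, ⟨hp⟩, P', Subgroup.normalizer_eq_top_iff.mp hnt, P.2.map _, ?_⟩
  intro h
  have hKF : K ≤ frattini G := hPF.trans (sup_le h le_rfl)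
  apply hNb
  rw [← Subgroup.map_comap_eq_self_of_surjective (QuotientGroup.mk'_surjective (frattini G)) N, ← hK, eq_bot_iff]
  rintro _ ⟨x, hx, rfl⟩
  rw [Subgroup.mem_bot, QuotientGroup.mk'_apply, QuotientGroup.eq_one_iff]
  exact hKF hx

/-- Let G be a nontrivial finite solvable group in which every maximal subgroup has order coprime to its index. Then for some prime p dividing the order of G the Sylow p-subgroups of G are normal. -/
theorem result {G : Type*} [Group G] [Finite G] [Group.IsSolvable G] [Nontrivial G] (h : ∀ M : Subgroup G, IsCoatom M → (Nat.card M).Coprime M.index) : ∃ p : ℕ, p.Prime ∧ p ∣ Nat.card G ∧ ∀ P : Sylow p G, (P : Subgroup G).Normal := by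
  obtain ⟨p, hp, P, hPn, hP, hPF⟩ := exists_normal_not_le_frattini (G := G)
  have hex : ∃ M : Subgroup G, IsCoatom M ∧ ¬ P ≤ M := by
    by_contra hne
    apply hPF
    rw [frattini, Order.radical]
    refine le_iInf fun M => le_iInf fun hM => ?_
    by_contra h
    exact hne ⟨M, hM, h⟩
  obtain ⟨M, hM, hPM⟩ := hex
  have htop : P ⊔ M = ⊤ := by
    rw [sup_comm]; exact hM.2 _ (left_lt_sup.mpr hPM)
  have hPi : P.index = P.relIndex M := by
    rw [← Subgroup.relIndex_top_right, ← htop, Subgroup.relIndex_sup_left]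
  have hPM' : Nat.card (P ⊓ M : Subgroup G) * P.relIndex M = Nat.card M := by
    have := Subgroup.relIndex_mul_relIndex ⊥ (P ⊓ M) M bot_le inf_le_right
    rwa [Subgroup.relIndex_bot_left, Subgroup.relIndex_bot_left, Subgroup.inf_relIndex_right] at this
  have h1 : Nat.card P = Nat.card (P ⊓ M : Subgroup G) * M.index := by
    have h2 := P.card_mul_index
    have h3 := M.card_mul_index
    rw [hPi] at h2
    rw [← hPM', ← h2] at h3
    have hpos : 0 < P.relIndex M := by
      rw [← hPi]; exact Nat.pos_of_ne_zero Subgroup.index_ne_zero_of_finite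
    apply Nat.eq_of_mul_eq_mul_right hpos
    rw [← h3]; ring
  obtain ⟨n, hn⟩ := IsPGroup.iff_card.mp hP
  have h2 : M.index ∣ p ^ n := by rw [← hn, h1]; exact Dvd.intro_left _ rfl
  obtain ⟨m, -, hm⟩ := (Nat.dvd_prime_pow hp.out).mp h2
  have hm0 : m ≠ 0 := by
    rintro rfl
    rw [pow_zero, Subgroup.index_eq_one] at hm
    exact hM.1 hm
  have hpM : p ∣ M.index := hm ▸ dvd_pow_self p hm0
  have hcop := h M hM
  have hnd : ¬ p ∣ P.index := by
    intro hd
    rw [hPi] at hd
    have h4 : p ∣ Nat.card M := hd.trans (by rw [← hPM']; exact Dvd.intro_left _ rfl)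
    exact Nat.Prime.not_dvd_one hp.out (hcop ▸ Nat.dvd_gcd h4 hpM)
  refine ⟨p, hp.out, hpM.trans (Subgroup.index_dvd_card M), ?_⟩
  intro Q
  let S : Sylow p G := hP.toSylow hnd
  haveI := Sylow.unique_of_normal S hPn
  have : Q = S := Subsingleton.elim _ _
  rw [this]; exact hPn

end Cfsg.Agent.S0553
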