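import Cfsg.Statements.S0554
import Mathlib
import Cfsg.Agent.H1.Prim

set_option autoImplicit false
open Cfsg

namespace Cfsg.Agent.S0554

open scoped commutatorElement Pointwise
open Cfsg.Agent.H1 in
theorem ofFn_mul_mem {G : Type*} [Group G] (M : Subgroup G) [hM : M.Normal] : ∀ (t : ℕ) (s : Fin t → G) (j : Fin t) (m : G), m ∈ M →
    ∃ m' ∈ M, (List.ofFn s).prod * m = (List.ofFn (Function.update s j (s j * m'))).prod := by
  intro t
  induction t with
  | zero => intro s j; exact j.elim0
  | succ t ih =>
    intro s j m hm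
    rw [List.ofFn_succ, List.prod_cons]
    refine Fin.cases ?_ (fun j => ?_) j
    · refine ⟨(List.ofFn fun i : Fin t => s i.succ).prod * m * (List.ofFn fun i : Fin t => s i.succ).prod⁻¹, hM.conj_mem m hm _, ?_⟩
      rw [List.ofFn_succ, List.prod_cons, Function.update_self]
      have : (fun i : Fin t => Function.update s 0 (s 0 * ((List.ofFn fun i : Fin t => s i.succ).prod * m * (List.ofFn fun i : Fin t => s i.succ).prod⁻¹)) i.succ) = fun i => s i.succ := by
        funext i
        rw [Function.update_of_ne (Fin.succ_ne_zero i)]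
      rw [this]
      group
    · obtain ⟨m', hm', h⟩ := ih (fun i => s i.succ) j m hm
      refine ⟨m', hm', ?_⟩
      rw [List.ofFn_succ, List.prod_cons, mul_assoc, h, Function.update_of_ne (Fin.succ_ne_zero j).symm]
      congr 2
      congr 1
      funext i
      by_cases hij : i = j
      · subst hij; simp
      · rw [Function.update_of_ne hij, Function.update_of_ne (fun h => hij (Fin.succ_injective _ h))]

universe u in
theorem aux (n : ℕ) : ∀ (G : Type u) [Group G] [Finite G] [Group.IsSolvable G], Nat.card G = n → ∀ (t : ℕ) (p : Fin t → ℕ) (hp : ∀ i, (p i).Prime)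
    (hall : ∀ q : ℕ, q.Prime → q ∣ Nat.card G → ∃ i, p i = q) (S : (i : Fin t) → Sylow (p i) G),
    ∀ g : G, ∃ s : (i : Fin t) → G, (∀ i, s i ∈ (S i : Subgroup G)) ∧ g = (List.ofFn s).prod := by
  induction n using Nat.strong_induction_on with
  | _ n ih =>
  intro G _ _ _ hn t p hp hall S g
  by_cases hG : Nontrivial G
  · obtain ⟨M, hMn, hMb, hmin⟩ := Cfsg.Agent.H1.exists_minimal_normal (G := G)
    have hcard : Nat.card (G ⧸ M) < n := by
      have h3 := Subgroup.card_eq_card_quotient_mul_card_subgroup M
      have h4 : 1 < Nat.card M := by rw [Subgroup.one_lt_card_iff_ne_bot]; exact hMb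
      have h5 : 0 < Nat.card (G ⧸ M) := Nat.card_pos
      rw [← hn, h3]
      nlinarith
    haveI : Group.IsSolvable M := inferInstance
    haveI := Cfsg.Agent.H1.isMulCommutative_of_minimal_of_solvable M hMb hmin
    obtain ⟨q, hq, hqx⟩ := Cfsg.Agent.H1.exists_prime_pow_eq_one_of_minimal M hMb hmin
    haveI : Fact q.Prime := ⟨hq⟩
    have hMq := Cfsg.Agent.H1.isPGroup_of_pow_eq_one M hqx
    have hqd : q ∣ Nat.card G := by
      obtain ⟨a, ha⟩ := IsPGroup.iff_card.mp hMq
      have h1 : a ≠ 0 := by
        rintro rfl
        rw [pow_zero, Subgroup.card_eq_one] at ha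
        exact hMb ha
      exact (dvd_pow_self q h1).trans (ha ▸ Subgroup.card_subgroup_dvd_card M)
    obtain ⟨j, hj⟩ := hall q hq hqd
    haveI hpf : ∀ i, Fact (p i).Prime := fun i => ⟨hp i⟩
    have hMS : M ≤ S j := by
      have : IsPGroup (p j) M := by rw [hj]; exact hMq
      exact Cfsg.Agent.L0.normal_le_sylow this (S j)
    obtain ⟨s', hs', hprod⟩ := ih _ hcard (G ⧸ M) rfl t p hp
      (fun q hq hd => hall q hq (hd.trans (Subgroup.card_quotient_dvd_card M)))
      (fun i => (S i).mapSurjective (QuotientGroup.mk'_surjective M)) (QuotientGroup.mk' M g)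
    have hs2 : ∀ i, ∃ x ∈ (S i : Subgroup G), QuotientGroup.mk' M x = s' i := by
      intro i
      have := hs' i
      rw [Sylow.coe_mapSurjective] at this
      exact this
    choose s hs hss using hs2
    have h1 : QuotientGroup.mk' M g = QuotientGroup.mk' M (List.ofFn s).prod := by
      rw [hprod, map_list_prod, List.map_ofFn]
      congr 2
      funext i
      exact (hss i).symm
    have h2 : (List.ofFn s).prod⁻¹ * g ∈ M := by
      rw [← QuotientGroup.eq]; exact h1.symm
    obtain ⟨m', hm', h3⟩ := ofFn_mul_mem M t s j _ h2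
    refine ⟨Function.update s j (s j * m'), ?_, ?_⟩
    · intro i
      by_cases hij : i = j
      · subst hij
        rw [Function.update_self]
        exact Subgroup.mul_mem _ (hs i) (hMS hm')
      · rw [Function.update_of_ne hij]; exact hs i
    · rw [← h3]; group
  · rw [not_nontrivial_iff_subsingleton] at hG
    exact ⟨fun _ => 1, fun i => Subgroup.one_mem _, Subsingleton.elim _ _⟩

/-- Let G be a finite solvable group and let S assign to each of t distinct primes, including every prime divisor of the order of G, a Sylow subgroup of G. Then every element of G is a product s_0 s_1 ⋯ s_(t-1) with s_i in S i, the factors taken in the given order. -/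
theorem result {G : Type*} [Group G] [Finite G] [Group.IsSolvable G] (t : ℕ) (p : Fin t → ℕ) (hp : ∀ i, (p i).Prime) (hinj : Function.Injective p) (hall : ∀ q : ℕ, q.Prime → q ∣ Nat.card G → ∃ i, p i = q) (S : (i : Fin t) → Sylow (p i) G) : ∀ g : G, ∃ s : (i : Fin t) → G, (∀ i, s i ∈ (S i : Subgroup G)) ∧ g = (List.ofFn s).prod := by
  exact aux _ G rfl t p hp hall S

end Cfsg.Agent.S0554
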