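import Cfsg.Statements.S0555
import Mathlib
import Cfsg.Agent.H1.Basic

set_option autoImplicit false
open Cfsg

namespace Cfsg.Agent.S0555

open scoped commutatorElement Pointwise
theorem exists_gen {G : Type*} [Group G] {A B : Subgroup G} [(B.subgroupOf A).Normal] (h : IsCyclic (↥A ⧸ B.subgroupOf A)) :
    ∃ a ∈ A, ∀ x ∈ A, ∃ k : ℤ, ∃ b ∈ B, x = a ^ k * b := by
  obtain ⟨g, hg⟩ := h.exists_generator
  obtain ⟨a, rfl⟩ := QuotientGroup.mk_surjective g
  refine ⟨a, a.2, ?_⟩
  intro x hx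
  obtain ⟨k, hk⟩ := Subgroup.mem_zpowers_iff.mp (hg ((⟨x, hx⟩ : A) : ↥A ⧸ B.subgroupOf A))
  rw [← QuotientGroup.mk_zpow, QuotientGroup.eq, Subgroup.mem_subgroupOf] at hk
  refine ⟨k, ((a : G) ^ k)⁻¹ * x, hk, by group⟩

/-- Let i ≥ 1. If in the derived series of a group the quotient of the i-th term by the (i+1)-st and the quotient of the (i+1)-st by the (i+2)-nd are both cyclic, then the (i+1)-st and (i+2)-nd terms coincide. -/
theorem result {G : Type*} [Group G] (i : ℕ) (hi : 1 ≤ i) (h₁ : IsCyclic (↥(derivedSeries G i) ⧸ (derivedSeries G (i + 1)).subgroupOf (derivedSeries G i))) (h₂ : IsCyclic (↥(derivedSeries G (i + 1)) ⧸ (derivedSeries G (i + 2)).subgroupOf (derivedSeries G (i + 1)))) : derivedSeries G (i + 1) = derivedSeries G (i + 2) := by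
  set A := derivedSeries G i with hA
  set B := derivedSeries G (i + 1) with hB
  set C := derivedSeries G (i + 2) with hC
  haveI : A.Normal := derivedSeries_normal G i
  haveI : B.Normal := derivedSeries_normal G (i + 1)
  haveI hCn : C.Normal := derivedSeries_normal G (i + 2)
  have hBA : B = ⁅A, A⁆ := derivedSeries_succ G i
  have hCB : C ≤ B := derivedSeries_antitone G (Nat.le_succ _)
  obtain ⟨a, ha, hagen⟩ := exists_gen h₁
  obtain ⟨b, hb, hbgen⟩ := exists_gen h₂
  apply le_antisymm _ hCB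
  -- conj action on b mod C
  have hconj : ∀ g : G, ∃ k : ℤ, QuotientGroup.mk' C (g * b * g⁻¹) = QuotientGroup.mk' C b ^ k := by
    intro g
    obtain ⟨k, c, hc, h⟩ := hbgen (g * b * g⁻¹) ((inferInstance : B.Normal).conj_mem b hb g)
    refine ⟨k, ?_⟩
    rw [h, map_mul, map_zpow]
    have : QuotientGroup.mk' C c = 1 := (QuotientGroup.eq_one_iff c).mpr hc
    rw [this, mul_one]
  set π := QuotientGroup.mk' C with hπ
  have hcomm : ∀ g h : G, Commute (π ⁅g, h⁆) (π b) := by
    intro g h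
    obtain ⟨k, hk⟩ := hconj g⁻¹
    obtain ⟨l, hl⟩ := hconj h⁻¹
    rw [map_mul, map_mul] at hk hl
    simp only [map_inv, inv_inv] at hk hl
    -- g⁻¹ b g = b^k, h⁻¹ b h = b^l
    have h1 : (π g)⁻¹ * (π h)⁻¹ * π b * (π h) * (π g) = (π h)⁻¹ * (π g)⁻¹ * π b * (π g) * (π h) := by
      calc (π g)⁻¹ * (π h)⁻¹ * π b * (π h) * (π g) = (π g)⁻¹ * ((π h)⁻¹ * π b * (π h)) * (π g) := by group
        _ = (π g)⁻¹ * (π b ^ l) * (π g) := by rw [hl]
        _ = ((π g)⁻¹ * π b * (π g)) ^ l := by
              have := conj_zpow (i := l) (a := (π g)⁻¹) (b := π b)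
              rw [inv_inv] at this
              exact this.symm
        _ = π b ^ (k * l) := by rw [hk, zpow_mul]
        _ = π b ^ (l * k) := by rw [mul_comm]
        _ = ((π h)⁻¹ * π b * (π h)) ^ k := by rw [hl, zpow_mul]
        _ = (π h)⁻¹ * (π b ^ k) * (π h) := by
              have := conj_zpow (i := k) (a := (π h)⁻¹) (b := π b)
              rw [inv_inv] at this
              exact this
        _ = (π h)⁻¹ * ((π g)⁻¹ * π b * (π g)) * (π h) := by rw [hk]
        _ = _ := by group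
    rw [commutatorElement_def, map_mul, map_mul, map_mul, map_inv, map_inv]
    show π g * π h * (π g)⁻¹ * (π h)⁻¹ * π b = π b * (π g * π h * (π g)⁻¹ * (π h)⁻¹)
    calc π g * π h * (π g)⁻¹ * (π h)⁻¹ * π b
        = π g * π h * ((π g)⁻¹ * (π h)⁻¹ * π b * (π h) * (π g)) * ((π g)⁻¹ * (π h)⁻¹) := by group
      _ = π g * π h * ((π h)⁻¹ * (π g)⁻¹ * π b * (π g) * (π h)) * ((π g)⁻¹ * (π h)⁻¹) := by rw [h1]
      _ = _ := by group
  have hG' : commutator G ≤ (Subgroup.centralizer {π b}).comap π := by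
    rw [commutator_def, Subgroup.commutator_le]
    intro g _ h _
    rw [Subgroup.mem_comap, Subgroup.mem_centralizer_singleton_iff]
    exact hcomm g h
  have hAG' : A ≤ commutator G := by
    rw [← derivedSeries_one]
    exact derivedSeries_antitone G hi
  have hAb : ∀ x ∈ A, Commute (π x) (π b) := by
    intro x hx
    have := hG' (hAG' hx)
    rw [Subgroup.mem_comap, Subgroup.mem_centralizer_singleton_iff] at this
    exact this
  have hBz : ∀ y ∈ B, ∀ x ∈ A, Commute (π x) (π y) := by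
    intro y hy x hx
    obtain ⟨k, c, hc, rfl⟩ := hbgen y hy
    have hc1 : π c = 1 := (QuotientGroup.eq_one_iff c).mpr hc
    rw [map_mul, hc1, mul_one, map_zpow]
    exact (hAb x hx).zpow_right k
  rw [hBA, Subgroup.commutator_le]
  intro x hx y hy
  obtain ⟨k, u, hu, rfl⟩ := hagen x hx
  obtain ⟨l, v, hv, rfl⟩ := hagen y hy
  rw [← QuotientGroup.eq_one_iff (N := C)]
  have hBA' : B ≤ A := derivedSeries_antitone G (Nat.le_succ _)
  have c1 : Commute (π a ^ k) (π a ^ l) := (Commute.refl (π a)).zpow_zpow k l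
  have c2 : Commute (π a ^ k) (π v) := (hBz v hv a ha).zpow_left k
  have c3 : Commute (π u) (π a ^ l) := ((hBz u hu a ha).symm).zpow_right l
  have c4 : Commute (π u) (π v) := hBz v hv u (hBA' hu)
  have h5 : Commute (π (a ^ k * u)) (π (a ^ l * v)) := by
    rw [map_mul, map_mul, map_zpow, map_zpow]
    exact (c1.mul_right c2).mul_left (c3.mul_right c4)
  have h6 : π ⁅a ^ k * u, a ^ l * v⁆ = 1 := by
    rw [map_commutatorElement]
    exact commutatorElement_eq_one_iff_commute.mpr h5
  exact h6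

end Cfsg.Agent.S0555
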