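import Cfsg.Statements.S0557
import Mathlib
import Cfsg.Agent.H1.Coprime3
import Cfsg.Agent.S0080

set_option autoImplicit false
open Cfsg

namespace Cfsg.Agent.S0557

open scoped commutatorElement Pointwise
theorem foc_mono {G : Type*} [Group G] {H K : Subgroup G} (h : H ≤ K) : Subgroup.focalSubgroup H ≤ Subgroup.focalSubgroup K := by
  apply Subgroup.closure_mono
  rintro g ⟨h1, x, hx, u, e⟩
  exact ⟨h h1, x, h hx, u, e⟩

theorem foc_map {G : Type*} [Group G] {N : Subgroup G} (K : Subgroup N) :
    (Subgroup.focalSubgroup K).map N.subtype ≤ Subgroup.focalSubgroup (K.map N.subtype) := by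
  rw [Subgroup.map_le_iff_le_comap, Subgroup.focalSubgroup, Subgroup.closure_le]
  rintro g ⟨h1, x, hx, u, e⟩
  apply Subgroup.subset_closure
  refine ⟨⟨g, h1, rfl⟩, x, ⟨x, hx, rfl⟩, u, ?_⟩
  rw [e]; rfl

theorem foc_iter {G : Type*} [Group G] {N : Subgroup G} (n : ℕ) : ∀ (K : Subgroup N) (L : Subgroup G), K.map N.subtype ≤ L →
    ((fun K : Subgroup N => Subgroup.focalSubgroup K)^[n] K).map N.subtype ≤ (fun K : Subgroup G => Subgroup.focalSubgroup K)^[n] L := by
  induction n with
  | zero => intro K L h; exact h
  | succ n ih =>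
    intro K L h
    rw [Function.iterate_succ_apply, Function.iterate_succ_apply]
    apply ih
    exact (foc_map K).trans (foc_mono h)

universe u in
theorem aux (n : ℕ) : ∀ (G : Type u) [Group G] [Finite G] (H : Subgroup G), (Nat.card H).Coprime H.index →
    (fun K : Subgroup G => Subgroup.focalSubgroup K)^[n] H = ⊥ → ∃ N : Subgroup G, N.Normal ∧ Subgroup.IsComplement' N H := by
  induction n with
  | zero =>
    intro G _ _ H h1 h2
    have h2' : H = ⊥ := h2
    refine ⟨⊤, inferInstance, ?_⟩
    rw [h2']
    exact Subgroup.isComplement'_top_bot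
  | succ n ih =>
    intro G _ _ H h1 h2
    rw [Function.iterate_succ_apply] at h2
    have hc : Nat.Coprime H.index (⁅H, H⁆.relIndex H) := by
      apply Nat.Coprime.coprime_dvd_right _ h1.symm
      exact Subgroup.relIndex_dvd_card _ _
    obtain ⟨hf, N, hN, hNH, hsup⟩ := Cfsg.Agent.S0080.result H hc
    have hfN : Subgroup.focalSubgroup H ≤ N := by rw [hf, ← hNH]; exact inf_le_left
    set F := Subgroup.focalSubgroup H with hF
    have hFe : F = N ⊓ H := by rw [hf, hNH]
    have hidx : (F.subgroupOf N).index = H.index := by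
      show F.relIndex N = H.index
      rw [hFe]
      have := Cfsg.Agent.H1.index_eq_relIndex_of_sup_eq_top (N := N) (M := H) hsup
      exact this.symm
    have hcF : Nat.card (F.subgroupOf N) = Nat.card F := by
      rw [← Cfsg.Agent.L0.card_map_subtype N (F.subgroupOf N), Subgroup.map_subgroupOf_eq_of_le hfN]
    have hFH : F ≤ H := by rw [hFe]; exact inf_le_right
    have hcop : (Nat.card (F.subgroupOf N)).Coprime (F.subgroupOf N).index := by
      rw [hcF, hidx]
      exact Nat.Coprime.coprime_dvd_left (Subgroup.card_dvd_of_le hFH) h1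
    have hit : (fun K : Subgroup N => Subgroup.focalSubgroup K)^[n] (F.subgroupOf N) = ⊥ := by
      have h3 := foc_iter n (F.subgroupOf N) F (by rw [Subgroup.map_subgroupOf_eq_of_le hfN])
      rw [h2, le_bot_iff, Subgroup.map_eq_bot_iff_of_injective _ N.subtype_injective] at h3
      exact h3
    obtain ⟨M', hM'n, hM'c⟩ := ih N (F.subgroupOf N) hcop hit
    have hM'card : Nat.card M' = H.index := by rw [← hidx]; exact hM'c.index_eq_card.symm
    have hM'idx : M'.index = Nat.card F := by rw [← hcF]; exact hM'c.symm.index_eq_card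
    set M := M'.map N.subtype with hM
    have hMN : M ≤ N := Subgroup.map_subtype_le _
    have hMcard : Nat.card M = H.index := by rw [hM, Cfsg.Agent.L0.card_map_subtype, hM'card]
    have hMn : M.Normal := by
      constructor
      rintro _ ⟨x, hx, rfl⟩ g
      have hxN : g * (x : G) * g⁻¹ ∈ N := hN.conj_mem x x.2 g
      refine ⟨⟨_, hxN⟩, ?_, rfl⟩
      -- order coprime to index of M'
      have ho : orderOf (⟨_, hxN⟩ : N) ∣ Nat.card M' := by
        have e1 : orderOf (⟨_, hxN⟩ : N) = orderOf (x : G) := by
          rw [← Subgroup.orderOf_coe]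
          show orderOf (g * (x : G) * g⁻¹) = _
          rw [← MulAut.conj_apply, MulEquiv.orderOf_eq]
        rw [e1, Subgroup.orderOf_coe]
        exact Subgroup.orderOf_dvd_natCard M' hx
      have hcM : (Nat.card M').Coprime M'.index := by
        rw [hM'card, hM'idx]
        exact (Nat.Coprime.coprime_dvd_left (Subgroup.card_dvd_of_le hFH) h1).symm
      show (⟨_, hxN⟩ : N) ∈ M'
      rw [← QuotientGroup.eq_one_iff (N := M')]
      have e2 : orderOf ((⟨_, hxN⟩ : N) : N ⧸ M') ∣ Nat.card M' := (orderOf_map_dvd (QuotientGroup.mk' M') _).trans ho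
      have e3 : orderOf ((⟨_, hxN⟩ : N) : N ⧸ M') ∣ M'.index := orderOf_dvd_natCard _
      exact orderOf_eq_one_iff.mp (Nat.eq_one_of_dvd_coprimes hcM e2 e3)
    refine ⟨M, hMn, ?_⟩
    apply Subgroup.isComplement'_of_card_mul_and_disjoint
    · rw [hMcard, mul_comm]; exact H.card_mul_index
    · rw [disjoint_iff, eq_bot_iff]
      rintro x hx
      obtain ⟨y, hy, hyx⟩ := hx.1
      have hxN : x ∈ N := hMN hx.1
      have hxF : x ∈ F := by rw [hFe]; exact ⟨hxN, hx.2⟩
      have h5 : y ∈ M' ⊓ F.subgroupOf N := by
        refine ⟨hy, ?_⟩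
        show (N.subtype y) ∈ F
        rw [hyx]; exact hxF
      rw [hM'c.disjoint.eq_bot, Subgroup.mem_bot] at h5
      rw [Subgroup.mem_bot, ← hyx, h5]; rfl

/-- Let H be a subgroup of a finite group G with order coprime to its index. If iterating the focal-subgroup construction starting from H reaches the trivial subgroup after finitely many steps, then H has a normal complement in G. -/
theorem result {G : Type*} [Group G] [Finite G] (H : Subgroup G) (hHall : (Nat.card H).Coprime H.index) (n : ℕ) (hfoc : (fun K : Subgroup G => Subgroup.focalSubgroup K)^[n] H = ⊥) : ∃ N : Subgroup G, N.Normal ∧ Subgroup.IsComplement' N H := by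
  exact aux n G H hHall hfoc

end Cfsg.Agent.S0557
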