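import Cfsg.Statements.S0558
import Mathlib
import Cfsg.Agent.H3.NilHall

set_option autoImplicit false
open Cfsg

namespace Cfsg.Agent.S0558

open Subgroup Pointwise

theorem complement_of_npc {G : Type*} [Group G] [Finite G] {H : Subgroup G} (hHall : (Nat.card H).Coprime H.index)
    (h : ∀ p : ℕ, ∀ _ : Fact p.Prime, p ∣ Nat.card H → HasNormalPComplement p G) : ∃ N : Subgroup G, N.Normal ∧ Subgroup.IsComplement' N H := by
  classical
  have hN : ∀ p : (Nat.card H).primeFactors, ∃ N : Subgroup G, N.Normal ∧ (Nat.card N).Coprime p ∧ ∃ k, N.index = (p : ℕ) ^ k := by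
    intro p
    have hp := Nat.prime_of_mem_primeFactors p.2
    haveI := Fact.mk hp
    exact H1.hasNormalPComplement_iff.mp (h p ⟨hp⟩ (Nat.dvd_of_mem_primeFactors p.2))
  choose N hNn hNc hNi using hN
  have hN1 : ∀ p, (N p).index = (p : ℕ) ^ (Nat.card H).factorization p := by
    intro p
    have hp := Nat.prime_of_mem_primeFactors p.2
    obtain ⟨k, hk⟩ := hNi p
    rw [hk]
    congr 1
    have h1 : (Nat.card G).factorization p = k := by
      have h3 : (Nat.card (N p)).factorization p = 0 := by
        apply Nat.factorization_eq_zero_of_not_dvd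
        intro hd
        have := Nat.eq_one_of_dvd_coprimes (hNc p) hd dvd_rfl
        exact hp.one_lt.ne' this
      rw [← (N p).card_mul_index, hk, Nat.factorization_mul Nat.card_pos.ne' (pow_ne_zero _ hp.ne_zero), Finsupp.add_apply, h3, zero_add, hp.factorization_pow, Finsupp.single_eq_same]
    have h2 : (Nat.card G).factorization p = (Nat.card H).factorization p := by
      have h3 : (H.index).factorization p = 0 := by
        apply Nat.factorization_eq_zero_of_not_dvd
        intro hd
        have := Nat.eq_one_of_dvd_coprimes hHall (Nat.dvd_of_mem_primeFactors p.2) hd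
        exact hp.one_lt.ne' this
      rw [← H.card_mul_index, Nat.factorization_mul Nat.card_pos.ne' Subgroup.index_ne_zero_of_finite, Finsupp.add_apply, h3, add_zero]
    rw [← h1, h2]
  set M : Subgroup G := ⨅ p, N p with hM
  have hMn : M.Normal := Subgroup.normal_iInf_normal hNn
  have hMi : M.index ≤ Nat.card H := by
    refine (Subgroup.index_iInf_le N).trans ?_
    have h1 : ∏ p : (Nat.card H).primeFactors, (N p).index = Nat.card H := by
      have h2 := Nat.factorization_prod_pow_eq_self (n := Nat.card H) Nat.card_pos.ne'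
      rw [Finsupp.prod, Nat.support_factorization] at h2
      rw [Finset.prod_congr rfl (fun p _ => hN1 p)]
      rw [Finset.prod_coe_sort (Nat.card H).primeFactors (fun p => p ^ (Nat.card H).factorization p)]
      exact h2
    exact h1.le
  have hcop : (Nat.card M).Coprime (Nat.card H) := by
    rw [Nat.coprime_iff_gcd_eq_one]
    by_contra hne
    obtain ⟨p, hp, hd⟩ := Nat.exists_prime_and_dvd hne
    have h1 : p ∣ Nat.card M := hd.trans (Nat.gcd_dvd_left _ _)
    have h2 : p ∣ Nat.card H := hd.trans (Nat.gcd_dvd_right _ _)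
    have hmem : p ∈ (Nat.card H).primeFactors := Nat.mem_primeFactors.mpr ⟨hp, h2, Nat.card_pos.ne'⟩
    have h3 : p ∣ Nat.card (N ⟨p, hmem⟩) := h1.trans (Subgroup.card_dvd_of_le (iInf_le _ _))
    exact hp.one_lt.ne' (Nat.eq_one_of_dvd_coprimes (hNc ⟨p, hmem⟩) h3 dvd_rfl)
  refine ⟨M, hMn, Subgroup.isComplement'_of_coprime ?_ hcop⟩
  have h1 : Nat.card ↥(M ⊔ H) = Nat.card M * Nat.card H :=
    L0.card_sup_of_normalizes (by rw [Subgroup.normalizer_eq_top]; exact le_top) (L0.inf_eq_bot_of_coprime' hcop)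
  have h2 : Nat.card M * Nat.card H ≤ Nat.card G := by
    rw [← h1]; exact Subgroup.card_le_card_group _
  have h3 := M.card_mul_index
  apply le_antisymm h2
  rw [← h3]
  exact Nat.mul_le_mul_left _ hMi

theorem main {G : Type*} [Group G] [Finite G] (H : Subgroup G) (hnot : ∀ p : ℕ, p.Prime → ∀ P : Sylow p G, (P : Subgroup G) ≠ H) (hnorm : ∀ p : ℕ, p.Prime → p ∣ Nat.card H → ∀ P : Sylow p H, Subgroup.normalizer (((P : Subgroup H).map H.subtype : Subgroup G) : Set G) = H) : ∃ N : Subgroup G, N.Normal ∧ Subgroup.IsComplement' N H := by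
  -- H is nilpotent
  have hSn : ∀ (p : ℕ) [Fact p.Prime] (P : Sylow p H), (P : Subgroup H).Normal := by
    intro p hp P
    by_cases hd : p ∣ Nat.card H
    · have h1 := hnorm p hp.out hd P
      refine ⟨fun x hx g => ?_⟩
      have h2 : (g : G) ∈ Subgroup.normalizer (((P : Subgroup H).map H.subtype : Subgroup G) : Set G) := by rw [h1]; exact g.2
      obtain ⟨y, hy, hyx⟩ := (Subgroup.mem_normalizer_iff.mp h2 (x : G)).mp ⟨x, hx, rfl⟩
      have : y = g * x * g⁻¹ := Subtype.ext hyx
      rw [← this]; exact hy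
    · have hb : (P : Subgroup H) = ⊥ := by
        rw [← Subgroup.card_eq_one]
        obtain ⟨k, hk⟩ := IsPGroup.iff_card.mp P.2
        rcases Nat.eq_zero_or_pos k with h0 | h0
        · rw [h0, pow_zero] at hk; exact hk
        · exact absurd ((dvd_pow_self p h0.ne').trans (hk ▸ Subgroup.card_subgroup_dvd_card (P : Subgroup H))) hd
      rw [hb]; infer_instance
  have hHn : Group.IsNilpotent H := by
    apply ((Group.isNilpotent_of_finite_tfae (G := H)).out 0 3).mpr
    intro p hp P
    exact @hSn p hp P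
  -- H is a Hall subgroup
  have hHall : (Nat.card H).Coprime H.index := by
    rw [Nat.coprime_iff_gcd_eq_one]
    by_contra hne
    obtain ⟨p, hp, hd⟩ := Nat.exists_prime_and_dvd hne
    haveI := Fact.mk hp
    have h1 : p ∣ Nat.card H := hd.trans (Nat.gcd_dvd_left _ _)
    have h2 : p ∣ H.index := hd.trans (Nat.gcd_dvd_right _ _)
    obtain ⟨P⟩ : Nonempty (Sylow p H) := inferInstance
    set P' := (P : Subgroup H).map H.subtype with hP'
    obtain ⟨n, hn⟩ := IsPGroup.iff_card.mp P.2
    have hcP : Nat.card P' = p ^ n := by rw [hP', Subgroup.card_map_of_injective H.subtype_injective]; exact hn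
    have h3 : p ^ (n + 1) ∣ Nat.card G := by
      rw [← H.card_mul_index, pow_succ]
      apply mul_dvd_mul _ h2
      rw [← hn]; exact Subgroup.card_subgroup_dvd_card (P : Subgroup H)
    have h4 := Sylow.prime_dvd_card_quotient_normalizer h3 hcP
    have h5 := hnorm p hp h1 P
    have h6 : p ∣ P'.relIndex (Subgroup.normalizer (P' : Set G)) := h4
    rw [h5] at h6
    apply P.not_dvd_index
    rw [Subgroup.relIndex, Subgroup.subgroupOf, hP', Subgroup.comap_map_eq_self_of_injective H.subtype_injective] at h6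
    exact h6
  apply complement_of_npc hHall
  intro p hp hpH
  obtain ⟨R, hRH, hHR, hRc, ⟨k, hk⟩, hRC, hRmem⟩ := H3.nil_split H hHn p
  obtain ⟨P⟩ : Nonempty (Sylow p H) := inferInstance
  set P' := (P : Subgroup H).map H.subtype with hP'
  have hP'p : IsPGroup p P' := P.2.map _
  have hP'H : P' ≤ H := Subgroup.map_subtype_le _
  have hP'i : ¬ p ∣ P'.index := by
    intro hd
    have h1 : P'.relIndex H * H.index = P'.index := Subgroup.relIndex_mul_index hP'H
    rw [← h1] at hd
    rcases hp.out.dvd_mul.mp hd with h2 | h2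
    · apply P.not_dvd_index
      rw [Subgroup.relIndex, Subgroup.subgroupOf, hP', Subgroup.comap_map_eq_self_of_injective H.subtype_injective] at h2
      exact h2
    · exact hp.out.one_lt.ne' (Nat.eq_one_of_dvd_coprimes hHall hpH h2)
  -- R ≠ ⊥
  have hRb : Nat.card R ≠ 1 := by
    intro h1
    rw [h1, one_mul] at hk
    have hHp : IsPGroup p H := IsPGroup.of_card hk
    have hHi : ¬ p ∣ H.index := fun hd => hp.out.one_lt.ne' (Nat.eq_one_of_dvd_coprimes hHall hpH hd)
    exact hnot p hp.out (hHp.toSylow hHi) rfl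
  have hRnorm : Subgroup.normalizer (R : Set G) ≤ H := by
    obtain ⟨r, hr, hrd⟩ := Nat.exists_prime_and_dvd hRb
    haveI := Fact.mk hr
    obtain ⟨S⟩ : Nonempty (Sylow r H) := inferInstance
    have hrp : r ≠ p := by
      rintro rfl
      exact hr.one_lt.ne' (Nat.eq_one_of_dvd_coprimes hRc hrd dvd_rfl)
    have hrH : r ∣ Nat.card H := hrd.trans (Subgroup.card_dvd_of_le hRH)
    have hSR : (S : Subgroup H).map H.subtype ≤ R := by
      rintro _ ⟨s, hs, rfl⟩
      apply hRmem _ s.2
      obtain ⟨j, hj⟩ := S.2 ⟨s, hs⟩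
      have h1 : orderOf (s : G) ∣ r ^ j := by
        apply orderOf_dvd_of_pow_eq_one
        have := congrArg Subtype.val hj
        exact congrArg Subtype.val this
      exact Nat.Coprime.coprime_dvd_left h1 (Nat.Coprime.pow_left j ((Nat.coprime_primes hr hp.out).mpr hrp))
    rw [← hnorm r hr hrH S]
    intro g hg
    apply Subgroup.mem_normalizer_fintype
    rintro _ ⟨s, hs, rfl⟩
    have h1 : g * (s : G) * g⁻¹ ∈ R := (Subgroup.mem_normalizer_iff.mp hg _).mp (hSR ⟨s, hs, rfl⟩)
    have h2 := hRH h1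
    -- it is an r-element of H
    have h3 : IsPGroup r (Subgroup.zpowers (⟨g * (s : G) * g⁻¹, h2⟩ : H)) := by
      obtain ⟨j, hj⟩ := S.2 ⟨s, hs⟩
      have h4 : orderOf (⟨g * (s : G) * g⁻¹, h2⟩ : H) ∣ r ^ j := by
        apply orderOf_dvd_of_pow_eq_one
        apply Subtype.ext
        have h5 : (s : G) ^ r ^ j = 1 := congrArg Subtype.val (congrArg Subtype.val hj)
        show (g * (s : G) * g⁻¹) ^ r ^ j = 1
        rw [conj_pow, h5]; group
      obtain ⟨m, -, hm⟩ := (Nat.dvd_prime_pow hr).mp h4
      exact IsPGroup.of_card (n := m) (by rw [Nat.card_zpowers, hm])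
    obtain ⟨T, hT⟩ := h3.exists_le_sylow
    haveI := Sylow.unique_of_normal S (hSn r S)
    have hTS : T = S := Subsingleton.elim _ _
    rw [hTS] at hT
    exact ⟨_, hT (Subgroup.mem_zpowers _), rfl⟩
  have hRcop : (Nat.card R).Coprime R.index := by
    have hRi : R.index = p ^ k * H.index := by
      apply Nat.eq_of_mul_eq_mul_left (Nat.card_pos (α := R))
      rw [R.card_mul_index, ← H.card_mul_index, hk]; ring
    rw [hRi]
    refine Nat.Coprime.mul_right (hRc.pow_right k) (Nat.Coprime.coprime_dvd_left ?_ hHall)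
    rw [hk]; exact Dvd.intro _ rfl
  have hPR : H = P' ⊔ R := by
    have hPN : P' ≤ Subgroup.normalizer (R : Set G) := hP'H.trans hHR
    have h1 : Nat.card ↥(R ⊔ P') = Nat.card R * Nat.card P' := by
      apply L0.card_sup_of_normalizes hPN
      apply L0.inf_eq_bot_of_coprime'
      obtain ⟨n, hn⟩ := IsPGroup.iff_card.mp hP'p
      rw [hn]; exact hRc.pow_right n
    rw [sup_comm]
    symm
    apply Subgroup.eq_of_le_of_card_ge (sup_le hRH hP'H)
    rw [h1, hk]
    apply Nat.mul_le_mul_left
    -- card P' = p^k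
    have hcP : Nat.card P' = p ^ (Nat.card H).factorization p := by
      rw [hP', Subgroup.card_map_of_injective H.subtype_injective]; exact P.card_eq_multiplicity
    rw [hcP, hk, Nat.factorization_mul Nat.card_pos.ne' (pow_ne_zero _ hp.out.ne_zero), Finsupp.add_apply, hp.out.factorization_pow, Finsupp.single_eq_same]
    exact Nat.pow_le_pow_right hp.out.pos (Nat.le_add_left _ _)
  apply H3.npc_of_fusion (hP'p.toSylow hP'i)
  intro a ha _ g hga
  have ha' : a ∈ P' := ha
  have hga' : g * a * g⁻¹ ∈ P' := hga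
  set C := Subgroup.centralizer ({g * a * g⁻¹} : Set G) with hC
  have hRC1 : R ≤ C := by
    intro r hr
    rw [hC, Subgroup.mem_centralizer_singleton_iff]
    have := Subgroup.mem_centralizer_iff.mp (hRC P' hP'H hP'p hr) _ hga'
    exact this.symm
  have hRC2 : MulAut.conj g • R ≤ C := by
    intro x hx
    rw [L0.mem_conj_smul] at hx
    rw [hC, Subgroup.mem_centralizer_singleton_iff]
    have h1 := Subgroup.mem_centralizer_iff.mp (hRC P' hP'H hP'p hx) _ ha'
    have h2 : x * (g * a * g⁻¹) = g * (g⁻¹ * x * g * a) * g⁻¹ := by group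
    rw [h2, ← h1]; group
  have hcR : Nat.card (R.subgroupOf C) = Nat.card R := Nat.card_congr (Subgroup.subgroupOfEquivOfLe hRC1).toEquiv
  have hcR2 : Nat.card ((MulAut.conj g • R).subgroupOf C) = Nat.card R := by
    rw [Nat.card_congr (Subgroup.subgroupOfEquivOfLe hRC2).toEquiv]; exact L0.card_conj_smul _ _
  obtain ⟨c, hc⟩ := H3.wielandt_hall (G := C) (H := R.subgroupOf C) (K := (MulAut.conj g • R).subgroupOf C)
    (by
      haveI := H3.isNilpotent_of_le hHn hRH
      exact Group.nilpotent_of_mulEquiv (Subgroup.subgroupOfEquivOfLe hRC1).symm)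
    (by
      rw [hcR]
      apply Nat.Coprime.coprime_dvd_right _ hRcop
      exact Dvd.intro _ (Subgroup.relIndex_mul_index hRC1))
    (by
      intro p hp hd
      rw [hcR2] at hd
      rw [hcR]; exact hd)
  have hcg : (c : G)⁻¹ * g ∈ H := by
    apply hRnorm
    apply Subgroup.mem_normalizer_fintype
    intro r hr
    have h1 : g * r * g⁻¹ ∈ MulAut.conj g • R := H3.conj_mem_smul hr
    have h2 : (⟨g * r * g⁻¹, hRC2 h1⟩ : C) ∈ MulAut.conj c • R.subgroupOf C := hc h1
    rw [L0.mem_conj_smul, Subgroup.mem_subgroupOf] at h2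
    have e : (c : G)⁻¹ * g * r * ((c : G)⁻¹ * g)⁻¹ = (c : G)⁻¹ * (g * r * g⁻¹) * c := by group
    rw [e]; exact h2
  have hcent : (c : G)⁻¹ * (g * a * g⁻¹) * c = g * a * g⁻¹ := by
    have := Subgroup.mem_centralizer_singleton_iff.mp c.2
    rw [mul_assoc, ← this]; group
  rw [hPR] at hcg
  have hcg' : (c : G)⁻¹ * g ∈ R ⊔ P' := by rw [sup_comm]; exact hcg
  rw [L0.mem_sup_of_normalizes' (hP'H.trans hHR)] at hcg'
  obtain ⟨x, hx, r, hr, hxr⟩ := hcg'
  refine ⟨x, hx, ?_⟩
  have hra := Subgroup.mem_centralizer_iff.mp (hRC P' hP'H hP'p hr) _ ha'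
  have e : (c : G)⁻¹ * (g * a * g⁻¹) * c = (x * r) * a * (x * r)⁻¹ := by rw [hxr]; group
  rw [← hcent, e]
  have e2 : x * r * a * (x * r)⁻¹ = x * (r * a) * r⁻¹ * x⁻¹ := by group
  rw [e2, ← hra]; group

/-- Let H be a subgroup of a finite group G that is not a Sylow subgroup of G for any prime, and suppose that for every prime p dividing the order of H and every Sylow p-subgroup P of H the normalizer of P in G is exactly H. Then some normal subgroup of G is a complement to H. -/
theorem result {G : Type*} [Group G] [Finite G] (H : Subgroup G) (hnot : ∀ p : ℕ, p.Prime → ∀ P : Sylow p G, (P : Subgroup G) ≠ H) (hnorm : ∀ p : ℕ, p.Prime → p ∣ Nat.card H → ∀ P : Sylow p H, Subgroup.normalizer (((P : Subgroup H).map H.subtype : Subgroup G) : Set G) = H) : ∃ N : Subgroup G, N.Normal ∧ Subgroup.IsComplement' N H := by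
  exact main H hnot hnorm

end Cfsg.Agent.S0558
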