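import Cfsg.Statements.S0560
import Mathlib
import Cfsg.Agent.H1.Comm

set_option autoImplicit false
open Pointwise
open Cfsg

namespace Cfsg.Agent.S0560

open scoped commutatorElement Pointwise
theorem card_set_mul {G : Type*} [Group G] [Finite G] (A B : Subgroup G) :
    Nat.card ((A : Set G) * (B : Set G) : Set G) * Nat.card ↥(A ⊓ B) = Nat.card A * Nat.card B := by
  classical
  have h1 := Subgroup.card_mul_eq_card_subgroup_mul_card_quotient B (A : Set G)
  have h2 : Nat.card ((A : Set G).image (QuotientGroup.mk : G → G ⧸ B)) = B.relIndex A := by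
    have e : (A : Set G).image (QuotientGroup.mk : G → G ⧸ B) = MulAction.orbit A ((1 : G) : G ⧸ B) := by
      ext x
      constructor
      · rintro ⟨a, ha, rfl⟩
        exact ⟨⟨a, ha⟩, by
          show (a • ((1 : G) : G ⧸ B)) = _
          rw [MulAction.Quotient.smul_coe, smul_eq_mul, mul_one]⟩
      · rintro ⟨a, rfl⟩
        refine ⟨a, a.2, ?_⟩
        show _ = ((a : G) • ((1 : G) : G ⧸ B))
        rw [MulAction.Quotient.smul_coe, smul_eq_mul, mul_one]
    rw [e]
    change (MulAction.orbit A ((1 : G) : G ⧸ B)).ncard = _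
    rw [← MulAction.index_stabilizer]
    congr 1
    ext a
    rw [MulAction.mem_stabilizer_iff, Subgroup.mem_subgroupOf]
    show ((a : G) • ((1 : G) : G ⧸ B)) = _ ↔ _
    rw [MulAction.Quotient.smul_coe, smul_eq_mul, mul_one, QuotientGroup.eq, mul_one, Subgroup.inv_mem_iff]
  have h3 : Nat.card ↥(A ⊓ B) * B.relIndex A = Nat.card A := by
    have h4 := Subgroup.relIndex_mul_relIndex ⊥ (A ⊓ B) A bot_le inf_le_left
    rw [Subgroup.relIndex_bot_left, Subgroup.relIndex_bot_left, inf_comm, Subgroup.inf_relIndex_right] at h4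
    rw [inf_comm]; exact h4
  rw [h1, h2, ← h3]; ring

theorem le_conj_pair {G : Type*} [Group G] [Finite G] {H K : Subgroup G} (hHK : ∀ g : G, ∃ h ∈ H, ∃ k ∈ K, g = h * k) (p : ℕ) [Fact p.Prime] :
    ∃ (P : Sylow p H) (Q : Sylow p K) (R : Sylow p G), (P : Subgroup H).map H.subtype ≤ R ∧ (Q : Subgroup K).map K.subtype ≤ R := by
  obtain ⟨P⟩ := (inferInstance : Nonempty (Sylow p H))
  obtain ⟨Q⟩ := (inferInstance : Nonempty (Sylow p K))
  obtain ⟨R₁, hR₁⟩ := (IsPGroup.map P.isPGroup' H.subtype).exists_le_sylow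
  obtain ⟨R₂, hR₂⟩ := (IsPGroup.map Q.isPGroup' K.subtype).exists_le_sylow
  obtain ⟨g, hg⟩ := MulAction.exists_smul_eq G R₂ R₁
  obtain ⟨h, hh, k, hk, e⟩ := hHK g
  -- R₁ = g • R₂ = h • k • R₂
  refine ⟨(⟨h, hh⟩ : H)⁻¹ • P, (⟨k, hk⟩ : K) • Q, k • R₂, ?_, ?_⟩
  · have e1 : k • R₂ = h⁻¹ • R₁ := by rw [← hg, e, mul_smul, inv_smul_smul]
    rw [e1]
    rintro _ ⟨x, hx, rfl⟩
    have hx' : x ∈ (MulAut.conj (⟨h, hh⟩ : H)⁻¹ • (P : Subgroup H)) := hx
    rw [Cfsg.Agent.H1.mem_conj_smul, inv_inv] at hx'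
    show H.subtype x ∈ (MulAut.conj h⁻¹ • (R₁ : Subgroup G))
    rw [Cfsg.Agent.H1.mem_conj_smul, inv_inv]
    exact hR₁ ⟨_, hx', rfl⟩
  · rintro _ ⟨x, hx, rfl⟩
    have hx' : x ∈ (MulAut.conj (⟨k, hk⟩ : K) • (Q : Subgroup K)) := hx
    rw [Cfsg.Agent.H1.mem_conj_smul] at hx'
    show K.subtype x ∈ (MulAut.conj k • (R₂ : Subgroup G))
    rw [Cfsg.Agent.H1.mem_conj_smul]
    exact hR₂ ⟨_, hx', rfl⟩

/-- Let the finite group G be the product HK of two subgroups and p a prime. Then there are Sylow p-subgroups P of H and Q of K and a Sylow p-subgroup R of G whose underlying set is the product set of P and Q. -/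
theorem result {G : Type*} [Group G] [Finite G] (H K : Subgroup G) (hHK : ∀ g : G, ∃ h ∈ H, ∃ k ∈ K, g = h * k) (p : ℕ) [Fact p.Prime] : ∃ (P : Sylow p H) (Q : Sylow p K) (R : Sylow p G), ((R : Subgroup G) : Set G) = (((P : Subgroup H).map H.subtype : Subgroup G) : Set G) * (((Q : Subgroup K).map K.subtype : Subgroup G) : Set G) := by
  obtain ⟨P, Q, R, hP, hQ⟩ := le_conj_pair hHK p
  refine ⟨P, Q, R, ?_⟩
  set P' := (P : Subgroup H).map H.subtype with hP'
  set Q' := (Q : Subgroup K).map K.subtype with hQ'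
  symm
  refine Set.eq_of_subset_of_ncard_le ?_ ?_ (Set.toFinite _)
  · rintro _ ⟨a, ha, b, hb, rfl⟩
    exact (R : Subgroup G).mul_mem (hP ha) (hQ hb)
  · -- counting
    have h1 := card_set_mul H K
    have huniv : ((H : Set G) * (K : Set G) : Set G) = Set.univ := by
      rw [Set.eq_univ_iff_forall]
      intro g
      obtain ⟨h, hh, k, hk, e⟩ := hHK g
      exact ⟨h, hh, k, hk, e.symm⟩
    rw [huniv, Nat.card_univ] at h1
    have h2 := card_set_mul P' Q'
    have hcP : Nat.card P' = p ^ (Nat.card H).factorization p := by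
      rw [hP', Cfsg.Agent.L0.card_map_subtype]; exact P.card_eq_multiplicity
    have hcQ : Nat.card Q' = p ^ (Nat.card K).factorization p := by
      rw [hQ', Cfsg.Agent.L0.card_map_subtype]; exact Q.card_eq_multiplicity
    have hcR : Nat.card (R : Subgroup G) = p ^ (Nat.card G).factorization p := R.card_eq_multiplicity
    have hpp : p.Prime := Fact.out
    have hfac : (Nat.card G).factorization p + (Nat.card ↥(H ⊓ K)).factorization p = (Nat.card H).factorization p + (Nat.card K).factorization p := by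
      have := congrArg (fun n => n.factorization p) h1
      rw [Nat.factorization_mul Nat.card_pos.ne' Nat.card_pos.ne', Nat.factorization_mul Nat.card_pos.ne' Nat.card_pos.ne'] at this
      exact this
    have hPQ : IsPGroup p ↥(P' ⊓ Q') := R.isPGroup'.to_le (inf_le_left.trans hP)
    obtain ⟨c, hc⟩ := IsPGroup.iff_card.mp hPQ
    have hdvd : p ^ c ∣ Nat.card ↥(H ⊓ K) := by
      rw [← hc]
      apply Subgroup.card_dvd_of_le
      exact inf_le_inf (Subgroup.map_subtype_le _) (Subgroup.map_subtype_le _)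
    have hcle : c ≤ (Nat.card ↥(H ⊓ K)).factorization p := (hpp.pow_dvd_iff_le_factorization Nat.card_pos.ne').mp hdvd
    rw [hcP, hcQ, hc, ← pow_add, ← hfac] at h2
    show ((R : Subgroup G) : Set G).ncard ≤ ((P' : Set G) * (Q' : Set G)).ncard
    have h3 : ((R : Subgroup G) : Set G).ncard = p ^ (Nat.card G).factorization p := hcR
    have h4 : ((P' : Set G) * (Q' : Set G)).ncard * p ^ c = p ^ ((Nat.card G).factorization p + (Nat.card ↥(H ⊓ K)).factorization p) := h2
    rw [h3]
    have hpc : 0 < p ^ c := pow_pos hpp.pos c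
    apply Nat.le_of_mul_le_mul_right _ hpc
    rw [h4, ← pow_add]
    exact Nat.pow_le_pow_right hpp.pos (by omega)

end Cfsg.Agent.S0560
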