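import Cfsg.Statements.S0561
import Mathlib
import Cfsg.Agent.H1.Prod
import Cfsg.Agent.H3.Perm

set_option autoImplicit false
open Pointwise
open Cfsg

namespace Cfsg.Agent.S0561

open Subgroup Pointwise

theorem le_of_conj {G : Type*} [Group G] {A T : Subgroup G} {h x : G} (hA : h ∈ normalizer (A : Set G)) (hx : A ≤ MulAut.conj x • T) : A ≤ MulAut.conj (h * x) • T := by
  intro t ht
  have h2 : h⁻¹ * t * h ∈ A := by
    have := (Subgroup.mem_normalizer_iff.mp (Subgroup.inv_mem _ hA) t).mp ht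
    rwa [inv_inv] at this
  have h3 := hx h2
  rw [L0.mem_conj_smul] at h3 ⊢
  have e1 : (h * x)⁻¹ * t * (h * x) = x⁻¹ * (h⁻¹ * t * h) * x := by group
  rw [e1]; exact h3

theorem core {G : Type*} [Group G] [Finite G] (hs : Group.IsSolvable G) (H K A B : Subgroup G) (hHK : ∀ g : G, ∃ h ∈ H, ∃ k ∈ K, g = h * k)
    (hAn : H ≤ normalizer (A : Set G)) (hBn : K ≤ normalizer (B : Set G)) (hAh : (Nat.card A).Coprime A.index) (hBh : (Nat.card B).Coprime B.index) :
    ∃ S : Subgroup G, (S : Set G) = (A : Set G) * (B : Set G) := by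
  have hcA : Nat.card A ∣ Nat.card G := Subgroup.card_subgroup_dvd_card A
  have hcB : Nat.card B ∣ Nat.card G := Subgroup.card_subgroup_dvd_card B
  obtain ⟨n, hn⟩ := Nat.lcm_dvd hcA hcB
  set l := (Nat.card A).lcm (Nat.card B) with hl
  have hcop : l.Coprime n := by
    rw [Nat.coprime_iff_gcd_eq_one]
    by_contra hne
    obtain ⟨p, hp, hpd⟩ := Nat.exists_prime_and_dvd hne
    have h1 : p ∣ l := hpd.trans (Nat.gcd_dvd_left _ _)
    have h2 : p ∣ n := hpd.trans (Nat.gcd_dvd_right _ _)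
    have key : ∀ C : Subgroup G, Nat.card C ∣ l → (Nat.card C).Coprime C.index → p ∣ Nat.card C → False := by
      intro C hCl hC hpC
      apply hp.one_lt.ne'
      apply Nat.eq_one_of_dvd_coprimes hC hpC
      have h3 := C.card_mul_index
      rw [hn] at h3
      obtain ⟨c, hc⟩ := hCl
      rw [hc, mul_assoc] at h3
      have h4 := Nat.eq_of_mul_eq_mul_left Nat.card_pos h3
      rw [h4]; exact h2.mul_left c
    rcases (Nat.Prime.dvd_lcm hp).mp h1 with h3 | h3
    · exact key A (Nat.dvd_lcm_left _ _) hAh h3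
    · exact key B (Nat.dvd_lcm_right _ _) hBh h3
  obtain ⟨T, hT⟩ := H1.hall_exists hs hn hcop
  obtain ⟨x, hx⟩ := H1.hall_dominate hs hn hcop hT (K := A) (Nat.Coprime.coprime_dvd_left (Nat.dvd_lcm_left _ _) hcop)
  obtain ⟨y, hy⟩ := H1.hall_dominate hs hn hcop hT (K := B) (Nat.Coprime.coprime_dvd_left (Nat.dvd_lcm_right _ _) hcop)
  obtain ⟨h, hh, k, hk, e⟩ := hHK (x * y⁻¹)
  have hz : h⁻¹ * x = k * y := by
    have : x = h * k * y := by rw [← e]; group
    rw [this]; group
  have h1 : A ≤ MulAut.conj (h⁻¹ * x) • T := le_of_conj (hAn (H.inv_mem hh)) hx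
  have h2 : B ≤ MulAut.conj (h⁻¹ * x) • T := by rw [hz]; exact le_of_conj (hBn hk) hy
  refine ⟨MulAut.conj (h⁻¹ * x) • T, ?_⟩
  symm
  apply Set.eq_of_subset_of_ncard_le _ _ (Set.toFinite _)
  · rintro _ ⟨s, hs, t, ht, rfl⟩
    exact mul_mem (h1 hs) (h2 ht)
  · have h6 : Nat.card (MulAut.conj (h⁻¹ * x) • T : Subgroup G) = l := by rw [L0.card_conj_smul, hT]
    have h7 : ((MulAut.conj (h⁻¹ * x) • T : Subgroup G) : Set G).ncard = l := h6
    have h3 := H1.card_set_mul A B
    have h8 : ((A : Set G) * (B : Set G) : Set G).ncard * Nat.card ↥(A ⊓ B) = Nat.card A * Nat.card B := h3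
    rw [h7]
    have h9 : Nat.card ↥(A ⊓ B) ∣ (Nat.card A).gcd (Nat.card B) :=
      Nat.dvd_gcd (Subgroup.card_dvd_of_le inf_le_left) (Subgroup.card_dvd_of_le inf_le_right)
    have h10 := Nat.gcd_mul_lcm (Nat.card A) (Nat.card B)
    rw [← h8, ← hl] at h10
    obtain ⟨c, hc⟩ := h9
    rw [hc] at h10
    have hpos : 0 < Nat.card ↥(A ⊓ B) := Nat.card_pos
    have h11 : ((A : Set G) * (B : Set G) : Set G).ncard = c * l := by
      apply Nat.eq_of_mul_eq_mul_right hpos
      rw [← h10]; ring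
    rw [h11]
    have hc0 : 0 < c := by
      rcases Nat.eq_zero_or_pos c with h0 | h0
      · rw [h0, mul_zero] at hc
        exact absurd hc (Nat.gcd_pos_of_pos_left _ Nat.card_pos).ne'
      · exact h0
    exact Nat.le_mul_of_pos_left l hc0

/-- Let the finite solvable group G be the product HK of subgroups, and let A be normal in H and B normal in K, where A and B are Hall subgroups of G (order coprime to index). Then for all x, y the product set of xAx⁻¹ and yBy⁻¹ is a subgroup of G. -/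
theorem result {G : Type*} [Group G] [Finite G] [Group.IsSolvable G] (H K A B : Subgroup G) (hHK : ∀ g : G, ∃ h ∈ H, ∃ k ∈ K, g = h * k) (hA : A ≤ H) (hAn : (A.subgroupOf H).Normal) (hB : B ≤ K) (hBn : (B.subgroupOf K).Normal) (hAh : (Nat.card A).Coprime A.index) (hBh : (Nat.card B).Coprime B.index) (x y : G) : ∃ S : Subgroup G, (S : Set G) = ((MulAut.conj x • A : Subgroup G) : Set G) * ((MulAut.conj y • B : Subgroup G) : Set G) := by
  have hAn' : H ≤ Subgroup.normalizer (A : Set G) := (Subgroup.normal_subgroupOf_iff_le_normalizer hA).mp hAn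
  have hBn' : K ≤ Subgroup.normalizer (B : Set G) := (Subgroup.normal_subgroupOf_iff_le_normalizer hB).mp hBn
  obtain ⟨S, hS⟩ := core (inferInstance : Group.IsSolvable G) H K A B hHK hAn' hBn' hAh hBh
  have hperm := (H3.perm_iff A B).mp ⟨S, hS⟩
  rw [H3.perm_iff]
  obtain ⟨h, hh, k, hk, e⟩ := hHK (x⁻¹ * y)
  have h1 : MulAut.conj (x * h) • A = MulAut.conj x • A := by
    rw [map_mul, mul_smul]; congr 1
    exact L0.mem_normalizer_conj.mp (hAn' hh)
  have h2 : MulAut.conj (x * h) • B = MulAut.conj y • B := by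
    have : x * h = y * k⁻¹ := by
      have : y = x * (h * k) := by rw [← e]; group
      rw [this]; group
    rw [this, map_mul, mul_smul]; congr 1
    exact L0.mem_normalizer_conj.mp (hBn' (K.inv_mem hk))
  have := hperm.conj (x * h)
  rwa [h1, h2] at this

end Cfsg.Agent.S0561
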