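import Cfsg.Statements.S0567
import Mathlib
import Cfsg.Agent.H1.Comm

set_option autoImplicit false
open Cfsg

namespace Cfsg.Agent.S0567

open scoped commutatorElement Pointwise


/-- A subgroup H of a group G is subnormal exactly when, for some m, the subgroup obtained from G by taking the commutator with H m times in succession is contained in H. -/
theorem result {G : Type*} [Group G] (H : Subgroup G) : H.IsSubnormal ↔ ∃ m : ℕ, (fun K : Subgroup G => ⁅K, H⁆)^[m] ⊤ ≤ H := by
  constructor
  · intro h
    have mono : ∀ (K L : Subgroup G) (hKL : K ≤ L) (m : ℕ), (fun X : Subgroup G => ⁅X, K⁆)^[m] ⊤ ≤ (fun X : Subgroup G => ⁅X, L⁆)^[m] ⊤ := by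
      intro K L hKL m
      induction m with
      | zero => exact le_rfl
      | succ m ih =>
        rw [Function.iterate_succ_apply', Function.iterate_succ_apply']
        exact Subgroup.commutator_mono ih hKL
    induction h with
    | top => exact ⟨0, le_rfl⟩
    | step H K hle hK hN ih =>
      obtain ⟨m, hm⟩ := ih
      refine ⟨m + 1, ?_⟩
      rw [Function.iterate_succ_apply']
      have h1 : (fun X : Subgroup G => ⁅X, H⁆)^[m] ⊤ ≤ K := (mono H K hle m).trans hm
      refine (Subgroup.commutator_mono h1 le_rfl).trans ?_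
      rw [Subgroup.commutator_le]
      intro k hk h hh
      rw [Subgroup.normal_subgroupOf_iff_le_normalizer hle] at hN
      rw [commutatorElement_def]
      exact H.mul_mem ((Subgroup.mem_normalizer_iff.mp (hN hk) h).mp hh) (H.inv_mem hh)
  · rintro ⟨m, hm⟩
    have hdec' : ∀ i : ℕ, (fun X : Subgroup G => ⁅X, H⁆)^[i + 1] ⊤ ≤ (fun X : Subgroup G => ⁅X, H⁆)^[i] ⊤ := by
      intro i
      induction i with
      | zero => exact le_top
      | succ i ih =>
        rw [Function.iterate_succ_apply', Function.iterate_succ_apply' _ i]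
        rw [Function.iterate_succ_apply'] at ih
        exact Subgroup.commutator_mono ih le_rfl
    have key : ∀ i : ℕ, ((fun X : Subgroup G => ⁅X, H⁆)^[i] ⊤ ⊔ H).IsSubnormal := by
      intro i
      induction i with
      | zero => simpa using Subgroup.IsSubnormal.top
      | succ i ih =>
        rw [Function.iterate_succ_apply']
        have hdec := hdec' i
        rw [Function.iterate_succ_apply'] at hdec
        generalize (fun X : Subgroup G => ⁅X, H⁆)^[i] ⊤ = K at ih hdec ⊢
        refine Subgroup.IsSubnormal.step _ (K ⊔ H) (sup_le_sup_right hdec H) ih ?_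
        rw [Subgroup.normal_subgroupOf_iff_le_normalizer (sup_le_sup_right hdec H)]
        have h1 : K ≤ Subgroup.normalizer ((⁅K, H⁆ ⊔ H : Subgroup G) : Set G) := by
          have aux : ∀ k ∈ K, ∀ x ∈ (⁅K, H⁆ ⊔ H : Subgroup G), k * x * k⁻¹ ∈ (⁅K, H⁆ ⊔ H : Subgroup G) := by
            intro k hk x hx
            have hle2 : (⁅K, H⁆ ⊔ H : Subgroup G) ≤ (⁅K, H⁆ ⊔ H : Subgroup G).comap (MulAut.conj k).toMonoidHom := by
              apply sup_le
              · intro y hy
                exact (le_sup_left : ⁅K, H⁆ ≤ ⁅K, H⁆ ⊔ H) ((Subgroup.mem_normalizer_iff.mp (Cfsg.Agent.H1.le_normalizer_commutator_left K H hk) y).mp hy)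
              · intro y hy
                show k * y * k⁻¹ ∈ (⁅K, H⁆ ⊔ H : Subgroup G)
                have : k * y * k⁻¹ = ⁅k, y⁆ * y := by rw [commutatorElement_def]; group
                rw [this]
                exact Subgroup.mul_mem _ ((le_sup_left : ⁅K, H⁆ ≤ ⁅K, H⁆ ⊔ H) (Subgroup.commutator_mem_commutator hk hy)) ((le_sup_right : H ≤ ⁅K, H⁆ ⊔ H) hy)
            exact hle2 hx
          intro k hk
          rw [Subgroup.mem_normalizer_iff]
          intro x
          refine ⟨aux k hk x, ?_⟩
          intro hx
          have := aux k⁻¹ (K.inv_mem hk) _ hx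
          simpa [mul_assoc] using this
        exact sup_le h1 (le_sup_right.trans Subgroup.le_normalizer)
    have := key m
    rwa [sup_eq_right.mpr hm] at this

end Cfsg.Agent.S0567
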