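import Cfsg.Statements.S0569
import Mathlib
import Cfsg.Agent.H3.Carter2

set_option autoImplicit false
open Cfsg

namespace Cfsg.Agent.S0569

open Pointwise

theorem part1 {G : Type*} [Group G] [Finite G] (hs : Group.IsSolvable G) (C : Subgroup G) (hC : Cfsg.IsCarterSubgroup C) :
    ∃ K : Nat.Primes → Subgroup G, Cfsg.IsComplementSystem K ∧ Cfsg.systemNormalizer K ≤ C := by
  obtain ⟨K, hK, hr⟩ := H3.exists_system_of_nilpotent hs C hC.1
  exact ⟨K, hK, H3.sys_le_carter _ G rfl hs C K hC hK hr⟩

/-- In a finite solvable group: each nilpotent self-normalizing subgroup contains the system normalizer of some Hall complement system, and the system normalizer of any Hall complement system lies in some nilpotent self-normalizing subgroup. -/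
theorem result {G : Type*} [Group G] [Finite G] [Group.IsSolvable G] : (∀ C : Subgroup G, Cfsg.IsCarterSubgroup C → ∃ K : Nat.Primes → Subgroup G, Cfsg.IsComplementSystem K ∧ Cfsg.systemNormalizer K ≤ C) ∧ ∀ K : Nat.Primes → Subgroup G, Cfsg.IsComplementSystem K → ∃ C : Subgroup G, Cfsg.IsCarterSubgroup C ∧ Cfsg.systemNormalizer K ≤ C := by
  have hs : Group.IsSolvable G := inferInstance
  refine ⟨part1 hs, fun K hK => ?_⟩
  obtain ⟨C, hC⟩ := H3.carter_exists hs
  obtain ⟨K', hK', hle⟩ := part1 hs C hC
  obtain ⟨g, hg⟩ := H3.sys_conj hs hK' hK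
  refine ⟨MulAut.conj g • C, H3.carter_conj hC g, ?_⟩
  have h1 : K = fun p => MulAut.conj g • K' p := by funext p; exact (hg p).symm
  rw [h1, H3.systemNormalizer_conj]
  intro x hx
  rw [L0.mem_conj_smul] at hx ⊢
  exact hle hx

end Cfsg.Agent.S0569
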