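import Cfsg.Statements.S0570
import Mathlib
import Cfsg.Agent.H3.Carter2

set_option autoImplicit false
open Cfsg

namespace Cfsg.Agent.S0570

open Pointwise Subgroup

theorem fwd {G : Type*} [Group G] [Finite G] (F : Subgroup G) [hFn : F.Normal] (hF : Group.IsNilpotent F) (hGF : Group.IsNilpotent (G ⧸ F)) (hs : Group.IsSolvable G)
    (C : Subgroup G) (hC : Cfsg.IsCarterSubgroup C) : ∃ K : Nat.Primes → Subgroup G, Cfsg.IsComplementSystem K ∧ C = Cfsg.systemNormalizer K := by
  -- F ⊔ C = ⊤
  have hFC : F ⊔ C = ⊤ := by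
    have h1 := H3.carter_map hs F hC
    have h2 : C.map (QuotientGroup.mk' F) = ⊤ := by
      apply H3.eq_of_self_normalizing h1.2 _ le_top
      haveI := hGF
      exact Group.nilpotent_of_mulEquiv Subgroup.topEquiv.symm
    rw [eq_top_iff]
    intro x _
    have : QuotientGroup.mk' F x ∈ C.map (QuotientGroup.mk' F) := by rw [h2]; trivial
    obtain ⟨c, hc, hcx⟩ := this
    rw [QuotientGroup.mk'_apply, QuotientGroup.mk'_apply, QuotientGroup.eq] at hcx
    have := Subgroup.mul_mem_sup (hFn.conj_mem _ hcx c) hc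
    have e : c * (c⁻¹ * x) * c⁻¹ * c = x := by group
    rwa [e] at this
  have key : ∀ p : Nat.Primes, ∃ K : Subgroup G, K.index = (p : ℕ) ^ (Nat.card G).factorization p ∧ C ≤ normalizer (K : Set G) := by
    intro p
    have hp : (p : ℕ).Prime := p.2
    haveI := Fact.mk hp
    obtain ⟨R, hRC, hCR, hRc, ⟨k, hk⟩, -, -⟩ := H3.nil_split C hC.1 p
    obtain ⟨S, hSF, hFS, hSc, ⟨l, hl⟩, -, hSm⟩ := H3.nil_split F hF p
    have hSn : S.Normal := by
      refine ⟨fun s hs g => ?_⟩
      apply hSm _ (hFn.conj_mem s (hSF hs) g)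
      have h2 : orderOf (g * s * g⁻¹) = orderOf s := orderOf_injective (MulAut.conj g).toMonoidHom (MulAut.conj g).injective s
      rw [h2]
      apply Nat.Coprime.coprime_dvd_left _ hSc
      rw [← Subgroup.orderOf_mk s hs]; exact _root_.orderOf_dvd_natCard _
    refine ⟨S ⊔ R, ?_, ?_⟩
    · apply H3.index_eq_of hp
      · -- index
        have h1 : (S ⊔ R).relIndex (S ⊔ C) ∣ (p : ℕ) ^ k := by
          rw [H3.relIndex_sup_of_le le_sup_left]
          have h2 : R.relIndex C = (p : ℕ) ^ k := by
            have h3 := Subgroup.relIndex_mul_relIndex ⊥ R C bot_le hRC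
            rw [Subgroup.relIndex_bot_left, Subgroup.relIndex_bot_left, hk] at h3
            exact Nat.eq_of_mul_eq_mul_left Nat.card_pos h3
          rw [← h2]
          exact Subgroup.relIndex_dvd_of_le_left _ le_sup_right
        have h2 : (S ⊔ C).index ∣ (p : ℕ) ^ l := by
          have h3 : (S ⊔ C).relIndex (F ⊔ (S ⊔ C)) = (S ⊔ C).relIndex F := H3.relIndex_sup_eq _ _
          have h4 : F ⊔ (S ⊔ C) = ⊤ := by
            rw [eq_top_iff, ← hFC]; exact sup_le_sup_left le_sup_right _
          rw [h4, Subgroup.relIndex_top_right] at h3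
          rw [h3]
          have h5 : S.relIndex F = (p : ℕ) ^ l := by
            have h3 := Subgroup.relIndex_mul_relIndex ⊥ S F bot_le hSF
            rw [Subgroup.relIndex_bot_left, Subgroup.relIndex_bot_left, hl] at h3
            exact Nat.eq_of_mul_eq_mul_left Nat.card_pos h3
          rw [← h5]
          exact Subgroup.relIndex_dvd_of_le_left _ le_sup_left
        have h6 : (S ⊔ R).index ∣ (p : ℕ) ^ (k + l) := by
          rw [← Subgroup.relIndex_mul_index (sup_le_sup_left hRC S : S ⊔ R ≤ S ⊔ C), pow_add]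
          exact mul_dvd_mul h1 h2
        obtain ⟨j, -, hj⟩ := (Nat.dvd_prime_pow hp).mp h6
        exact ⟨j, hj⟩
      · apply Nat.Coprime.coprime_dvd_left (L0.card_sup_dvd_of_normal_left S R)
        exact Nat.Coprime.mul_left hSc hRc
    · apply H1.le_normalizer_sup _ hCR
      rw [Subgroup.normalizer_eq_top]; exact le_top
  choose K hK1 hK2 using key
  refine ⟨K, hK1, ?_⟩
  exact H3.eq_of_self_normalizing hC.2 (H3.sysNormalizer_nilpotent hK1) (le_iInf hK2)

/-- Let G be a finite group with a nilpotent normal subgroup F such that G modulo F is nilpotent (nilpotent length at most two). Then a subgroup of G is a Carter subgroup if and only if it is the system normalizer of some Hall complement system. -/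
theorem result {G : Type*} [Group G] [Finite G] (F : Subgroup G) [F.Normal] (hF : Group.IsNilpotent F) (hGF : Group.IsNilpotent (G ⧸ F)) (C : Subgroup G) : Cfsg.IsCarterSubgroup C ↔ ∃ K : Nat.Primes → Subgroup G, Cfsg.IsComplementSystem K ∧ C = Cfsg.systemNormalizer K := by
  have hs : Group.IsSolvable G := by
    haveI := hF
    haveI := hGF
    exact solvable_of_ker_le_range F.subtype (QuotientGroup.mk' F) (by rw [QuotientGroup.ker_mk', Subgroup.range_subtype])
  constructor
  · exact fwd F hF hGF hs C
  · rintro ⟨K, hK, rfl⟩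
    obtain ⟨C, hC⟩ := H3.carter_exists hs
    obtain ⟨K', hK', hCK⟩ := fwd F hF hGF hs C hC
    obtain ⟨g, hg⟩ := H3.sys_conj hs hK' hK
    have h1 : K = fun p => MulAut.conj g • K' p := by funext p; exact (hg p).symm
    rw [h1, H3.systemNormalizer_conj, ← hCK]
    exact H3.carter_conj hC g

end Cfsg.Agent.S0570
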