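import Cfsg.Statements.S0575
import Mathlib
import Cfsg.Agent.H1.Basic

set_option autoImplicit false
open Cfsg

namespace Cfsg.Agent.S0575

open scoped commutatorElement Pointwise


/-- If H is a normal subgroup of a finite group G, then the Frattini subgroup of H, viewed in G, lies in the Frattini subgroup of G. -/
theorem result {G : Type*} [Group G] [Finite G] (H : Subgroup G) [H.Normal] : (frattini ↥H).map H.subtype ≤ frattini G := by
  set F := (frattini ↥H).map H.subtype with hF
  haveI : F.Normal := Cfsg.Agent.L0.normal_map_subtype_of_characteristic _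
  rw [frattini, Order.radical]
  refine le_iInf fun M => le_iInf fun hM => ?_
  by_contra hno
  have hM' : IsCoatom M := hM
  have hsup : F ⊔ M = ⊤ := by
    apply hM'.2
    refine lt_of_le_of_ne le_sup_right ?_
    intro h
    apply hno
    rw [h]; exact le_sup_left
  have hFH : F ≤ H := Subgroup.map_subtype_le _
  have h1 : (M.subgroupOf H) ⊔ frattini ↥H = ⊤ := by
    rw [eq_top_iff]
    intro h _
    have hh : (h : G) ∈ F ⊔ M := by rw [hsup]; trivial
    obtain ⟨f, hf, m, hm, e⟩ := Subgroup.mem_sup_of_normal_left.mp hh
    obtain ⟨f', hf', rfl⟩ := hf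
    have hmH : m ∈ H := by
      have : m = (H.subtype f')⁻¹ * h := by rw [← e]; group
      rw [this]
      exact H.mul_mem (H.inv_mem f'.2) h.2
    have : h = f' * ⟨m, hmH⟩ := Subtype.ext e.symm
    rw [this]
    exact Subgroup.mul_mem _ ((le_sup_right : frattini ↥H ≤ _) hf') ((le_sup_left : M.subgroupOf H ≤ _) hm)
  have h2 := frattini_nongenerating h1
  rw [Subgroup.subgroupOf_eq_top] at h2
  exact hno (hFH.trans h2)

end Cfsg.Agent.S0575
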