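import Cfsg.Statements.S0576
import Mathlib

set_option autoImplicit false
open Cfsg

namespace Cfsg.Agent.S0576

/-- Let H be a normal subgroup of a finite group G with H contained in the Frattini subgroup of G. Then the group of inner automorphisms of H is contained in the Frattini subgroup of the automorphism group of H. -/
theorem result {G : Type*} [Group G] [Finite G] (H : Subgroup G) [H.Normal] (hH : H ≤ frattini G) : (MulAut.conj : ↥H →* MulAut ↥H).range ≤ frattini (MulAut ↥H) := by
  intro α hα
  have key : ∀ M : Subgroup (MulAut ↥H), IsCoatom M → α ∈ M := by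
    intro M hM
    by_contra hαM
    obtain ⟨h, rfl⟩ := hα
    -- L = preimage of M in G
    let φ : G →* MulAut ↥H := MulAut.conjNormal (H := H)
    have hφ : ∀ x : H, φ x = MulAut.conj x := by
      intro x
      apply MulEquiv.ext
      intro y
      apply Subtype.ext
      rw [MulAut.conjNormal_apply]
      rfl
    have hn : ((MulAut.conj : ↥H →* MulAut ↥H).range).Normal := by
      refine ⟨?_⟩
      rintro _ ⟨x, rfl⟩ σ
      refine ⟨σ x, ?_⟩
      apply MulEquiv.ext
      intro y
      show σ x * y * (σ x)⁻¹ = σ (x * (σ⁻¹ y) * x⁻¹)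
      rw [map_mul, map_mul, map_inv]
      congr 2
      exact (MulAut.apply_inv_self H σ y).symm
    have hsup : M ⊔ (MulAut.conj : ↥H →* MulAut ↥H).range = ⊤ :=
      hM.2 _ (lt_of_le_of_ne le_sup_left (fun he => hαM (by rw [he]; exact Subgroup.mem_sup_right ⟨h, rfl⟩)))
    have hL : M.comap φ ⊔ H = ⊤ := by
      rw [eq_top_iff]
      intro g _
      have h1 : φ g ∈ M ⊔ (MulAut.conj : ↥H →* MulAut ↥H).range := by rw [hsup]; trivial
      obtain ⟨m, hm, _, ⟨x, rfl⟩, he⟩ := Subgroup.mem_sup_of_normal_right.mp h1
      have h2 : g * (x : G)⁻¹ ∈ M.comap φ := by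
        show φ (g * (x : G)⁻¹) ∈ M
        rw [map_mul, map_inv, hφ, ← he]
        have : m * MulAut.conj x * (MulAut.conj x)⁻¹ = m := by group
        rw [this]; exact hm
      have h3 : g = g * (x : G)⁻¹ * x := by group
      rw [h3]
      exact Subgroup.mul_mem _ (Subgroup.mem_sup_left h2) (Subgroup.mem_sup_right x.2)
    have hLt : M.comap φ = ⊤ := by
      by_contra hne
      obtain ⟨X, hX, hX'⟩ := (eq_top_or_exists_le_coatom (M.comap φ)).resolve_left hne
      apply hX.1
      rw [eq_top_iff, ← hL]
      exact sup_le hX' (hH.trans (frattini_le_coatom hX))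
    apply hαM
    have h4 : (h : G) ∈ M.comap φ := by rw [hLt]; trivial
    have h5 : φ h ∈ M := h4
    rwa [hφ] at h5
  unfold frattini Order.radical
  simp only [Subgroup.mem_iInf]
  exact fun M hM => key M hM

end Cfsg.Agent.S0576
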