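import Cfsg.Statements.S0577
import Mathlib
import Cfsg.Agent.H3.Schmidt

set_option autoImplicit false
open Cfsg

namespace Cfsg.Agent.S0577

open Subgroup in
theorem main {G : Type*} [Group G] [Finite G] (hG : Cfsg.IsMinimalNonNilpotent G) (q : ℕ) [Fact q.Prime] (Q : Sylow q G) (hQ : (Q : Subgroup G).Normal) (hqd : q ∣ Nat.card G) (D : Subgroup G) [hDn : D.Normal] (hD : D = (commutator ↥(Q : Subgroup G)).map (Q : Subgroup G).subtype) :
    ¬ (∀ a b : G ⧸ D, a * b = b * a) ∧ ∀ K : Subgroup (G ⧸ D), K ≠ ⊤ → ∀ a b : K, a * b = b * a := by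
  obtain ⟨p, r, hp, hr, hpr, P, R, hPc, hRn, hPR, hnc, hcard⟩ := H3.schmidt_sylow hG
  have hqr : q = r := by
    by_contra hne
    have h1 : q ∣ Nat.card P * Nat.card R := hcard ▸ hqd
    obtain ⟨a, ha⟩ := IsPGroup.iff_card.mp P.2
    obtain ⟨b, hb⟩ := IsPGroup.iff_card.mp R.2
    have hqp : q = p := by
      rcases (Nat.Prime.dvd_mul Fact.out).mp h1 with h | h
      · have h' : q ∣ p ^ a := by rw [← ha]; exact h
        exact (Nat.prime_dvd_prime_iff_eq Fact.out Fact.out).mp (Nat.Prime.dvd_of_dvd_pow Fact.out h')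
      · have h' : q ∣ r ^ b := by rw [← hb]; exact h
        exact absurd ((Nat.prime_dvd_prime_iff_eq Fact.out Fact.out).mp (Nat.Prime.dvd_of_dvd_pow Fact.out h')) hne
    subst hqp
    have hPn : (P : Subgroup G).Normal := by
      haveI := Sylow.unique_of_normal Q hQ
      have : P = Q := Subsingleton.elim _ _
      rw [this]; exact hQ
    apply hnc
    rw [← Subgroup.commutator_eq_bot_iff_le_centralizer, eq_bot_iff]
    refine (Subgroup.commutator_le_inf _ _).trans ?_
    rw [L0.inf_eq_bot_of_coprime']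
    rw [ha, hb]
    exact Nat.Coprime.pow _ _ ((Nat.coprime_primes Fact.out Fact.out).mpr hne)
  subst hqr
  have hQR : R = Q := by
    haveI := Sylow.unique_of_normal Q hQ
    exact Subsingleton.elim _ _
  subst hQR
  have hcomm := H3.schmidt_comm hpr hG P R hQ hnc hcard
  have hDR : D ≤ R := by rw [hD]; exact Subgroup.map_subtype_le _
  have hgen : ∀ g : G, ∃ a ∈ (R : Subgroup G), ∃ b ∈ (P : Subgroup G), a * b = g := by
    intro g
    rw [← Subgroup.mem_sup_of_normal_left, sup_comm, hPR]; trivial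
  haveI := hPc
  have hPcomm : ∀ a ∈ (P : Subgroup G), ∀ b ∈ (P : Subgroup G), a * b = b * a := by
    intro a ha b hb
    letI := IsCyclic.commGroup (α := P)
    exact congrArg Subtype.val (mul_comm (⟨a, ha⟩ : P) ⟨b, hb⟩)
  have hRD : ∀ a ∈ (R : Subgroup G), ∀ b ∈ (R : Subgroup G), (a * b * a⁻¹ * b⁻¹) ∈ D := by
    intro a ha b hb
    rw [hD]
    exact ⟨⟨a, ha⟩ * ⟨b, hb⟩ * (⟨a, ha⟩ : (R : Subgroup G))⁻¹ * (⟨b, hb⟩ : (R : Subgroup G))⁻¹, Subgroup.commutator_mem_commutator (mem_top _) (mem_top _), rfl⟩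
  have hGR : ∀ x y : G, x * y * x⁻¹ * y⁻¹ ∈ (R : Subgroup G) := by
    intro x y
    obtain ⟨a, ha, b, hb, rfl⟩ := hgen x
    obtain ⟨c, hc, d, hd, rfl⟩ := hgen y
    rw [← QuotientGroup.eq_one_iff]
    have ha' : (a : G ⧸ (R : Subgroup G)) = 1 := (QuotientGroup.eq_one_iff a).mpr ha
    have hc' : (c : G ⧸ (R : Subgroup G)) = 1 := (QuotientGroup.eq_one_iff c).mpr hc
    have hbd : ((b : G) : G ⧸ (R : Subgroup G)) * (d : G) = d * b := by
      rw [← QuotientGroup.mk_mul, ← QuotientGroup.mk_mul, hPcomm b hb d hd]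
    simp only [QuotientGroup.mk_mul, QuotientGroup.mk_inv, ha', hc', one_mul]
    rw [hbd]; group
  constructor
  · intro hab
    have h1 : ⁅(R : Subgroup G), (P : Subgroup G)⁆ ≤ D := by
      rw [Subgroup.commutator_le]
      intro x _ y _
      rw [← QuotientGroup.eq_one_iff]
      have := hab (x : G ⧸ D) y
      rw [commutatorElement_def, QuotientGroup.mk_mul, QuotientGroup.mk_mul, QuotientGroup.mk_mul, this, QuotientGroup.mk_inv, QuotientGroup.mk_inv]
      group
    rw [hcomm, hD] at h1
    have h2 : commutator ↥(R : Subgroup G) = ⊤ := by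
      rw [eq_top_iff]
      intro x _
      obtain ⟨y, hy, hyx⟩ := h1 x.2
      have : y = x := Subtype.ext hyx
      rw [← this]; exact hy
    haveI : Group.IsNilpotent (R : Subgroup G) := R.2.isNilpotent
    have h3 : Subsingleton (R : Subgroup G) := by
      by_contra hns
      rw [not_subsingleton_iff_nontrivial] at hns
      exact (IsSolvable.commutator_lt_top_of_nontrivial (G := ↥(R : Subgroup G))).ne h2
    apply hnc
    intro g _
    rw [Subgroup.mem_centralizer_iff]
    intro h hh
    have : h = 1 := congrArg Subtype.val (Subsingleton.elim (⟨h, hh⟩ : (R : Subgroup G)) 1)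
    rw [this]; group
  · intro K hK
    have hK' : K.comap (QuotientGroup.mk' D) ≠ ⊤ := by
      intro h
      apply hK
      rw [← Subgroup.map_comap_eq_self_of_surjective (QuotientGroup.mk'_surjective D) K, h, ← MonoidHom.range_eq_map, MonoidHom.range_eq_top.mpr (QuotientGroup.mk'_surjective D)]
    have hKn : Group.IsNilpotent K := by
      haveI := hG.2 _ hK'
      let f : ↥(K.comap (QuotientGroup.mk' D)) →* K := (QuotientGroup.mk' D).subgroupComap K
      exact Group.nilpotent_of_surjective f ((QuotientGroup.mk' D).subgroupComap_surjective_of_surjective K (QuotientGroup.mk'_surjective D))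
    apply H3.comm_of_nilpotent hKn
    intro s hs S a ha b hb
    have hSp : IsPGroup s ((S : Subgroup K).map K.subtype) := S.2.map _
    obtain ⟨x, hx⟩ := QuotientGroup.mk'_surjective D (a : G ⧸ D)
    obtain ⟨y, hy⟩ := QuotientGroup.mk'_surjective D (b : G ⧸ D)
    have hmap : (x * y * x⁻¹ * y⁻¹ : G) ∈ D := by
      by_cases hsq : s = q
      · subst hsq
        have hmem : ∀ z : G, (QuotientGroup.mk' D z) ∈ (S : Subgroup K).map K.subtype → z ∈ (R : Subgroup G) := by
          intro z hz
          obtain ⟨k, hk⟩ := hSp ⟨_, hz⟩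
          have hk' : (QuotientGroup.mk' D z) ^ s ^ k = 1 := congrArg Subtype.val hk
          rw [← map_pow, QuotientGroup.mk'_apply, QuotientGroup.eq_one_iff] at hk'
          obtain ⟨l, hl⟩ := R.2 ⟨_, hDR hk'⟩
          have hl' : (z ^ s ^ k) ^ s ^ l = 1 := congrArg Subtype.val hl
          have hzp : IsPGroup s (zpowers z) := by
            have h1 : orderOf z ∣ s ^ (k + l) := by
              apply orderOf_dvd_of_pow_eq_one
              rw [pow_add, pow_mul]; exact hl'
            obtain ⟨m, -, hm⟩ := (Nat.dvd_prime_pow Fact.out).mp h1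
            exact IsPGroup.of_card (n := m) (by rw [Nat.card_zpowers, hm])
          obtain ⟨T, hT⟩ := hzp.exists_le_sylow
          haveI := Sylow.unique_of_normal R hQ
          have hTR : T = R := Subsingleton.elim _ _
          rw [← hTR]; exact hT (mem_zpowers z)
        exact hRD x (hmem x (by rw [hx]; exact ⟨a, ha, rfl⟩)) y (hmem y (by rw [hy]; exact ⟨b, hb, rfl⟩))
      · -- commutator is in R and is an s-element mod D
        have h1 : (QuotientGroup.mk' D (x * y * x⁻¹ * y⁻¹)) ∈ (S : Subgroup K).map K.subtype := by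
          refine ⟨a * b * a⁻¹ * b⁻¹, mul_mem (mul_mem (mul_mem ha hb) (inv_mem ha)) (inv_mem hb), ?_⟩
          simp only [map_mul, map_inv, hx, hy, Subgroup.coe_subtype]
        have h2 : IsPGroup q ((R : Subgroup G).map (QuotientGroup.mk' D)) := R.2.map _
        have h3 : QuotientGroup.mk' D (x * y * x⁻¹ * y⁻¹) ∈ ((R : Subgroup G).map (QuotientGroup.mk' D)) := ⟨_, hGR x y, rfl⟩
        have h4 : (S : Subgroup K).map K.subtype ⊓ ((R : Subgroup G).map (QuotientGroup.mk' D)) = ⊥ := by
          apply L0.inf_eq_bot_of_coprime'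
          obtain ⟨a, ha⟩ := IsPGroup.iff_card.mp hSp
          obtain ⟨b, hb⟩ := IsPGroup.iff_card.mp h2
          rw [ha, hb]
          exact Nat.Coprime.pow _ _ ((Nat.coprime_primes Fact.out Fact.out).mpr hsq)
        have h5 : QuotientGroup.mk' D (x * y * x⁻¹ * y⁻¹) ∈ (⊥ : Subgroup (G ⧸ D)) := h4 ▸ ⟨h1, h3⟩
        rw [Subgroup.mem_bot, QuotientGroup.mk'_apply, QuotientGroup.eq_one_iff] at h5
        exact h5
    apply Subtype.ext
    rw [Subgroup.coe_mul, Subgroup.coe_mul, ← hx, ← hy, ← map_mul, ← map_mul, QuotientGroup.mk'_apply, QuotientGroup.mk'_apply, QuotientGroup.eq]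
    have e : (x * y)⁻¹ * (y * x) = ((y * x)⁻¹ * (x * y * x⁻¹ * y⁻¹) * (y * x))⁻¹ := by group
    rw [e]
    apply D.inv_mem
    have := hDn.conj_mem _ hmap (y * x)⁻¹
    rwa [inv_inv] at this

/-- Let G be a finite minimal non-nilpotent group and Q a normal Sylow q-subgroup of G, and let D be the commutator subgroup of Q regarded in G (a normal subgroup). Then G modulo D is non-abelian and all its proper subgroups are abelian. -/
theorem result {G : Type*} [Group G] [Finite G] (hG : Cfsg.IsMinimalNonNilpotent G) (q : ℕ) [Fact q.Prime] (hq : q ∣ Nat.card G) (Q : Sylow q G) (hQ : (Q : Subgroup G).Normal) (D : Subgroup G) [D.Normal] (hD : D = (commutator ↥(Q : Subgroup G)).map (Q : Subgroup G).subtype) : ¬ IsMulCommutative (G ⧸ D) ∧ ∀ K : Subgroup (G ⧸ D), K ≠ ⊤ → IsMulCommutative K := by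
  obtain ⟨h1, h2⟩ := main hG q Q hQ hq D hD
  refine ⟨fun h => h1 fun a b => h.is_comm.comm a b, fun K hK => ⟨⟨fun a b => h2 K hK a b⟩⟩⟩

end Cfsg.Agent.S0577
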