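import Cfsg.Statements.S0578
import Mathlib
import Cfsg.Agent.H1.Transfer

set_option autoImplicit false
open Cfsg

namespace Cfsg.Agent.S0578

open scoped commutatorElement Pointwise
universe u in
theorem aux (n : ℕ) : ∀ (G : Type u) [Group G] [Finite G], Nat.card G = n → (∀ A : Subgroup G, IsMulCommutative A → Subgroup.normalizer (A : Set G) = Subgroup.centralizer (A : Set G)) → IsMulCommutative G := by
  induction n using Nat.strong_induction_on with
  | _ n ih =>
  intro G _ _ hn h
  have hsub : ∀ H : Subgroup G, H ≠ ⊤ → IsMulCommutative H := by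
    intro H hH
    have hlt : Nat.card H < n := by
      rw [← hn]
      exact lt_of_le_of_ne (Subgroup.card_le_card_group H) (fun h' => hH (Subgroup.eq_top_of_card_eq H h'))
    apply ih _ hlt H rfl
    intro A hA
    apply le_antisymm _ (Subgroup.centralizer_le_normalizer _)
    intro x hx
    have hAc : IsMulCommutative (A.map H.subtype) := by
      refine ⟨⟨?_⟩⟩
      rintro ⟨_, a, ha, rfl⟩ ⟨_, b, hb, rfl⟩
      apply Subtype.ext
      have : a * b = b * a := congrArg Subtype.val (mul_comm' (⟨a, ha⟩ : A) ⟨b, hb⟩)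
      show (a : G) * b = b * a
      exact congrArg (fun z : H => (z : G)) this
    have h1 := h (A.map H.subtype) hAc
    have h2 : (x : G) ∈ Subgroup.normalizer ((A.map H.subtype : Subgroup G) : Set G) := by
      apply Cfsg.Agent.H1.mem_normalizer_of_conj_mem
      rintro _ ⟨a, ha, rfl⟩
      exact ⟨x * a * x⁻¹, (Subgroup.mem_normalizer_iff.mp hx a).mp ha, by simp⟩
    rw [h1, Subgroup.mem_centralizer_iff] at h2
    rw [Subgroup.mem_centralizer_iff]
    intro a ha
    exact Subtype.ext (h2 a ⟨a, ha, rfl⟩)
  by_cases hP : ∃ p : ℕ, p.Prime ∧ IsPGroup p G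
  · obtain ⟨p, hp, hPG⟩ := hP
    haveI : Fact p.Prime := ⟨hp⟩
    haveI := hPG.isNilpotent
    by_cases hG : Nontrivial G
    · obtain ⟨M, hM, -⟩ := (eq_top_or_exists_le_coatom (⊥ : Subgroup G)).resolve_left bot_ne_top
      haveI hMn := Cfsg.Agent.H1.normal_of_isCoatom_of_nilpotent hM
      have hi := Cfsg.Agent.H1.index_of_isCoatom_pgroup hPG hM
      haveI hMc := hsub M hM.1
      have h1 := h M hMc
      rw [Subgroup.normalizer_eq_top] at h1
      have h2 : M ≤ Subgroup.center G := by
        intro m hm
        rw [Subgroup.mem_center_iff]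
        intro g
        have h3 : g ∈ Subgroup.centralizer (M : Set G) := by rw [← h1]; trivial
        exact (Subgroup.mem_centralizer_iff.mp h3 m hm).symm
      have h3 : Nat.card (G ⧸ M) = p := hi
      haveI : IsCyclic (G ⧸ M) := isCyclic_of_prime_card h3
      refine ⟨⟨?_⟩⟩
      exact commutative_of_cyclic_center_quotient (QuotientGroup.mk' M) (by rw [QuotientGroup.ker_mk']; exact h2)
    · rw [not_nontrivial_iff_subsingleton] at hG
      exact ⟨⟨fun a b => Subsingleton.elim _ _⟩⟩
  · have hG1 : Nat.card G ≠ 1 := by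
      intro h1
      apply hP
      exact ⟨2, Nat.prime_two, IsPGroup.of_card (n := 0) (by rw [h1]; rfl)⟩
    obtain ⟨p, hp, hd⟩ := Nat.exists_prime_and_dvd hG1
    haveI : Fact p.Prime := ⟨hp⟩
    obtain ⟨P⟩ := (inferInstance : Nonempty (Sylow p G))
    have hPt : (P : Subgroup G) ≠ ⊤ := by
      intro h1
      apply hP
      refine ⟨p, hp, ?_⟩
      have := P.isPGroup'
      rw [h1] at this
      intro g
      obtain ⟨k, hk⟩ := this ⟨g, trivial⟩
      exact ⟨k, by simpa using congrArg Subtype.val hk⟩
    haveI hPc := hsub _ hPt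
    have hNC := h _ hPc
    have hcomp := Cfsg.Agent.H1.hasNormalPComplement_of_normalizer_le_centralizer P hNC.le
    rw [Cfsg.Agent.H1.hasNormalPComplement_iff] at hcomp
    obtain ⟨N, hN, hcop, k, hk⟩ := hcomp
    have hNt : N ≠ ⊤ := by
      intro h1
      rw [h1, Subgroup.card_top] at hcop
      exact (Nat.Prime.coprime_iff_not_dvd hp).mp hcop.symm hd
    haveI hNc := hsub N hNt
    have h1 := h N hNc
    rw [Subgroup.normalizer_eq_top] at h1
    have hsup : N ⊔ P = ⊤ := by
      apply Cfsg.Agent.H1.eq_top_of_forall_sylow_le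
      intro q hq
      by_cases hqp : q = p
      · subst hqp
        exact ⟨P, le_sup_right⟩
      · obtain ⟨Q⟩ := (inferInstance : Nonempty (Sylow q G))
        refine ⟨Q, ?_⟩
        refine le_trans ?_ (le_sup_left : N ≤ N ⊔ (P : Subgroup G))
        intro x hx
        rw [← QuotientGroup.eq_one_iff (N := N)]
        obtain ⟨j, hj⟩ := Q.isPGroup' ⟨x, hx⟩
        have hj' : x ^ q ^ j = 1 := by simpa using congrArg Subtype.val hj
        have e1 : orderOf (x : G ⧸ N) ∣ q ^ j := by
          apply orderOf_dvd_of_pow_eq_one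
          rw [← QuotientGroup.mk_pow, hj']; rfl
        have e2 : orderOf (x : G ⧸ N) ∣ p ^ k := by rw [← hk]; exact orderOf_dvd_natCard _
        have hcq : Nat.Coprime (q ^ j) (p ^ k) := Nat.Coprime.pow _ _ ((Nat.coprime_primes hq.out hp).mpr hqp)
        exact orderOf_eq_one_iff.mp (Nat.eq_one_of_dvd_coprimes hcq e1 e2)
    have hNcen : ∀ m ∈ N, ∀ g : G, m * g = g * m := by
      intro m hm g
      have h3 : g ∈ Subgroup.centralizer (N : Set G) := by rw [← h1]; trivial
      exact (Subgroup.mem_centralizer_iff.mp h3 m hm)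
    refine ⟨⟨?_⟩⟩
    intro a b
    have ha : a ∈ N ⊔ (P : Subgroup G) := by rw [hsup]; trivial
    have hb : b ∈ N ⊔ (P : Subgroup G) := by rw [hsup]; trivial
    obtain ⟨m, hm, x, hx, rfl⟩ := Subgroup.mem_sup_of_normal_left.mp ha
    obtain ⟨n', hn', y, hy, rfl⟩ := Subgroup.mem_sup_of_normal_left.mp hb
    have hxy : x * y = y * x := congrArg Subtype.val (mul_comm' (⟨x, hx⟩ : (P : Subgroup G)) ⟨y, hy⟩)
    calc m * x * (n' * y) = m * (x * n') * y := by group
      _ = m * (n' * x) * y := by rw [hNcen n' hn' x]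
      _ = m * (n' * (x * y)) := by group
      _ = m * (n' * (y * x)) := by rw [hxy]
      _ = (n' * (y * x)) * m := by rw [hNcen m hm]
      _ = n' * y * (x * m) := by group
      _ = n' * y * (m * x) := by rw [hNcen m hm x]

/-- If in a finite group the normalizer of each abelian subgroup coincides with its centralizer, then the group is abelian. -/
theorem result {G : Type*} [Group G] [Finite G] (h : ∀ A : Subgroup G, IsMulCommutative A → Subgroup.normalizer (A : Set G) = Subgroup.centralizer (A : Set G)) : IsMulCommutative G := by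
  exact aux _ G rfl h

end Cfsg.Agent.S0578
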