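import Cfsg.Statements.S0580
import Mathlib
import Cfsg.Agent.H1.Basic

set_option autoImplicit false
open Cfsg

namespace Cfsg.Agent.S0580

open scoped commutatorElement Pointwise
universe u in
theorem aux (n : ℕ) : ∀ (G : Type u) [Group G] [Finite G], Nat.card G = n → (∀ M : Subgroup G, IsCoatom M → M.index.Prime) → Group.IsSolvable G := by
  induction n using Nat.strong_induction_on with
  | _ n ih =>
  intro G _ _ hn h
  by_cases hG : Nontrivial G
  · have hc : 1 < Nat.card G := Finite.one_lt_card_iff_nontrivial.mpr hG
    have hne : (Nat.card G).primeFactors.Nonempty := by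
      rw [Nat.nonempty_primeFactors]; exact hc
    obtain ⟨p, hp, hmax⟩ := Finset.exists_max_image (Nat.card G).primeFactors id hne
    have hpp : p.Prime := Nat.prime_of_mem_primeFactors hp
    haveI : Fact p.Prime := ⟨hpp⟩
    obtain ⟨P⟩ := (inferInstance : Nonempty (Sylow p G))
    have hPn : (P : Subgroup G).Normal := by
      by_contra hno
      have hNP : Subgroup.normalizer ((P : Subgroup G) : Set G) ≠ ⊤ := by
        intro h2; exact hno (Subgroup.normalizer_eq_top_iff.mp h2)
      obtain ⟨M, hM, hNM⟩ := (eq_top_or_exists_le_coatom (Subgroup.normalizer ((P : Subgroup G) : Set G))).resolve_left hNP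
      have hq := h M hM
      have hPM : (P : Subgroup G) ≤ M := Subgroup.le_normalizer.trans hNM
      have h3 : M.index ≡ 1 [MOD p] := by
        have e1 : Nat.card (Sylow p G) = (Subgroup.normalizer ((P : Subgroup G) : Set G)).index := Sylow.card_eq_index_normalizer P
        have e2 := card_sylow_modEq_one p G
        have e3 : Nat.card (Sylow p M) = (Subgroup.normalizer (((P.subtype hPM : Sylow p M) : Subgroup M) : Set M)).index := Sylow.card_eq_index_normalizer _
        have e4 := card_sylow_modEq_one p M
        have e5 : Subgroup.normalizer (((P.subtype hPM : Sylow p M) : Subgroup M) : Set M) = (Subgroup.normalizer ((P : Subgroup G) : Set G)).subgroupOf M := by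
          rw [Sylow.coe_subtype]
          exact (Subgroup.subgroupOf_normalizer_eq hPM).symm
        have e6 : (Subgroup.normalizer ((P : Subgroup G) : Set G)).relIndex M * M.index = (Subgroup.normalizer ((P : Subgroup G) : Set G)).index :=
          Subgroup.relIndex_mul_index hNM
        have e7 : (Subgroup.normalizer ((P : Subgroup G) : Set G)).relIndex M = Nat.card (Sylow p M) := by
          rw [e3, e5]; rfl
        rw [e7, ← e1] at e6
        have e8 : Nat.card (Sylow p M) * M.index ≡ 1 * M.index [MOD p] := Nat.ModEq.mul_right _ e4
        rw [e6, one_mul] at e8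
        exact e8.symm.trans e2
      have h4 : M.index ∈ (Nat.card G).primeFactors := by
        rw [Nat.mem_primeFactors]
        exact ⟨hq, M.index_dvd_card, Nat.card_pos.ne'⟩
      have h5 : M.index ≤ p := hmax _ h4
      rcases h5.lt_or_eq with h6 | h6
      · have : M.index = 1 := by
          have h7 : M.index % p = 1 % p := h3
          rw [Nat.mod_eq_of_lt h6, Nat.mod_eq_of_lt hpp.one_lt] at h7
          exact h7
        exact hq.one_lt.ne' this
      · have h7 : M.index % p = 1 % p := h3
        rw [h6, Nat.mod_self, Nat.mod_eq_of_lt hpp.one_lt] at h7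
        omega
    have hPb : (P : Subgroup G) ≠ ⊥ := by
      intro h2
      have h3 : p ∣ Nat.card G := Nat.dvd_of_mem_primeFactors hp
      exact P.ne_bot_of_dvd_card h3 h2
    have hlt : Nat.card (G ⧸ (P : Subgroup G)) < n := by
      have h3 := Subgroup.card_eq_card_quotient_mul_card_subgroup (P : Subgroup G)
      have h4 : 1 < Nat.card (P : Subgroup G) := by rw [Subgroup.one_lt_card_iff_ne_bot]; exact hPb
      have h5 : 0 < Nat.card (G ⧸ (P : Subgroup G)) := Nat.card_pos
      rw [← hn, h3]
      nlinarith
    haveI : Group.IsSolvable (G ⧸ (P : Subgroup G)) := by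
      refine ih _ hlt _ rfl ?_
      intro M hM
      have hsurj : Function.Surjective (QuotientGroup.mk' (P : Subgroup G)) := QuotientGroup.mk'_surjective _
      rw [← Subgroup.index_comap_of_surjective M hsurj]
      apply h
      exact Subgroup.isCoatom_comap_of_surjective hsurj hM
    haveI : Group.IsNilpotent (P : Subgroup G) := P.isPGroup'.isNilpotent
    exact (Group.isSolvable_iff_subgroup_quotient (P : Subgroup G)).mpr ⟨inferInstance, inferInstance⟩
  · rw [not_nontrivial_iff_subsingleton] at hG
    infer_instance

/-- If every maximal subgroup of a finite group has prime index, then the group is solvable. -/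
theorem result {G : Type*} [Group G] [Finite G] (h : ∀ M : Subgroup G, IsCoatom M → M.index.Prime) : Group.IsSolvable G := by
  exact aux _ G rfl h

end Cfsg.Agent.S0580
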