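import Cfsg.Statements.S0583
import Mathlib
import Cfsg.Agent.H1.Basic
import Cfsg.Agent.L0.Core

set_option autoImplicit false
open Cfsg

namespace Cfsg.Agent.S0583

open scoped commutatorElement Pointwise


/-- In a finite group the Fitting subgroup is contained in the centralizer of each minimal normal subgroup. -/
theorem result {G : Type*} [Group G] [Finite G] (M : Subgroup G) [M.Normal] (hM : M ≠ ⊥) (hmin : ∀ K : Subgroup G, K.Normal → K ≤ M → K = ⊥ ∨ K = M) : Cfsg.fittingSubgroup G ≤ Subgroup.centralizer (M : Set G) := by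
  by_cases hMF : M ≤ Cfsg.fittingSubgroup G
  · set F := Cfsg.fittingSubgroup G with hF
    haveI : Group.IsNilpotent F := Cfsg.Agent.L0.le_fittingSubgroup_iff.mp le_rfl
    have h1 : M.subgroupOf F ≠ ⊥ := by
      rw [Ne, Subgroup.subgroupOf_eq_bot, disjoint_iff, inf_eq_left.mpr hMF]
      exact hM
    have h2 := Cfsg.Agent.H1.inf_center_ne_bot (M.subgroupOf F) h1
    have h3 : M ⊓ ((Subgroup.center F).map F.subtype) ≠ ⊥ := by
      intro h
      apply h2
      rw [eq_bot_iff]
      intro x hx
      have : (x : G) ∈ M ⊓ ((Subgroup.center F).map F.subtype) := ⟨hx.1, ⟨x, hx.2, rfl⟩⟩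
      rw [h, Subgroup.mem_bot] at this
      exact Subtype.ext this
    haveI : ((Subgroup.center F).map F.subtype).Normal := Cfsg.Agent.L0.normal_map_subtype_of_characteristic _
    rcases hmin (M ⊓ ((Subgroup.center F).map F.subtype)) inferInstance inf_le_left with h | h
    · exact absurd h h3
    · intro f hf
      rw [Subgroup.mem_centralizer_iff]
      intro m hm
      have : m ∈ M ⊓ ((Subgroup.center F).map F.subtype) := by rw [h]; exact hm
      obtain ⟨m', hm', rfl⟩ := this.2
      exact (congrArg Subtype.val ((Subgroup.mem_center_iff.mp hm') ⟨f, hf⟩)).symm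
  · have h1 : Cfsg.fittingSubgroup G ⊓ M = ⊥ := by
      rcases hmin (Cfsg.fittingSubgroup G ⊓ M) inferInstance inf_le_right with h | h
      · exact h
      · exact absurd (inf_eq_right.mp h) hMF
    have h2 : ⁅Cfsg.fittingSubgroup G, M⁆ = ⊥ := by
      rw [eq_bot_iff, ← h1]
      exact Subgroup.commutator_le_inf _ _
    exact Subgroup.commutator_eq_bot_iff_le_centralizer.mp h2

end Cfsg.Agent.S0583
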