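import Cfsg.Statements.S0584
import Mathlib
import Cfsg.Agent.H1.Basic
import Cfsg.Agent.L0.Core

set_option autoImplicit false
open Cfsg

namespace Cfsg.Agent.S0584

open scoped commutatorElement Pointwise


/-- Let B ≤ A be normal subgroups of a finite group G with B contained in the Frattini subgroup of G. If A modulo B is nilpotent then A is nilpotent. -/
theorem result {G : Type*} [Group G] [Finite G] (A B : Subgroup G) [A.Normal] [B.Normal] (hBA : B ≤ A) (hB : B ≤ frattini G) (h : Group.IsNilpotent (↥A ⧸ B.subgroupOf A)) : Group.IsNilpotent A := by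
  rw [Cfsg.Agent.L0.isNilpotent_iff_sylow_normal]
  intro p hp P
  set B' := B.subgroupOf A with hB'
  -- P' = image of P in G ; Q = P' ⊔ B normal in G
  set P' := (P : Subgroup A).map A.subtype with hP'
  have hP'A : P' ≤ A := Subgroup.map_subtype_le _
  have hchar : ∀ x : G, x ∈ P' ⊔ B ↔ x ∈ A ∧ ∃ k : ℕ, x ^ p ^ k ∈ B := by
    intro x
    constructor
    · intro hx
      refine ⟨sup_le hP'A hBA hx, ?_⟩
      obtain ⟨y, hy, b, hb, rfl⟩ := Subgroup.mem_sup_of_normal_right.mp hx
      obtain ⟨k, hk⟩ := (IsPGroup.map P.isPGroup' A.subtype) ⟨y, hy⟩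
      refine ⟨k, ?_⟩
      rw [← QuotientGroup.eq_one_iff (N := B), QuotientGroup.mk_pow, QuotientGroup.mk_mul, (QuotientGroup.eq_one_iff b).mpr hb, mul_one,
        ← QuotientGroup.mk_pow]
      have : y ^ p ^ k = 1 := by simpa using congrArg Subtype.val hk
      rw [this]; rfl
    · rintro ⟨hxA, k, hk⟩
      -- in A/B'
      have h1 := Cfsg.Agent.L0.isNilpotent_iff_sylow_normal.mp h p (P.mapSurjective (QuotientGroup.mk'_surjective B'))
      have hxP : IsPGroup p (Subgroup.zpowers (QuotientGroup.mk' B' ⟨x, hxA⟩)) := by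
        rw [IsPGroup.iff_card]
        have h3 : orderOf (QuotientGroup.mk' B' ⟨x, hxA⟩) ∣ p ^ k := by
          apply orderOf_dvd_of_pow_eq_one
          rw [← map_pow, QuotientGroup.mk'_apply, QuotientGroup.eq_one_iff]
          show ((⟨x, hxA⟩ ^ p ^ k : A) : G) ∈ B
          simpa using hk
        obtain ⟨j, _, hj⟩ := (Nat.dvd_prime_pow hp.out).mp h3
        exact ⟨j, by rw [Nat.card_zpowers, hj]⟩
      obtain ⟨Q, hQ⟩ := hxP.exists_le_sylow
      obtain ⟨b, hb⟩ := MulAction.exists_smul_eq (↥A ⧸ B') (P.mapSurjective (QuotientGroup.mk'_surjective B')) Q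
      rw [Sylow.smul_eq_of_normal] at hb
      rw [← hb, Sylow.coe_mapSurjective] at hQ
      obtain ⟨y, hy, hyx⟩ := hQ (Subgroup.mem_zpowers _)
      have h4 : y⁻¹ * ⟨x, hxA⟩ ∈ B' := by rw [← QuotientGroup.eq]; exact hyx
      have h5 : (y : G)⁻¹ * x ∈ B := h4
      have h6 : x = y * ((y : G)⁻¹ * x) := by group
      rw [h6]
      exact Subgroup.mul_mem _ ((le_sup_left : P' ≤ _) ⟨y, hy, rfl⟩) ((le_sup_right : B ≤ _) h5)
  have hQn : (P' ⊔ B).Normal := by
    constructor
    intro x hx g
    rw [hchar] at hx ⊢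
    obtain ⟨h1, k, h2⟩ := hx
    refine ⟨(inferInstance : A.Normal).conj_mem x h1 g, k, ?_⟩
    rw [conj_pow]
    exact (inferInstance : B.Normal).conj_mem _ h2 g
  set Q := P' ⊔ B with hQ
  have hP'Q : P' ≤ Q := le_sup_left
  -- Sylow of Q
  have hsyl : ¬ p ∣ (P'.subgroupOf Q).index := by
    intro hd
    have h1 : P'.relIndex Q ∣ P'.relIndex A := by
      have := Subgroup.relIndex_mul_relIndex P' Q A hP'Q (sup_le hP'A hBA)
      exact Dvd.intro _ this
    have h2 : P'.relIndex A = (P : Subgroup A).index := by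
      show (P'.subgroupOf A).index = _
      rw [hP', Subgroup.subgroupOf, Subgroup.comap_map_eq_self_of_injective A.subtype_injective]
    rw [h2] at h1
    exact P.not_dvd_index (hd.trans h1)
  have hPp : IsPGroup p (P'.subgroupOf Q) := (IsPGroup.map P.isPGroup' A.subtype).comap_subtype
  have hfr := Sylow.normalizer_sup_eq_top (hPp.toSylow hsyl)
  rw [IsPGroup.toSylow_coe, Subgroup.map_subgroupOf_eq_of_le hP'Q] at hfr
  have hNB : Subgroup.normalizer (P' : Set G) ⊔ frattini G = ⊤ := by
    rw [eq_top_iff, ← hfr]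
    apply sup_le le_sup_left
    apply sup_le (Subgroup.le_normalizer.trans le_sup_left) (hB.trans le_sup_right)
  have hN := frattini_nongenerating hNB
  have hPn : P'.Normal := Subgroup.normalizer_eq_top_iff.mp hN
  have h3 : (P : Subgroup A) = P'.subgroupOf A := by
    rw [hP', Subgroup.subgroupOf, Subgroup.comap_map_eq_self_of_injective A.subtype_injective]
  rw [h3]
  infer_instance

end Cfsg.Agent.S0584
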