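import Cfsg.Statements.S0585
import Mathlib
import Cfsg.Agent.H1.Basic

set_option autoImplicit false
open Cfsg

namespace Cfsg.Agent.S0585

open scoped commutatorElement Pointwise


/-- If the Frattini subgroup of a finite group G is trivial, then every abelian normal subgroup of G has a complement in G. -/
theorem result {G : Type*} [Group G] [Finite G] (hΦ : frattini G = ⊥) (A : Subgroup G) [A.Normal] [IsMulCommutative A] : ∃ H : Subgroup G, Subgroup.IsComplement' A H := by
  classical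
  have hfin : {H : Subgroup G | A ⊔ H = ⊤}.Finite := Set.toFinite _
  obtain ⟨H, hH⟩ := hfin.exists_minimal ⟨⊤, by simp⟩
  have hAH : A ⊔ H = ⊤ := hH.prop
  refine ⟨H, ?_⟩
  apply Cfsg.Agent.H1.isComplement'_of_disjoint_sup _ hAH
  haveI hn : (A ⊓ H).Normal := by
    constructor
    intro x hx g
    have hg : g ∈ A ⊔ H := by rw [hAH]; trivial
    obtain ⟨a, ha, h, hh, rfl⟩ := Subgroup.mem_sup_of_normal_left.mp hg
    have h1 : h * x * h⁻¹ ∈ A := (inferInstance : A.Normal).conj_mem x hx.1 h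
    have h2 : a * (h * x * h⁻¹) = (h * x * h⁻¹) * a := congrArg Subtype.val (mul_comm' (⟨a, ha⟩ : A) ⟨_, h1⟩)
    have h3 : a * h * x * (a * h)⁻¹ = h * x * h⁻¹ := by
      calc a * h * x * (a * h)⁻¹ = (a * (h * x * h⁻¹)) * a⁻¹ := by group
        _ = ((h * x * h⁻¹) * a) * a⁻¹ := by rw [h2]
        _ = _ := by group
    rw [h3]
    exact ⟨h1, H.mul_mem (H.mul_mem hh hx.2) (H.inv_mem hh)⟩
  by_contra hne
  have hex : ∃ M : Subgroup G, IsCoatom M ∧ ¬ (A ⊓ H) ≤ M := by
    by_contra hno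
    push Not at hno
    apply hne
    rw [eq_bot_iff, ← hΦ, frattini, Order.radical]
    exact le_iInf fun M => le_iInf fun hM => hno M hM
  obtain ⟨M, hM, hAM⟩ := hex
  have hsup : (A ⊓ H) ⊔ M = ⊤ := by
    apply hM.2
    refine lt_of_le_of_ne le_sup_right ?_
    intro h
    apply hAM
    rw [h]; exact le_sup_left
  have h1 : A ⊔ (H ⊓ M) = ⊤ := by
    rw [eq_top_iff, ← hAH]
    apply sup_le le_sup_left
    intro h hh
    have hg : h ∈ (A ⊓ H) ⊔ M := by rw [hsup]; trivial
    obtain ⟨a, ha, m, hm, rfl⟩ := Subgroup.mem_sup_of_normal_left.mp hg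
    have hmH : m ∈ H := by
      have : m = a⁻¹ * (a * m) := by group
      rw [this]; exact H.mul_mem (H.inv_mem ha.2) hh
    exact Subgroup.mul_mem _ ((le_sup_left : A ≤ _) ha.1) ((le_sup_right : H ⊓ M ≤ _) ⟨hmH, hm⟩)
  have h2 : H ≤ H ⊓ M := hH.le_of_le h1 inf_le_left
  apply hAM
  exact inf_le_right.trans (h2.trans inf_le_right)

end Cfsg.Agent.S0585
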