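import Cfsg.Statements.S0586
import Mathlib
import Cfsg.Agent.L0.Core
import Cfsg.Agent.H1.Hall

set_option autoImplicit false
open Cfsg

namespace Cfsg.Agent.S0586

open Subgroup

theorem commutator_le_coatom {F : Type*} [Group F] [Finite F] (hF : Group.IsNilpotent F) {C : Subgroup F} (hC : IsCoatom C) : commutator F ≤ C := by
  have hall := ((Group.isNilpotent_of_finite_tfae (G := F)).out 0 2 : Group.IsNilpotent F ↔ ∀ H : Subgroup F, IsCoatom H → H.Normal).mp hF
  have hCn : C.Normal := hall C hC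
  haveI : Nontrivial (F ⧸ C) := by rw [QuotientGroup.nontrivial_iff]; exact hC.1
  haveI : Group.IsNilpotent (F ⧸ C) := inferInstance
  have h1 : center (F ⧸ C) ≠ ⊥ := Group.IsNilpotent.center_ne_bot _
  have h2 : (center (F ⧸ C)).comap (QuotientGroup.mk' C) = ⊤ := by
    apply hC.2
    apply lt_of_le_of_ne
    · intro x hx
      rw [Subgroup.mem_comap, QuotientGroup.mk'_apply, (QuotientGroup.eq_one_iff x).mpr hx]
      exact one_mem _
    · intro he
      apply h1
      rw [← Subgroup.map_comap_eq_self_of_surjective (QuotientGroup.mk'_surjective C) (center (F ⧸ C)), ← he, eq_bot_iff]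
      rintro _ ⟨x, hx, rfl⟩
      rw [Subgroup.mem_bot, QuotientGroup.mk'_apply, QuotientGroup.eq_one_iff]; exact hx
  rw [_root_.commutator_def, Subgroup.commutator_le]
  intro x _ y _
  rw [← QuotientGroup.eq_one_iff]
  have h3 : (x : F ⧸ C) ∈ center (F ⧸ C) := by
    have : x ∈ (center (F ⧸ C)).comap (QuotientGroup.mk' C) := by rw [h2]; trivial
    exact this
  have h4 := Subgroup.mem_center_iff.mp h3 (y : F ⧸ C)
  rw [commutatorElement_def, QuotientGroup.mk_mul, QuotientGroup.mk_mul, QuotientGroup.mk_mul, ← h4, QuotientGroup.mk_inv, QuotientGroup.mk_inv]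
  group

theorem not_le_coatom_of_frattini {G : Type*} [Group G] [Finite G] (hΦ : frattini G = ⊥) {D : Subgroup G} (hD : D ≠ ⊥) : ∃ M : Subgroup G, IsCoatom M ∧ ¬ D ≤ M := by
  by_contra hne
  apply hD
  rw [eq_bot_iff, ← hΦ, frattini, Order.radical]
  refine le_iInf fun M => le_iInf fun hM => ?_
  by_contra h
  exact hne ⟨M, hM, h⟩

theorem exists_complement {G : Type*} [Group G] [Finite G] (hΦ : frattini G = ⊥) (S : Subgroup G) [hS : S.Normal]
    (hab : ∀ a ∈ S, ∀ b ∈ S, a * b = b * a) : ∃ H : Subgroup G, S ⊔ H = ⊤ ∧ S ⊓ H = ⊥ := by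
  let F : Set (Subgroup G) := {H | S ⊔ H = ⊤}
  obtain ⟨H, hH⟩ := (Set.toFinite F).exists_minimal ⟨⊤, by simp [F]⟩
  have hSH : S ⊔ H = ⊤ := hH.prop
  refine ⟨H, hSH, ?_⟩
  by_contra hne
  obtain ⟨M, hM, hDM⟩ := not_le_coatom_of_frattini hΦ hne
  have hDn : (S ⊓ H).Normal := by
    rw [← Subgroup.normalizer_eq_top_iff, eq_top_iff, ← hSH]
    apply sup_le
    · intro s hs
      apply Subgroup.mem_normalizer_fintype
      rintro x ⟨hx1, hx2⟩
      have : s * x * s⁻¹ = x := by rw [hab s hs x hx1]; group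
      rw [this]; exact ⟨hx1, hx2⟩
    · intro h hh
      apply Subgroup.mem_normalizer_fintype
      rintro x ⟨hx1, hx2⟩
      exact ⟨hS.conj_mem x hx1 h, H.mul_mem (H.mul_mem hh hx2) (H.inv_mem hh)⟩
  have hDMt : (S ⊓ H) ⊔ M = ⊤ := by
    rw [sup_comm]; exact hM.2 _ (left_lt_sup.mpr hDM)
  have hlt : H ⊓ M < H := by
    apply lt_of_le_of_ne inf_le_left
    intro he
    apply hDM
    exact inf_le_right.trans (by rw [← he]; exact inf_le_right)
  have hin : H ⊓ M ∈ F := by
    show S ⊔ (H ⊓ M) = ⊤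
    rw [eq_top_iff]
    intro g _
    have hg : g ∈ S ⊔ H := by rw [hSH]; trivial
    rw [Subgroup.mem_sup_of_normal_left] at hg
    obtain ⟨s, hs, h, hh, rfl⟩ := hg
    have hh' : h ∈ (S ⊓ H) ⊔ M := by rw [hDMt]; trivial
    rw [Subgroup.mem_sup_of_normal_left] at hh'
    obtain ⟨d, hd, m, hm, hdm⟩ := hh'
    have hmH : m ∈ H := by
      have : m = d⁻¹ * h := by rw [← hdm]; group
      rw [this]; exact H.mul_mem (H.inv_mem hd.2) hh
    have := Subgroup.mul_mem_sup (S.mul_mem hs hd.1) (show m ∈ H ⊓ M from ⟨hmH, hm⟩)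
    rw [← hdm, ← mul_assoc]; exact this
  exact absurd (hH.2 hin hlt.le) (not_le_of_gt hlt)

theorem fitting_abelian {G : Type*} [Group G] [Finite G] (hΦ : frattini G = ⊥) (F : Subgroup G) [hFn : F.Normal] (hF : Group.IsNilpotent F) :
    ∀ a ∈ F, ∀ b ∈ F, a * b = b * a := by
  set F' := (commutator F).map F.subtype with hF'
  have hF'n : F'.Normal := inferInstance
  have hbot : F' = ⊥ := by
    by_contra hne
    obtain ⟨M, hM, hFM⟩ := not_le_coatom_of_frattini hΦ hne
    have htop : F' ⊔ M = ⊤ := by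
      rw [sup_comm]; exact hM.2 _ (left_lt_sup.mpr hFM)
    have h1 : (F ⊓ M).subgroupOf F ≠ ⊤ := by
      intro h
      rw [Subgroup.subgroupOf_eq_top] at h
      exact hFM ((Subgroup.map_subtype_le _).trans (h.trans inf_le_right))
    obtain ⟨C, hC, hCle⟩ := (eq_top_or_exists_le_coatom ((F ⊓ M).subgroupOf F)).resolve_left h1
    have h2 := commutator_le_coatom hF hC
    apply hC.1
    rw [eq_top_iff]
    intro x _
    have hx : (x : G) ∈ F' ⊔ M := by rw [htop]; trivial
    rw [Subgroup.mem_sup_of_normal_left] at hx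
    obtain ⟨_, ⟨c, hc, rfl⟩, m, hm, hcm⟩ := hx
    have hmF : m ∈ F := by
      have : m = (c : G)⁻¹ * x := by rw [← hcm, Subgroup.coe_subtype]; group
      rw [this]; exact F.mul_mem (F.inv_mem c.2) x.2
    have h3 : (⟨m, hmF⟩ : F) ∈ C := hCle (by rw [Subgroup.mem_subgroupOf]; exact ⟨hmF, hm⟩)
    have h4 : x = c * ⟨m, hmF⟩ := Subtype.ext hcm.symm
    rw [h4]; exact C.mul_mem (h2 hc) h3
  intro a ha b hb
  have h1 : a * b * a⁻¹ * b⁻¹ ∈ F' := ⟨⟨a, ha⟩ * ⟨b, hb⟩ * (⟨a, ha⟩ : F)⁻¹ * (⟨b, hb⟩ : F)⁻¹, Subgroup.commutator_mem_commutator (mem_top _) (mem_top _), rfl⟩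
  rw [hbot, Subgroup.mem_bot] at h1
  have h2 : a * b = (a * b * a⁻¹ * b⁻¹) * (b * a) := by group
  rw [h2, h1, one_mul]

/-- If the Frattini subgroup of a finite group G is trivial, then the Fitting subgroup of G equals the join of all abelian minimal normal subgroups of G. -/
theorem result {G : Type*} [Group G] [Finite G] (hΦ : frattini G = ⊥) : Cfsg.fittingSubgroup G = sSup {N : Subgroup G | N.Normal ∧ N ≠ ⊥ ∧ IsMulCommutative N ∧ ∀ K : Subgroup G, K.Normal → K ≤ N → K = ⊥ ∨ K = N} := by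
  have hFnil := L0.fittingSubgroup_isNilpotent G
  have hFn : (Cfsg.fittingSubgroup G).Normal := inferInstance
  have hab := fitting_abelian hΦ (Cfsg.fittingSubgroup G) hFnil
  set S := sSup {N : Subgroup G | N.Normal ∧ N ≠ ⊥ ∧ IsMulCommutative N ∧ ∀ K : Subgroup G, K.Normal → K ≤ N → K = ⊥ ∨ K = N} with hS
  have hSn : S.Normal := Subgroup.sSup_normal _ fun N hN => hN.1
  have hSF : S ≤ Cfsg.fittingSubgroup G := by
    apply sSup_le
    rintro N ⟨hN1, hN2, hN3, -⟩
    haveI := hN1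
    apply L0.le_fittingSubgroup
    letI : CommGroup N := { (inferInstance : Group N) with mul_comm := fun a b => hN3.is_comm.comm a b }
    exact CommGroup.isNilpotent
  apply le_antisymm _ hSF
  obtain ⟨H, hSH, hi⟩ := exists_complement hΦ S (fun a ha b hb => hab a (hSF ha) b (hSF hb))
  have hD : (Cfsg.fittingSubgroup G ⊓ H).Normal := by
    rw [← Subgroup.normalizer_eq_top_iff, eq_top_iff, ← hSH]
    apply sup_le
    · intro s hs
      apply Subgroup.mem_normalizer_fintype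
      rintro x ⟨hx1, hx2⟩
      have : s * x * s⁻¹ = x := by rw [hab s (hSF hs) x hx1]; group
      rw [this]; exact ⟨hx1, hx2⟩
    · intro h hh
      apply Subgroup.mem_normalizer_fintype
      rintro x ⟨hx1, hx2⟩
      exact ⟨hFn.conj_mem x hx1 h, H.mul_mem (H.mul_mem hh hx2) (H.inv_mem hh)⟩
  have hDb : Cfsg.fittingSubgroup G ⊓ H = ⊥ := by
    by_contra hne
    obtain ⟨N, hN, hNle, hNb, hmin⟩ := H1.exists_minimal_normal_le _ hne
    have h1 : N ≤ S := le_sSup ⟨hN, hNb, ⟨⟨fun a b => Subtype.ext (hab a (hNle a.2).1 b (hNle b.2).1)⟩⟩, hmin⟩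
    apply hNb
    rw [eq_bot_iff, ← hi]
    exact le_inf h1 (hNle.trans inf_le_right)
  intro x hx
  have hx' : x ∈ S ⊔ H := by rw [hSH]; trivial
  rw [Subgroup.mem_sup_of_normal_left] at hx'
  obtain ⟨s, hs, h, hh, rfl⟩ := hx'
  have hhF : h ∈ Cfsg.fittingSubgroup G := by
    have := mul_mem (inv_mem (hSF hs)) hx
    rwa [inv_mul_cancel_left] at this
  have : h ∈ Cfsg.fittingSubgroup G ⊓ H := ⟨hhF, hh⟩
  rw [hDb, Subgroup.mem_bot] at this
  rw [this, mul_one]; exact hs

end Cfsg.Agent.S0586
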