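import Cfsg.Statements.S0587
import Mathlib
import Cfsg.Agent.S0549
import Cfsg.Agent.L0.Core
import Cfsg.Agent.H1.Hall

set_option autoImplicit false
open Cfsg

namespace Cfsg.Agent.S0587

open Subgroup

theorem main {G : Type*} [Group G] [Finite G] (p : ℕ) [hp : Fact p.Prime] (hL : Cfsg.pCore p G ≠ ⊥) (M : Subgroup G) (hM : IsCoatom M) (hcore : M.normalCore = ⊥) :
    (∀ a ∈ Cfsg.pCore p G, ∀ b ∈ Cfsg.pCore p G, a * b = b * a) ∧ (∀ a ∈ Cfsg.pCore p G, a ^ p = 1) ∧ Cfsg.pCore p G ⊔ M = ⊤ ∧ Cfsg.pCore p G ⊓ M = ⊥ ∧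
      (∀ K : Subgroup G, K.Normal → K ≤ Cfsg.pCore p G → K = ⊥ ∨ K = Cfsg.pCore p G) ∧ Subgroup.centralizer ((Cfsg.pCore p G : Subgroup G) : Set G) = Cfsg.pCore p G := by
  have hLn : (Cfsg.pCore p G).Normal := inferInstance
  obtain ⟨N, hNn, hNL, hNb, hmin⟩ := H1.exists_minimal_normal_le (Cfsg.pCore p G) hL
  have hLp := L0.pCore_isPGroup p G
  have hNp : IsPGroup p N := hLp.to_le hNL
  haveI : Group.IsNilpotent N := hNp.isNilpotent
  haveI hNc : IsMulCommutative N := H1.isMulCommutative_of_minimal_of_solvable N hNb hmin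
  have hab : ∀ a ∈ N, ∀ b ∈ N, a * b = b * a := fun a ha b hb => congrArg Subtype.val (hNc.is_comm.comm ⟨a, ha⟩ ⟨b, hb⟩)
  obtain ⟨h1, h2⟩ := S0549.result M hM hcore N hNb
  have hNC : N ≤ centralizer (N : Set G) := by
    intro a ha
    rw [Subgroup.mem_centralizer_iff]
    intro b hb
    exact hab b hb a ha
  have hCN : centralizer (N : Set G) = N := by
    rcases h2 with h2 | ⟨h2, h3⟩
    · rw [h2, le_bot_iff] at hNC
      exact absurd hNC hNb
    · rcases h3 N hNn hNC with h4 | h4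
      · exact absurd h4 hNb
      · exact h4.symm
  have hLC : Cfsg.pCore p G ≤ centralizer (N : Set G) := by
    haveI : Group.IsNilpotent (Cfsg.pCore p G) := hLp.isNilpotent
    have h3 := H1.inf_center_ne_bot (N.subgroupOf (Cfsg.pCore p G)) (by
      intro h
      rw [Subgroup.subgroupOf_eq_bot, disjoint_iff, inf_eq_left.mpr hNL] at h
      exact hNb h)
    have h4 : N ⊓ centralizer ((Cfsg.pCore p G : Subgroup G) : Set G) ≠ ⊥ := by
      intro h
      apply h3
      rw [eq_bot_iff]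
      rintro x ⟨hx1, hx2⟩
      rw [Subgroup.mem_bot]
      apply Subtype.ext
      have hx1' : (x : G) ∈ N := hx1
      have h5 : (x : G) ∈ N ⊓ centralizer ((Cfsg.pCore p G : Subgroup G) : Set G) := by
        refine ⟨hx1', ?_⟩
        refine Subgroup.mem_centralizer_iff.mpr ?_
        intro y hy
        exact congrArg Subtype.val (Subgroup.mem_center_iff.mp hx2 ⟨y, hy⟩)
      rw [h] at h5
      exact h5
    rcases hmin _ inferInstance (inf_le_left : N ⊓ centralizer ((Cfsg.pCore p G : Subgroup G) : Set G) ≤ N) with h5 | h5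
    · exact absurd h5 h4
    · have h6 : N ≤ centralizer ((Cfsg.pCore p G : Subgroup G) : Set G) := by rw [← h5]; exact inf_le_right
      exact Subgroup.le_centralizer_iff.mp h6
  have hLN : Cfsg.pCore p G = N := le_antisymm (hCN ▸ hLC) hNL
  rw [hLN]
  have hNM : ¬ N ≤ M := by
    intro h
    have := (Subgroup.normal_le_normalCore (H := M) (N := N)).mpr h
    rw [hcore, le_bot_iff] at this
    exact hNb this
  refine ⟨hab, ?_, ?_, ?_, hmin, hCN⟩
  · obtain ⟨q, hq, hNq⟩ := H1.exists_prime_pow_eq_one_of_minimal N hNb hmin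
    have hqp : q = p := by
      haveI := Fact.mk hq
      obtain ⟨x, hx1'⟩ := (Subgroup.ne_bot_iff_exists_ne_one).mp hNb
      have hx : (x : G) ∈ N := x.2
      have hx1 : (x : G) ≠ 1 := fun h => hx1' (Subtype.ext h)
      obtain ⟨k, hk⟩ := hNp x
      have h3 : orderOf (x : G) ∣ p ^ k := orderOf_dvd_of_pow_eq_one (congrArg Subtype.val hk)
      have h4 : orderOf (x : G) ∣ q := orderOf_dvd_of_pow_eq_one (hNq x hx)
      have h5 : orderOf (x : G) ≠ 1 := fun h => hx1 (orderOf_eq_one_iff.mp h)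
      have h6 : orderOf (x : G) = q := (Nat.dvd_prime hq).mp h4 |>.resolve_left h5
      rw [h6] at h3
      exact (Nat.prime_dvd_prime_iff_eq hq hp.out).mp (hq.dvd_of_dvd_pow h3)
    rw [← hqp]; exact hNq
  · rw [sup_comm]; exact hM.2 _ (left_lt_sup.mpr hNM)
  · rw [← hCN]; exact h1

/-- Let G be a finite group whose largest normal p-subgroup L is nontrivial, and M a maximal subgroup of G with trivial normal core. Then L is elementary abelian, M is a complement to L, L is a minimal normal subgroup of G, the centralizer of L is L, and for every prime q such that the largest normal q-subgroup of M is nontrivial, the order of L is congruent to 1 modulo q and q ≠ p. -/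
theorem result {G : Type*} [Group G] [Finite G] (p : ℕ) [Fact p.Prime] (hL : Cfsg.pCore p G ≠ ⊥) (M : Subgroup G) (hM : IsCoatom M) (hcore : M.normalCore = ⊥) : Cfsg.IsElementaryAbelian p (Cfsg.pCore p G) ∧ Subgroup.IsComplement' (Cfsg.pCore p G) M ∧ (∀ K : Subgroup G, K.Normal → K ≤ Cfsg.pCore p G → K = ⊥ ∨ K = Cfsg.pCore p G) ∧ Subgroup.centralizer ((Cfsg.pCore p G : Subgroup G) : Set G) = Cfsg.pCore p G ∧ ∀ (q : ℕ) [Fact q.Prime], Cfsg.pCore q ↥M ≠ ⊥ → Nat.card (Cfsg.pCore p G) % q = 1 % q ∧ q ≠ p := by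
  obtain ⟨hab, hexp, hsup, hinf, hmin, hC⟩ := main p hL M hM hcore
  have hLn : (Cfsg.pCore p G).Normal := inferInstance
  have hcompl : Subgroup.IsComplement' (Cfsg.pCore p G) M := by
    apply Subgroup.isComplement'_of_disjoint_and_mul_eq_univ (disjoint_iff.mpr hinf)
    rw [← Subgroup.coe_mul_of_right_le_normalizer_left _ M (by rw [Subgroup.normalizer_eq_top]; exact le_top), hsup]; rfl
  refine ⟨⟨⟨⟨fun a b => Subtype.ext (hab a a.2 b b.2)⟩⟩, hexp⟩, hcompl, hmin, hC, ?_⟩
  intro q hq hQb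
  set Q := (Cfsg.pCore q ↥M).map M.subtype with hQ
  have hQM : Q ≤ M := Subgroup.map_subtype_le _
  have hQp : IsPGroup q Q := (L0.pCore_isPGroup q ↥M).map _
  have hMQ : M ≤ Subgroup.normalizer (Q : Set G) := by
    intro m hm
    apply Subgroup.mem_normalizer_fintype
    rintro _ ⟨x, hx, rfl⟩
    exact ⟨⟨m, hm⟩ * x * ⟨m, hm⟩⁻¹, (inferInstance : (Cfsg.pCore q ↥M).Normal).conj_mem x hx _, rfl⟩
  have hfixn : (Cfsg.pCore p G ⊓ Subgroup.centralizer (Q : Set G)).Normal := by
    rw [← Subgroup.normalizer_eq_top_iff, eq_top_iff, ← hsup]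
    apply sup_le
    · intro s hs
      apply Subgroup.mem_normalizer_fintype
      rintro x ⟨hx1, hx2⟩
      have : s * x * s⁻¹ = x := by rw [hab s hs x hx1]; group
      rw [this]; exact ⟨hx1, hx2⟩
    · intro m hm
      apply Subgroup.mem_normalizer_fintype
      rintro x ⟨hx1, hx2⟩
      refine ⟨hLn.conj_mem x hx1 m, ?_⟩
      have hx2' := Subgroup.mem_centralizer_iff.mp hx2
      refine Subgroup.mem_centralizer_iff.mpr ?_
      intro y hy
      have h1 : m⁻¹ * y * m ∈ (Q : Set G) := by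
        have := (Subgroup.mem_normalizer_iff.mp (Subgroup.inv_mem _ (hMQ hm)) y).mp hy
        rwa [inv_inv] at this
      have h2 := hx2' _ h1
      calc y * (m * x * m⁻¹) = m * ((m⁻¹ * y * m) * x) * m⁻¹ := by group
        _ = m * x * m⁻¹ * y := by rw [h2]; group
  have hfix : Cfsg.pCore p G ⊓ Subgroup.centralizer (Q : Set G) = ⊥ := by
    rcases hmin _ hfixn inf_le_left with h | h
    · exact h
    · exfalso
      have h1 : Cfsg.pCore p G ≤ Subgroup.centralizer (Q : Set G) := by rw [← h]; exact inf_le_right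
      have h2 : Q ≤ Cfsg.pCore p G := by rw [← hC]; exact Subgroup.le_centralizer_iff.mp h1
      have h3 : Q = ⊥ := by rw [eq_bot_iff, ← hinf]; exact le_inf h2 hQM
      apply hQb
      rw [hQ, Subgroup.map_eq_bot_iff_of_injective _ M.subtype_injective] at h3
      exact h3
  letI : MulAction Q (Cfsg.pCore p G) := MulAction.compHom _ ((MulAut.conjNormal (H := Cfsg.pCore p G)).comp Q.subtype)
  have hsm : ∀ (x : Q) (a : Cfsg.pCore p G), ((x • a : Cfsg.pCore p G) : G) = x * a * (x : G)⁻¹ := fun x a => MulAut.conjNormal_apply _ _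
  have hmod := hQp.card_modEq_card_fixedPoints (Cfsg.pCore p G)
  have hone : Nat.card (MulAction.fixedPoints Q (Cfsg.pCore p G)) = 1 := by
    rw [Nat.card_eq_one_iff_unique]
    refine ⟨⟨?_⟩, ⟨⟨1, fun x => ?_⟩⟩⟩
    · have key : ∀ a : MulAction.fixedPoints Q (Cfsg.pCore p G), (a : Cfsg.pCore p G) = 1 := by
        rintro ⟨a, ha⟩
        have h1 : (a : G) ∈ Cfsg.pCore p G ⊓ Subgroup.centralizer (Q : Set G) := by
          refine ⟨a.2, ?_⟩
          refine Subgroup.mem_centralizer_iff.mpr ?_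
          intro y hy
          have h2 := congrArg Subtype.val (ha ⟨y, hy⟩)
          rw [hsm] at h2
          have h3 : y * (a : G) * y⁻¹ = a := h2
          rw [← mul_inv_eq_iff_eq_mul]; exact h3
        rw [hfix, Subgroup.mem_bot] at h1
        exact Subtype.ext h1
      intro a b
      exact Subtype.ext ((key a).trans (key b).symm)
    · apply Subtype.ext
      rw [hsm]; simp
  rw [hone] at hmod
  refine ⟨hmod, ?_⟩
  rintro rfl
  have h1 := L0.pCore_isPGroup q G
  obtain ⟨k, hk⟩ := IsPGroup.iff_card.mp h1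
  have hk0 : k ≠ 0 := by
    rintro rfl
    rw [pow_zero, Subgroup.card_eq_one] at hk
    exact hL hk
  have h2 : q ∣ Nat.card (Cfsg.pCore q G) := by rw [hk]; exact dvd_pow_self q hk0
  have h3 := (Nat.modEq_zero_iff_dvd.mpr h2).symm.trans hmod
  have h4 := (Nat.modEq_zero_iff_dvd.mp h3.symm)
  exact hq.out.one_lt.ne' (Nat.dvd_one.mp h4)

end Cfsg.Agent.S0587
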