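import Cfsg.Statements.S0588
import Mathlib
import Cfsg.Agent.H1.Basic

set_option autoImplicit false
open Cfsg

namespace Cfsg.Agent.S0588

open scoped commutatorElement Pointwise


/-- If a subgroup H of a finite group G contains the centralizer of every non-identity element of H, then the order of H is coprime to its index. -/
theorem result {G : Type*} [Group G] [Finite G] (H : Subgroup G) (h : ∀ x ∈ H, x ≠ 1 → Subgroup.centralizer ({x} : Set G) ≤ H) : (Nat.card H).Coprime H.index := by
  rw [Nat.coprime_iff_gcd_eq_one] at *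
  by_contra hne
  obtain ⟨p, hp, hpd⟩ := Nat.exists_prime_and_dvd hne
  have h1 : p ∣ Nat.card H := hpd.trans (Nat.gcd_dvd_left _ _)
  have h2 : p ∣ H.index := hpd.trans (Nat.gcd_dvd_right _ _)
  haveI : Fact p.Prime := ⟨hp⟩
  obtain ⟨x, hx⟩ := exists_prime_orderOf_dvd_card' p h1
  have hx' : orderOf (x : G) = p := by rw [Subgroup.orderOf_coe]; exact hx
  have hpx : IsPGroup p (Subgroup.zpowers (x : G)) := by
    rw [IsPGroup.iff_card]
    exact ⟨1, by rw [Nat.card_zpowers, hx', pow_one]⟩
  obtain ⟨S, hS⟩ := hpx.exists_le_sylow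
  have hxS : (x : G) ∈ S := hS (Subgroup.mem_zpowers _)
  have hx1 : (x : G) ≠ 1 := by
    intro h
    rw [h, orderOf_one] at hx'
    exact hp.one_lt.ne hx'
  haveI : Nontrivial (S : Subgroup G) := ⟨⟨⟨x, hxS⟩, 1, fun h => hx1 (congrArg Subtype.val h)⟩⟩
  haveI := S.isPGroup'.center_nontrivial
  obtain ⟨z, hz⟩ := exists_ne (1 : Subgroup.center (S : Subgroup G))
  have hzc : ∀ s ∈ (S : Subgroup G), ((z : (S : Subgroup G)) : G) * s = s * ((z : (S : Subgroup G)) : G) := by
    intro s hs
    exact (congrArg Subtype.val ((Subgroup.mem_center_iff.mp z.2) ⟨s, hs⟩)).symm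
  have hzH : ((z : (S : Subgroup G)) : G) ∈ H := by
    apply h x x.2 hx1
    rw [Subgroup.mem_centralizer_singleton_iff]
    exact hzc x hxS
  have hz1 : ((z : (S : Subgroup G)) : G) ≠ 1 := by
    intro h
    exact hz (Subtype.ext (Subtype.ext h))
  have hSH : (S : Subgroup G) ≤ H := by
    intro s hs
    apply h _ hzH hz1
    rw [Subgroup.mem_centralizer_singleton_iff]
    exact (hzc s hs).symm
  exact S.not_dvd_index (h2.trans (Subgroup.index_dvd_of_le hSH))

end Cfsg.Agent.S0588
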