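import Cfsg.Statements.S0590
import Mathlib
import Cfsg.Agent.H1.Basic

set_option autoImplicit false
open Cfsg

namespace Cfsg.Agent.S0590

open scoped commutatorElement Pointwise
theorem quad_commute {G : Type*} [Group G] {V H : Subgroup G} (hHV : H ≤ Subgroup.normalizer (V : Set G)) (hq : ⁅⁅V, H⁆, H⁆ = ⊥)
    {a b v : G} (ha : a ∈ H) (hb : b ∈ H) (hv : v ∈ V) : Commute a ⁅b, v⁆ := by
  have h1 : ⁅b, v⁆ ∈ ⁅V, H⁆ := by rw [Subgroup.commutator_comm]; exact Subgroup.commutator_mem_commutator hb hv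
  have h2 : ⁅⁅b, v⁆, a⁆ = 1 := by
    have : ⁅⁅b, v⁆, a⁆ ∈ ⁅⁅V, H⁆, H⁆ := Subgroup.commutator_mem_commutator h1 ha
    rw [hq, Subgroup.mem_bot] at this
    exact this
  exact (commutatorElement_eq_one_iff_commute.mp h2).symm

theorem quad_mul {G : Type*} [Group G] {V H : Subgroup G} (hHV : H ≤ Subgroup.normalizer (V : Set G)) (hq : ⁅⁅V, H⁆, H⁆ = ⊥)
    {a b v : G} (ha : a ∈ H) (hb : b ∈ H) (hv : v ∈ V) : ⁅a * b, v⁆ = ⁅b, v⁆ * ⁅a, v⁆ := by
  have h1 : ⁅a * b, v⁆ = (a * ⁅b, v⁆ * a⁻¹) * ⁅a, v⁆ := by simp only [commutatorElement_def]; group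
  rw [h1, (quad_commute hHV hq ha hb hv).eq]; group

/-- Quadratic action on an elementary abelian p-group forces the acting group modulo the kernel of the action to be elementary abelian. -/
theorem result {G : Type*} [Group G] [Finite G] {p : ℕ} [Fact p.Prime] (V H : Subgroup G) (hV : Cfsg.IsElementaryAbelian p V) (hHV : H ≤ Subgroup.normalizer (V : Set G)) (hq : ⁅⁅V, H⁆, H⁆ = ⊥) : ⁅H, H⁆ ≤ Subgroup.centralizer (V : Set G) ∧ ∀ a ∈ H, a ^ p ∈ Subgroup.centralizer (V : Set G) := by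
  have hVc : ∀ x ∈ V, ∀ y ∈ V, x * y = y * x := by
    haveI := hV.1
    intro x hx y hy
    exact congrArg Subtype.val (mul_comm' (⟨x, hx⟩ : V) ⟨y, hy⟩)
  have hmem : ∀ a ∈ H, ∀ v ∈ V, ⁅a, v⁆ ∈ V := by
    intro a ha v hv
    rw [commutatorElement_def]
    exact V.mul_mem ((Subgroup.mem_normalizer_iff.mp (hHV ha) v).mp hv) (V.inv_mem hv)
  constructor
  · rw [Subgroup.commutator_le]
    intro a ha b hb
    rw [Subgroup.mem_centralizer_iff]
    intro v hv
    have h1 : ⁅a * b, v⁆ = ⁅b * a, v⁆ := by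
      rw [quad_mul hHV hq ha hb hv, quad_mul hHV hq hb ha hv, hVc _ (hmem b hb v hv) _ (hmem a ha v hv)]
    have h2 : a * b * v * (a * b)⁻¹ = b * a * v * (b * a)⁻¹ := by
      rw [commutatorElement_def, commutatorElement_def] at h1
      exact mul_right_cancel h1
    -- apply with v replaced by (ba)⁻¹ v (ba)
    have hba : b * a ∈ H := H.mul_mem hb ha
    have hv' : (b * a)⁻¹ * v * (b * a) ∈ V := by
      have := (Subgroup.mem_normalizer_iff.mp (hHV (H.inv_mem hba)) v).mp hv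
      simpa using this
    have h1' : ⁅a * b, (b * a)⁻¹ * v * (b * a)⁆ = ⁅b * a, (b * a)⁻¹ * v * (b * a)⁆ := by
      rw [quad_mul hHV hq ha hb hv', quad_mul hHV hq hb ha hv', hVc _ (hmem b hb _ hv') _ (hmem a ha _ hv')]
    have h3 : a * b * ((b * a)⁻¹ * v * (b * a)) * (a * b)⁻¹ = b * a * ((b * a)⁻¹ * v * (b * a)) * (b * a)⁻¹ := by
      rw [commutatorElement_def, commutatorElement_def] at h1'
      exact mul_right_cancel h1'
    have h4 : ⁅a, b⁆ * v * ⁅a, b⁆⁻¹ = v := by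
      calc ⁅a, b⁆ * v * ⁅a, b⁆⁻¹ = a * b * ((b * a)⁻¹ * v * (b * a)) * (a * b)⁻¹ := by
            simp only [commutatorElement_def]; group
        _ = b * a * ((b * a)⁻¹ * v * (b * a)) * (b * a)⁻¹ := h3
        _ = v := by group
    calc v * ⁅a, b⁆ = (⁅a, b⁆ * v * ⁅a, b⁆⁻¹) * ⁅a, b⁆ := by rw [h4]
      _ = _ := by group
  · intro a ha
    rw [Subgroup.mem_centralizer_iff]
    intro v hv
    have hpow : ∀ n : ℕ, ⁅a ^ n, v⁆ = ⁅a, v⁆ ^ n := by
      intro n
      induction n with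
      | zero => simp
      | succ n ih =>
        rw [pow_succ, quad_mul hHV hq (H.pow_mem ha n) ha hv, ih, ← pow_succ']
    have h1 := hpow p
    rw [hV.2 _ (hmem a ha v hv)] at h1
    exact ((commutatorElement_eq_one_iff_mul_comm).mp h1).symm

end Cfsg.Agent.S0590
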