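import Cfsg.Statements.S0591
import Mathlib
import Cfsg.Agent.H1.Basic

set_option autoImplicit false
open Cfsg

namespace Cfsg.Agent.S0591

open scoped commutatorElement Pointwise


/-- For a quadratically acting element a on an elementary abelian p-group V, the fixed points C_V(a) have order at least the square root of the order of V. -/
theorem result {G : Type*} [Group G] [Finite G] {p : ℕ} [Fact p.Prime] (V : Subgroup G) (hV : Cfsg.IsElementaryAbelian p V) (a : G) (ha : a ∈ Subgroup.normalizer (V : Set G)) (hq : ⁅⁅V, Subgroup.zpowers a⁆, Subgroup.zpowers a⁆ = ⊥) : Nat.card V ≤ Nat.card ↥(V ⊓ Subgroup.centralizer (Subgroup.zpowers a : Set G)) ^ 2 := by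
  have hVc : ∀ x ∈ V, ∀ y ∈ V, x * y = y * x := by
    haveI := hV.1
    intro x hx y hy
    exact congrArg Subtype.val (mul_comm' (⟨x, hx⟩ : V) ⟨y, hy⟩)
  have hmem : ∀ v ∈ V, ⁅a, v⁆ ∈ V := by
    intro v hv
    rw [commutatorElement_def]
    exact V.mul_mem ((Subgroup.mem_normalizer_iff.mp ha v).mp hv) (V.inv_mem hv)
  let f : V →* V := MonoidHom.mk' (fun v => ⟨⁅a, (v : G)⁆, hmem v v.2⟩) (by
    intro v w
    apply Subtype.ext
    show ⁅a, (v : G) * w⁆ = ⁅a, (v : G)⁆ * ⁅a, (w : G)⁆
    have h1 : ⁅a, (v : G) * w⁆ = ⁅a, (v : G)⁆ * (v * ⁅a, (w : G)⁆) * (v : G)⁻¹ := by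
      simp only [commutatorElement_def]; group
    rw [h1, hVc v v.2 _ (hmem w w.2)]; group)
  set C := V ⊓ Subgroup.centralizer (Subgroup.zpowers a : Set G) with hC
  have hker : Nat.card f.ker ≤ Nat.card C := by
    refine Nat.card_le_card_of_injective (fun x : f.ker => (⟨(x : V), ?_⟩ : C)) ?_
    · refine ⟨(x : V).2, ?_⟩
      have h1 : ⁅a, ((x : V) : G)⁆ = 1 := congrArg Subtype.val (MonoidHom.mem_ker.mp x.2)
      have h2 : Commute a ((x : V) : G) := commutatorElement_eq_one_iff_commute.mp h1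
      apply Subgroup.mem_centralizer_iff.mpr
      rintro _ ⟨k, rfl⟩
      exact (h2.zpow_left k).eq
    · intro x y hxy
      have : ((x : V) : G) = ((y : V) : G) := congrArg (fun z : C => (z : G)) hxy
      exact Subtype.ext (Subtype.ext this)
  have hrange : Nat.card f.range ≤ Nat.card C := by
    refine Nat.card_le_card_of_injective (fun x : f.range => (⟨(x : V), ?_⟩ : C)) ?_
    · refine ⟨(x : V).2, ?_⟩
      obtain ⟨v, hv⟩ := x.2
      have hv' : ⁅a, (v : G)⁆ = ((x : V) : G) := congrArg Subtype.val hv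
      have h1 : ((x : V) : G) ∈ ⁅V, Subgroup.zpowers a⁆ := by
        rw [← hv', Subgroup.commutator_comm]
        exact Subgroup.commutator_mem_commutator (Subgroup.mem_zpowers a) v.2
      apply Subgroup.mem_centralizer_iff.mpr
      intro y hy
      have h2 : ⁅((x : V) : G), y⁆ ∈ ⁅⁅V, Subgroup.zpowers a⁆, Subgroup.zpowers a⁆ :=
        Subgroup.commutator_mem_commutator h1 hy
      rw [hq, Subgroup.mem_bot] at h2
      exact ((commutatorElement_eq_one_iff_mul_comm).mp h2).symm
    · intro x y hxy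
      have : ((x : V) : G) = ((y : V) : G) := congrArg (fun z : C => (z : G)) hxy
      exact Subtype.ext (Subtype.ext this)
  have h1 := f.ker.card_mul_index
  rw [Subgroup.index_ker] at h1
  rw [← h1, pow_two]
  exact Nat.mul_le_mul hker hrange

end Cfsg.Agent.S0591
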