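import Cfsg.Statements.S0595
import Cfsg.Agent.H2.ActStab
import Mathlib

set_option autoImplicit false
open Cfsg

namespace Cfsg.Agent.S0595

open Cfsg.Agent.H2
open Cfsg.Agent

/-- For odd p, a faithful action on an elementary abelian p-group that is not p-stable forces non-abelian Sylow 2-subgroups. -/
theorem result {G : Type*} [Group G] [Finite G] {p : ℕ} [Fact p.Prime] (hp : p ≠ 2) (V H : Subgroup G) (hV : Cfsg.IsElementaryAbelian p V) (hHV : H ≤ Subgroup.normalizer (V : Set G)) (hf : H ⊓ Subgroup.centralizer (V : Set G) = ⊥) (a : G) (haH : a ∈ H) (hq : ⁅⁅V, Subgroup.zpowers a⁆, Subgroup.zpowers a⁆ = ⊥) (hna : a ∉ (Cfsg.pCore p H).map H.subtype) (T : Sylow 2 H) : ¬ IsMulCommutative T := by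
  intro hT
  have h1 := sec_of_faithful hp V H hV hHV hf a haH hq hna
  refine sl2_sylow_two_nonab hp (abelian_two_of_sec h1 ?_)
  intro T'
  obtain ⟨g, hg⟩ := MulAction.exists_smul_eq H T' T
  refine ⟨⟨?_⟩⟩
  rintro ⟨x, hx⟩ ⟨y, hy⟩
  apply Subtype.ext
  show x * y = y * x
  have hcj : ∀ z, z ∈ T' → g * z * g⁻¹ ∈ T := by
    intro z hz
    rw [← hg]
    exact ⟨z, hz, rfl⟩
  have h2 : (g * x * g⁻¹) * (g * y * g⁻¹) = (g * y * g⁻¹) * (g * x * g⁻¹) :=
    congrArg Subtype.val (mul_comm' (⟨_, hcj x hx⟩ : T) ⟨_, hcj y hy⟩)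
  have h3 : g * (x * y) * g⁻¹ = g * (y * x) * g⁻¹ := by
    calc g * (x * y) * g⁻¹ = (g * x * g⁻¹) * (g * y * g⁻¹) := by group
      _ = (g * y * g⁻¹) * (g * x * g⁻¹) := h2
      _ = g * (y * x) * g⁻¹ := by group
  exact mul_left_cancel (mul_right_cancel h3)

end Cfsg.Agent.S0595
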