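import Cfsg.Statements.S0596
import Cfsg.Agent.H2.ActStab
import Mathlib

set_option autoImplicit false
open Cfsg

namespace Cfsg.Agent.S0596

open Cfsg.Agent.H2
open Cfsg.Agent

/-- For odd p, a p-separable group with a faithful action on an elementary abelian p-group that is not p-stable has p = 3 and involves SL(2,3). -/
theorem result {G : Type*} [Group G] [Finite G] {p : ℕ} [Fact p.Prime] (hp : p ≠ 2) (V H : Subgroup G) (hV : Cfsg.IsElementaryAbelian p V) (hHV : H ≤ Subgroup.normalizer (V : Set G)) (hf : H ⊓ Subgroup.centralizer (V : Set G) = ⊥) (hsep : Cfsg.IsPSolvable p H) (a : G) (haH : a ∈ H) (hq : ⁅⁅V, Subgroup.zpowers a⁆, Subgroup.zpowers a⁆ = ⊥) (hna : a ∉ (Cfsg.pCore p H).map H.subtype) : p = 3 ∧ ∃ (K L : Subgroup G) (hL : (L.subgroupOf K).Normal), K ≤ H ∧ Nonempty ((K ⧸ L.subgroupOf K) ≃* Matrix.SpecialLinearGroup (Fin 2) (ZMod 3)) := by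
  have h1 := sec_of_faithful hp V H hV hHV hf a haH hq hna
  have h2 : ¬ 5 ≤ p := fun h5 => sl2_not_psolvable h5 (psolvable_sec hsep h1)
  have hpr := (Fact.out : p.Prime)
  have h3 : p = 3 := by
    have := hpr.two_le
    have h4 : p ≠ 4 := by rintro rfl; revert hpr; decide
    omega
  subst h3
  exact ⟨rfl, sec_in_subgroup H h1⟩

end Cfsg.Agent.S0596
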