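import Cfsg.Statements.S0597
import Mathlib
import Cfsg.Agent.H1.Subn
import Cfsg.Agent.H1.Comm
import Cfsg.Agent.S0590

set_option autoImplicit false
open Cfsg

namespace Cfsg.Agent.S0597

open scoped commutatorElement Pointwise
theorem comm_le_centralizer {G : Type*} [Group G] {V H : Subgroup G} (h : ⁅V, H⁆ = ⊥) : H ≤ Subgroup.centralizer (V : Set G) := by
  rw [Subgroup.commutator_comm] at h
  exact Subgroup.commutator_eq_bot_iff_le_centralizer.mp h

/-- If two subnormal subgroups of a faithful group on an elementary abelian p-group satisfy [V, E₁, E₂] = 1, then their commutator lies in the largest normal p-subgroup. -/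
theorem result {G : Type*} [Group G] [Finite G] {p : ℕ} [Fact p.Prime] (V H : Subgroup G) (hV : Cfsg.IsElementaryAbelian p V) (hHV : H ≤ Subgroup.normalizer (V : Set G)) (hf : H ⊓ Subgroup.centralizer (V : Set G) = ⊥) (E₁ E₂ : Subgroup G) (h₁ : E₁ ≤ H) (h₂ : E₂ ≤ H) (hs₁ : (E₁.subgroupOf H).IsSubnormal) (hs₂ : (E₂.subgroupOf H).IsSubnormal) (hc : ⁅⁅V, E₁⁆, E₂⁆ = ⊥) : ⁅E₁, E₂⁆ ≤ (Cfsg.pCore p H).map H.subtype := by
  -- H₀ = ⟨E₁, E₂⟩ subnormal in H
  set H₀ := E₁ ⊔ E₂ with hH₀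
  have hH₀H : H₀ ≤ H := sup_le h₁ h₂
  have hH₀s : (H₀.subgroupOf H).IsSubnormal := by
    rw [hH₀, Subgroup.subgroupOf_sup h₁ h₂]
    exact Cfsg.Agent.H1.sup_isSubnormal hs₁ hs₂
  have hH₀V : H₀ ≤ Subgroup.normalizer (V : Set G) := hH₀H.trans hHV
  have hVc : ∀ x ∈ V, ∀ y ∈ V, x * y = y * x := by
    haveI := hV.1
    intro x hx y hy
    exact congrArg Subtype.val (mul_comm' (⟨x, hx⟩ : V) ⟨y, hy⟩)
  have hmem : ∀ a ∈ H, ∀ v ∈ V, ⁅v, a⁆ ∈ V := by
    intro a ha v hv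
    have h3 : a * v⁻¹ * a⁻¹ ∈ V := (Subgroup.mem_normalizer_iff.mp (hHV ha) v⁻¹).mp (V.inv_mem hv)
    have : ⁅v, a⁆ = v * (a * v⁻¹ * a⁻¹) := by rw [commutatorElement_def]; group
    rw [this]; exact V.mul_mem hv h3
  set W := ⁅V, E₁⁆ with hW
  have hWV : W ≤ V := by
    rw [hW, Subgroup.commutator_le]
    intro v hv a ha
    exact hmem a (h₁ ha) v hv
  -- H₀ normalizes W
  have hWn : H₀ ≤ Subgroup.normalizer (W : Set G) := by
    apply sup_le
    · exact Cfsg.Agent.H1.le_normalizer_commutator_right V E₁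
    · have := comm_le_centralizer hc
      exact this.trans (Subgroup.centralizer_le_normalizer _)
  -- Y = C_{H₀}(W)
  set Y := H₀ ⊓ Subgroup.centralizer (W : Set G) with hY
  have hE₂Y : E₂ ≤ Y := le_inf le_sup_right (comm_le_centralizer hc)
  -- U = C_V(Y)
  set U := V ⊓ Subgroup.centralizer (Y : Set G) with hU
  have hWU : W ≤ U := by
    refine le_inf hWV ?_
    intro w hw
    rw [Subgroup.mem_centralizer_iff]
    intro y hy
    exact (Subgroup.mem_centralizer_iff.mp hy.2 w hw).symm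
  have hYn : ∀ h ∈ H₀, ∀ y ∈ Y, h * y * h⁻¹ ∈ Y := by
    intro h hh y hy
    refine ⟨H₀.mul_mem (H₀.mul_mem hh hy.1) (H₀.inv_mem hh), ?_⟩
    apply Subgroup.mem_centralizer_iff.mpr
    intro w hw
    have h3 : h⁻¹ * w * h ∈ W := by
      have := (Subgroup.mem_normalizer_iff.mp (hWn (H₀.inv_mem hh)) w).mp hw
      simpa using this
    have h4 := Subgroup.mem_centralizer_iff.mp hy.2 _ h3
    calc w * (h * y * h⁻¹) = h * ((h⁻¹ * w * h) * y) * h⁻¹ := by group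
      _ = h * (y * (h⁻¹ * w * h)) * h⁻¹ := by rw [h4]
      _ = _ := by group
  have hUn : ∀ h ∈ H₀, ∀ u ∈ U, h * u * h⁻¹ ∈ U := by
    intro h hh u hu
    refine ⟨(Subgroup.mem_normalizer_iff.mp (hH₀V hh) u).mp hu.1, ?_⟩
    apply Subgroup.mem_centralizer_iff.mpr
    intro y hy
    have h3 : h⁻¹ * y * h ∈ Y := by
      have := hYn h⁻¹ (H₀.inv_mem hh) y hy
      simpa using this
    have h4 := Subgroup.mem_centralizer_iff.mp hu.2 _ h3
    calc y * (h * u * h⁻¹) = h * ((h⁻¹ * y * h) * u) * h⁻¹ := by group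
      _ = h * (u * (h⁻¹ * y * h)) * h⁻¹ := by rw [h4]
      _ = _ := by group
  -- X = {h ∈ H₀ : [V,h] ≤ U}
  let X : Subgroup G :=
    { carrier := {h | h ∈ H₀ ∧ ∀ v ∈ V, ⁅v, h⁆ ∈ U}
      one_mem' := ⟨H₀.one_mem, fun v _ => by rw [commutatorElement_one_right]; exact U.one_mem⟩
      mul_mem' := by
        rintro a b ⟨ha, ha'⟩ ⟨hb, hb'⟩
        refine ⟨H₀.mul_mem ha hb, fun v hv => ?_⟩
        have : ⁅v, a * b⁆ = ⁅v, a⁆ * (a * ⁅v, b⁆ * a⁻¹) := by simp only [commutatorElement_def]; group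
        rw [this]
        exact U.mul_mem (ha' v hv) (hUn a ha _ (hb' v hv))
      inv_mem' := by
        rintro a ⟨ha, ha'⟩
        refine ⟨H₀.inv_mem ha, fun v hv => ?_⟩
        have h3 : ⁅v, a⁻¹⁆ = a⁻¹ * ⁅v, a⁆⁻¹ * a⁻¹⁻¹ := by simp only [commutatorElement_def]; group
        rw [h3]
        exact hUn _ (H₀.inv_mem ha) _ (U.inv_mem (ha' v hv)) }
  have hXmem : ∀ h, h ∈ X ↔ h ∈ H₀ ∧ ∀ v ∈ V, ⁅v, h⁆ ∈ U := fun h => Iff.rfl
  have hE₁X : E₁ ≤ X := by
    intro e he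
    rw [hXmem]
    exact ⟨(le_sup_left : E₁ ≤ H₀) he, fun v hv => hWU (Subgroup.commutator_mem_commutator hv he)⟩
  have hXn : ∀ h ∈ H₀, ∀ x ∈ X, h * x * h⁻¹ ∈ X := by
    intro h hh x hx
    rw [hXmem] at hx ⊢
    refine ⟨H₀.mul_mem (H₀.mul_mem hh hx.1) (H₀.inv_mem hh), fun v hv => ?_⟩
    have h3 : h⁻¹ * v * h ∈ V := by
      have := (Subgroup.mem_normalizer_iff.mp (hH₀V (H₀.inv_mem hh)) v).mp hv
      simpa using this
    have h4 := hUn h hh _ (hx.2 _ h3)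
    have h5 : h * ⁅h⁻¹ * v * h, x⁆ * h⁻¹ = ⁅v, h * x * h⁻¹⁆ := by simp only [commutatorElement_def]; group
    rwa [h5] at h4
  set Z := X ⊓ Y with hZ
  have hZH₀ : Z ≤ H₀ := fun z hz => hz.2.1
  have hq : ⁅⁅V, Z⁆, Z⁆ = ⊥ := by
    rw [eq_bot_iff, Subgroup.commutator_le]
    intro w hw z hz
    rw [Subgroup.mem_bot, commutatorElement_eq_one_iff_mul_comm]
    have h3 : ⁅V, Z⁆ ≤ U := by
      rw [Subgroup.commutator_le]
      intro v hv z hz
      exact ((hXmem z).mp hz.1).2 v hv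
    exact (Subgroup.mem_centralizer_iff.mp (h3 hw).2 z hz.2).symm
  obtain ⟨hZ1, hZ2⟩ := Cfsg.Agent.S0590.result V Z hV (hZH₀.trans hH₀V) hq
  have hZC : ∀ z ∈ Z, z ∈ Subgroup.centralizer (V : Set G) → z = 1 := by
    intro z hz hzc
    have : z ∈ H ⊓ Subgroup.centralizer (V : Set G) := ⟨hH₀H (hZH₀ hz), hzc⟩
    rw [hf, Subgroup.mem_bot] at this
    exact this
  have hZp : IsPGroup p Z := by
    intro z
    refine ⟨1, ?_⟩
    rw [pow_one]
    apply Subtype.ext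
    exact hZC _ (Z.pow_mem z.2 p) (hZ2 z z.2)
  have hEZ : ⁅E₁, E₂⁆ ≤ Z := by
    rw [Subgroup.commutator_le]
    intro a ha b hb
    have haX := hE₁X ha
    have hbY := hE₂Y hb
    have haH := (le_sup_left : E₁ ≤ H₀) ha
    have hbH := (le_sup_right : E₂ ≤ H₀) hb
    refine ⟨?_, ?_⟩
    · have : ⁅a, b⁆ = a * (b * a⁻¹ * b⁻¹) := by rw [commutatorElement_def]; group
      show ⁅a, b⁆ ∈ X
      rw [this]
      exact X.mul_mem haX (hXn b hbH _ (X.inv_mem haX))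
    · have : ⁅a, b⁆ = (a * b * a⁻¹) * b⁻¹ := by rw [commutatorElement_def]
      show ⁅a, b⁆ ∈ Y
      rw [this]
      exact Y.mul_mem (hYn a haH b hbY) (Y.inv_mem hbY)
  refine hEZ.trans ?_
  -- Z is a normal p-subgroup of H₀, which is subnormal in H
  have hZH : Z ≤ H := hZH₀.trans hH₀H
  have hZs : (Z.subgroupOf H).IsSubnormal := by
    have hsub : Z.subgroupOf H ≤ H₀.subgroupOf H := Subgroup.comap_mono hZH₀
    refine Subgroup.IsSubnormal.step _ (H₀.subgroupOf H) hsub hH₀s ?_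
    · rw [Subgroup.normal_subgroupOf_iff_le_normalizer hsub]
      intro h hh
      apply Cfsg.Agent.H1.mem_normalizer_of_conj_mem
      intro z hz
      exact ⟨hXn h hh z hz.1, hYn h hh z hz.2⟩
  have hle : Z.subgroupOf H ≤ Cfsg.pCore p H := by
    have hgen : ∀ (L : Subgroup H), L.IsSubnormal → ∀ (K : Subgroup H), K ≤ L → (K.subgroupOf L).Normal → IsPGroup p K → True := fun _ _ _ _ _ _ => trivial
    exact Cfsg.Agent.H1.le_pCore_of_isSubnormal hZs (hZp.comap_subtype)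
  intro z hz
  exact ⟨⟨z, hZH hz⟩, hle hz, rfl⟩

end Cfsg.Agent.S0597
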