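import Cfsg.Statements.S0599
import Mathlib
import Cfsg.Agent.H1.Replace

set_option autoImplicit false
open Cfsg

namespace Cfsg.Agent.S0599

open scoped commutatorElement Pointwise


/-- The Timmesfeld replacement Theorem: replacing a best offender A by C_A([U, A]) gives a best offender with fixed points [U, A]C_V(A), still nontrivial on V if A was. -/
theorem result {G : Type*} [Group G] [Finite G] {p : ℕ} [Fact p.Prime] (V A : Subgroup G) (hV : Cfsg.IsElementaryAbelian p V) (hAV : A ≤ Subgroup.normalizer (V : Set G)) (hA : Cfsg.IsBestOffenderOn p V A) (U : Subgroup G) (hU : U ≤ V) : Cfsg.IsBestOffenderOn p V (A ⊓ Subgroup.centralizer ((⁅U, A⁆ : Subgroup G) : Set G)) ∧ V ⊓ Subgroup.centralizer ((A ⊓ Subgroup.centralizer ((⁅U, A⁆ : Subgroup G) : Set G) : Subgroup G) : Set G) = ⁅U, A⁆ ⊔ (V ⊓ Subgroup.centralizer (A : Set G)) ∧ (⁅V, A⁆ ≠ ⊥ → ⁅V, A ⊓ Subgroup.centralizer ((⁅U, A⁆ : Subgroup G) : Set G)⁆ ≠ ⊥) := by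
  have hs : Cfsg.Agent.H1.RSetup V A := ⟨by
    haveI := hV.1
    intro x hx y hy
    exact congrArg Subtype.val (mul_comm' (⟨x, hx⟩ : V) ⟨y, hy⟩), hAV, hA.2.1⟩
  obtain ⟨h1, h2⟩ := Cfsg.Agent.H1.replacement hs hA.1 U hU
  have heq : Nat.card ↥(A ⊓ Subgroup.centralizer ((⁅U, A⁆ : Subgroup G) : Set G)) * Nat.card ↥(V ⊓ Subgroup.centralizer ((A ⊓ Subgroup.centralizer ((⁅U, A⁆ : Subgroup G) : Set G) : Subgroup G) : Set G)) = Nat.card A * Nat.card ↥(V ⊓ Subgroup.centralizer (A : Set G)) := h1.eq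
  refine ⟨⟨?_, ?_, ?_⟩, h2, ?_⟩
  · intro B hB
    rw [heq]
    exact hA.1 B (hB.trans inf_le_left)
  · exact (Subgroup.commutator_mono inf_le_left inf_le_left).trans hA.2.1
  · intro a ha
    exact hA.2.2 a ha.1
  · intro hne hcon
    apply hne
    set B := A ⊓ Subgroup.centralizer ((⁅U, A⁆ : Subgroup G) : Set G) with hB
    have hVB : V ⊓ Subgroup.centralizer (B : Set G) = V := by
      apply inf_eq_left.mpr
      exact Subgroup.commutator_eq_bot_iff_le_centralizer.mp hcon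
    rw [hVB] at h2
    have hVp : IsPGroup p V := fun x => ⟨1, by rw [pow_one]; exact Subtype.ext (hV.2 x x.2)⟩
    apply Cfsg.Agent.H1.commutator_eq_bot_of_sup hs hVp hA.2.2
    rw [h2]
    exact sup_le_sup_right (Subgroup.commutator_mono hU le_rfl) _ |>.trans (by rw [← h2])

end Cfsg.Agent.S0599
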