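import Cfsg.Statements.S0600
import Mathlib
import Cfsg.Agent.H1.Basic
import Cfsg.Agent.L0.Core

set_option autoImplicit false
open Cfsg

namespace Cfsg.Agent.S0600

open scoped commutatorElement Pointwise


/-- A normal elementary abelian p-subgroup generated by the fixed points of the Sylow p-subgroups admits no nontrivial normal p-subgroup of G modulo its centralizer. -/
theorem result {G : Type*} [Group G] [Finite G] {p : ℕ} [Fact p.Prime] (V : Subgroup G) [V.Normal] (hV : Cfsg.IsElementaryAbelian p V) (hgen : V = ⨆ S : Sylow p G, V ⊓ Subgroup.centralizer ((S : Subgroup G) : Set G)) : Cfsg.pCore p (G ⧸ Subgroup.centralizer (V : Set G)) = ⊥ := by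
  set C := Subgroup.centralizer (V : Set G) with hC
  rw [eq_bot_iff]
  intro k hk
  obtain ⟨k, rfl⟩ := QuotientGroup.mk'_surjective C k
  rw [Subgroup.mem_bot, QuotientGroup.mk'_apply, QuotientGroup.eq_one_iff]
  -- k centralizes V
  have hVle : V ≤ Subgroup.centralizer {k} := by
    rw [hgen]
    apply iSup_le
    intro S v hv
    have h1 : Cfsg.pCore p (G ⧸ C) ≤ (S.mapSurjective (QuotientGroup.mk'_surjective C) : Subgroup (G ⧸ C)) :=
      Cfsg.Agent.L0.pCore_le_sylow _
    have h2 := h1 hk
    rw [Sylow.coe_mapSurjective] at h2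
    obtain ⟨s, hs, hsk⟩ := h2
    have h3 : s⁻¹ * k ∈ C := by
      rw [← QuotientGroup.eq]; exact hsk
    rw [Subgroup.mem_centralizer_singleton_iff]
    have hvV : v ∈ V := hv.1
    have h4 : v * (s⁻¹ * k) = (s⁻¹ * k) * v := Subgroup.mem_centralizer_iff.mp h3 v hvV
    have h5 : s * v = v * s := Subgroup.mem_centralizer_iff.mp hv.2 s hs
    calc v * k = (v * s) * (s⁻¹ * k) := by group
      _ = (s * v) * (s⁻¹ * k) := by rw [h5]
      _ = s * (v * (s⁻¹ * k)) := by group
      _ = s * ((s⁻¹ * k) * v) := by rw [h4]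
      _ = k * v := by group
  rw [hC, Subgroup.mem_centralizer_iff]
  intro v hv
  exact Subgroup.mem_centralizer_singleton_iff.mp (hVle hv)

end Cfsg.Agent.S0600
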