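import Cfsg.Statements.S0601
import Mathlib
import Cfsg.Agent.H1.ThomJ
import Cfsg.Agent.H1.PQuot
import Cfsg.Agent.L0.Core
import Cfsg.Agent.L0.Coprime

set_option autoImplicit false
open Cfsg

namespace Cfsg.Agent.S0601

open scoped commutatorElement Pointwise
theorem conj_omega {G : Type*} [Group G] {p : ℕ} (S : Sylow p G) (g : G) :
    (Cfsg.omegaOne p ((S : Subgroup G) ⊓ Subgroup.centralizer ((S : Subgroup G) : Set G))).map (MulAut.conj g).toMonoidHom ≤
      Cfsg.omegaOne p (((g • S : Sylow p G) : Subgroup G) ⊓ Subgroup.centralizer (((g • S : Sylow p G) : Subgroup G) : Set G)) := by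
  rw [Cfsg.omegaOne, MonoidHom.map_closure, Subgroup.closure_le]
  rintro _ ⟨x, ⟨hx, hxp⟩, rfl⟩
  apply Subgroup.subset_closure
  refine ⟨⟨?_, ?_⟩, ?_⟩
  · exact ⟨x, hx.1, rfl⟩
  · apply Subgroup.mem_centralizer_iff.mpr
    rintro _ ⟨y, hy, rfl⟩
    have := Subgroup.mem_centralizer_iff.mp hx.2 y hy
    change (MulAut.conj g) y * (MulAut.conj g) x = (MulAut.conj g) x * (MulAut.conj g) y
    rw [← map_mul, this, map_mul]
  · rw [← map_pow, hxp, map_one]

/-- When O_p(G) contains its centralizer, the normal closure of Ω₁(Z(S)) is elementary abelian and G has no nontrivial normal p-subgroup modulo its centralizer. -/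
theorem result {G : Type*} [Group G] [Finite G] {p : ℕ} [Fact p.Prime] (hc : Subgroup.centralizer (Cfsg.pCore p G : Set G) ≤ Cfsg.pCore p G) : (⨆ S : Sylow p G, Cfsg.omegaOne p (((S : Subgroup G)) ⊓ Subgroup.centralizer ((S : Subgroup G) : Set G))).Normal ∧ Cfsg.IsElementaryAbelian p (⨆ S : Sylow p G, Cfsg.omegaOne p (((S : Subgroup G)) ⊓ Subgroup.centralizer ((S : Subgroup G) : Set G))) ∧ ∀ D : Subgroup G, D.Normal → Subgroup.centralizer ((⨆ S : Sylow p G, Cfsg.omegaOne p (((S : Subgroup G)) ⊓ Subgroup.centralizer ((S : Subgroup G) : Set G)) : Subgroup G) : Set G) ≤ D → (∃ k : ℕ, (Subgroup.centralizer ((⨆ S : Sylow p G, Cfsg.omegaOne p (((S : Subgroup G)) ⊓ Subgroup.centralizer ((S : Subgroup G) : Set G)) : Subgroup G) : Set G)).relIndex D = p ^ k) → D = Subgroup.centralizer ((⨆ S : Sylow p G, Cfsg.omegaOne p (((S : Subgroup G)) ⊓ Subgroup.centralizer ((S : Subgroup G) : Set G)) : Subgroup G) : Set G) := by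
  set Ω := ⨆ S : Sylow p G, Cfsg.omegaOne p (((S : Subgroup G)) ⊓ Subgroup.centralizer ((S : Subgroup G) : Set G)) with hΩ
  have hn : Ω.Normal := by
    apply Cfsg.Agent.H1.normal_of_conj_le
    intro g x hx
    have h1 : Ω.map (MulAut.conj g).toMonoidHom ≤ Ω := by
      rw [hΩ, Subgroup.map_iSup]
      apply iSup_le
      intro S
      exact (conj_omega S g).trans (le_iSup (fun S : Sylow p G => Cfsg.omegaOne p (((S : Subgroup G)) ⊓ Subgroup.centralizer ((S : Subgroup G) : Set G))) (g • S))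
    exact h1 ⟨x, hx, rfl⟩
  -- every generator is in the centre of O_p(G)
  have hle : Ω ≤ Cfsg.omegaOne p (Cfsg.pCore p G ⊓ Subgroup.centralizer (Cfsg.pCore p G : Set G)) := by
    apply iSup_le
    intro S
    rw [Cfsg.omegaOne, Subgroup.closure_le]
    rintro x ⟨hx, hxp⟩
    apply Subgroup.subset_closure
    have h1 : x ∈ Subgroup.centralizer (Cfsg.pCore p G : Set G) := Cfsg.Agent.H1.cent_mono (Cfsg.Agent.L0.pCore_le_sylow S) hx.2
    exact ⟨⟨hc h1, h1⟩, hxp⟩
  have hea : Cfsg.IsElementaryAbelian p (Cfsg.omegaOne p (Cfsg.pCore p G ⊓ Subgroup.centralizer (Cfsg.pCore p G : Set G))) := by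
    have hcm : ∀ x ∈ Cfsg.pCore p G ⊓ Subgroup.centralizer (Cfsg.pCore p G : Set G), ∀ y ∈ Cfsg.pCore p G ⊓ Subgroup.centralizer (Cfsg.pCore p G : Set G), x * y = y * x :=
      fun x hx y hy => Subgroup.mem_centralizer_iff.mp hy.2 x hx.1
    have hle2 : Cfsg.omegaOne p (Cfsg.pCore p G ⊓ Subgroup.centralizer (Cfsg.pCore p G : Set G)) ≤ Cfsg.pCore p G ⊓ Subgroup.centralizer (Cfsg.pCore p G : Set G) := by
      rw [Cfsg.omegaOne, Subgroup.closure_le]
      rintro x ⟨hx, _⟩; exact hx
    apply Cfsg.Agent.H1.ea_of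
    · intro x hx y hy
      exact hcm x (hle2 hx) y (hle2 hy)
    · intro x hx
      have : x ∈ Cfsg.pCore p G ⊓ Subgroup.centralizer (Cfsg.pCore p G : Set G) ∧ x ^ p = 1 := by
        refine Subgroup.closure_induction (p := fun x _ => x ∈ Cfsg.pCore p G ⊓ Subgroup.centralizer (Cfsg.pCore p G : Set G) ∧ x ^ p = 1) ?_ ?_ ?_ ?_ hx
        · rintro x ⟨h1, h2⟩; exact ⟨h1, h2⟩
        · exact ⟨one_mem _, one_pow _⟩
        · rintro x y _ _ ⟨h1, h2⟩ ⟨h3, h4⟩
          refine ⟨mul_mem h1 h3, ?_⟩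
          have : Commute x y := hcm x h1 y h3
          rw [this.mul_pow, h2, h4, one_mul]
        · rintro x _ ⟨h1, h2⟩
          exact ⟨inv_mem h1, by rw [inv_pow, h2, inv_one]⟩
      exact this.2
  refine ⟨hn, Cfsg.Agent.H1.ea_mono hle hea, ?_⟩
  intro D hD hCD ⟨k, hk⟩
  apply le_antisymm _ hCD
  -- D centralizes every generator
  have key : ∀ S : Sylow p G, D ≤ Subgroup.centralizer ((Cfsg.omegaOne p (((S : Subgroup G)) ⊓ Subgroup.centralizer ((S : Subgroup G) : Set G)) : Subgroup G) : Set G) := by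
    intro S
    have hCn : (Subgroup.centralizer (Ω : Set G)).Normal := Subgroup.normal_centralizer
    have h1 : D = Subgroup.centralizer (Ω : Set G) ⊔ ((S : Subgroup G) ⊓ D) := by
      apply le_antisymm
      · apply le_of_eq
        symm
        apply Cfsg.Agent.H1.eq_of_le_of_not_dvd_relIndex (sup_le hCD inf_le_right)
        intro q hq hdvd
        by_cases hqp : q = p
        · subst hqp
          apply Cfsg.Agent.H1.sylow_relIndex_normal S D
          rw [← Subgroup.inf_relIndex_right]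
          exact hdvd.trans (Dvd.intro_left _ (Subgroup.relIndex_mul_relIndex _ _ _ le_sup_right (sup_le hCD inf_le_right)))
        · have h2 := Subgroup.relIndex_mul_relIndex _ _ _ (le_sup_left : Subgroup.centralizer (Ω : Set G) ≤ Subgroup.centralizer (Ω : Set G) ⊔ ((S : Subgroup G) ⊓ D)) (sup_le hCD inf_le_right)
          rw [hk] at h2
          have h3 : q ∣ p ^ k := by rw [← h2]; exact Dvd.dvd.mul_left hdvd _
          exact hqp ((Nat.prime_dvd_prime_iff_eq hq Fact.out).mp (hq.dvd_of_dvd_pow h3))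
      · exact sup_le hCD inf_le_right
    rw [h1]
    apply sup_le
    · exact Cfsg.Agent.H1.cent_mono (le_iSup (fun S : Sylow p G => Cfsg.omegaOne p (((S : Subgroup G)) ⊓ Subgroup.centralizer ((S : Subgroup G) : Set G))) S)
    · intro x hx
      have h4 : Cfsg.omegaOne p (((S : Subgroup G)) ⊓ Subgroup.centralizer ((S : Subgroup G) : Set G)) ≤ Subgroup.centralizer {x} := by
        rw [Cfsg.omegaOne, Subgroup.closure_le]
        rintro y ⟨hy, _⟩
        apply Subgroup.mem_centralizer_singleton_iff.mpr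
        exact (Subgroup.mem_centralizer_iff.mp hy.2 x hx.1).symm
      rw [Subgroup.mem_centralizer_iff]
      intro y hy
      exact Subgroup.mem_centralizer_singleton_iff.mp (h4 hy)
  intro d hd
  have h5 : Ω ≤ Subgroup.centralizer {d} := by
    apply iSup_le
    intro S y hy
    rw [Subgroup.mem_centralizer_singleton_iff]
    exact Subgroup.mem_centralizer_iff.mp (key S hd) y hy
  rw [Subgroup.mem_centralizer_iff]
  intro y hy
  exact Subgroup.mem_centralizer_singleton_iff.mp (h5 hy)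

end Cfsg.Agent.S0601
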