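import Cfsg.Statements.S0602
import Mathlib
import Cfsg.Agent.H1.ThomJ

set_option autoImplicit false
open Cfsg

namespace Cfsg.Agent.S0602

open scoped commutatorElement Pointwise


/-- The Thompson subgroup is characteristic, and nontrivial as soon as p divides the group order. -/
theorem result {G : Type*} [Group G] [Finite G] {p : ℕ} [Fact p.Prime] : (Cfsg.thompsonSubgroup p G).Characteristic ∧ (p ∣ Nat.card G → Cfsg.thompsonSubgroup p G ≠ ⊥) := by
  refine ⟨Cfsg.Agent.H1.thompsonSubgroup_characteristic, ?_⟩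
  intro hd hJ
  obtain ⟨x, hx⟩ := exists_prime_orderOf_dvd_card' p hd
  obtain ⟨A, hA⟩ := Cfsg.Agent.H1.exists_maxEA p G
  have h1 := hA.2 _ (Cfsg.Agent.H1.ea_zpowers (p := p) (x := x) (by rw [← hx]; exact pow_orderOf_eq_one x))
  rw [Nat.card_zpowers, hx] at h1
  have h2 : A = ⊥ := by
    rw [eq_bot_iff, ← hJ]
    exact le_sSup hA
  rw [h2, Subgroup.card_bot] at h1
  exact absurd h1 (by have := (Fact.out : p.Prime).one_lt; omega)

end Cfsg.Agent.S0602
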