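import Cfsg.Statements.S0604
import Mathlib
import Cfsg.Agent.H1.ThomJ

set_option autoImplicit false
open Cfsg

namespace Cfsg.Agent.S0604

open scoped commutatorElement Pointwise


/-- The Thompson subgroup of G is the join of the Thompson subgroups of its Sylow p-subgroups. -/
theorem result {G : Type*} [Group G] [Finite G] {p : ℕ} [Fact p.Prime] : Cfsg.thompsonSubgroup p G = ⨆ S : Sylow p G, Cfsg.thompsonSubgroupOf p (S : Subgroup G) := by
  obtain ⟨A₀, hA₀⟩ := Cfsg.Agent.H1.exists_maxEA p G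
  have hpg : ∀ A : Subgroup G, Cfsg.IsElementaryAbelian p A → IsPGroup p A := by
    intro A hA x
    exact ⟨1, by rw [pow_one]; exact Subtype.ext (hA.2 x x.2)⟩
  have hin : ∀ S : Sylow p G, ∃ A ∈ Cfsg.Agent.H1.EH p (⊤ : Subgroup G), A ≤ (S : Subgroup G) := by
    intro S
    obtain ⟨T, hT⟩ := (hpg A₀ hA₀.1).exists_le_sylow
    obtain ⟨g, hg⟩ := MulAction.exists_smul_eq G T S
    refine ⟨A₀.map (MulAut.conj g).toMonoidHom, ?_, ?_⟩
    · have := Cfsg.Agent.H1.EH_map p (MulAut.conj g) ⊤ (A := A₀) (by rw [Cfsg.Agent.H1.EH_top]; exact hA₀)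
      rwa [Subgroup.map_top_of_surjective _ (MulAut.conj g).surjective] at this
    · rw [← hg]
      exact Subgroup.map_mono hT
  rw [Cfsg.Agent.H1.thompsonSubgroup_eq_sSup, Cfsg.Agent.H1.thompsonSubgroupOf_eq]
  apply le_antisymm
  · apply sSup_le
    intro A hA
    obtain ⟨T, hT⟩ := (hpg A hA.2.1).exists_le_sylow
    refine le_trans ?_ (le_iSup (fun S : Sylow p G => Cfsg.thompsonSubgroupOf p (S : Subgroup G)) T)
    rw [Cfsg.Agent.H1.thompsonSubgroupOf_eq]
    apply le_sSup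
    rw [Cfsg.Agent.H1.EH_eq_of_card le_top hA hT]
    exact ⟨hA, hT⟩
  · apply iSup_le
    intro S
    obtain ⟨A, hA, hAS⟩ := hin S
    rw [Cfsg.Agent.H1.thompsonSubgroupOf_eq, Cfsg.Agent.H1.EH_eq_of_card le_top hA hAS]
    exact sSup_le_sSup fun B hB => hB.1

end Cfsg.Agent.S0604
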