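import Cfsg.Statements.S0606
import Mathlib
import Cfsg.Agent.H1.ThomJ

set_option autoImplicit false
open Cfsg

namespace Cfsg.Agent.S0606

open scoped commutatorElement Pointwise


/-- Elementary abelian p-subgroups of maximal order are best offenders on any normal elementary abelian p-subgroup. -/
theorem result {G : Type*} [Group G] [Finite G] {p : ℕ} [Fact p.Prime] (V : Subgroup G) [V.Normal] (hV : Cfsg.IsElementaryAbelian p V) (A : Subgroup G) (hA : A ∈ Cfsg.maxElementaryAbelianSubgroups p G) : Cfsg.IsBestOffenderOn p V A := by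
  refine ⟨fun B hB => Cfsg.Agent.H1.fV_le_of_maxEA hV hA hB, ?_, ?_⟩
  · have : ⁅A, A⁆ = ⊥ := by
      rw [eq_bot_iff, Subgroup.commutator_le]
      intro x hx y hy
      rw [Subgroup.mem_bot, commutatorElement_eq_one_iff_mul_comm]
      exact Cfsg.Agent.H1.ea_comm hA.1 hx hy
    rw [this]; exact bot_le
  · intro a ha
    rw [hA.1.2 a ha]; exact one_mem _

end Cfsg.Agent.S0606
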