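import Cfsg.Statements.S0607
import Mathlib
import Cfsg.Agent.H1.ThomJ

set_option autoImplicit false
open Cfsg

namespace Cfsg.Agent.S0607

open scoped commutatorElement Pointwise


/-- The replacement Theorem for the Thompson subgroup: from A of maximal order among elementary abelian p-subgroups one obtains A₀ = [V, A] C_A([V, A]) of the same kind, quadratic on V and nontrivial on V when A is. -/
theorem result {G : Type*} [Group G] [Finite G] {p : ℕ} [Fact p.Prime] (V : Subgroup G) [V.Normal] (hV : Cfsg.IsElementaryAbelian p V) (A : Subgroup G) (hA : A ∈ Cfsg.maxElementaryAbelianSubgroups p G) : (⁅V, A⁆ ⊔ (A ⊓ Subgroup.centralizer ((⁅V, A⁆ : Subgroup G) : Set G))) ∈ Cfsg.maxElementaryAbelianSubgroups p G ∧ ⁅⁅V, ⁅V, A⁆ ⊔ (A ⊓ Subgroup.centralizer ((⁅V, A⁆ : Subgroup G) : Set G))⁆, ⁅V, A⁆ ⊔ (A ⊓ Subgroup.centralizer ((⁅V, A⁆ : Subgroup G) : Set G))⁆ = ⊥ ∧ (⁅V, A⁆ ≠ ⊥ → ⁅V, ⁅V, A⁆ ⊔ (A ⊓ Subgroup.centralizer ((⁅V, A⁆ : Subgroup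 G) : Set G))⁆ ≠ ⊥) := by
  obtain ⟨hr1, hr2⟩ := Cfsg.Agent.H1.replacement (V := V) (A := A)
    ⟨fun x hx y hy => Cfsg.Agent.H1.ea_comm hV hx hy, by rw [Subgroup.normalizer_eq_top]; exact le_top, by
      have : ⁅A, A⁆ = ⊥ := by
        rw [eq_bot_iff, Subgroup.commutator_le]
        intro x hx y hy
        rw [Subgroup.mem_bot, commutatorElement_eq_one_iff_mul_comm]
        exact Cfsg.Agent.H1.ea_comm hA.1 hx hy
      rw [this]; exact bot_le⟩ (fun B hB => Cfsg.Agent.H1.fV_le_of_maxEA hV hA hB) V le_rfl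
  have hset : Cfsg.Agent.H1.RSetup V A := ⟨fun x hx y hy => Cfsg.Agent.H1.ea_comm hV hx hy, by rw [Subgroup.normalizer_eq_top]; exact le_top, by
      have : ⁅A, A⁆ = ⊥ := by
        rw [eq_bot_iff, Subgroup.commutator_le]
        intro x hx y hy
        rw [Subgroup.mem_bot, commutatorElement_eq_one_iff_mul_comm]
        exact Cfsg.Agent.H1.ea_comm hA.1 hx hy
      rw [this]; exact bot_le⟩
  set W := ⁅V, A⁆ with hW
  set C := A ⊓ Subgroup.centralizer (W : Set G) with hC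
  have hWV : W ≤ V := Subgroup.commutator_le_left V A
  have hWe : Cfsg.IsElementaryAbelian p W := Cfsg.Agent.H1.ea_mono hWV hV
  have hCe : Cfsg.IsElementaryAbelian p C := Cfsg.Agent.H1.ea_mono inf_le_left hA.1
  have hcomm : ∀ a ∈ W, ∀ b ∈ C, a * b = b * a := fun a ha b hb => Subgroup.mem_centralizer_iff.mp hb.2 a ha
  have hWCe := Cfsg.Agent.H1.ea_sup hWe hCe hcomm
  have hnorm : C ≤ Subgroup.normalizer (W : Set G) := by
    intro b hb
    apply Cfsg.Agent.H1.mem_normalizer_of_conj_mem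
    intro a ha
    rw [← hcomm a ha b hb, mul_assoc, mul_inv_cancel, mul_one]; exact ha
  -- C_V(A) ≤ A
  have hCVA : V ⊓ Subgroup.centralizer (A : Set G) ≤ A := fun x hx =>
    Cfsg.Agent.H1.mem_maxEA_of_centralizes hA hx.2 (hV.2 x hx.1)
  have hCVA2 : V ⊓ Subgroup.centralizer (A : Set G) ≤ C := by
    intro x hx
    refine ⟨hCVA hx, ?_⟩
    apply Subgroup.mem_centralizer_iff.mpr
    intro y hy
    exact Cfsg.Agent.H1.ea_comm hV (hWV hy) hx.1
  have hsup : (V ⊓ Subgroup.centralizer (C : Set G)) ⊔ C = W ⊔ C := by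
    rw [hr2]
    apply le_antisymm
    · exact sup_le (sup_le le_sup_left (hCVA2.trans le_sup_right)) le_sup_right
    · exact sup_le (le_sup_left.trans le_sup_left) le_sup_right
  have hinf : (V ⊓ Subgroup.centralizer (C : Set G)) ⊓ C = V ⊓ Subgroup.centralizer (A : Set G) := by
    apply le_antisymm
    · intro x hx
      refine ⟨hx.1.1, ?_⟩
      apply Subgroup.mem_centralizer_iff.mpr
      intro y hy
      exact Cfsg.Agent.H1.ea_comm hA.1 hy hx.2.1
    · intro x hx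
      refine ⟨⟨hx.1, ?_⟩, hCVA2 hx⟩
      apply Subgroup.mem_centralizer_iff.mpr
      intro y hy
      exact Subgroup.mem_centralizer_iff.mp hx.2 y hy.1
  have hcard := Cfsg.Agent.H1.card_sup_mul_card_inf (A := (V ⊓ Subgroup.centralizer (C : Set G) : Subgroup G)) (B := C) (by
    intro b hb
    apply Cfsg.Agent.H1.mem_normalizer_of_conj_mem
    intro a ha
    rw [Subgroup.mem_centralizer_iff.mp ha.2 b hb, mul_assoc, mul_inv_cancel, mul_one]; exact ha)
  rw [hsup, hinf] at hcard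
  have heq := hr1.eq
  rw [Cfsg.Agent.H1.fV, Cfsg.Agent.H1.fV] at heq
  have hcardA : Nat.card ↥(W ⊔ C) = Nat.card A := by
    apply Nat.eq_of_mul_eq_mul_right (Nat.card_pos (α := ↥(V ⊓ Subgroup.centralizer (A : Set G))))
    rw [hcard, mul_comm, heq]
  have hVW : ⁅V, W ⊔ C⁆ ≤ W := by
    rw [Subgroup.commutator_le]
    intro v hv x hx
    obtain ⟨w, hw, c, hc, rfl⟩ := (Cfsg.Agent.L0.mem_sup_of_normalizes hnorm).mp hx
    have h1 : ⁅v, w * c⁆ = ⁅v, c⁆ := by
      have h2 : v * w = w * v := Cfsg.Agent.H1.ea_comm hV hv (hWV hw)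
      have h3 : v * (c * v⁻¹ * c⁻¹) ∈ V := V.mul_mem hv (hset.conj_mem hc.1 (V.inv_mem hv))
      have h4 : w * (v * (c * v⁻¹ * c⁻¹)) = (v * (c * v⁻¹ * c⁻¹)) * w := Cfsg.Agent.H1.ea_comm hV (hWV hw) h3
      rw [commutatorElement_def, commutatorElement_def]
      calc v * (w * c) * v⁻¹ * (w * c)⁻¹ = (v * w) * (c * v⁻¹ * c⁻¹) * w⁻¹ := by group
        _ = (w * v) * (c * v⁻¹ * c⁻¹) * w⁻¹ := by rw [h2]
        _ = (w * (v * (c * v⁻¹ * c⁻¹))) * w⁻¹ := by group
        _ = ((v * (c * v⁻¹ * c⁻¹)) * w) * w⁻¹ := by rw [h4]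
        _ = _ := by group
    rw [h1]
    exact Subgroup.commutator_mem_commutator hv hc.1
  refine ⟨Cfsg.Agent.H1.maxEA_of_card_ge hA hWCe hcardA.ge, ?_, ?_⟩
  · rw [eq_bot_iff, Subgroup.commutator_le]
    intro w hw x hx
    rw [Subgroup.mem_bot, commutatorElement_eq_one_iff_mul_comm]
    exact Cfsg.Agent.H1.ea_comm hWCe ((le_sup_left : W ≤ _) (hVW hw)) hx
  · intro hne hb
    apply hne
    have hpV : IsPGroup p V := fun x => ⟨1, by rw [pow_one]; exact Subtype.ext (hV.2 x x.2)⟩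
    apply Cfsg.Agent.H1.commutator_eq_bot_of_sup hset hpV
    · intro a ha
      rw [hA.1.2 a ha]; exact one_mem _
    · have h1 : V ≤ V ⊓ Subgroup.centralizer (C : Set G) := by
        intro v hv
        refine ⟨hv, ?_⟩
        apply Subgroup.mem_centralizer_iff.mpr
        intro c hc
        have h2 : ⁅v, c⁆ ∈ ⁅V, W ⊔ C⁆ := Subgroup.commutator_mem_commutator hv ((le_sup_right : C ≤ _) hc)
        rw [hb, Subgroup.mem_bot, commutatorElement_eq_one_iff_mul_comm] at h2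
        exact h2.symm
      rw [hr2] at h1
      exact h1

end Cfsg.Agent.S0607
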