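import Cfsg.Statements.S0608
import Mathlib
import Cfsg.Agent.H1.ThomJ
import Cfsg.Agent.H1.PQuot

set_option autoImplicit false
open Cfsg

namespace Cfsg.Agent.S0608

open scoped commutatorElement Pointwise
theorem conj_omega {G : Type*} [Group G] {p : ℕ} (S : Sylow p G) (g : G) :
    (Cfsg.omegaOne p ((S : Subgroup G) ⊓ Subgroup.centralizer ((S : Subgroup G) : Set G))).map (MulAut.conj g).toMonoidHom ≤
      Cfsg.omegaOne p (((g • S : Sylow p G) : Subgroup G) ⊓ Subgroup.centralizer (((g • S : Sylow p G) : Subgroup G) : Set G)) := by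
  rw [Cfsg.omegaOne, MonoidHom.map_closure, Subgroup.closure_le]
  rintro _ ⟨x, ⟨hx, hxp⟩, rfl⟩
  apply Subgroup.subset_closure
  refine ⟨⟨?_, ?_⟩, ?_⟩
  · exact ⟨x, hx.1, rfl⟩
  · apply Subgroup.mem_centralizer_iff.mpr
    rintro _ ⟨y, hy, rfl⟩
    have := Subgroup.mem_centralizer_iff.mp hx.2 y hy
    change (MulAut.conj g) y * (MulAut.conj g) x = (MulAut.conj g) x * (MulAut.conj g) y
    rw [← map_mul, this, map_mul]
  · rw [← map_pow, hxp, map_one]

theorem cent_omega {G : Type*} [Group G] {p : ℕ} (S : Sylow p G) {x : G} (hx : x ∈ S) :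
    x ∈ Subgroup.centralizer ((Cfsg.omegaOne p (((S : Subgroup G)) ⊓ Subgroup.centralizer ((S : Subgroup G) : Set G)) : Subgroup G) : Set G) := by
  have h4 : Cfsg.omegaOne p (((S : Subgroup G)) ⊓ Subgroup.centralizer ((S : Subgroup G) : Set G)) ≤ Subgroup.centralizer {x} := by
    rw [Cfsg.omegaOne, Subgroup.closure_le]
    rintro y ⟨hy, _⟩
    apply Subgroup.mem_centralizer_singleton_iff.mpr
    exact (Subgroup.mem_centralizer_iff.mp hy.2 x hx).symm
  rw [Subgroup.mem_centralizer_iff]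
  intro y hy
  exact Subgroup.mem_centralizer_singleton_iff.mp (h4 hy)

theorem J_eq {G : Type*} [Group G] [Finite G] {p : ℕ} [Fact p.Prime] : Cfsg.thompsonSubgroup p G = ⨆ S : Sylow p G, Cfsg.thompsonSubgroupOf p (S : Subgroup G) := by
  obtain ⟨A₀, hA₀⟩ := Cfsg.Agent.H1.exists_maxEA p G
  have hpg : ∀ A : Subgroup G, Cfsg.IsElementaryAbelian p A → IsPGroup p A := by
    intro A hA x
    exact ⟨1, by rw [pow_one]; exact Subtype.ext (hA.2 x x.2)⟩
  have hin : ∀ S : Sylow p G, ∃ A ∈ Cfsg.Agent.H1.EH p (⊤ : Subgroup G), A ≤ (S : Subgroup G) := by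
    intro S
    obtain ⟨T, hT⟩ := (hpg A₀ hA₀.1).exists_le_sylow
    obtain ⟨g, hg⟩ := MulAction.exists_smul_eq G T S
    refine ⟨A₀.map (MulAut.conj g).toMonoidHom, ?_, ?_⟩
    · have := Cfsg.Agent.H1.EH_map p (MulAut.conj g) ⊤ (A := A₀) (by rw [Cfsg.Agent.H1.EH_top]; exact hA₀)
      rwa [Subgroup.map_top_of_surjective _ (MulAut.conj g).surjective] at this
    · rw [← hg]
      exact Subgroup.map_mono hT
  rw [Cfsg.Agent.H1.thompsonSubgroup_eq_sSup, Cfsg.Agent.H1.thompsonSubgroupOf_eq]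
  apply le_antisymm
  · apply sSup_le
    intro A hA
    obtain ⟨T, hT⟩ := (hpg A hA.2.1).exists_le_sylow
    refine le_trans ?_ (le_iSup (fun S : Sylow p G => Cfsg.thompsonSubgroupOf p (S : Subgroup G)) T)
    rw [Cfsg.Agent.H1.thompsonSubgroupOf_eq]
    apply le_sSup
    rw [Cfsg.Agent.H1.EH_eq_of_card le_top hA hT]
    exact ⟨hA, hT⟩
  · apply iSup_le
    intro S
    obtain ⟨A, hA, hAS⟩ := hin S
    rw [Cfsg.Agent.H1.thompsonSubgroupOf_eq, Cfsg.Agent.H1.EH_eq_of_card le_top hA hAS]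
    exact sSup_le_sSup fun B hB => hB.1

/-- With trivial p'-core, Thompson factorizability is equivalent to J(G) centralizing the subgroup generated by all Ω₁(Z(S)), S Sylow. -/
theorem result {G : Type*} [Group G] [Finite G] {p : ℕ} [Fact p.Prime] (hO : Cfsg.pPrimeCore p G = ⊥) : Cfsg.IsThompsonFactorizable p G ↔ Cfsg.thompsonSubgroup p G ≤ Subgroup.centralizer ((⨆ S : Sylow p G, Cfsg.omegaOne p (((S : Subgroup G)) ⊓ Subgroup.centralizer ((S : Subgroup G) : Set G)) : Subgroup G) : Set G) := by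
  constructor
  · intro hf
    rw [J_eq]
    apply iSup_le
    intro S x hx
    rw [Subgroup.mem_centralizer_iff]
    suffices h : ∀ T : Sylow p G, Cfsg.omegaOne p (((T : Subgroup G)) ⊓ Subgroup.centralizer ((T : Subgroup G) : Set G)) ≤ Subgroup.centralizer {x} by
      intro y hy
      have h2 : (⨆ S : Sylow p G, Cfsg.omegaOne p (((S : Subgroup G)) ⊓ Subgroup.centralizer ((S : Subgroup G) : Set G))) ≤ Subgroup.centralizer {x} := iSup_le h
      exact Subgroup.mem_centralizer_singleton_iff.mp (h2 hy)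
    intro T
    obtain ⟨g, hg⟩ := MulAction.exists_smul_eq G S T
    obtain ⟨u, hu, c, hc, n, hn, e⟩ := hf S g⁻¹
    rw [hO, Subgroup.mem_bot] at hu
    rw [hu, one_mul] at e
    have hge : g = n⁻¹ * c⁻¹ := by rw [← inv_inv g, e, mul_inv_rev]
    intro y hy
    rw [Subgroup.mem_centralizer_singleton_iff]
    -- y = g z g⁻¹ with z in Ω₁(Z(S))
    have h1 := conj_omega T g⁻¹
    have hgT : g⁻¹ • T = S := by rw [← hg, inv_smul_smul]
    rw [hgT] at h1
    have hz : g⁻¹ * y * g ∈ Cfsg.omegaOne p (((S : Subgroup G)) ⊓ Subgroup.centralizer ((S : Subgroup G) : Set G)) := by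
      have := h1 ⟨y, hy, rfl⟩
      simpa using this
    set z := g⁻¹ * y * g with hzd
    have hcz : z * c = c * z := Subgroup.mem_centralizer_iff.mp hc z hz
    have hyz : y = n⁻¹ * z * n := by
      have e1 : y = g * z * g⁻¹ := by rw [hzd]; group
      rw [e1, e, hge]
      calc n⁻¹ * c⁻¹ * z * (c * n) = n⁻¹ * c⁻¹ * (z * c) * n := by group
        _ = n⁻¹ * c⁻¹ * (c * z) * n := by rw [hcz]
        _ = _ := by group
    -- n x n⁻¹ ∈ J(S) commutes with z
    have h2 : n * x * n⁻¹ ∈ Cfsg.thompsonSubgroupOf p (S : Subgroup G) := (Subgroup.mem_normalizer_iff.mp hn x).mp hx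
    have h3 := cent_omega S (Cfsg.Agent.H1.thompsonSubgroupOf_le _ h2)
    have h4 := Subgroup.mem_centralizer_iff.mp h3 z hz
    rw [hyz]
    calc n⁻¹ * z * n * x = n⁻¹ * (z * (n * x * n⁻¹)) * n := by group
      _ = n⁻¹ * ((n * x * n⁻¹) * z) * n := by rw [h4]
      _ = _ := by group
  · intro hJ S g
    set Ω := ⨆ S : Sylow p G, Cfsg.omegaOne p (((S : Subgroup G)) ⊓ Subgroup.centralizer ((S : Subgroup G) : Set G)) with hΩ
    have hn : Ω.Normal := by
      apply Cfsg.Agent.H1.normal_of_conj_le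
      intro g x hx
      have h1 : Ω.map (MulAut.conj g).toMonoidHom ≤ Ω := by
        rw [hΩ, Subgroup.map_iSup]
        apply iSup_le
        intro S
        exact (conj_omega S g).trans (le_iSup (fun S : Sylow p G => Cfsg.omegaOne p (((S : Subgroup G)) ⊓ Subgroup.centralizer ((S : Subgroup G) : Set G))) (g • S))
      exact h1 ⟨x, hx, rfl⟩
    have hCn : (Subgroup.centralizer (Ω : Set G)).Normal := Subgroup.normal_centralizer
    obtain ⟨h, hh, n, hn, e⟩ := Cfsg.Agent.H1.frattini_inf S (Subgroup.centralizer (Ω : Set G)) g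
    refine ⟨1, one_mem _, h, ?_, n, ?_, by rw [one_mul]; exact e⟩
    · exact Cfsg.Agent.H1.cent_mono (le_iSup (fun S : Sylow p G => Cfsg.omegaOne p (((S : Subgroup G)) ⊓ Subgroup.centralizer ((S : Subgroup G) : Set G))) S) hh
    · have h1 : Cfsg.thompsonSubgroupOf p (S : Subgroup G) ≤ (S : Subgroup G) ⊓ Subgroup.centralizer (Ω : Set G) := by
        apply le_inf (Cfsg.Agent.H1.thompsonSubgroupOf_le _)
        refine le_trans ?_ hJ
        rw [J_eq]
        exact le_iSup (fun S : Sylow p G => Cfsg.thompsonSubgroupOf p (S : Subgroup G)) S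
      have h2 := Cfsg.Agent.H1.thompsonSubgroupOf_eq_of_le (inf_le_left : (S : Subgroup G) ⊓ Subgroup.centralizer (Ω : Set G) ≤ (S : Subgroup G)) h1
      rw [← h2]
      exact Cfsg.Agent.H1.normalizer_le_normalizer_thompson _ hn

end Cfsg.Agent.S0608
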