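import Cfsg.Statements.S0629
import Cfsg.Agent.H1.PCon
import Cfsg.Agent.H6.PSolvC
import Cfsg.Agent.H2.ActStab
import Mathlib

set_option autoImplicit false
open Cfsg

namespace Cfsg.Agent.S0629

open Cfsg.Agent.L0 Cfsg.Agent.H6

/-- A group in which the centralizer of a Sylow p-subgroup of O_{p',p}(G) is p-solvable is p-constrained. -/
theorem result {G : Type*} [Group G] [Finite G] {p : ℕ} [Fact p.Prime] (P : Sylow p ↥(Cfsg.pPrimePCore p G)) (hsol : Cfsg.IsPSolvable p ↥(Subgroup.centralizer (((P : Subgroup ↥(Cfsg.pPrimePCore p G)).map (Cfsg.pPrimePCore p G).subtype : Subgroup G) : Set G))) : Cfsg.IsPConstrained p G := by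
  rw [Cfsg.Agent.H1.pConstrained_iff]
  have hPp : IsPGroup p ((P : Subgroup ↥(pPrimePCore p G)).map (pPrimePCore p G).subtype) := P.isPGroup'.map _
  have hcop := Cfsg.Agent.H1.coprime_of_isPGroup hPp (pPrimeCore_coprime p G)
  set Q := G ⧸ pPrimeCore p G with hQ
  set C := Subgroup.centralizer (pCore p Q : Set Q) with hCdef
  have hb : pPrimeCore p Q = ⊥ := pPrimeCore_quotient_pPrimeCore p G
  -- C is p-solvable
  have hCs : IsPSolvable p ↥C := by
    set CP := Subgroup.centralizer ((((P : Subgroup ↥(pPrimePCore p G)).map (pPrimePCore p G).subtype : Subgroup G)) : Set G) with hCP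
    let f : ↥CP →* Q := (QuotientGroup.mk' (pPrimeCore p G)).comp CP.subtype
    have h1 : IsPSolvable p ↥(f.range) := Cfsg.Agent.H2.psolvable_surj hsol f.rangeRestrict f.rangeRestrict_surjective
    have h2 : C ≤ f.range := by
      intro x hx
      obtain ⟨g, rfl⟩ := QuotientGroup.mk'_surjective _ x
      obtain ⟨y, hy, m, hm, rfl⟩ := Cfsg.Agent.H1.centralizer_lift (N := pPrimeCore p G) hcop
        (Or.inl (Cfsg.Agent.H1.isSolvable_of_isPGroup hPp)) (g := g) (by rw [Cfsg.Agent.H1.map_sylow_pPrimePCore]; exact hx)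
      refine ⟨⟨m, hm⟩, ?_⟩
      have h3 : QuotientGroup.mk' (pPrimeCore p G) y = 1 := (QuotientGroup.eq_one_iff y).mpr hy
      rw [map_mul, h3, one_mul]
      rfl
    have h3 := Cfsg.Agent.H2.psolvable_subgroup h1 (C.subgroupOf f.range)
    exact Cfsg.Agent.H2.psolvable_surj h3 (Subgroup.subgroupOfEquivOfLe h2).toMonoidHom (Subgroup.subgroupOfEquivOfLe h2).surjective
  haveI hCn : C.Normal := by rw [hCdef]; infer_instance
  have hCb : pPrimeCore p ↥C = ⊥ := by
    have := pPrimeCore_subgroup_le p C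
    rw [hb, le_bot_iff, Subgroup.map_eq_bot_iff_of_injective _ C.subtype_injective] at this
    exact this
  have h1 := Cfsg.Agent.H6.psolv_cent_le (Fact.out : p.Prime) hCs hCb
  -- pCore of C is inside pCore Q hence central
  have h2 : (pCore p ↥C).map C.subtype ≤ pCore p Q := by
    haveI : ((pCore p ↥C).map C.subtype).Normal := inferInstance
    exact le_pCore ((pCore_isPGroup p _).map _)
  intro x hx
  have h3 : (⟨x, hx⟩ : ↥C) ∈ pCore p ↥C := by
    apply h1
    rw [Subgroup.mem_centralizer_iff]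
    rintro ⟨y, hy⟩ hy'
    have h4 : y ∈ pCore p Q := h2 ⟨⟨y, hy⟩, hy', rfl⟩
    apply Subtype.ext
    exact (Subgroup.mem_centralizer_iff.1 hx) y h4
  exact h2 ⟨_, h3, rfl⟩

end Cfsg.Agent.S0629
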