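import Cfsg.Statements.S0630
import Mathlib
import Cfsg.Agent.H1.PCon

set_option autoImplicit false
open Cfsg

namespace Cfsg.Agent.S0630

open scoped commutatorElement Pointwise
/-- p-constraint passes to and from the quotient by the largest normal subgroup of order prime to p. -/
theorem result {G : Type*} [Group G] [Finite G] {p : ℕ} [Fact p.Prime] : Cfsg.IsPConstrained p G ↔ Cfsg.IsPConstrained p (G ⧸ Cfsg.pPrimeCore p G) := by
  have hb : Cfsg.pPrimeCore p (G ⧸ Cfsg.pPrimeCore p G) = ⊥ := Cfsg.Agent.L0.pPrimeCore_quotient_pPrimeCore p G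
  let e : (G ⧸ Cfsg.pPrimeCore p G) ≃* ((G ⧸ Cfsg.pPrimeCore p G) ⧸ Cfsg.pPrimeCore p (G ⧸ Cfsg.pPrimeCore p G)) :=
    QuotientGroup.quotientBot.symm.trans (QuotientGroup.quotientMulEquivOfEq hb.symm)
  rw [Cfsg.Agent.H1.pConstrained_iff, Cfsg.Agent.H1.pConstrained_iff]
  constructor
  · exact Cfsg.Agent.H1.cent_equiv e (Cfsg.Agent.L0.pCore_map_equiv p e)
  · exact Cfsg.Agent.H1.cent_equiv e.symm (Cfsg.Agent.L0.pCore_map_equiv p e.symm)

end Cfsg.Agent.S0630
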