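import Cfsg.Statements.S0635
import Cfsg.Agent.H2.UpperP
import Cfsg.Agent.H2.SmallF
import Mathlib

set_option autoImplicit false
open Cfsg

namespace Cfsg.Agent.S0635

open Cfsg.Agent.L0 Cfsg.Agent.H2

/-- The p-length of a p-soluble group is at most the nilpotency class of its Sylow p-subgroups. -/
theorem result {G : Type*} [Group G] [Finite G] {p : ℕ} [Fact p.Prime] (hsol : Cfsg.IsPSolvable p G) (S : Sylow p G) : Cfsg.PLengthLE p (Group.nilpotencyClass ↥(S : Subgroup G)) G := by
  have key : ∀ k : ℕ, zser (S : Subgroup G) k ≤ (upperPSeries p G (2 * k)).1 := by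
    intro k
    induction k with
    | zero => rw [zser_zero]; exact bot_le
    | succ k ih =>
      show _ ≤ (upperPSeries p G (2 * k + 2)).1
      intro x hx
      rw [upper_even, Subgroup.mem_comap]
      apply cent_upper hsol k
      rw [Subgroup.mem_centralizer_iff]
      intro y hy
      have h1 : pCore p (G ⧸ (upperPSeries p G (2 * k + 1)).1) ≤
          (Sylow.mapSurjective (QuotientGroup.mk'_surjective (upperPSeries p G (2 * k + 1)).1) S :
            Subgroup (G ⧸ (upperPSeries p G (2 * k + 1)).1)) := pCore_le_sylow _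
      obtain ⟨s, hs, rfl⟩ := h1 hy
      have h2 := zser_comm (S := (S : Subgroup G)) k hx hs
      have h3 : x⁻¹ * (s * x * s⁻¹) ∈ (upperPSeries p G (2 * k + 1)).1 := upper_le_succ _ (ih h2)
      have h4 : QuotientGroup.mk' (upperPSeries p G (2 * k + 1)).1 (x⁻¹ * (s * x * s⁻¹)) = 1 := (QuotientGroup.eq_one_iff _).mpr h3
      simp only [map_mul, map_inv] at h4
      have h5 := inv_mul_eq_one.1 h4
      exact (eq_mul_inv_iff_mul_eq.1 h5).symm
  have hnil : Group.IsNilpotent ↥(S : Subgroup G) := S.2.isNilpotent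
  have htop : zser (S : Subgroup G) (Group.nilpotencyClass ↥(S : Subgroup G)) = S := by
    unfold zser
    rw [Subgroup.upperCentralSeries_nilpotencyClass, ← MonoidHom.range_eq_map, Subgroup.range_subtype]
  have h1 := key (Group.nilpotencyClass ↥(S : Subgroup G))
  rw [htop] at h1
  unfold PLengthLE
  rw [upper_odd, eq_top_iff]
  set U := (upperPSeries p G (2 * Group.nilpotencyClass ↥(S : Subgroup G))).1 with hU
  have h2 : (Nat.card (⊤ : Subgroup (G ⧸ U))).Coprime p := by
    rw [Subgroup.card_top]
    have h3 : ¬ p ∣ U.index := fun h => S.not_dvd_index (h.trans (Subgroup.index_dvd_of_le h1))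
    exact ((Fact.out : p.Prime).coprime_iff_not_dvd.2 h3).symm
  have h3 := le_pPrimeCore h2
  intro x _
  exact h3 (Subgroup.mem_top _)

end Cfsg.Agent.S0635
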