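import Cfsg.Statements.S0636
import Mathlib
import Cfsg.Agent.H1.CycNorm
import Cfsg.Agent.H1.Class2
import Cfsg.Agent.H1.Basic

set_option autoImplicit false
open Cfsg

namespace Cfsg.Agent.S0636

open scoped commutatorElement Pointwise


/-- For odd p, every non-cyclic normal subgroup of a p-group contains a normal elementary abelian subgroup of the whole group of order p². -/
theorem result {R : Type*} [Group R] [Finite R] {p : ℕ} [Fact p.Prime] (hp : p ≠ 2) (hR : IsPGroup p R) (S : Subgroup R) [S.Normal] (hS : ¬ IsCyclic S) : ∃ A : Subgroup R, A ≤ S ∧ A.Normal ∧ Cfsg.IsElementaryAbelian p A ∧ Nat.card A = p ^ 2 := by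
  classical
  have hpp : p.Prime := Fact.out
  haveI := hR.isNilpotent
  -- A₀ maximal among abelian normal subgroups of R inside S
  have hfin : {N : Subgroup R | N.Normal ∧ IsMulCommutative N ∧ N ≤ S}.Finite := Set.toFinite _
  obtain ⟨N, hN⟩ := hfin.exists_maximal ⟨⊥, inferInstance, inferInstance, bot_le⟩
  obtain ⟨hNn, hNc, hNS⟩ := hN.prop
  haveI := hNn
  haveI := hNc
  by_cases hcyc : IsCyclic N
  · -- cyclic case
    have hlt : N < S := lt_of_le_of_ne hNS (fun h => hS (h ▸ hcyc))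
    obtain ⟨B, hB, hNB, hBS, hBc⟩ := Cfsg.Agent.H1.exists_normal_step hR N S hlt
    have hBnab : ¬ IsMulCommutative B := by
      intro h
      have h1 := hN.le_of_ge ⟨hB, h, hBS⟩ hNB
      have h2 := Subgroup.card_le_of_le h1
      rw [hBc] at h2
      have h3 : 0 < Nat.card N := Nat.card_pos
      have := hpp.one_lt
      nlinarith
    have hBnc : ¬ IsCyclic B := fun h => hBnab IsCyclic.isMulCommutative
    have hNB' : IsCyclic (N.subgroupOf B) := by
      haveI := hcyc
      exact isCyclic_of_injective (Subgroup.subgroupOfEquivOfLe hNB).toMonoidHom (Subgroup.subgroupOfEquivOfLe hNB).injective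
    have hidx : (N.subgroupOf B).index = p := by
      have h1 := (N.subgroupOf B).card_mul_index
      rw [Cfsg.Agent.L0.card_subgroupOf_of_le hNB, hBc] at h1
      exact Nat.eq_of_mul_eq_mul_left Nat.card_pos h1
    obtain ⟨E, hE, hEc⟩ := Cfsg.Agent.H1.exists_omega_cyclic_normal hp (hR.to_subgroup B) hBnc _ hNB' hidx
    refine ⟨E.map B.subtype, (Subgroup.map_subtype_le E).trans hBS, ?_, ?_, ?_⟩
    · constructor
      rintro _ ⟨x, hx, rfl⟩ g
      refine ⟨⟨g * x * g⁻¹, hB.conj_mem x x.2 g⟩, ?_, rfl⟩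
      apply (hE _).mpr
      apply Subtype.ext
      have h1 : (x : R) ^ p = 1 := by
        have := (hE x).mp hx
        rw [← Subgroup.coe_pow, this]; rfl
      change (g * (x : R) * g⁻¹) ^ p = 1
      rw [conj_pow, h1, mul_one, mul_inv_cancel]
    · have hEcomm : IsMulCommutative E := by
        have h1 : ∀ a b : E, a * b = b * a := IsPGroup.commutative_of_card_eq_prime_sq hEc
        exact ⟨⟨h1⟩⟩
      refine ⟨⟨⟨?_⟩⟩, ?_⟩
      · rintro ⟨_, x, hx, rfl⟩ ⟨_, y, hy, rfl⟩
        have h1 := hEcomm.1.1 ⟨x, hx⟩ ⟨y, hy⟩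
        have h2 : x * y = y * x := congrArg Subtype.val h1
        apply Subtype.ext
        change (x : R) * y = y * x
        rw [← Subgroup.coe_mul, h2, Subgroup.coe_mul]
      · rintro _ ⟨x, hx, rfl⟩
        have := (hE x).mp hx
        rw [← map_pow, this, map_one]
    · rw [Cfsg.Agent.L0.card_map_subtype, hEc]
  · -- noncyclic case
    have h1 := Cfsg.Agent.H1.card_omegaAb_ge hR hcyc
    have hΩn : (Cfsg.Agent.H1.omegaAb p N).Normal := by
      constructor
      intro x hx g
      refine ⟨hNn.conj_mem x hx.1 g, ?_⟩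
      rw [conj_pow, hx.2, mul_one, mul_inv_cancel]
    obtain ⟨b, hb⟩ := IsPGroup.iff_card.mp (hR.to_subgroup (Cfsg.Agent.H1.omegaAb p N))
    have h2 : 2 ≤ b := by
      rw [hb] at h1
      exact (Nat.pow_le_pow_iff_right hpp.one_lt).mp h1
    obtain ⟨L, hL, hLΩ, hLc⟩ := Cfsg.Agent.H1.exists_normal_le_card hR (Cfsg.Agent.H1.omegaAb p N) hb h2
    refine ⟨L, hLΩ.trans (Cfsg.Agent.H1.omegaAb_le.trans hNS), hL, ⟨⟨⟨?_⟩⟩, ?_⟩, hLc⟩
    · intro a b
      have h3 := hNc.1.1 ⟨(a : R), (hLΩ a.2).1⟩ ⟨(b : R), (hLΩ b.2).1⟩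
      have h4 : (a : R) * b = b * a := congrArg Subtype.val h3
      exact Subtype.ext h4
    · intro x hx; exact (hLΩ hx).2

end Cfsg.Agent.S0636
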