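import Cfsg.Statements.S0638
import Cfsg.Agent.H2.MetaC
import Cfsg.Agent.S0126
import Mathlib

set_option autoImplicit false
open Cfsg

namespace Cfsg.Agent.S0638

open Cfsg.Agent.H2

/-- For odd p, in a non-cyclic metacyclic p-group the elements of order dividing p generate an elementary abelian subgroup of order p². -/
theorem result {R : Type*} [Group R] [Finite R] {p : ℕ} [Fact p.Prime] (hp : p ≠ 2) (hR : IsPGroup p R) (hm : Cfsg.IsMetacyclic R) (hnc : ¬ IsCyclic R) : Cfsg.IsElementaryAbelian p (Cfsg.omegaOne p (⊤ : Subgroup R)) ∧ Nat.card ↥(Cfsg.omegaOne p (⊤ : Subgroup R)) = p ^ 2 := by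
  obtain ⟨A, hA, hAc⟩ := meta_omega hp hR hm
  obtain ⟨E, -, hE, hEc⟩ := S0126.result hp hR hnc
  have hEA : E ≤ A := fun x hx => (hA x).2 (hE.2 x hx)
  have hcard : Nat.card A = p ^ 2 := le_antisymm hAc (by rw [← hEc]; exact Subgroup.card_le_of_le hEA)
  have hO : omegaOne p (⊤ : Subgroup R) = A := by
    apply le_antisymm
    · unfold omegaOne
      rw [Subgroup.closure_le]
      rintro x ⟨-, hx⟩
      exact (hA x).2 hx
    · intro x hx
      exact Subgroup.subset_closure ⟨Subgroup.mem_top _, (hA x).1 hx⟩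
  rw [hO]
  have hEA' : E = A := Subgroup.eq_of_le_of_card_ge hEA (by rw [hcard, hEc])
  rw [← hEA']
  exact ⟨hE, hEc⟩

end Cfsg.Agent.S0638
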