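import Cfsg.Statements.S0640
import Cfsg.Agent.H2.SmallF
import Cfsg.Agent.H2.RankTwo
import Mathlib

set_option autoImplicit false
open Cfsg

namespace Cfsg.Agent.S0640

open Cfsg.Agent.H2

theorem card_mod_fix {X : Type*} [Group X] [Finite X] {q : ℕ} [Fact q.Prime] (β : MulAut X) (hβ : β ^ q = 1) :
    ∃ C : Subgroup X, (∀ x, x ∈ C ↔ β x = x) ∧ Nat.card X ≡ Nat.card C [MOD q] := by
  classical
  let C : Subgroup X :=
    { carrier := {x | β x = x}
      one_mem' := map_one β
      mul_mem' := by intro a b ha hb; show β (a * b) = a * b; rw [map_mul, ha, hb]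
      inv_mem' := by intro a ha; show β a⁻¹ = a⁻¹; rw [map_inv, ha] }
  refine ⟨C, fun x => Iff.rfl, ?_⟩
  have hz : IsPGroup q ↥(Subgroup.zpowers β) := by
    rintro ⟨g, k, rfl⟩
    refine ⟨1, Subtype.ext ?_⟩
    show (β ^ k) ^ q ^ 1 = 1
    rw [pow_one, ← zpow_natCast, ← zpow_mul, mul_comm, zpow_mul, zpow_natCast, hβ, one_zpow]
  have h1 := hz.card_modEq_card_fixedPoints (α := X)
  have h2 : (MulAction.fixedPoints ↥(Subgroup.zpowers β) X) = (C : Set X) := by
    ext x
    constructor
    · intro hx
      exact hx ⟨β, Subgroup.mem_zpowers β⟩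
    · intro hx
      rintro ⟨g, k, rfl⟩
      show (β ^ k) x = x
      have h3 : x ∈ MulAction.fixedBy X β := hx
      exact MulAction.mem_fixedBy_zpow h3 k
  rw [h2] at h1
  exact h1

/-- For odd p, a prime q ≠ p dividing the order of the automorphism group of a p-group of rank at most 2 divides p² - 1 and is less than p. -/
theorem result {R : Type*} [Group R] [Finite R] {p : ℕ} [Fact p.Prime] (hp : p ≠ 2) (hR : IsPGroup p R) (hrk : Cfsg.PRankLE p 2 R) (q : ℕ) (hq : q.Prime) (hqp : q ≠ p) (hdvd : q ∣ Nat.card (MulAut R)) : q ∣ p ^ 2 - 1 ∧ q < p := by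
  classical
  have hpp : p.Prime := Fact.out
  haveI : Fact q.Prime := ⟨hq⟩
  have hq2 : q ∣ p ^ 2 - 1 := by
    obtain ⟨α, hα⟩ := exists_prime_orderOf_dvd_card' (G := MulAut R) q hdvd
    have hcop : (orderOf α).Coprime p := by rw [hα]; exact (Nat.coprime_primes hq hpp).2 hqp
    obtain ⟨D, hDchar, hDsmall, hDfaith⟩ := exists_small_crit hR
    have hDexp : ∀ x : D, x ^ p = 1 := by
      rintro ⟨x, hx⟩
      rcases hDsmall x hx with h | ⟨h, -⟩
      · exact Subtype.ext h
      · exact absurd h hp
    have hDp : IsPGroup p D := hR.to_subgroup D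
    obtain ⟨β, hβ, hβo⟩ := exists_restrict α D (by
      intro x hx
      have h1 := hDchar.fixed α
      have h2 : x ∈ D.comap α.toMonoidHom := by rw [h1]; exact hx
      exact h2)
    have hβ1 : β ≠ 1 := by
      rintro rfl
      have : α = 1 := hDfaith α hcop (fun x hx => (hβ ⟨x, hx⟩).symm)
      rw [this, orderOf_one] at hα
      exact hq.one_lt.ne hα
    have hβq : β ^ q = 1 := by
      rw [hα] at hβo
      exact orderOf_dvd_iff_pow_eq_one.1 hβo
    have hrkD : ∀ A : Subgroup D, IsMulCommutative A → (∀ a ∈ A, a ^ p = 1) → Nat.card A ≤ p ^ 2 := by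
      intro A hA hA'
      have h1 := hrk (A.map D.subtype) ⟨⟨by
        rintro ⟨_, a, ha, rfl⟩ ⟨_, b, hb, rfl⟩
        apply Subtype.ext
        show D.subtype a * D.subtype b = D.subtype b * D.subtype a
        rw [← map_mul, ← map_mul]
        congr 1
        exact congrArg Subtype.val (hA.is_comm.comm (⟨a, ha⟩ : A) ⟨b, hb⟩)⟩⟩ (by
        rintro _ ⟨a, ha, rfl⟩
        rw [← map_pow, hA' a ha, map_one])
      rwa [Nat.card_congr (A.equivMapOfInjective D.subtype Subtype.val_injective).toEquiv.symm] at h1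
    have hcard := card_le_of_rank_two hDp hrkD hDexp
    obtain ⟨a, ha⟩ := IsPGroup.iff_card.1 hDp
    have ha3 : a ≤ 3 := by rw [ha] at hcard; exact (Nat.pow_le_pow_iff_right hpp.one_lt).1 hcard
    obtain ⟨C, hC, hCmod⟩ := card_mod_fix β hβq
    obtain ⟨b, hb⟩ := IsPGroup.iff_card.1 (hDp.to_subgroup C)
    have hbsmall : ∀ c : ℕ, (c = 1 ∨ c = 2) → q ∣ p ^ c - 1 → q ∣ p ^ 2 - 1 := by
      rintro c (rfl | rfl) h
      · refine h.trans ?_
        have := Nat.sub_dvd_pow_sub_pow p 1 2
        simpa using this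
      · exact h
    have hcopq : q.Coprime p := (Nat.coprime_primes hq hpp).2 hqp
    have hlt : b < a := by
      have hle : Nat.card C ≤ Nat.card D := Nat.card_le_card_of_injective _ Subtype.val_injective
      rw [ha, hb] at hle
      have h1 : b ≤ a := (Nat.pow_le_pow_iff_right hpp.one_lt).1 hle
      rcases h1.lt_or_eq with h | h
      · exact h
      · exfalso
        apply hβ1
        have : C = ⊤ := Subgroup.eq_top_of_card_eq C (by rw [hb, ha, h])
        apply MulEquiv.ext
        intro x
        exact (hC x).1 (by rw [this]; trivial)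
    by_cases hb0 : b = 0
    · -- no fixed points
      have hCbot : C = ⊥ := by
        rw [hb0, pow_zero] at hb
        exact Subgroup.card_eq_one.1 hb
      obtain ⟨ζ, hζ, hζo⟩ := exists_restrict β (Subgroup.center D) (by
        intro x hx
        have h1 := (inferInstance : (Subgroup.center D).Characteristic).fixed β
        have h2 : x ∈ (Subgroup.center D).comap β.toMonoidHom := by rw [h1]; exact hx
        exact h2)
      have hζq : ζ ^ q = 1 := orderOf_dvd_iff_pow_eq_one.1 (hζo.trans (orderOf_dvd_of_pow_eq_one hβq))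
      obtain ⟨E, hE, hEmod⟩ := card_mod_fix ζ hζq
      have hEbot : Nat.card E = 1 := by
        rw [Subgroup.card_eq_one, eq_bot_iff]
        intro x hx
        have h1 : (x : D) ∈ C := by
          rw [hC, ← hζ, (hE x).1 hx]
        rw [hCbot] at h1
        exact Subtype.ext (Subgroup.mem_bot.1 h1)
      obtain ⟨c, hc⟩ := IsPGroup.iff_card.1 (hDp.to_subgroup (Subgroup.center D))
      have hc2 : c ≤ 2 := by
        have := hrkD (Subgroup.center D) inferInstance (fun a _ => hDexp a)
        rw [hc] at this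
        exact (Nat.pow_le_pow_iff_right hpp.one_lt).1 this
      have hc1 : c ≠ 0 := by
        intro h0
        haveI : Nontrivial D := by
          rw [← Finite.one_lt_card_iff_nontrivial, ha]
          exact Nat.one_lt_pow (by omega) hpp.one_lt
        have := hDp.center_nontrivial
        rw [h0, pow_zero] at hc
        have h2 := Finite.one_lt_card_iff_nontrivial.2 this
        omega
      apply hbsmall c (by omega)
      rw [hEbot, hc] at hEmod
      exact (Nat.modEq_iff_dvd' (Nat.one_le_pow _ _ hpp.pos)).1 hEmod.symm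
    · rw [ha, hb] at hCmod
      have h1 : q ∣ p ^ a - p ^ b := (Nat.modEq_iff_dvd' (Nat.pow_le_pow_right hpp.pos hlt.le)).1 hCmod.symm
      have h2 : p ^ a - p ^ b = p ^ b * (p ^ (a - b) - 1) := by
        rw [Nat.mul_sub, ← pow_add, mul_one]
        congr 2
        omega
      rw [h2] at h1
      have h3 : q ∣ p ^ (a - b) - 1 := (Nat.Coprime.pow_right b hcopq).dvd_of_dvd_mul_left h1
      exact hbsmall (a - b) (by omega) h3
  refine ⟨hq2, ?_⟩
  have hp3 : 3 ≤ p := by
    have := hpp.two_le
    omega
  have h1 : p ^ 2 - 1 = (p + 1) * (p - 1) := by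
    have := Nat.sq_sub_sq p 1
    simpa using this
  rw [h1] at hq2
  rcases (Nat.Prime.dvd_mul hq).1 hq2 with h | h
  · by_cases hq2' : q = 2
    · omega
    · have hodd : ¬ 2 ∣ p := by
        intro h2
        exact hp ((Nat.prime_dvd_prime_iff_eq Nat.prime_two hpp).1 h2).symm
      have h2 : 2 ∣ p + 1 := by omega
      obtain ⟨m, hm⟩ := h2
      rw [hm] at h
      have h3 : q ∣ m := ((Nat.coprime_primes hq Nat.prime_two).2 hq2').dvd_of_dvd_mul_left h
      have h4 := Nat.le_of_dvd (by omega) h3
      omega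
  · have h4 := Nat.le_of_dvd (by omega) h
    omega

end Cfsg.Agent.S0640
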