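import Cfsg.Statements.S0641
import Mathlib

set_option autoImplicit false
open Cfsg

namespace Cfsg.Agent.S0641

open scoped commutatorElement Pointwise


/-- Regularity of a p-group passes to quotient groups. -/
theorem result {G : Type*} [Group G] {p : ℕ} [Fact p.Prime] (hG : Cfsg.IsRegularPGroup p G) (N : Subgroup G) [N.Normal] : Cfsg.IsRegularPGroup p (G ⧸ N) := by
  refine ⟨hG.1.to_quotient N, ?_⟩
  intro a b n
  obtain ⟨x, rfl⟩ := QuotientGroup.mk'_surjective N a
  obtain ⟨y, rfl⟩ := QuotientGroup.mk'_surjective N b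
  obtain ⟨c, hc, e⟩ := hG.2 x y n
  refine ⟨QuotientGroup.mk' N c, ?_, ?_⟩
  · have h1 : (Cfsg.powerClosure p n ⁅Subgroup.closure ({x, y} : Set G), Subgroup.closure ({x, y} : Set G)⁆).map (QuotientGroup.mk' N) ≤
        Cfsg.powerClosure p n ⁅Subgroup.closure ({QuotientGroup.mk' N x, QuotientGroup.mk' N y} : Set (G ⧸ N)), Subgroup.closure ({QuotientGroup.mk' N x, QuotientGroup.mk' N y} : Set (G ⧸ N))⁆ := by
      have h2 : (Subgroup.closure ({x, y} : Set G)).map (QuotientGroup.mk' N) = Subgroup.closure ({QuotientGroup.mk' N x, QuotientGroup.mk' N y} : Set (G ⧸ N)) := by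
        rw [MonoidHom.map_closure, Set.image_pair]
      rw [Cfsg.powerClosure, MonoidHom.map_closure, Subgroup.closure_le]
      rintro _ ⟨z, ⟨w, hw, rfl⟩, rfl⟩
      apply Subgroup.subset_closure
      refine ⟨QuotientGroup.mk' N w, ?_, by rw [map_pow]⟩
      rw [← h2, ← Subgroup.map_commutator]
      exact ⟨w, hw, rfl⟩
    exact h1 ⟨c, hc, rfl⟩
  · rw [← map_mul, ← map_pow, e, map_mul, map_mul, map_pow, map_pow]

end Cfsg.Agent.S0641
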