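import Cfsg.Statements.S0642
import Mathlib
import Cfsg.Agent.L0.Core
import Cfsg.Agent.H1.Basic

set_option autoImplicit false
open Cfsg

namespace Cfsg.Agent.S0642

open scoped commutatorElement Pointwise
theorem powerClosure_lt {G : Type*} [Group G] [Finite G] (hG : IsPGroup 2 G) {K : Subgroup G} (hK : K ≠ ⊥) :
    ¬ K ≤ Cfsg.powerClosure 2 1 K := by
  intro hle
  haveI := (hG.to_subgroup K).isNilpotent
  haveI : Nontrivial K := (Subgroup.nontrivial_iff_ne_bot K).mpr hK
  obtain ⟨M, hM, -⟩ := (eq_top_or_exists_le_coatom (⊥ : Subgroup K)).resolve_left (fun h => bot_ne_top h)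
  have hidx := Cfsg.Agent.H1.index_of_isCoatom_pgroup (hG.to_subgroup K) hM
  have h1 : Cfsg.powerClosure 2 1 K ≤ M.map K.subtype := by
    rw [Cfsg.powerClosure, Subgroup.closure_le]
    rintro _ ⟨x, hx, rfl⟩
    refine ⟨⟨x, hx⟩ ^ 2, ?_, by simp⟩
    exact Subgroup.sq_mem_of_index_two hidx _
  have h2 : K ≤ M.map K.subtype := hle.trans h1
  apply hM.1
  rw [eq_top_iff]
  rintro ⟨x, hx⟩ _
  obtain ⟨y, hy, e⟩ := h2 hx
  have : (⟨x, hx⟩ : K) = y := Subtype.ext e.symm
  rw [this]; exact hy

/-- Among finite 2-groups the regular ones are exactly the abelian ones. -/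
theorem result {G : Type*} [Group G] [Finite G] (hG : IsPGroup 2 G) : Cfsg.IsRegularPGroup 2 G ↔ ∀ a b : G, a * b = b * a := by
  constructor
  · intro h a b
    obtain ⟨c, hc, e⟩ := h.2 a b 1
    set H := Subgroup.closure ({a, b} : Set G) with hH
    set K := ⁅H, H⁆ with hK
    set D := Cfsg.powerClosure 2 1 K with hD
    have haH : a ∈ H := Subgroup.subset_closure (by simp)
    have hbH : b ∈ H := Subgroup.subset_closure (by simp)
    have hKH : K ≤ H := Cfsg.Agent.H1.commutator_self_le H
    have hDK : D ≤ K := by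
      rw [hD, Cfsg.powerClosure, Subgroup.closure_le]
      rintro _ ⟨x, hx, rfl⟩; exact K.pow_mem hx _
    have hHK : H ≤ Subgroup.normalizer (K : Set G) := by
      intro g hg
      apply Cfsg.Agent.H1.mem_normalizer_of_conj_mem
      intro x hx
      have : g * x * g⁻¹ = ⁅g, x⁆ * x := by rw [commutatorElement_def]; group
      rw [this]
      exact K.mul_mem (Subgroup.commutator_mem_commutator hg (hKH hx)) hx
    have hHD : H ≤ Subgroup.normalizer (D : Set G) := by
      intro g hg
      apply Cfsg.Agent.H1.mem_normalizer_of_conj_mem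
      intro x hx
      rw [hD, Cfsg.powerClosure] at hx
      have h1 : (Subgroup.closure {y : G | ∃ x ∈ K, y = x ^ 2 ^ 1}).map (MulAut.conj g).toMonoidHom ≤ D := by
        rw [MonoidHom.map_closure, Subgroup.closure_le]
        rintro _ ⟨_, ⟨x, hx, rfl⟩, rfl⟩
        apply Subgroup.subset_closure
        exact ⟨g * x * g⁻¹, (Subgroup.mem_normalizer_iff.mp (hHK hg) x).mp hx, by simp⟩
      exact h1 ⟨x, hx, rfl⟩
    -- [a,b] ∈ D
    have hD1 : a⁻¹ * b⁻¹ * a * b ∈ D ∨ True := Or.inr trivial
    have e' : (a * b) * (a * b) = (a * a) * (b * b) * c := by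
      have : (a * b) ^ 2 ^ 1 = a ^ 2 ^ 1 * b ^ 2 ^ 1 * c := e
      simpa [pow_two] using this
    have h2 : (a * b)⁻¹ * (b * a) = b * c * b⁻¹ := by
      have h3 : b * a * b = a * b * b * c := by
        have : a * (b * a * b) = a * (a * b * b * c) := by
          calc a * (b * a * b) = (a * b) * (a * b) := by group
            _ = (a * a) * (b * b) * c := e'
            _ = _ := by group
        exact mul_left_cancel this
      calc (a * b)⁻¹ * (b * a) = (a * b)⁻¹ * (b * a * b) * b⁻¹ := by group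
        _ = (a * b)⁻¹ * (a * b * b * c) * b⁻¹ := by rw [h3]
        _ = _ := by group
    have h3 : (a * b)⁻¹ * (b * a) ∈ D := by
      rw [h2]
      exact (Subgroup.mem_normalizer_iff.mp (hHD hbH) c).mp hc
    -- quotient H / D is abelian
    have hDn : (D.subgroupOf H).Normal := (Subgroup.normal_subgroupOf_iff_le_normalizer (hDK.trans hKH)).mpr hHD
    have hcomm : ∀ x ∈ H, ∀ y ∈ H, ⁅x, y⁆ ∈ D := by
      let π := QuotientGroup.mk' (D.subgroupOf H)
      have hab : π ⟨a, haH⟩ * π ⟨b, hbH⟩ = π ⟨b, hbH⟩ * π ⟨a, haH⟩ := by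
        rw [← map_mul, ← map_mul]
        apply QuotientGroup.eq.mpr
        exact h3
      have hgen : ∀ x : H, π x ∈ Subgroup.closure ({π ⟨a, haH⟩, π ⟨b, hbH⟩} : Set _) := by
        rintro ⟨x, hx⟩
        refine Subgroup.closure_induction (p := fun x hx => π ⟨x, hx⟩ ∈ Subgroup.closure ({π ⟨a, haH⟩, π ⟨b, hbH⟩} : Set _)) ?_ ?_ ?_ ?_ hx
        · rintro x (rfl | hx)
          · exact Subgroup.subset_closure (by simp)
          · rw [Set.mem_singleton_iff] at hx
            subst hx
            exact Subgroup.subset_closure (by simp)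
        · have : π ⟨1, H.one_mem⟩ = 1 := map_one π
          rw [this]; exact one_mem _
        · intro x y hx hy h1 h2
          have : π ⟨x * y, H.mul_mem hx hy⟩ = π ⟨x, hx⟩ * π ⟨y, hy⟩ := by rw [← map_mul]; rfl
          rw [this]; exact mul_mem h1 h2
        · intro x hx h1
          have : π ⟨x⁻¹, H.inv_mem hx⟩ = (π ⟨x, hx⟩)⁻¹ := by rw [← map_inv]; rfl
          rw [this]; exact inv_mem h1
      have hcl : IsMulCommutative (Subgroup.closure ({π ⟨a, haH⟩, π ⟨b, hbH⟩} : Set _)) := by
        apply Subgroup.isMulCommutative_closure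
        rintro x (rfl | hx) y (rfl | hy)
        · rfl
        · rw [Set.mem_singleton_iff] at hy; subst hy; exact hab
        · rw [Set.mem_singleton_iff] at hx; subst hx; exact hab.symm
        · rw [Set.mem_singleton_iff] at hx hy; subst hx; subst hy; rfl
      intro x hx y hy
      have h4 : π ⟨x, hx⟩ * π ⟨y, hy⟩ = π ⟨y, hy⟩ * π ⟨x, hx⟩ := by
        haveI := hcl
        exact Subgroup.mul_comm_of_mem_isMulCommutative _ (hgen ⟨x, hx⟩) (hgen ⟨y, hy⟩)
      have h5 : π (⁅(⟨x, hx⟩ : H), (⟨y, hy⟩ : H)⁆ : H) = 1 := by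
        rw [map_commutatorElement, commutatorElement_eq_one_iff_mul_comm]; exact h4
      exact (QuotientGroup.eq_one_iff (N := D.subgroupOf H) (⁅(⟨x, hx⟩ : H), (⟨y, hy⟩ : H)⁆ : H)).mp h5
    have hKD : K ≤ D := by
      rw [hK, Subgroup.commutator_le]; exact hcomm
    have hKb : K = ⊥ := by
      by_contra hne
      exact powerClosure_lt hG hne hKD
    have h6 : ⁅a, b⁆ ∈ K := Subgroup.commutator_mem_commutator haH hbH
    rw [hKb, Subgroup.mem_bot, commutatorElement_eq_one_iff_mul_comm] at h6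
    exact h6
  · intro h
    refine ⟨hG, fun a b n => ⟨1, one_mem _, ?_⟩⟩
    have : Commute a b := h a b
    rw [this.mul_pow, mul_one]

end Cfsg.Agent.S0642
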