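import Cfsg.Statements.S0656
import Cfsg.Agent.H2.QuadSec
import Mathlib

set_option autoImplicit false
open Cfsg

namespace Cfsg.Agent.S0656

open Cfsg.Agent.H2

/-- For odd p, a faithful group on an elementary abelian p-group with no nontrivial normal p-subgroup in which some nontrivial p-element acts quadratically has a section isomorphic to SL(2, p). -/
theorem result {G : Type*} [Group G] [Finite G] {p : ℕ} [Fact p.Prime] (hp : p ≠ 2) (V H : Subgroup G) (hV : Cfsg.IsElementaryAbelian p V) (hHV : H ≤ Subgroup.normalizer (V : Set G)) (hf : H ⊓ Subgroup.centralizer (V : Set G) = ⊥) (hO : Cfsg.pCore p ↥H = ⊥) (x : G) (hxH : x ∈ H) (hx1 : x ≠ 1) (hxp : ∃ k : ℕ, orderOf x = p ^ k) (hq : ⁅⁅V, Subgroup.zpowers x⁆, Subgroup.zpowers x⁆ = ⊥) : ∃ (K L : Subgroup G) (hL : (L.subgroupOf K).Normal), K ≤ H ∧ Nonempty ((K ⧸ L.subgroupOf K) ≃* Matrix.SpecialLinearGroup (Fin 2) (ZMod p)) := by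
  classical
  haveI := hV.1
  have hc : ∀ x y : V, x * y = y * x := fun x y => mul_comm' x y
  have hp1 : ∀ x : V, x ^ p = 1 := fun x => Subtype.ext (hV.2 x x.2)
  let α : H →* MulAut V := (Subgroup.normalizerMonoidHom V).comp (Subgroup.inclusion hHV)
  have hα : ∀ (h : H) (v : V), ((α h v : V) : G) = h * v * (h : G)⁻¹ := fun h v => rfl
  have hinj : Function.Injective α := by
    rw [injective_iff_map_eq_one]
    intro h hh
    have : (h : G) ∈ H ⊓ Subgroup.centralizer (V : Set G) := by
      refine ⟨h.2, Subgroup.mem_centralizer_iff.mpr ?_⟩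
      intro v hv
      have h1 := hα h ⟨v, hv⟩
      rw [hh] at h1
      have h2 : v = h * v * (h : G)⁻¹ := h1
      calc v * h = (h * v * (h : G)⁻¹) * h := by rw [← h2]
        _ = h * v := by group
    rw [hf, Subgroup.mem_bot] at this
    exact Subtype.ext this
  have hx : (⟨x, hxH⟩ : H) ∉ Cfsg.pCore p H := by
    rw [hO, Subgroup.mem_bot]
    intro h
    exact hx1 (congrArg Subtype.val h)
  obtain ⟨L, φ, -, -, hφ, -, -⟩ := qp_group hp hc hp1 α hinj ⟨x, hxH⟩ hx (by
    intro v
    apply Subtype.ext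
    have := quad_elem hq v.2
    exact this)
  let e : L ≃* L.map H.subtype := L.equivMapOfInjective H.subtype (Subgroup.subtype_injective H)
  have hsec : ∃ (R : Subgroup G) (_ : (R.subgroupOf (L.map H.subtype)).Normal),
    Nonempty (↥(L.map H.subtype) ⧸ R.subgroupOf (L.map H.subtype) ≃* Matrix.SpecialLinearGroup (Fin 2) (ZMod p)) := by
    let f : (L.map H.subtype) →* Matrix.SpecialLinearGroup (Fin 2) (ZMod p) := φ.comp e.symm.toMonoidHom
    have hfs : Function.Surjective f := hφ.comp e.symm.surjective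
    have e1 : (f.ker.map (L.map H.subtype).subtype).subgroupOf (L.map H.subtype) = f.ker :=
      Subgroup.comap_map_eq_self_of_injective (Subgroup.subtype_injective _) _
    haveI hn : ((f.ker.map (L.map H.subtype).subtype).subgroupOf (L.map H.subtype)).Normal := by rw [e1]; infer_instance
    exact ⟨f.ker.map (L.map H.subtype).subtype, hn,
      ⟨(QuotientGroup.quotientMulEquivOfEq e1).trans (QuotientGroup.quotientKerEquivOfSurjective f hfs)⟩⟩
  obtain ⟨R, hR, he⟩ := hsec
  exact ⟨L.map H.subtype, R, hR, Subgroup.map_subtype_le _, he⟩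

end Cfsg.Agent.S0656
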