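import Cfsg.Statements.S0657
import Cfsg.Agent.H2.QdSec
import Mathlib

set_option autoImplicit false
open Cfsg

namespace Cfsg.Agent.S0657

open Cfsg.Agent.H2
open Cfsg.Agent

/-- For odd p, a group that fails to be p-stable modulo its largest normal subgroup of order prime to p, and whose upper p-series does not stop there, has a section isomorphic to SL(2, p). -/
theorem result {G : Type*} [Group G] [Finite G] {p : ℕ} [Fact p.Prime] (hp : p ≠ 2) (hO : Cfsg.pPrimeCore p G < Cfsg.pPrimePCore p G) (hns : ¬ Cfsg.IsPStable p (G ⧸ Cfsg.pPrimeCore p G)) : ∃ (K L : Subgroup G) (hL : (L.subgroupOf K).Normal), K ≤ ⊤ ∧ Nonempty ((K ⧸ L.subgroupOf K) ≃* Matrix.SpecialLinearGroup (Fin 2) (ZMod p)) := by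
  have hsec : H6.Sec (Matrix.SpecialLinearGroup (Fin 2) (ZMod p)) G := by
    have hpodd : Odd p := (Fact.out : p.Prime).odd_of_ne_two hp
    have hcore : pCore p (G ⧸ pPrimeCore p G) ≠ ⊥ := by
      intro h
      have h1 : pPrimePCore p G = pPrimeCore p G := by
        unfold pPrimePCore
        rw [h]
        exact (MonoidHom.comap_bot _).trans (QuotientGroup.ker_mk' _)
      rw [h1] at hO
      exact lt_irrefl _ hO
    unfold IsPStable at hns
    have hns' : ¬ ∀ A P : Subgroup (G ⧸ pPrimeCore p G), IsPGroup p A → IsPGroup p P →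
      (∀ a ∈ A, ∀ x ∈ P, a * x * a⁻¹ ∈ P) → P ≤ pPrimePCore p (G ⧸ pPrimeCore p G) →
        (pPrimeCore p (G ⧸ pPrimeCore p G) ⊔ P).Normal →
      ⁅⁅P, A⁆, A⁆ = ⊥ →
        (A.subgroupOf (Subgroup.normalizer (P : Set (G ⧸ pPrimeCore p G)))).map
            (QuotientGroup.mk' ((Subgroup.centralizer (P : Set (G ⧸ pPrimeCore p G))).subgroupOf
              (Subgroup.normalizer (P : Set (G ⧸ pPrimeCore p G)))))
          ≤ pCore p _ := fun h => hns ⟨hpodd, hcore, h⟩
    push Not at hns'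
    obtain ⟨A, P, hA, hP, hAP, -, -, hq, hnot⟩ := hns'
    rw [SetLike.not_le_iff_exists] at hnot
    obtain ⟨_, ⟨⟨a, haN⟩, haA, rfl⟩, hna⟩ := hnot
    have h1 : ¬ H6.NPW p P a := fun h => hna ((H6.npw_iff haN).2 h)
    have h2 : ⁅⁅P, Subgroup.zpowers a⁆, Subgroup.zpowers a⁆ = ⊥ := by
      rw [eq_bot_iff, ← hq]
      have : Subgroup.zpowers a ≤ A := by rw [Subgroup.zpowers_le]; exact haA
      exact Subgroup.commutator_mono (Subgroup.commutator_mono le_rfl this) this
    have h3 := (nat2_of_not_npw hp hP haN h2 h1).sec_sl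
    have h4 : H6.Sec ↥(Subgroup.normalizer (P : Set (G ⧸ pPrimeCore p G))) (G ⧸ pPrimeCore p G) :=
      ⟨_, MonoidHom.id _, fun x => ⟨x, rfl⟩⟩
    exact (h3.trans h4).trans ((H6.Sec.refl G).quotient _)
  obtain ⟨K, L, hL, e⟩ := hsec.exists_iso
  exact ⟨K, L, hL, le_top, e⟩

end Cfsg.Agent.S0657
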