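import Cfsg.Statements.S0658
import Cfsg.Agent.H2.PStab
import Mathlib

set_option autoImplicit false
open Cfsg

namespace Cfsg.Agent.S0658

open Cfsg.Agent.H2

/-- In a group of characteristic p type all of whose p-locals are p-stable (p odd), the normalizer of Z(J(P)) contains the normalizer of every nontrivial subgroup of the Sylow p-subgroup P. -/
theorem result {G : Type*} [Group G] [Finite G] {p : ℕ} [Fact p.Prime] (hp : p ≠ 2) (hloc : ∀ Q : Subgroup G, IsPGroup p Q → Q ≠ ⊥ → Cfsg.pPrimeCore p ↥(Subgroup.normalizer (Q : Set G)) = ⊥ ∧ Cfsg.IsPConstrained p ↥(Subgroup.normalizer (Q : Set G)) ∧ Cfsg.IsPStable p ↥(Subgroup.normalizer (Q : Set G))) (P : Sylow p G) (Q : Subgroup G) (hQP : Q ≤ (P : Subgroup G)) (hQ1 : Q ≠ ⊥) : Subgroup.normalizer (Q : Set G) ≤ Subgroup.normalizer (Cfsg.centerThompsonAOf ((P : Subgroup G)) : Set G) := by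
  classical
  rw [centerThompsonAOf_eq]
  set M := Subgroup.normalizer ((zz 0 (P : Subgroup G) : Subgroup G) : Set G) with hM
  have hPM : (P : Subgroup G) ≤ M := norm_zz_of_sc (stronglyClosed_self _)
  -- `Z(J(R))` is normalized by `N(Q)` when `R` is Sylow in `N(Q)`.
  have hloc' : ∀ Q R : Subgroup G, IsPGroup p Q → Q ≠ ⊥ → H6.SylIn p R (Subgroup.normalizer (Q : Set G)) →
      Subgroup.normalizer (Q : Set G) ≤ Subgroup.normalizer ((zz 0 R : Subgroup G) : Set G) := by
    intro Q R hQ hQ1 hR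
    obtain ⟨h1, h2, h3⟩ := hloc Q hQ hQ1
    obtain ⟨R', hR'⟩ := hR.exists_sylow
    rw [isPStable_iff] at h3
    have hcons : Subgroup.centralizer (pCore p (Subgroup.normalizer (Q : Set G)) : Set _) ≤
        pCore p (Subgroup.normalizer (Q : Set G)) := by
      rw [H1.pConstrained_iff] at h2
      have hPN : ∀ X : Subgroup (Subgroup.normalizer (Q : Set G)), X ⊓ pPrimeCore p (Subgroup.normalizer (Q : Set G)) = ⊥ := by
        intro X; rw [h1, inf_bot_eq]
      set f := QuotientGroup.mk' (pPrimeCore p (Subgroup.normalizer (Q : Set G))) with hf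
      have hfs : Function.Surjective f := QuotientGroup.mk'_surjective _
      have hker : f.ker = ⊥ := by rw [hf, QuotientGroup.ker_mk', h1]
      have hinj : Function.Injective f := (MonoidHom.ker_eq_bot_iff f).1 hker
      let e := MulEquiv.ofBijective f ⟨hinj, hfs⟩
      have h4 : (pCore p (Subgroup.normalizer (Q : Set G))).map e.toMonoidHom = pCore p _ := L0.pCore_map_equiv p e
      intro x hx
      have h5 : e x ∈ Subgroup.centralizer (pCore p (_ ⧸ pPrimeCore p (Subgroup.normalizer (Q : Set G))) : Set _) := by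
        rw [← h4, Subgroup.mem_centralizer_iff]
        rintro _ ⟨y, hy, rfl⟩
        have := Subgroup.mem_centralizer_iff.1 hx y hy
        show e y * e x = e x * e y
        rw [← map_mul, this, map_mul]
      have h6 := h2 h5
      rw [← h4] at h6
      obtain ⟨y, hy, hyx⟩ := h6
      have : y = x := e.injective hyx
      rw [← this]; exact hy
    have h4 : (zz 0 (R' : Subgroup (Subgroup.normalizer (Q : Set G)))).Normal :=
      zz_normal hp (m := 0) (Or.inl rfl) R' (stronglyClosed_self _)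
        (fun B _ hB g hq => good_of_ips h3.2.2 h1 hB hq) hcons
    have h5 : (zz 0 (R' : Subgroup (Subgroup.normalizer (Q : Set G)))).map (Subgroup.normalizer (Q : Set G)).subtype =
        zz 0 R := by
      rw [zz_map _ (Subgroup.subtype_injective _), hR', Subgroup.map_subgroupOf_eq_of_le hR.1]
    rw [← h5]
    intro x hx
    have h6 : (⟨x, hx⟩ : Subgroup.normalizer (Q : Set G)) ∈ Subgroup.normalizer
        ((zz 0 (R' : Subgroup (Subgroup.normalizer (Q : Set G))) : Subgroup _) : Set (Subgroup.normalizer (Q : Set G))) :=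
      H6.norm_of_normal ⊤ (Subgroup.mem_top _)
    exact mem_norm_map.2 h6
  -- maximal counterexample
  suffices main : ∀ n : ℕ, ∀ Q : Subgroup G, Q ≤ (P : Subgroup G) → Q ≠ ⊥ →
      Nat.card P - Nat.card ↥((P : Subgroup G) ⊓ Subgroup.normalizer (Q : Set G)) = n →
      Subgroup.normalizer (Q : Set G) ≤ M from main _ Q hQP hQ1 rfl
  intro n
  induction n using Nat.strong_induction_on with
  | _ n ih =>
  intro Q hQP hQ1 hn
  set R := (P : Subgroup G) ⊓ Subgroup.normalizer (Q : Set G) with hR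
  have hQR : Q ≤ R := le_inf hQP Subgroup.le_normalizer
  have hR1 : R ≠ ⊥ := by
    intro h; rw [h, le_bot_iff] at hQR; exact hQ1 hQR
  have ih' : ∀ Q' : Subgroup G, Q' ≤ (P : Subgroup G) → Q' ≠ ⊥ →
      Nat.card R < Nat.card ↥((P : Subgroup G) ⊓ Subgroup.normalizer (Q' : Set G)) →
      Subgroup.normalizer (Q' : Set G) ≤ M := by
    intro Q' hQ' hQ'1 hlt
    have h1 : Nat.card ↥((P : Subgroup G) ⊓ Subgroup.normalizer (Q' : Set G)) ≤ Nat.card P :=
      Subgroup.card_le_of_le inf_le_left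
    exact ih _ (by omega) Q' hQ' hQ'1 rfl
  by_cases hRP : R = (P : Subgroup G)
  · have h1 : H6.SylIn p (P : Subgroup G) (Subgroup.normalizer (Q : Set G)) := by
      apply H6.sylIn_of_sylow_le
      rw [← hRP]; exact inf_le_right
    exact hloc' Q _ (P.2.to_le hQP) hQ1 h1
  have hRlt : R < (P : Subgroup G) := lt_of_le_of_ne inf_le_left hRP
  have hRn : R < (P : Subgroup G) ⊓ Subgroup.normalizer (R : Set G) := H6.lt_inf_normalizer P.2 hRlt
  have hNR : Subgroup.normalizer (R : Set G) ≤ M := ih' R inf_le_left hR1 (H6.card_lt_of_lt hRn)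
  obtain ⟨R1, hR1syl, hRR1⟩ := H6.exists_sylIn_ge (P.2.to_le inf_le_left : IsPGroup p R)
    (inf_le_right : R ≤ Subgroup.normalizer (Q : Set G))
  by_cases hRR : R = R1
  · -- `R` is Sylow
    rw [← hRR] at hR1syl
    have h1 := hloc' Q R (P.2.to_le hQP) hQ1 hR1syl
    have hZ1 : zz 0 R ≠ ⊥ := zz_ne_bot (p := p) (Or.inl rfl) (P.2.to_le inf_le_left) hR1
    have h2 : Subgroup.normalizer (R : Set G) ≤ Subgroup.normalizer ((zz 0 R : Subgroup G) : Set G) := norm_le_norm_zz
    refine h1.trans (ih' _ (zz_le.trans inf_le_left) hZ1 ?_)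
    exact (H6.card_lt_of_lt hRn).trans_le (Subgroup.card_le_of_le (inf_le_inf_left _ h2))
  · have hlt : R < R1 := lt_of_le_of_ne hRR1 hRR
    have h1 : R < R1 ⊓ Subgroup.normalizer (R : Set G) := H6.lt_inf_normalizer hR1syl.2.1 hlt
    set T := R1 ⊓ Subgroup.normalizer (R : Set G) with hT
    have hTM : T ≤ M := inf_le_right.trans hNR
    obtain ⟨m, hm, hmT⟩ := (H6.sylIn_of_sylow_le P hPM).exists_conj_le (hR1syl.2.1.to_le inf_le_left) hTM
    have hQT : Q ≤ T := hQR.trans h1.le
    have h2 : H6.cj m Q ≤ (P : Subgroup G) := (H6.cj_mono hQT).trans hmT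
    have h3 : H6.cj m T ≤ (P : Subgroup G) ⊓ Subgroup.normalizer ((H6.cj m Q : Subgroup G) : Set G) := by
      refine le_inf hmT ?_
      rw [← H6.cj_normalizer]
      exact H6.cj_mono (inf_le_left.trans hR1syl.1)
    have h4 := ih' (H6.cj m Q) h2 (by rw [Ne, H6.cj_eq_bot]; exact hQ1) (by
      refine lt_of_lt_of_le (H6.card_lt_of_lt h1) ?_
      rw [← H6.card_cj m T]
      exact Subgroup.card_le_of_le h3)
    rw [← H6.cj_normalizer, H6.cj_le_iff] at h4
    refine h4.trans (le_of_eq ?_)
    exact H6.cj_of_mem (M.inv_mem hm)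

end Cfsg.Agent.S0658
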