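import Cfsg.Statements.S0660
import Mathlib
import Cfsg.Agent.L0.Core
import Cfsg.Agent.H1.Basic
import Cfsg.Agent.L0.Coprime

set_option autoImplicit false
open Cfsg

namespace Cfsg.Agent.S0660

open scoped commutatorElement Pointwise
open scoped IsMulCommutative in
theorem maschke {G : Type*} [Group G] [Finite G] (V A U : Subgroup G) [hVab : IsMulCommutative V] (hAV : A ≤ Subgroup.normalizer (V : Set G)) (hcop : (Nat.card A).Coprime (Nat.card V)) (hUV : U ≤ V) (hAU : A ≤ Subgroup.normalizer (U : Set G)) (W : Subgroup G) (hWV : W ≤ V) (hUW : U ⊓ W = ⊥) (hUWV : U ⊔ W = V) : ∃ W' : Subgroup G, W' ≤ V ∧ A ≤ Subgroup.normalizer (W' : Set G) ∧ U ⊓ W' = ⊥ ∧ U ⊔ W' = V := by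
  classical
  haveI : Fintype A := Fintype.ofFinite A
  let φ : A →* MulAut V := V.normalizerMonoidHom.comp (Subgroup.inclusion hAV)
  have hφ : ∀ (a : A) (v : V), ((φ a v : V) : G) = a * v * (a : G)⁻¹ := fun a v => rfl
  -- projection
  have hdec : ∀ v : V, ∃ u : V, (u : G) ∈ U ∧ ((u⁻¹ * v : V) : G) ∈ W := by
    intro v
    have hv : (v : G) ∈ U ⊔ W := by rw [hUWV]; exact v.2
    have hn : W ≤ Subgroup.normalizer (U : Set G) := by
      intro w hw
      apply Cfsg.Agent.H1.mem_normalizer_of_conj_mem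
      intro u hu
      have h1 := congrArg Subtype.val (hVab.1.1 ⟨w, hWV hw⟩ ⟨u, hUV hu⟩)
      change w * u = u * w at h1
      rw [h1, mul_assoc, mul_inv_cancel, mul_one]; exact hu
    obtain ⟨u, hu, w, hw, e⟩ := (Cfsg.Agent.L0.mem_sup_of_normalizes hn).mp hv
    refine ⟨⟨u, hUV hu⟩, hu, ?_⟩
    change u⁻¹ * (v : G) ∈ W
    rw [← e]; simpa using hw
  choose π0 hπU hπW using hdec
  have huniq : ∀ v u u' : V, (u : G) ∈ U → (u' : G) ∈ U → ((u⁻¹ * v : V) : G) ∈ W → ((u'⁻¹ * v : V) : G) ∈ W → u = u' := by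
    intro v u u' hu hu' hw hw'
    have h1 : ((u'⁻¹ * u : V) : G) ∈ U ⊓ W := by
      refine ⟨?_, ?_⟩
      · exact U.mul_mem (U.inv_mem hu') hu
      · have : u'⁻¹ * u = (u'⁻¹ * v) * (u⁻¹ * v)⁻¹ := by group
        rw [this]; exact W.mul_mem hw' (W.inv_mem hw)
    rw [hUW, Subgroup.mem_bot] at h1
    have h2 : u'⁻¹ * u = 1 := Subtype.ext h1
    exact (inv_mul_eq_one.mp h2).symm
  let π : V →* V :=
    { toFun := π0
      map_one' := huniq 1 _ _ (hπU 1) U.one_mem (hπW 1) (by simpa using W.one_mem)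
      map_mul' := fun a b => huniq (a * b) _ _ (hπU _) (U.mul_mem (hπU a) (hπU b)) (hπW _) (by
        have : (π0 a * π0 b)⁻¹ * (a * b) = ((π0 a)⁻¹ * a) * ((π0 b)⁻¹ * b) := by
          rw [mul_inv]; exact mul_mul_mul_comm _ _ _ _
        rw [this]; exact W.mul_mem (hπW a) (hπW b)) }
  have hπid : ∀ u : V, (u : G) ∈ U → π u = u := fun u hu => huniq u _ _ (hπU u) hu (hπW u) (by simpa using W.one_mem)
  let θ : V →* V := ∏ a : A, ((φ a).toMonoidHom.comp (π.comp (φ a⁻¹).toMonoidHom))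
  have hθ : ∀ v : V, θ v = ∏ a : A, φ a (π (φ a⁻¹ v)) := by
    intro v
    rw [MonoidHom.finsetProd_apply]
    rfl
  have hφU : ∀ (a : A) (u : V), (u : G) ∈ U → ((φ a u : V) : G) ∈ U := by
    intro a u hu
    rw [hφ]
    exact (Subgroup.mem_normalizer_iff.mp (hAU a.2) (u : G)).mp hu
  have hφφ : ∀ (a : A) (v : V), φ a (φ a⁻¹ v) = v := by
    intro a v
    rw [← MulAut.mul_apply, ← map_mul, mul_inv_cancel, map_one]; rfl
  have hθU : ∀ v : V, ((θ v : V) : G) ∈ U := by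
    intro v
    rw [hθ]
    have : (∏ a : A, φ a (π (φ a⁻¹ v))) ∈ U.subgroupOf V := Subgroup.prod_mem _ fun a _ => hφU a _ (hπU _)
    exact this
  have hθu : ∀ u : V, (u : G) ∈ U → θ u = u ^ Nat.card A := by
    intro u hu
    rw [hθ]
    have : ∀ a ∈ (Finset.univ : Finset A), φ a (π (φ a⁻¹ u)) = u := by
      intro a _
      rw [hπid _ (hφU a⁻¹ u hu), hφφ]
    rw [Finset.prod_congr rfl this, Finset.prod_const, Finset.card_univ, Nat.card_eq_fintype_card]
  have hθb : ∀ (b : A) (v : V), θ (φ b v) = φ b (θ v) := by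
    intro b v
    rw [hθ, hθ, map_prod]
    apply Fintype.prod_equiv (Equiv.mulLeft b⁻¹)
    intro a
    simp only [Equiv.coe_mulLeft]
    have e1 : φ a⁻¹ (φ b v) = φ (b⁻¹ * a)⁻¹ v := by
      rw [← MulAut.mul_apply, ← map_mul, mul_inv_rev, inv_inv]
    have e2 : ∀ w : V, φ b (φ (b⁻¹ * a) w) = φ a w := by
      intro w
      rw [← MulAut.mul_apply, ← map_mul, mul_inv_cancel_left]
    rw [e1, e2]
  refine ⟨θ.ker.map V.subtype, Subgroup.map_subtype_le _, ?_, ?_, ?_⟩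
  · intro b hb
    apply Cfsg.Agent.H1.mem_normalizer_of_conj_mem
    rintro _ ⟨v, hv, rfl⟩
    refine ⟨φ ⟨b, hb⟩ v, ?_, rfl⟩
    change θ (φ ⟨b, hb⟩ v) = 1
    rw [hθb, MonoidHom.mem_ker.mp hv, map_one]
  · rw [eq_bot_iff]
    rintro _ ⟨hu, v, hv, rfl⟩
    have h1 := hθu v hu
    rw [MonoidHom.mem_ker.mp hv] at h1
    have h2 : orderOf v ∣ Nat.card A := orderOf_dvd_of_pow_eq_one h1.symm
    have h3 : orderOf v ∣ Nat.card V := orderOf_dvd_natCard v
    have h4 := Nat.eq_one_of_dvd_coprimes hcop h2 h3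
    rw [orderOf_eq_one_iff] at h4
    rw [h4]; simp
  · apply le_antisymm (sup_le hUV (Subgroup.map_subtype_le _))
    intro v hv
    -- choose m with m * |A| ≡ 1 mod |V|
    obtain ⟨m, hm⟩ : ∃ m : ℕ, Nat.card A * m ≡ 1 [MOD Nat.card V] := by
      refine ⟨(Nat.card A) ^ (Nat.totient (Nat.card V) - 1), ?_⟩
      have h10 := Nat.ModEq.pow_totient hcop
      have h11 : 0 < Nat.totient (Nat.card V) := Nat.totient_pos.mpr Nat.card_pos
      have h12 : Nat.card A * (Nat.card A) ^ (Nat.totient (Nat.card V) - 1) = (Nat.card A) ^ (Nat.totient (Nat.card V)) := by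
        rw [← pow_succ']; congr 1; omega
      rw [h12]; exact h10
    set v' : V := ⟨v, hv⟩ with hv'
    have h5 : ∀ w : V, w ^ (Nat.card A * m) = w := by
      intro w
      have h6 : Nat.card A * m ≡ 1 [MOD orderOf w] := hm.of_dvd (orderOf_dvd_natCard w)
      rw [pow_eq_pow_iff_modEq.mpr h6, pow_one]
    have h6 : (((θ v') ^ m : V) : G) ∈ U := by
      rw [Subgroup.coe_pow]; exact U.pow_mem (hθU v') m
    have h7 : θ ((θ v') ^ m) = θ v' := by
      rw [hθu _ h6, ← pow_mul, mul_comm m, h5]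
    have h8 : ((θ v') ^ m)⁻¹ * v' ∈ θ.ker := by
      rw [MonoidHom.mem_ker, map_mul, map_inv, h7, inv_mul_cancel]
    have h9 : v = (((θ v') ^ m : V) : G) * ((((θ v') ^ m)⁻¹ * v' : V) : G) := by
      rw [← Subgroup.coe_mul, mul_inv_cancel_left]
    rw [h9]
    exact Subgroup.mul_mem _ ((le_sup_left : U ≤ _) h6) ((le_sup_right : θ.ker.map V.subtype ≤ _) ⟨_, h8, rfl⟩)

/-- Under a coprime action on an abelian group, an invariant subgroup that is complemented admits an invariant complement. -/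
theorem result {G : Type*} [Group G] [Finite G] (V A U : Subgroup G) (hVab : IsMulCommutative V) (hAV : A ≤ Subgroup.normalizer (V : Set G)) (hcop : (Nat.card A).Coprime (Nat.card V)) (hUV : U ≤ V) (hAU : A ≤ Subgroup.normalizer (U : Set G)) (W : Subgroup G) (hWV : W ≤ V) (hUW : U ⊓ W = ⊥) (hUWV : U ⊔ W = V) : ∃ W' : Subgroup G, W' ≤ V ∧ A ≤ Subgroup.normalizer (W' : Set G) ∧ U ⊓ W' = ⊥ ∧ U ⊔ W' = V := by
  exact maschke V A U hAV hcop hUV hAU W hWV hUW hUWV

end Cfsg.Agent.S0660
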