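import Cfsg.Statements.S0667
import Cfsg.Agent.H2.PStab
import Mathlib

set_option autoImplicit false
open Cfsg

namespace Cfsg.Agent.S0667

open Cfsg.Agent.H2

/-- Glauberman's Theorem in the p-constrained, p-stable vocabulary: for odd p such a group is the product of its largest normal subgroup of order prime to p with the normalizer of Z(J(P)), and Z(J(P)) is normal when that p'-subgroup is trivial. -/
theorem result {G : Type*} [Group G] [Finite G] {p : ℕ} [Fact p.Prime] (hp : p ≠ 2) (hc : Cfsg.IsPConstrained p G) (hs : Cfsg.IsPStable p G) (P : Sylow p G) : Cfsg.pPrimeCore p G ⊔ Subgroup.normalizer (Cfsg.centerThompsonAOf ((P : Subgroup G)) : Set G) = ⊤ ∧ (Cfsg.pPrimeCore p G = ⊥ → (Cfsg.centerThompsonAOf ((P : Subgroup G))).Normal) := by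
  rw [centerThompsonAOf_eq]
  rw [isPStable_iff] at hs
  obtain ⟨-, hO, hips⟩ := hs
  have hips' := ips_quotient hips
  set N := pPrimeCore p G with hN
  have hNp := L0.pPrimeCore_coprime p G
  set f := QuotientGroup.mk' N with hf
  have hfs : Function.Surjective f := QuotientGroup.mk'_surjective N
  rw [H1.pConstrained_iff] at hc
  have h1 : (zz 0 ((P : Subgroup G).map f)).Normal := by
    have := zz_normal hp (m := 0) (Or.inl rfl) (P.mapSurjective hfs) (stronglyClosed_self _)
      (fun B _ hB g hq => good_of_ips hips' (L0.pPrimeCore_quotient_pPrimeCore p G) hB hq) hc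
    rwa [Sylow.coe_mapSurjective] at this
  have hPN : (P : Subgroup G) ⊓ N = ⊥ := H6.inf_eq_bot_of_coprime P.2 hNp
  rw [← zz_map_of_inf_eq_bot hPN le_rfl] at h1
  have h2 : N ⊔ Subgroup.normalizer ((zz 0 (P : Subgroup G) : Subgroup G) : Set G) = ⊤ := by
    rw [eq_top_iff]
    intro x _
    obtain ⟨y, hy, hyx⟩ := H6.exists_norm_lift (N := N) hNp (P.2.to_le zz_le : IsPGroup p (zz 0 (P : Subgroup G))) (f x)
      (H6.norm_of_normal ⊤ (Subgroup.mem_top _))
    have h3 : x * y⁻¹ ∈ N := by
      have : f (x * y⁻¹) = 1 := by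
        rw [map_mul, map_inv]
        have : f y = f x := hyx
        rw [this]; group
      exact (QuotientGroup.eq_one_iff _).1 this
    have h4 : x = (x * y⁻¹) * y := by group
    rw [h4]
    exact Subgroup.mul_mem _ (Subgroup.mem_sup_left h3) (Subgroup.mem_sup_right hy)
  refine ⟨h2, fun h3 => ?_⟩
  rw [h3, bot_sup_eq] at h2
  exact Subgroup.normalizer_eq_top_iff.1 h2

end Cfsg.Agent.S0667
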