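import Cfsg.Statements.S0668
import Mathlib.LinearAlgebra.Matrix.ToLin
import Mathlib.LinearAlgebra.Dimension.Constructions
import Mathlib.LinearAlgebra.Dimension.Finite
import Mathlib.LinearAlgebra.FreeModule.Finite.Matrix
import Mathlib.RepresentationTheory.Invariants

set_option autoImplicit false
open Cfsg

namespace Cfsg.Agent.S0668

section
variable {G : Type*} [Group G] {K : Type*} [Field K] {Ω₁ Ω₂ : Type*} [Fintype Ω₁] [Fintype Ω₂]
  [DecidableEq Ω₁] [MulAction G Ω₁] [MulAction G Ω₂]

/-- functions on orbits to intertwiners -/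
noncomputable def Phi : (MulAction.orbitRel.Quotient G (Ω₁ × Ω₂) → K) →ₗ[K] ((Ω₁ → K) →ₗ[K] (Ω₂ → K)) where
  toFun φ := Matrix.toLin' (Matrix.of fun y x => φ (Quotient.mk _ (x, y)))
  map_add' a b := by
    rw [← map_add]; rfl
  map_smul' c a := by
    rw [RingHom.id_apply, ← map_smul]; rfl

theorem Phi_single (φ : MulAction.orbitRel.Quotient G (Ω₁ × Ω₂) → K) (x : Ω₁) (y : Ω₂) :
    Phi (G := G) φ (Pi.single x 1) y = φ (Quotient.mk _ (x, y)) := by
  change Matrix.toLin' (Matrix.of fun y x => φ (Quotient.mk _ (x, y))) (Pi.single x 1) y = _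
  rw [Matrix.toLin'_apply, Matrix.mulVec_single_one]
  rfl

theorem perm_single (g : G) (x : Ω₁) :
    permRep K G Ω₁ g (Pi.single x 1) = Pi.single (g • x) 1 := by
  funext z
  change (Pi.single x 1 : Ω₁ → K) (g⁻¹ • z) = _
  by_cases h : z = g • x
  · subst h; simp
  · rw [Pi.single_eq_of_ne h, Pi.single_eq_of_ne]
    intro h'; exact h (by rw [← h', smul_inv_smul])

theorem range_Phi : LinearMap.range (Phi (G := G) (K := K) (Ω₁ := Ω₁) (Ω₂ := Ω₂)) =
    ((Cfsg.permRep K G Ω₁).linHom (Cfsg.permRep K G Ω₂)).invariants := by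
  ext T
  rw [LinearMap.mem_range, Representation.mem_invariants]
  constructor
  · rintro ⟨φ, rfl⟩ g
    rw [Representation.linHom_apply]
    apply (Pi.basisFun K Ω₁).ext
    intro x
    funext y
    rw [Pi.basisFun_apply, LinearMap.comp_apply, LinearMap.comp_apply, perm_single]
    change Phi φ (Pi.single (g⁻¹ • x) 1) (g⁻¹ • y) = _
    rw [Phi_single, Phi_single]
    congr 1
    apply Quotient.sound
    exact ⟨g⁻¹, rfl⟩
  · intro hT
    have h1 : ∀ (g : G) (x : Ω₁) (y : Ω₂), T (Pi.single (g • x) 1) (g • y) = T (Pi.single x 1) y := by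
      intro g x y
      have h2 := congrFun (congrArg (fun f : (Ω₁ → K) →ₗ[K] (Ω₂ → K) => f (Pi.single x 1)) (hT g⁻¹)) y
      simp only [Representation.linHom_apply, LinearMap.comp_apply, perm_single, inv_inv] at h2
      rw [← h2]
      change _ = T (Pi.single (g • x) 1) (g⁻¹⁻¹ • y)
      rw [inv_inv]
    refine ⟨Quotient.lift (fun z : Ω₁ × Ω₂ => T (Pi.single z.1 1) z.2) ?_, ?_⟩
    · rintro ⟨x, y⟩ ⟨x', y'⟩ ⟨g, hg⟩
      have hx : g • x' = x := congrArg Prod.fst hg
      have hy : g • y' = y := congrArg Prod.snd hg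
      change T (Pi.single x 1) y = T (Pi.single x' 1) y'
      rw [← hx, ← hy]; exact h1 g x' y'
    · apply (Pi.basisFun K Ω₁).ext
      intro x
      funext y
      rw [Pi.basisFun_apply, Phi_single]
      rfl

theorem Phi_inj : Function.Injective (Phi (G := G) (K := K) (Ω₁ := Ω₁) (Ω₂ := Ω₂)) := by
  intro a b h
  funext q
  induction q using Quotient.inductionOn with
  | h z =>
    obtain ⟨x, y⟩ := z
    have h1 := Phi_single (G := G) a x y
    have h2 := Phi_single (G := G) b x y
    rw [h] at h1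
    exact h1.symm.trans h2

end

/-- The equivariant linear maps between the permutation modules of two finite `G`-sets form a space whose dimension is the number of `G`-orbits on the product of the two sets. -/
theorem result {G : Type*} [Group G] {K : Type*} [Field K] {Ω₁ Ω₂ : Type*} [Fintype Ω₁] [Fintype Ω₂] [MulAction G Ω₁] [MulAction G Ω₂] : Module.finrank K ((Cfsg.permRep K G Ω₁).linHom (Cfsg.permRep K G Ω₂)).invariants = Nat.card (MulAction.orbitRel.Quotient G (Ω₁ × Ω₂)) := by
  classical
  haveI : Finite (MulAction.orbitRel.Quotient G (Ω₁ × Ω₂)) := Quotient.finite _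
  letI := Fintype.ofFinite (MulAction.orbitRel.Quotient G (Ω₁ × Ω₂))
  rw [← range_Phi, LinearMap.finrank_range_of_inj Phi_inj, Module.finrank_pi, Nat.card_eq_fintype_card]

end Cfsg.Agent.S0668
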