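import Cfsg.Statements.S0669

set_option autoImplicit false
open Cfsg

namespace Cfsg.Agent.S0669

/-- The rank of a transitive action: orbits on ordered pairs correspond to orbits of a point stabiliser. -/
theorem result {G : Type*} [Group G] {Ω : Type*} [Finite Ω] [MulAction G Ω] [MulAction.IsPretransitive G Ω] (a : Ω) : Nat.card (MulAction.orbitRel.Quotient G (Ω × Ω)) = Nat.card (MulAction.orbitRel.Quotient (MulAction.stabilizer G a) Ω) := by
  classical
  have key : ∀ x y : Ω, (∃ h : MulAction.stabilizer G a, h • x = y) ↔ ∃ g : G, g • (a, x) = (a, y) := by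
    intro x y
    constructor
    · rintro ⟨h, hh⟩
      exact ⟨h.1, Prod.ext h.2 hh⟩
    · rintro ⟨g, hg⟩
      exact ⟨⟨g, congrArg Prod.fst hg⟩, congrArg Prod.snd hg⟩
  let f : MulAction.orbitRel.Quotient (MulAction.stabilizer G a) Ω → MulAction.orbitRel.Quotient G (Ω × Ω) :=
    Quotient.map' (fun x => (a, x)) (by
      intro x y hxy
      obtain ⟨h, hh⟩ := (MulAction.orbitRel_apply.1 hxy : x ∈ MulAction.orbit _ y)
      obtain ⟨g, hg⟩ := (key y x).1 ⟨h, hh⟩
      exact MulAction.orbitRel_apply.2 ⟨g, hg⟩)
  have hf : Function.Bijective f := by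
    constructor
    · intro x y
      induction x using Quotient.inductionOn'
      rename_i x
      induction y using Quotient.inductionOn'
      rename_i y
      intro e
      have e1 := Quotient.eq''.1 e
      obtain ⟨g, hg⟩ := (MulAction.orbitRel_apply.1 e1 : (a, x) ∈ MulAction.orbit G (a, y))
      obtain ⟨h, hh⟩ := (key y x).2 ⟨g, hg⟩
      exact Quotient.eq''.2 (MulAction.orbitRel_apply.2 ⟨h, hh⟩)
    · intro z
      induction z using Quotient.inductionOn'
      rename_i z
      obtain ⟨g, hg⟩ := MulAction.exists_smul_eq G z.1 a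
      refine ⟨Quotient.mk'' (g • z.2), ?_⟩
      apply Quotient.eq''.2
      exact MulAction.orbitRel_apply.2 ⟨g, Prod.ext hg rfl⟩
  exact (Nat.card_congr (Equiv.ofBijective f hf)).symm

end Cfsg.Agent.S0669
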