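import Cfsg.Statements.S0670
import Mathlib.GroupTheory.Sylow
import Mathlib.GroupTheory.PGroup
import Mathlib.GroupTheory.Index
import Mathlib.Algebra.Algebra.ZMod
import Mathlib.LinearAlgebra.Dimension.Finite
import Mathlib.FieldTheory.Finiteness
import Mathlib.LinearAlgebra.FreeModule.Finite.Matrix
import Mathlib.Algebra.Module.ZMod
import Mathlib.Algebra.Field.ZMod

set_option autoImplicit false
open Cfsg

namespace Cfsg.Agent.S0670

theorem sylow_trans {G : Type*} [Group G] [Finite G] {p f : ℕ} [Fact p.Prime]
    {Ω : Type*} [Fintype Ω] [MulAction G Ω] [MulAction.IsPretransitive G Ω]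
    (hcard : Fintype.card Ω = p ^ f) (P : Sylow p G) (x y : Ω) :
    ∃ g : G, g ∈ (P : Subgroup G) ∧ g • x = y := by
  classical
  set H := MulAction.stabilizer G x with hH
  have hHi : H.index = p ^ f := by
    rw [hH, MulAction.index_stabilizer, MulAction.orbit_eq_univ, Set.ncard_univ, Nat.card_eq_fintype_card, hcard]
  have hcop : Nat.Coprime H.index (P : Subgroup G).index := by
    rw [hHi]
    apply Nat.Coprime.pow_left
    exact (Nat.Prime.coprime_iff_not_dvd Fact.out).2 P.not_dvd_index
  have h1 : H.index ∣ (H ⊓ (P : Subgroup G)).index := Subgroup.index_dvd_of_le inf_le_left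
  have h2 : H.relIndex (P : Subgroup G) * (P : Subgroup G).index = (H ⊓ (P : Subgroup G)).index := by
    rw [← Subgroup.inf_relIndex_right]
    exact Subgroup.relIndex_mul_index inf_le_right
  rw [← h2] at h1
  have h3 : H.index ∣ H.relIndex (P : Subgroup G) := hcop.dvd_of_dvd_mul_right h1
  have h4 : (MulAction.stabilizer (P : Subgroup G) x).index = H.relIndex (P : Subgroup G) := by
    rfl
  rw [MulAction.index_stabilizer] at h4
  have h5 : 0 < (MulAction.orbit (P : Subgroup G) x).ncard := by
    rw [Set.ncard_pos (Set.toFinite _)]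
    exact MulAction.nonempty_orbit x
  have h6 : Fintype.card Ω ≤ (MulAction.orbit (P : Subgroup G) x).ncard := by
    rw [hcard, ← hHi, h4]
    exact Nat.le_of_dvd (h4 ▸ h5) h3
  have h7 : MulAction.orbit (P : Subgroup G) x = Set.univ := by
    apply Set.eq_of_subset_of_ncard_le (Set.subset_univ _) _ (Set.toFinite _)
    rw [Set.ncard_univ, Nat.card_eq_fintype_card]
    exact h6
  have h8 : y ∈ MulAction.orbit (P : Subgroup G) x := by rw [h7]; trivial
  obtain ⟨g, hg⟩ := h8
  exact ⟨g, g.2, hg⟩

/-- In characteristic `p`, the permutation module of a transitive action of degree `p ^ f` has the line of constant functions as its only irreducible submodule: every non-zero subrepresentation contains it. -/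
theorem result {G : Type*} [Group G] [Finite G] {K : Type*} [Field K] {p f : ℕ} [Fact p.Prime] [CharP K p] {Ω : Type*} [Fintype Ω] [MulAction G Ω] [MulAction.IsPretransitive G Ω] (hf : 1 ≤ f) (hcard : Fintype.card Ω = p ^ f) (W : Subrepresentation (Cfsg.permRep K G Ω)) (hW : W.toSubmodule ≠ ⊥) : (Cfsg.permConstants K G Ω).toSubmodule ≤ W.toSubmodule := by
  classical
  obtain ⟨P⟩ : Nonempty (Sylow p G) := inferInstance
  obtain ⟨w, hwW, hw0⟩ := Submodule.exists_mem_ne_zero_of_ne_bot hW
  letI : Algebra (ZMod p) K := ZMod.algebra K p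
  set T : Set (Ω → K) := Set.range (fun g : (P : Subgroup G) => permRep K G Ω (g : G) w) with hT
  set A : Submodule (ZMod p) (Ω → K) := Submodule.span (ZMod p) T with hA
  have hTfin : T.Finite := Set.finite_range _
  haveI : Module.Finite (ZMod p) A := Module.Finite.iff_fg.2 (Submodule.fg_span hTfin)
  haveI : Finite A := Module.finite_of_finite (ZMod p)
  have hstab : ∀ g : (P : Subgroup G), ∀ a ∈ A, permRep K G Ω (g : G) a ∈ A := by
    intro g a ha
    induction ha using Submodule.span_induction with
    | mem x hx =>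
      obtain ⟨h, rfl⟩ := hx
      apply Submodule.subset_span
      refine ⟨g * h, ?_⟩
      simp only [Subgroup.coe_mul, map_mul, Module.End.mul_apply]
    | zero => rw [map_zero]; exact Submodule.zero_mem _
    | add x y _ _ hx hy => rw [map_add]; exact Submodule.add_mem _ hx hy
    | smul c x _ hx =>
      have : permRep K G Ω (g : G) (c • x) = c • permRep K G Ω (g : G) x := rfl
      rw [this]; exact Submodule.smul_mem _ _ hx
  have hAW : ∀ a ∈ A, a ∈ W.toSubmodule := by
    intro a ha
    induction ha using Submodule.span_induction with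
    | mem x hx =>
      obtain ⟨h, rfl⟩ := hx
      exact W.apply_mem_toSubmodule _ hwW
    | zero => exact Submodule.zero_mem _
    | add x y _ _ hx hy => exact Submodule.add_mem _ hx hy
    | smul c x _ hx =>
      have : c • x = (algebraMap (ZMod p) K c) • x := by
        funext i; simp [Algebra.smul_def]
      rw [this]; exact Submodule.smul_mem _ _ hx
  letI : MulAction (P : Subgroup G) A :=
    { smul := fun g a => ⟨permRep K G Ω (g : G) a, hstab g a a.2⟩
      one_smul := by
        intro a
        apply Subtype.ext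
        change permRep K G Ω ((1 : (P : Subgroup G)) : G) (a : Ω → K) = a
        simp
      mul_smul := by
        intro g h a
        apply Subtype.ext
        change permRep K G Ω ((g * h : (P : Subgroup G)) : G) (a : Ω → K) = permRep K G Ω (g : G) (permRep K G Ω (h : G) (a : Ω → K))
        simp only [Subgroup.coe_mul, map_mul, Module.End.mul_apply] }
  have hwA : w ∈ A := by
    apply Submodule.subset_span
    exact ⟨1, by simp⟩
  haveI : Nontrivial A := ⟨⟨⟨w, hwA⟩, 0, fun h => hw0 (congrArg Subtype.val h)⟩⟩
  have hdvd : p ∣ Nat.card A := by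
    rw [Module.natCard_eq_pow_finrank (K := ZMod p) (V := A), Nat.card_zmod]
    exact dvd_pow_self p (Module.finrank_pos).ne'
  have h0 : (0 : A) ∈ MulAction.fixedPoints (P : Subgroup G) A := by
    intro g
    apply Subtype.ext
    change permRep K G Ω (g : G) (0 : Ω → K) = 0
    exact map_zero _
  obtain ⟨b, hb, hb0⟩ := P.isPGroup'.exists_fixed_point_of_prime_dvd_card_of_fixed_point A hdvd h0
  have hbf : ∀ g ∈ (P : Subgroup G), permRep K G Ω g (b : Ω → K) = (b : Ω → K) := by
    intro g hg
    exact congrArg Subtype.val (hb ⟨g, hg⟩)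
  have hbne : (b : Ω → K) ≠ 0 := fun h => hb0 (Subtype.ext h.symm)
  obtain ⟨x, hx⟩ := Function.ne_iff.1 hbne
  have hconst : ∀ y, (b : Ω → K) y = (b : Ω → K) x := by
    intro y
    obtain ⟨g, hg, hgy⟩ := sylow_trans hcard P x y
    have h1 := congrFun (hbf g hg) y
    change (b : Ω → K) (g⁻¹ • y) = (b : Ω → K) y at h1
    rw [← h1, ← hgy, inv_smul_smul]
  change Submodule.span K {fun _ => 1} ≤ W.toSubmodule
  rw [Submodule.span_singleton_le_iff_mem]
  have h1 : (fun _ => 1 : Ω → K) = ((b : Ω → K) x)⁻¹ • (b : Ω → K) := by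
    funext y
    simp only [Pi.smul_apply, smul_eq_mul, hconst y]
    exact (inv_mul_cancel₀ hx).symm
  rw [h1]
  exact Submodule.smul_mem _ _ (hAW _ b.2)

end Cfsg.Agent.S0670
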