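import Cfsg.Statements.S0681
import Cfsg.Agent.H7.NF

set_option autoImplicit false
open Cfsg

namespace Cfsg.Agent.S0681

/-- The affine maps `x ↦ x * a + b`, `a ≠ 0`, of a near-field form a sharply doubly transitive permutation group. -/
theorem result {F : Type*} [Cfsg.NearField F] : ∃ H : Subgroup (Equiv.Perm F), (∀ σ : Equiv.Perm F, σ ∈ H ↔ ∃ a b : F, a ≠ 0 ∧ ∀ x : F, σ x = x * a + b) ∧ MulAction.IsMultiplyPretransitive H F 2 ∧ ∀ x : Fin 2 ↪ F, MulAction.stabilizer H x = ⊥ := by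
  classical
  have rd : ∀ a b c : F, (a + b) * c = a * c + b * c := Cfsg.NearField.right_distrib
  have mz : ∀ a : F, a * 0 = 0 := Cfsg.NearField.mul_zero
  have zm : ∀ c : F, (0 : F) * c = 0 := by
    intro c
    have h := rd 0 0 c
    rw [add_zero] at h
    have h2 : (0 : F) * c + 0 = 0 * c + 0 * c := by rw [add_zero]; exact h
    exact (add_left_cancel h2).symm
  have nm : ∀ a c : F, (-a) * c = -(a * c) := by
    intro a c
    apply eq_neg_of_add_eq_zero_left
    rw [← rd, neg_add_cancel, zm]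
  have hinv : ∀ a : F, a ≠ 0 → ∃ b : F, a * b = 1 ∧ b * a = 1 := Cfsg.NearField.exists_inv
  have h01 : (0 : F) ≠ 1 := Cfsg.NearField.zero_ne_one
  have hne : ∀ a b : F, a ≠ 0 → b ≠ 0 → a * b ≠ 0 := by
    intro a b ha hb h
    obtain ⟨c, hc, _⟩ := hinv b hb
    have : a * b * c = 0 := by rw [h, zm]
    rw [mul_assoc, hc, mul_one] at this
    exact ha this
  have mem_inv : ∀ (σ : Equiv.Perm F) (a b : F), a ≠ 0 → (∀ x, σ x = x * a + b) → ∃ a' b' : F, a' ≠ 0 ∧ ∀ x, σ⁻¹ x = x * a' + b' := by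
    intro σ a b ha h
    obtain ⟨c, hc1, hc2⟩ := hinv a ha
    have hc0 : c ≠ 0 := by
      rintro rfl
      rw [zm] at hc2
      exact h01 hc2
    refine ⟨c, -(b * c), hc0, fun x => ?_⟩
    rw [Equiv.Perm.inv_eq_iff_eq, h, rd, nm, mul_assoc, hc2, mul_one, mul_assoc b, hc2, mul_one, neg_add_cancel_right]
  let H : Subgroup (Equiv.Perm F) :=
    { carrier := {σ | ∃ a b : F, a ≠ 0 ∧ ∀ x : F, σ x = x * a + b}
      one_mem' := ⟨1, 0, Ne.symm h01, fun x => by rw [mul_one, add_zero]; rfl⟩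
      mul_mem' := by
        rintro σ τ ⟨a, b, ha, h⟩ ⟨c, d, hc, h'⟩
        refine ⟨c * a, d * a + b, hne _ _ hc ha, fun x => ?_⟩
        change σ (τ x) = _
        rw [h', h, rd, mul_assoc, add_assoc]
      inv_mem' := by
        rintro σ ⟨a, b, ha, h⟩
        exact mem_inv σ a b ha h }
  have mk : ∀ a b : F, a ≠ 0 → ∃ σ ∈ H, ∀ x, σ x = x * a + b := by
    intro a b ha
    obtain ⟨c, hc1, hc2⟩ := hinv a ha
    let σ : Equiv.Perm F :=
      { toFun := fun x => x * a + b
        invFun := fun x => (x + -b) * c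
        left_inv := fun x => by
          change (x * a + b + -b) * c = x
          rw [add_neg_cancel_right, mul_assoc, hc1, mul_one]
        right_inv := fun x => by
          change (x + -b) * c * a + b = x
          rw [mul_assoc, hc2, mul_one, neg_add_cancel_right] }
    exact ⟨σ, ⟨a, b, ha, fun x => rfl⟩, fun x => rfl⟩
  have key : ∀ x y z w : F, x ≠ y → z ≠ w → ∃ a b : F, a ≠ 0 ∧ x * a + b = z ∧ y * a + b = w := by
    intro x y z w hxy hzw
    have h1 : x - y ≠ 0 := sub_ne_zero.2 hxy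
    have h2 : z - w ≠ 0 := sub_ne_zero.2 hzw
    obtain ⟨u, hu1, hu2⟩ := hinv (x - y) h1
    have hu0 : u ≠ 0 := by
      rintro rfl
      rw [zm] at hu2
      exact h01 hu2
    have ha := hne u (z - w) hu0 h2
    have h3 : (x - y) * (u * (z - w)) = z - w := by rw [← mul_assoc, hu1, one_mul]
    have h4 : (y - x) * (u * (z - w)) = -(z - w) := by
      have : y - x = -(x - y) := by rw [neg_sub]
      rw [this, nm, h3]
    refine ⟨u * (z - w), -(x * (u * (z - w))) + z, ha, ?_, ?_⟩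
    · rw [← add_assoc, add_neg_cancel, zero_add]
    · rw [← add_assoc, ← nm, ← rd, ← sub_eq_add_neg, h4, neg_sub, sub_add_cancel]
  refine ⟨H, fun σ => Iff.rfl, ?_, ?_⟩
  · rw [MulAction.is_two_pretransitive_iff]
    intro x y z w hxy hzw
    obtain ⟨a, b, ha, h1, h2⟩ := key x y z w hxy hzw
    obtain ⟨σ, hσ, h⟩ := mk a b ha
    exact ⟨⟨σ, hσ⟩, by change σ x = z; rw [h, h1], by change σ y = w; rw [h, h2]⟩
  · intro x
    rw [eq_bot_iff]
    rintro ⟨σ, a, b, ha, h⟩ hσ
    rw [MulAction.mem_stabilizer_iff] at hσ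
    have h0 : σ (x 0) = x 0 := congrArg (fun e : Fin 2 ↪ F => e 0) hσ
    have h1 : σ (x 1) = x 1 := congrArg (fun e : Fin 2 ↪ F => e 1) hσ
    have hx : x 0 - x 1 ≠ 0 := sub_ne_zero.2 (fun e => by
      have := x.injective e
      exact absurd this (by decide))
    rw [h] at h0 h1
    have h2 : (x 0 - x 1) * a = x 0 - x 1 := by
      have h3 : (x 0 * a + b) - (x 1 * a + b) = x 0 - x 1 := by rw [h0, h1]
      rw [add_sub_add_right_eq_sub, sub_eq_add_neg, ← nm, ← rd, ← sub_eq_add_neg] at h3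
      exact h3
    obtain ⟨u, hu1, hu2⟩ := hinv _ hx
    have h4 : a = 1 := by
      have h5 : u * ((x 0 - x 1) * a) = u * (x 0 - x 1) := by rw [h2]
      rwa [← mul_assoc, hu2, one_mul] at h5
    have h5 : b = 0 := by
      rw [h4, mul_one] at h0
      exact add_eq_left.1 h0
    rw [Subgroup.mem_bot]
    apply Subtype.ext
    apply Equiv.ext
    intro y
    change σ y = y
    rw [h, h4, h5, mul_one, add_zero]

end Cfsg.Agent.S0681
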