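import Cfsg.Statements.S0682
import Mathlib

set_option autoImplicit false
open Cfsg

namespace Cfsg.Agent.S0682

/-- A finite near-field has prime-power order; its additive group is commutative of prime exponent. -/
theorem result {F : Type*} [Cfsg.NearField F] [Finite F] : ∃ p j : ℕ, p.Prime ∧ 1 ≤ j ∧ Nat.card F = p ^ j ∧ (∀ x y : F, x + y = y + x) ∧ ∀ x : F, p • x = 0 := by
  classical
  have rd : ∀ a b c : F, (a + b) * c = a * c + b * c := Cfsg.NearField.right_distrib
  have zm : ∀ c : F, (0 : F) * c = 0 := by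
    intro c
    have h := rd 0 0 c
    rw [add_zero] at h
    have h2 : (0 : F) * c + 0 = 0 * c + 0 * c := by rw [add_zero]; exact h
    exact (add_left_cancel h2).symm
  have hinv : ∀ a : F, a ≠ 0 → ∃ b : F, a * b = 1 ∧ b * a = 1 := Cfsg.NearField.exists_inv
  have h01 : (0 : F) ≠ 1 := Cfsg.NearField.zero_ne_one
  haveI : Nontrivial F := ⟨0, 1, h01⟩
  let R : F → F →+ F := fun c => { toFun := fun x => x * c, map_zero' := zm c, map_add' := fun a b => rd a b c }
  have hcard : Nat.card F ≠ 1 := (Finite.one_lt_card_iff_nontrivial.2 inferInstance).ne'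
  obtain ⟨p, hp, hpd⟩ := Nat.exists_prime_and_dvd hcard
  haveI : Fact p.Prime := ⟨hp⟩
  obtain ⟨x₀, hx₀⟩ := exists_prime_addOrderOf_dvd_card' (G := F) p hpd
  have hx0 : x₀ ≠ 0 := by
    rintro rfl
    rw [addOrderOf_zero] at hx₀
    exact hp.one_lt.ne hx₀
  have hpx : p • x₀ = 0 := by rw [← hx₀]; exact addOrderOf_nsmul_eq_zero x₀
  have hmul : ∀ x y : F, x ≠ 0 → ∃ c : F, y = x * c := by
    intro x y hx
    obtain ⟨u, hu, _⟩ := hinv x hx
    exact ⟨u * y, by rw [← mul_assoc, hu, one_mul]⟩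
  have hp0 : ∀ y : F, p • y = 0 := by
    intro y
    obtain ⟨c, rfl⟩ := hmul x₀ y hx0
    have h1 : R c (p • x₀) = p • R c x₀ := map_nsmul (R c) p x₀
    rw [hpx, map_zero] at h1
    exact h1.symm
  have hpg : IsPGroup p (Multiplicative F) := by
    intro y
    refine ⟨1, ?_⟩
    rw [pow_one]
    exact hp0 y.toAdd
  obtain ⟨j, hj⟩ := IsPGroup.iff_card.1 hpg
  have hj' : Nat.card F = p ^ j := hj
  have hcen := hpg.center_nontrivial
  obtain ⟨⟨z, hz⟩, hz1⟩ := exists_ne (1 : Subgroup.center (Multiplicative F))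
  have hz0 : (z.toAdd : F) ≠ 0 := by
    intro h
    apply hz1
    apply Subtype.ext
    exact h
  have hzc : ∀ y : F, y + z.toAdd = z.toAdd + y := by
    intro y
    exact Subgroup.mem_center_iff.1 hz (Multiplicative.ofAdd y)
  refine ⟨p, j, hp, ?_, hj', ?_, hp0⟩
  · rcases Nat.eq_zero_or_pos j with h | h
    · rw [h, pow_zero] at hj'
      exact absurd hj' hcard
    · exact h
  · intro x y
    by_cases hx : x = 0
    · rw [hx, zero_add, add_zero]
    · obtain ⟨c, hc⟩ := hmul z.toAdd x hz0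
      have hc0 : c ≠ 0 := by
        rintro rfl
        apply hx
        rw [hc]
        exact Cfsg.NearField.mul_zero _
      obtain ⟨c', h1, h2⟩ := hinv c hc0
      have hy : y = (y * c') * c := by rw [mul_assoc, h2, mul_one]
      rw [hc, hy, ← rd, ← rd, hzc]

end Cfsg.Agent.S0682
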