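import Cfsg.Statements.S0683
import Cfsg.Agent.H7.NF

set_option autoImplicit false
open Cfsg
open Cfsg.Agent.H7.NF MulAction

namespace Cfsg.Agent.S0683

/-- A finite sharply doubly transitive permutation group is the affine group of a near-field: the permuted set carries a near-field structure for which the group consists exactly of the maps `x ↦ x * a + b` with `a ≠ 0`. -/
theorem result {α : Type*} [Fintype α] [DecidableEq α] (H : Subgroup (Equiv.Perm α)) [MulAction.IsMultiplyPretransitive H α 2] (hsharp : ∀ x : Fin 2 ↪ α, MulAction.stabilizer H x = ⊥) (h2 : 2 ≤ Fintype.card α) : ∃ _ : Cfsg.NearField α, ∀ σ : Equiv.Perm α, σ ∈ H ↔ ∃ a b : α, a ≠ 0 ∧ ∀ x : α, σ x = x * a + b := by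
  classical
  obtain ⟨z, o, hzo⟩ : ∃ z o : α, z ≠ o := Fintype.one_lt_card_iff.1 (by omega)
  let S : Sh H α :=
    { z := z
      o := o
      hzo := hzo
      tr := fun a b c d hab hcd => (is_two_pretransitive_iff.1 (inferInstance : MulAction.IsMultiplyPretransitive H α 2)) hab hcd
      sharp := fun g a b hab h1 h2 => by
        let x : Fin 2 ↪ α := ⟨![a, b], by
          intro i j h
          fin_cases i <;> fin_cases j
          · rfl
          · exact absurd h hab
          · exact absurd h (Ne.symm hab)
          · rfl⟩
        have hx : g ∈ stabilizer H x := by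
          rw [mem_stabilizer_iff]
          ext i
          fin_cases i
          · exact h1
          · exact h2
        rw [hsharp x, Subgroup.mem_bot] at hx
        exact hx }
  refine ⟨S.nf, ?_⟩
  intro σ
  constructor
  · intro hσ
    let g : H := ⟨σ, hσ⟩
    let b : α := g • S.z
    let k : H := (S.tau b)⁻¹ * g
    have hkz : k • S.z = S.z := by
      change ((S.tau b)⁻¹ * g) • S.z = S.z
      rw [mul_smul, inv_smul_eq_iff, S.tau_z]
    have ha : k • S.o ≠ S.z := by
      intro h
      exact S.hzo (smul_left_cancel k (hkz.trans h.symm))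
    refine ⟨k • S.o, b, ha, ?_⟩
    intro x
    change σ x = S.tau b • S.mu x (k • S.o)
    rw [S.mu_of ha, S.sig_eq ha hkz rfl, ← mul_smul, mul_inv_cancel_left]
    rfl
  · rintro ⟨a, b, ha, h⟩
    have ha' : a ≠ S.z := ha
    have h1 : σ = (S.tau b * S.sig a : H).1 := by
      apply Equiv.ext
      intro x
      rw [h x]
      change S.tau b • S.mu x a = (S.tau b * S.sig a) • x
      rw [S.mu_of ha', mul_smul]
    rw [h1]
    exact (S.tau b * S.sig a).2

end Cfsg.Agent.S0683
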