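import Cfsg.Statements.S0695
import Cfsg.Agent.H3.Basic
import Cfsg.Agent.H7.RegN

set_option autoImplicit false
open Cfsg

namespace Cfsg.Agent.S0695

/-- A regular normal subgroup of a doubly primitive group of finite degree at least 2 is an elementary abelian 2-group (and the degree is a power of 2), unless the degree is 3. -/
theorem result {G : Type*} [Group G] {X : Type*} [Fintype X] [MulAction G X] (hX : 2 ≤ Fintype.card X) (h2 : MulAction.IsMultiplyPreprimitive G X 2) (N : Subgroup G) [N.Normal] (htrans : MulAction.IsPretransitive N X) (hreg : ∀ x : X, MulAction.stabilizer N x = ⊥) : Fintype.card X = 3 ∨ (IsMulCommutative N ∧ (∀ n ∈ N, n ^ 2 = 1) ∧ ∃ m : ℕ, Fintype.card X = 2 ^ m) := by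
  classical
  rcases Cfsg.Agent.H7.RegN.main2 hX h2 N htrans hreg with h | h
  · exact Or.inl h
  right
  refine ⟨⟨⟨fun a b => Subtype.ext (Cfsg.Agent.H7.RegN.comm_of_sq h a.1 a.2 b.1 b.2)⟩⟩, h, ?_⟩
  obtain ⟨x0⟩ : Nonempty X := Fintype.card_pos_iff.1 (by omega)
  have hbij : Function.Bijective (fun n : N => n • x0) := by
    constructor
    · intro a b hab
      exact Subtype.ext (Cfsg.Agent.H7.RegN.reg_inj N hreg x0 a.2 b.2 hab)
    · intro y
      exact htrans.exists_smul_eq x0 y
  haveI : Finite N := Finite.of_injective _ hbij.1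
  have hP : IsPGroup 2 N := by
    intro g
    exact ⟨1, Subtype.ext (by rw [pow_one]; exact h g.1 g.2)⟩
  haveI : Fact (Nat.Prime 2) := ⟨Nat.prime_two⟩
  obtain ⟨m, hm⟩ := IsPGroup.iff_card.1 hP
  refine ⟨m, ?_⟩
  rw [← hm, ← Nat.card_eq_fintype_card]
  exact (Nat.card_congr (Equiv.ofBijective _ hbij)).symm

end Cfsg.Agent.S0695
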