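import Cfsg.Statements.S0701

set_option autoImplicit false
open Cfsg

namespace Cfsg.Agent.S0701

/-- The centraliser in the full symmetric group of a transitive permutation group `G` is semiregular, and it is transitive if and only if `G` is regular. -/
theorem result {α : Type*} (G : Subgroup (Equiv.Perm α)) [MulAction.IsPretransitive G α] : (∀ c ∈ Subgroup.centralizer (G : Set (Equiv.Perm α)), ∀ a : α, c a = a → c = 1) ∧ (MulAction.IsPretransitive (Subgroup.centralizer (G : Set (Equiv.Perm α))) α ↔ ∀ a : α, MulAction.stabilizer G a = ⊥) := by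
  have semi : ∀ c ∈ Subgroup.centralizer (G : Set (Equiv.Perm α)), ∀ a : α, c a = a → c = 1 := by
    intro c hc a ha
    apply Equiv.ext
    intro b
    obtain ⟨⟨g, hg⟩, rfl⟩ := MulAction.exists_smul_eq G a b
    have h1 := Subgroup.mem_centralizer_iff.1 hc g hg
    have h2 := congrArg (fun σ : Equiv.Perm α => σ a) h1
    change g (c a) = c (g a) at h2
    rw [ha] at h2
    exact h2.symm
  refine ⟨semi, ?_, ?_⟩
  · intro htr a
    rw [eq_bot_iff]
    rintro ⟨g, hg⟩ hga
    have h0 : g a = a := hga
    rw [Subgroup.mem_bot]
    apply Subtype.ext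
    apply Equiv.ext
    intro b
    obtain ⟨⟨c, hc⟩, rfl⟩ := MulAction.exists_smul_eq (Subgroup.centralizer (G : Set (Equiv.Perm α))) a b
    have h1 := Subgroup.mem_centralizer_iff.1 hc g hg
    have h2 := congrArg (fun σ : Equiv.Perm α => σ a) h1
    change g (c a) = c (g a) at h2
    rw [h0] at h2
    exact h2
  · intro hreg
    constructor
    intro a b
    have hbij : ∀ a : α, Function.Bijective (fun g : G => g.1 a) := by
      intro a
      constructor
      · intro g h e
        have e1 : g.1 a = h.1 a := e
        have h1 : h⁻¹ * g ∈ MulAction.stabilizer G a := by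
          rw [MulAction.mem_stabilizer_iff, mul_smul, inv_smul_eq_iff]
          exact e1
        rw [hreg a, Subgroup.mem_bot] at h1
        exact (inv_mul_eq_one.1 h1).symm
      · intro x
        obtain ⟨g, hg⟩ := MulAction.exists_smul_eq G a x
        exact ⟨g, hg⟩
    let c : Equiv.Perm α := (Equiv.ofBijective _ (hbij a)).symm.trans (Equiv.ofBijective _ (hbij b))
    have hc : ∀ g : G, c (g.1 a) = g.1 b := by
      intro g
      change (Equiv.ofBijective _ (hbij b)) ((Equiv.ofBijective _ (hbij a)).symm (g.1 a)) = _
      have h1 : g.1 a = (Equiv.ofBijective _ (hbij a)) g := rfl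
      rw [h1, Equiv.symm_apply_apply]
      rfl
    refine ⟨⟨c, ?_⟩, ?_⟩
    · rw [Subgroup.mem_centralizer_iff]
      intro h hh
      apply Equiv.ext
      intro x
      obtain ⟨g, rfl⟩ := (hbij a).2 x
      change h (c (g.1 a)) = c (h (g.1 a))
      rw [hc]
      have h2 := hc (⟨h, hh⟩ * g)
      exact h2.symm
    · have h1 := hc 1
      exact h1

end Cfsg.Agent.S0701
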