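import Cfsg.Statements.S0702
import Cfsg.Agent.H3.Basic

set_option autoImplicit false
open Cfsg

namespace Cfsg.Agent.S0702

/-- For a transitive permutation group `G` on a finite set, the centraliser of `G` in the symmetric group is isomorphic to `N_G(G_ω)/G_ω`, and its orbit of `ω` is the set of fixed points of `G_ω`. -/
theorem result {α : Type*} [Finite α] (G : Subgroup (Equiv.Perm α)) [MulAction.IsPretransitive G α] (a : α) : Nonempty (Subgroup.centralizer (G : Set (Equiv.Perm α)) ≃* Subgroup.normalizer ((MulAction.stabilizer G a : Subgroup G) : Set G) ⧸ (MulAction.stabilizer G a).subgroupOf (Subgroup.normalizer ((MulAction.stabilizer G a : Subgroup G) : Set G))) ∧ MulAction.orbit (Subgroup.centralizer (G : Set (Equiv.Perm α))) a = MulAction.fixedPoints (MulAction.stabilizer G a) α := by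
  classical
  set S := MulAction.stabilizer G a with hS
  set N := Subgroup.normalizer ((S : Subgroup G) : Set G) with hN
  set C := Subgroup.centralizer (G : Set (Equiv.Perm α)) with hC
  have hmemS : ∀ g : G, g ∈ S ↔ g • a = a := fun g => MulAction.mem_stabilizer_iff
  have hex : ∀ x : α, ∃ g : G, g • a = x := fun x => MulAction.exists_smul_eq G a x
  choose t ht using hex
  -- the map
  have hwd : ∀ n ∈ N, ∀ g h : G, g • a = h • a → g • n⁻¹ • a = h • n⁻¹ • a := by
    intro n hn g h e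
    have h1 : h⁻¹ * g ∈ S := by rw [hmemS, mul_smul, e, inv_smul_smul]
    have h2 : n * (h⁻¹ * g) * n⁻¹ ∈ S := (Subgroup.mem_normalizer_iff.1 hn _).1 h1
    rw [hmemS] at h2
    have h3 : n⁻¹ • (n * (h⁻¹ * g) * n⁻¹) • a = n⁻¹ • a := by rw [h2]
    rw [mul_smul, mul_smul, inv_smul_smul, mul_smul, inv_smul_eq_iff] at h3
    exact h3
  let c : N → α → α := fun n x => t x • n.1⁻¹ • a
  have hc : ∀ (n : N) (g : G), c n (g • a) = g • n.1⁻¹ • a := by
    intro n g
    exact hwd n.1 n.2 _ _ (ht (g • a))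
  have hcmul : ∀ (n m : N) (x : α), c (n * m) x = c n (c m x) := by
    intro n m x
    obtain ⟨g, rfl⟩ : ∃ g : G, g • a = x := ⟨t x, ht x⟩
    have h1 : g • m.1⁻¹ • a = (g * m.1⁻¹) • a := (mul_smul _ _ _).symm
    rw [hc, hc, h1, hc, mul_smul]
    change g • (n.1 * m.1)⁻¹ • a = _
    rw [_root_.mul_inv_rev, mul_smul]
  have hcone : ∀ x, c 1 x = x := by
    intro x
    rw [← ht x, hc]
    change t x • (1 : G)⁻¹ • a = _
    rw [inv_one, one_smul]
  let P : N → Equiv.Perm α := fun n =>
    { toFun := c n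
      invFun := c n⁻¹
      left_inv := fun x => by rw [← hcmul, inv_mul_cancel, hcone]
      right_inv := fun x => by rw [← hcmul, mul_inv_cancel, hcone] }
  have hPC : ∀ n, P n ∈ C := by
    intro n
    rw [hC, Subgroup.mem_centralizer_iff]
    intro h hh
    apply Equiv.ext
    intro x
    change h (c n x) = c n (h x)
    rw [← ht x, hc]
    have h1 : h (t x • a) = ((⟨h, hh⟩ : G) * t x) • a := by rw [mul_smul]; rfl
    rw [h1, hc, mul_smul]
    rfl
  let φ : N →* C :=
    { toFun := fun n => ⟨P n, hPC n⟩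
      map_one' := Subtype.ext (Equiv.ext hcone)
      map_mul' := fun n m => Subtype.ext (Equiv.ext (hcmul n m)) }
  have hφ : ∀ n (g : G), (φ n).1 (g • a) = g • n.1⁻¹ • a := hc
  have hker : φ.ker = S.subgroupOf N := by
    ext n
    rw [MonoidHom.mem_ker, Subgroup.mem_subgroupOf, hmemS]
    constructor
    · intro h
      have h1 := hφ n 1
      rw [h, one_smul, one_smul] at h1
      have h2 : a = n.1⁻¹ • a := h1
      rw [eq_comm, inv_smul_eq_iff] at h2
      exact h2.symm
    · intro h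
      apply Subtype.ext
      apply Equiv.ext
      intro x
      rw [← ht x, hφ]
      have h2 : n.1⁻¹ • a = a := by rw [inv_smul_eq_iff, h]
      rw [h2]
      rfl
  have hnorm : ∀ g : G, (∀ h ∈ S, h • g • a = g • a) → g ∈ N := by
    intro g hg
    have h1 : S.map (MulAut.conj g⁻¹).toMonoidHom ≤ S := by
      rintro _ ⟨h, hh, rfl⟩
      change g⁻¹ * h * g⁻¹⁻¹ ∈ S
      rw [inv_inv, hmemS, mul_smul, mul_smul, hg h hh, inv_smul_smul]
    have h2 : S.map (MulAut.conj g⁻¹).toMonoidHom = S := by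
      apply Subgroup.eq_of_le_of_card_ge h1
      rw [Subgroup.card_map_of_injective (MulAut.conj g⁻¹).injective]
    rw [hN, ← inv_mem_iff, Subgroup.mem_normalizer_iff]
    intro h
    constructor
    · intro hh
      exact h1 ⟨h, hh, rfl⟩
    · intro hh
      have hh' : g⁻¹ * h * g⁻¹⁻¹ ∈ S := hh
      rw [← h2] at hh'
      obtain ⟨k, hk, e⟩ := hh'
      have e' : g⁻¹ * k * g⁻¹⁻¹ = g⁻¹ * h * g⁻¹⁻¹ := e
      have e2 : k = h := mul_left_cancel (mul_right_cancel e')
      rw [← e2]; exact hk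
  have hsurj : Function.Surjective φ := by
    rintro ⟨σ, hσ⟩
    have hσ' : ∀ (g : G) (x : α), g • σ x = σ (g • x) := by
      intro g x
      have := congrArg (fun τ : Equiv.Perm α => τ x) (Subgroup.mem_centralizer_iff.1 hσ g.1 g.2)
      exact this
    have h1 : t (σ a) ∈ N := by
      apply hnorm
      intro h hh
      rw [ht, hσ', (hmemS h).1 hh]
    refine ⟨⟨(t (σ a))⁻¹, inv_mem h1⟩, ?_⟩
    apply Subtype.ext
    apply Equiv.ext
    intro x
    rw [← ht x, hφ]
    change t x • (t (σ a))⁻¹⁻¹ • a = σ (t x • a)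
    rw [inv_inv, ht (σ a), hσ']
  refine ⟨⟨((QuotientGroup.quotientMulEquivOfEq hker).symm.trans (QuotientGroup.quotientKerEquivOfSurjective φ hsurj)).symm⟩, ?_⟩
  ext x
  rw [MulAction.mem_fixedPoints]
  constructor
  · rintro ⟨⟨σ, hσ⟩, rfl⟩ ⟨h, hh⟩
    have := congrArg (fun τ : Equiv.Perm α => τ a) (Subgroup.mem_centralizer_iff.1 hσ h.1 h.2)
    change h.1 (σ a) = σ a
    have h2 : h.1 (σ a) = σ (h.1 a) := this
    rw [h2]
    have h3 : h.1 a = a := hh
    rw [h3]
  · intro hx
    have h1 : t x ∈ N := by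
      apply hnorm
      intro h hh
      rw [ht]
      exact hx ⟨h, hh⟩
    refine ⟨φ ⟨(t x)⁻¹, inv_mem h1⟩, ?_⟩
    have h2 := hφ ⟨(t x)⁻¹, inv_mem h1⟩ 1
    rw [one_smul, one_smul] at h2
    change (φ ⟨(t x)⁻¹, inv_mem h1⟩).1 a = x
    rw [h2]
    change (t x)⁻¹⁻¹ • a = x
    rw [inv_inv, ht]

end Cfsg.Agent.S0702
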