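import Cfsg.Statements.S0705
import Cfsg.Agent.H3.Basic

set_option autoImplicit false
open scoped Pointwise
open Cfsg

namespace Cfsg.Agent.S0705

/-- A generously `k`-transitive permutation group (every `(k+1)`-subset has its full symmetric group induced by the setwise stabiliser) of degree greater than `k` is `k`-transitive, and for a `k`-subset the setwise and pointwise stabilisers have the same orbits outside it. -/
theorem result {α : Type*} [Fintype α] [DecidableEq α] (G : Subgroup (Equiv.Perm α)) {k : ℕ} (hk : k < Fintype.card α) (hgen : ∀ s : Finset α, s.card = k + 1 → ∀ σ : Equiv.Perm ↥s, ∃ g ∈ G, ∀ x : ↥s, g (x : α) = σ x) : MulAction.IsMultiplyPretransitive G α k ∧ ∀ s : Finset α, s.card = k → ∀ a b : α, a ∉ s → b ∉ s → (∃ g ∈ G, g • s = s ∧ g a = b) → ∃ g ∈ G, (∀ x ∈ s, g x = x) ∧ g a = b := by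
  classical
  have ext : ∀ (s : Finset α), s.card = k + 1 → ∀ (x y : Fin k ↪ α), (∀ i, x i ∈ s) → (∀ i, y i ∈ s) → ∃ g ∈ G, ∀ i, g (x i) = y i := by
    intro s hs x y hx hy
    haveI := Equiv.Perm.isMultiplyPretransitive ↥s k
    let x' : Fin k ↪ ↥s := ⟨fun i => ⟨x i, hx i⟩, fun i j h => x.injective (congrArg Subtype.val h)⟩
    let y' : Fin k ↪ ↥s := ⟨fun i => ⟨y i, hy i⟩, fun i j h => y.injective (congrArg Subtype.val h)⟩
    obtain ⟨σ, hσ⟩ := MulAction.exists_smul_eq (Equiv.Perm ↥s) x' y'
    obtain ⟨g, hg, hgs⟩ := hgen s hs σ
    refine ⟨g, hg, fun i => ?_⟩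
    have h1 := hgs ⟨x i, hx i⟩
    have h2 : (σ • x') i = y' i := by rw [hσ]
    have h3 : (σ (x' i) : α) = y i := congrArg Subtype.val h2
    exact h1.trans h3
  have hsup : ∀ t : Finset α, t.card ≤ k + 1 → ∃ s : Finset α, t ⊆ s ∧ s.card = k + 1 := by
    intro t ht
    obtain ⟨s, h1, _, h3⟩ := Finset.exists_subsuperset_card_eq (s := t) (t := Finset.univ) (n := k + 1) (Finset.subset_univ _) ht
      (by rw [Finset.card_univ]; omega)
    exact ⟨s, h1, h3⟩
  have hrange : ∀ x : Fin k ↪ α, (Finset.univ.image x).card = k := by
    intro x
    rw [Finset.card_image_of_injective _ x.injective, Finset.card_univ, Fintype.card_fin]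
  have main : ∀ (n : ℕ) (x y : Fin k ↪ α), (Finset.univ.filter (fun i => x i ≠ y i)).card = n → ∃ g ∈ G, ∀ i, g (x i) = y i := by
    intro n
    induction n using Nat.strong_induction_on with
    | _ n ih =>
      intro x y hn
      by_cases hne : ∃ i, x i ≠ y i
      · obtain ⟨i, hi⟩ := hne
        -- the new tuple
        have step : ∃ x' : Fin k ↪ α, (∃ g ∈ G, ∀ j, g (x j) = x' j) ∧ x' i = y i ∧ ∀ j, x j = y j → x' j = y j := by
          by_cases hr : ∃ j, x j = y i
          · obtain ⟨j, hj⟩ := hr
            have hij : i ≠ j := by rintro rfl; exact hi hj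
            refine ⟨(Equiv.swap i j).toEmbedding.trans x, ?_, ?_, ?_⟩
            · obtain ⟨s, hs1, hs2⟩ := hsup (Finset.univ.image x) (by rw [hrange]; omega)
              exact ext s hs2 _ _ (fun l => hs1 (Finset.mem_image_of_mem _ (Finset.mem_univ _)))
                (fun l => hs1 (Finset.mem_image.2 ⟨_, Finset.mem_univ _, rfl⟩))
            · change x (Equiv.swap i j i) = y i
              rw [Equiv.swap_apply_left, hj]
            · intro l hl
              change x (Equiv.swap i j l) = y l
              have hli : l ≠ i := by rintro rfl; exact hi hl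
              have hlj : l ≠ j := by
                rintro rfl
                exact hij (y.injective (hj.symm.trans hl))
              rw [Equiv.swap_apply_of_ne_of_ne hli hlj, hl]
          · push Not at hr
            let x' : Fin k ↪ α := ⟨Function.update x i (y i), by
              intro l l' h
              by_cases h1 : l = i
              · by_cases h2 : l' = i
                · rw [h1, h2]
                · rw [h1, Function.update_self, Function.update_of_ne h2] at h
                  exact absurd h.symm (hr l')
              · by_cases h2 : l' = i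
                · rw [h2, Function.update_self, Function.update_of_ne h1] at h
                  exact absurd h (hr l)
                · rw [Function.update_of_ne h1, Function.update_of_ne h2] at h
                  exact x.injective h⟩
            refine ⟨x', ?_, ?_, ?_⟩
            · have hnm : y i ∉ Finset.univ.image x := by
                intro h
                obtain ⟨j, -, hj⟩ := Finset.mem_image.1 h
                exact hr j hj
              refine ext (insert (y i) (Finset.univ.image x)) (by rw [Finset.card_insert_of_notMem hnm, hrange]) _ _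
                (fun l => Finset.mem_insert_of_mem (Finset.mem_image_of_mem _ (Finset.mem_univ _))) ?_
              intro l
              change Function.update x i (y i) l ∈ _
              by_cases h1 : l = i
              · rw [h1, Function.update_self]; exact Finset.mem_insert_self _ _
              · rw [Function.update_of_ne h1]
                exact Finset.mem_insert_of_mem (Finset.mem_image_of_mem _ (Finset.mem_univ _))
            · change Function.update x i (y i) i = y i
              rw [Function.update_self]
            · intro l hl
              change Function.update x i (y i) l = y l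
              have hli : l ≠ i := by rintro rfl; exact hi hl
              rw [Function.update_of_ne hli, hl]
        obtain ⟨x', ⟨g, hg, hgx⟩, h1, h2⟩ := step
        have hlt : (Finset.univ.filter (fun j => x' j ≠ y j)).card < n := by
          rw [← hn]
          apply Finset.card_lt_card
          rw [Finset.ssubset_iff_of_subset]
          · refine ⟨i, Finset.mem_filter.2 ⟨Finset.mem_univ _, hi⟩, ?_⟩
            intro h
            exact (Finset.mem_filter.1 h).2 h1
          · intro j hj
            refine Finset.mem_filter.2 ⟨Finset.mem_univ _, fun h => (Finset.mem_filter.1 hj).2 (h2 j h)⟩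
        obtain ⟨h, hh, hhx⟩ := ih _ hlt x' y rfl
        refine ⟨h * g, mul_mem hh hg, fun j => ?_⟩
        change h (g (x j)) = y j
        rw [hgx, hhx]
      · push Not at hne
        exact ⟨1, one_mem _, fun i => hne i⟩
  refine ⟨⟨fun x y => ?_⟩, ?_⟩
  · obtain ⟨g, hg, h⟩ := main _ x y rfl
    refine ⟨⟨g, hg⟩, ?_⟩
    ext i
    exact h i
  · rintro s hs a b ha hb ⟨g, hg, hgs, hgab⟩
    have hgs' : ∀ x ∈ s, g x ∈ s := by
      intro x hx
      rw [← hgs]
      exact Finset.smul_mem_smul_finset hx
    let t := insert b s
    have ht : t.card = k + 1 := by rw [Finset.card_insert_of_notMem hb, hs]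
    let τ : ↥t → ↥t := fun z => if hz : (z : α) = b then z else ⟨g z, Finset.mem_insert_of_mem (hgs' _ ((Finset.mem_insert.1 z.2).resolve_left hz))⟩
    have hτb : ∀ z : ↥t, (z : α) = b → τ z = z := fun z hz => by simp only [τ]; rw [dif_pos hz]
    have hτs : ∀ z : ↥t, (z : α) ≠ b → (τ z : α) = g z := fun z hz => by simp only [τ]; rw [dif_neg hz]
    have hτinj : Function.Injective τ := by
      intro z w h
      have hs' : ∀ z : ↥t, (z : α) ≠ b → (τ z : α) ≠ b := by
        intro z hz e
        rw [hτs z hz] at e
        apply hb
        rw [← e]
        exact hgs' _ ((Finset.mem_insert.1 z.2).resolve_left hz)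
      by_cases hz : (z : α) = b
      · by_cases hw : (w : α) = b
        · exact Subtype.ext (hz.trans hw.symm)
        · rw [hτb z hz] at h
          exact absurd (h ▸ hz) (hs' w hw)
      · by_cases hw : (w : α) = b
        · rw [hτb w hw] at h
          exact absurd (h.symm ▸ hw) (hs' z hz)
        · have := congrArg Subtype.val h
          rw [hτs z hz, hτs w hw] at this
          exact Subtype.ext (g.injective this)
    let σ : Equiv.Perm ↥t := (Equiv.ofBijective τ (Finite.injective_iff_bijective.1 hτinj)).symm
    obtain ⟨h, hh, hhσ⟩ := hgen t ht σ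
    have hστ : ∀ z, σ (τ z) = z := fun z => (Equiv.ofBijective τ (Finite.injective_iff_bijective.1 hτinj)).symm_apply_apply z
    refine ⟨h * g, mul_mem hh hg, ?_, ?_⟩
    · intro x hx
      change h (g x) = x
      have hxb : x ≠ b := by rintro rfl; exact hb hx
      have h1 := hhσ (τ ⟨x, Finset.mem_insert_of_mem hx⟩)
      rw [hστ, hτs _ hxb] at h1
      exact h1
    · change h (g a) = b
      rw [hgab]
      have h1 := hhσ (τ ⟨b, Finset.mem_insert_self _ _⟩)
      rw [hστ, hτb _ rfl] at h1
      exact h1

end Cfsg.Agent.S0705
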