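import Cfsg.Statements.S0707
import Mathlib.GroupTheory.SpecificGroups.Cyclic

set_option autoImplicit false
open Cfsg

namespace Cfsg.Agent.S0707

/-- In a primitive permutation group, distinct points have distinct stabilisers unless the group is regular of prime degree. -/
theorem result {α : Type*} (G : Subgroup (Equiv.Perm α)) [MulAction.IsPreprimitive G α] (h : ¬ (Nat.card α).Prime ∨ ∃ a : α, MulAction.stabilizer G a ≠ ⊥) {a b : α} (hab : a ≠ b) : MulAction.stabilizer G a ≠ MulAction.stabilizer G b := by
  open scoped Pointwise in
  intro heq
  have hsm : ∀ (g : G) (x : α), MulAction.stabilizer G (g • x) = (MulAction.stabilizer G x).map (MulAut.conj g).toMonoidHom :=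
    fun g x => MulAction.stabilizer_smul_eq_stabilizer_map_conj g x
  have hblock : MulAction.IsBlock G {x : α | MulAction.stabilizer G x = MulAction.stabilizer G a} := by
    rw [MulAction.isBlock_iff_smul_eq_smul_or_disjoint]
    have hmem : ∀ (g : G) (y : α), y ∈ g • {x : α | MulAction.stabilizer G x = MulAction.stabilizer G a} ↔
        MulAction.stabilizer G y = (MulAction.stabilizer G a).map (MulAut.conj g).toMonoidHom := by
      intro g y
      rw [Set.mem_smul_set_iff_inv_smul_mem]
      show MulAction.stabilizer G (g⁻¹ • y) = _ ↔ _
      constructor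
      · intro h
        rw [← h, ← hsm, smul_inv_smul]
      · intro h
        rw [hsm, h, Subgroup.map_map]
        have : (MulAut.conj g⁻¹).toMonoidHom.comp (MulAut.conj g).toMonoidHom = MonoidHom.id G := by
          ext x; simp
        rw [this, Subgroup.map_id]
    intro g₁ g₂
    by_cases h : (MulAction.stabilizer G a).map (MulAut.conj g₁).toMonoidHom = (MulAction.stabilizer G a).map (MulAut.conj g₂).toMonoidHom
    · left
      ext y
      rw [hmem, hmem, h]
    · right
      rw [Set.disjoint_left]
      intro y h1 h2
      rw [hmem] at h1 h2
      exact h (h1.symm.trans h2)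
  have huniv : {x : α | MulAction.stabilizer G x = MulAction.stabilizer G a} = Set.univ := by
    rcases MulAction.IsPreprimitive.isTrivialBlock_of_isBlock hblock with h1 | h1
    · exact absurd (h1 (show a ∈ _ from rfl) (show b ∈ _ from heq.symm)) hab
    · exact h1
  have hbot : MulAction.stabilizer G a = ⊥ := by
    rw [Subgroup.eq_bot_iff_forall]
    intro g hg
    apply Subtype.ext
    ext x
    have hx : x ∈ {x : α | MulAction.stabilizer G x = MulAction.stabilizer G a} := by rw [huniv]; trivial
    have : g ∈ MulAction.stabilizer G x := by rw [show MulAction.stabilizer G x = MulAction.stabilizer G a from hx]; exact hg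
    exact this
  rcases h with h | ⟨a', ha'⟩
  · apply h
    have hnt : Nontrivial α := ⟨a, b, hab⟩
    have hco := (MulAction.isCoatom_stabilizer_iff_preprimitive G a).2 inferInstance
    rw [hbot] at hco
    have hall : ∀ H : Subgroup G, H = ⊥ ∨ H = ⊤ := by
      intro H
      by_cases hH : H = ⊥
      · exact Or.inl hH
      · exact Or.inr (hco.2 H (bot_lt_iff_ne_bot.2 hH))
    have hGn : Nontrivial G := by
      by_contra hc
      rw [not_nontrivial_iff_subsingleton] at hc
      exact hco.1 (Subsingleton.elim _ _)
    obtain ⟨g, hg⟩ := exists_ne (1 : G)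
    have hz : Subgroup.zpowers g = ⊤ := (hall _).resolve_left (Subgroup.zpowers_ne_bot.2 hg)
    have hcyc : IsCyclic G := ⟨g, fun x => by
      have : x ∈ Subgroup.zpowers g := by rw [hz]; trivial
      exact this⟩
    have hcard : (Nat.card G).Prime := by
      letI : CommGroup G := IsCyclic.commGroup
      have hs : IsSimpleGroup G := ⟨fun H _ => hall H⟩
      exact IsSimpleGroup.prime_card
    have hbij : Function.Bijective (fun g : G => g • a) := by
      constructor
      · intro x y hxy
        have hxy' : x • a = y • a := hxy
        have : y⁻¹ * x ∈ MulAction.stabilizer G a := by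
          rw [MulAction.mem_stabilizer_iff, mul_smul, hxy', inv_smul_smul]
        rw [hbot, Subgroup.mem_bot] at this
        exact (inv_mul_eq_one.1 this).symm
      · intro y
        exact MulAction.exists_smul_eq G a y
    rw [← Nat.card_congr (Equiv.ofBijective _ hbij)]
    exact hcard
  · apply ha'
    have hx : a' ∈ {x : α | MulAction.stabilizer G x = MulAction.stabilizer G a} := by rw [huniv]; trivial
    rw [show MulAction.stabilizer G a' = MulAction.stabilizer G a from hx, hbot]

end Cfsg.Agent.S0707
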