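import Cfsg.Statements.S0710
import Cfsg.Agent.H3.Basic
import Cfsg.Agent.H2.SylCount

set_option autoImplicit false
open Cfsg

namespace Cfsg.Agent.S0710

/-- No transitive permutation group on 13 points has order `13 * 12 * 11 * 10 * 9 * 8`. -/
theorem result {α : Type*} [Fintype α] [DecidableEq α] (hα : Fintype.card α = 13) (G : Subgroup (Equiv.Perm α)) [MulAction.IsPretransitive G α] : Nat.card G ≠ 13 * 12 * 11 * 10 * 9 * 8 := by
  classical
  intro hcard
  haveI : Fact (Nat.Prime 13) := ⟨by norm_num⟩
  obtain ⟨P⟩ := (inferInstance : Nonempty (Sylow 13 G))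
  have hPc : Nat.card (P : Subgroup G) = 13 := Cfsg.Agent.H2.card_sylow_prime P (by rw [hcard]; norm_num) (by rw [hcard]; norm_num)
  -- P is transitive
  have hPtr : ∀ a b : α, ∃ g ∈ (P : Subgroup G), g • a = b := by
    have hPne : (P : Subgroup G) ≠ ⊥ := by
      intro h
      rw [h, Subgroup.card_bot] at hPc
      omega
    obtain ⟨y, hy⟩ := Subgroup.ne_bot_iff_exists_ne_one.1 hPne
    obtain ⟨x, hx, hx1⟩ : ∃ x : G, ∃ _ : x ∈ (P : Subgroup G), x ≠ 1 := ⟨y.1, y.2, fun h => hy (Subtype.ext h)⟩
    obtain ⟨a0, ha0⟩ : ∃ a : α, x • a ≠ a := by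
      by_contra hcon
      push Not at hcon
      apply hx1
      apply Subtype.ext
      apply Equiv.ext
      intro a
      exact hcon a
    have h1 : Nat.card (MulAction.orbit (P : Subgroup G) a0) ∣ 13 := by
      have h4 : Nat.card (P : Subgroup G) = Nat.card (MulAction.orbit (P : Subgroup G) a0) * Nat.card (MulAction.stabilizer (P : Subgroup G) a0) := by
        rw [← Nat.card_prod]
        exact Nat.card_congr (MulAction.orbitProdStabilizerEquivGroup (P : Subgroup G) a0).symm
      exact ⟨_, hPc.symm.trans h4⟩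
    have h2 : Nat.card (MulAction.orbit (P : Subgroup G) a0) = 13 := by
      rcases (Nat.dvd_prime (by norm_num)).1 h1 with h3 | h3
      · exfalso
        haveI := (Nat.card_eq_one_iff_unique.1 h3).1
        apply ha0
        have h4 : (⟨x • a0, ⟨⟨x, hx⟩, rfl⟩⟩ : MulAction.orbit (P : Subgroup G) a0) = ⟨a0, MulAction.mem_orbit_self a0⟩ := Subsingleton.elim _ _
        exact congrArg Subtype.val h4
      · exact h3
    have h3 : MulAction.orbit (P : Subgroup G) a0 = Set.univ := by
      apply Set.eq_of_subset_of_ncard_le (Set.subset_univ _) _ (Set.toFinite _)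
      rw [Set.ncard_univ, Nat.card_eq_fintype_card, hα, ← Nat.card_coe_set_eq, h2]
    intro a b
    have ha : a ∈ MulAction.orbit (P : Subgroup G) a0 := by rw [h3]; trivial
    have hb : b ∈ MulAction.orbit (P : Subgroup G) a0 := by rw [h3]; trivial
    obtain ⟨g, hg⟩ := ha
    obtain ⟨k, hk⟩ := hb
    refine ⟨k.1 * g.1⁻¹, mul_mem k.2 (inv_mem g.2), ?_⟩
    have hg' : g.1 • a0 = a := hg
    have hk' : k.1 • a0 = b := hk
    rw [mul_smul, ← hg', inv_smul_smul, hk']
  have hne : Nonempty α := Fintype.card_pos_iff.1 (by omega)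
  obtain ⟨a⟩ := hne
  set C := Subgroup.centralizer ((P : Subgroup G) : Set G) with hC
  have hCc : Nat.card C = 13 := by
    have h1 : Nat.card C ≤ 13 := by
      rw [← hα, ← Nat.card_eq_fintype_card]
      refine Nat.card_le_card_of_injective (fun c : C => c.1 • a) ?_
      intro c d hcd
      have hcd' : c.1 • a = d.1 • a := hcd
      apply Subtype.ext
      apply Subtype.ext
      apply Equiv.ext
      intro b
      obtain ⟨g, hg, hgb⟩ := hPtr a b
      have hc := (Subgroup.mem_centralizer_iff.1 c.2) g hg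
      have hd := (Subgroup.mem_centralizer_iff.1 d.2) g hg
      change c.1 • b = d.1 • b
      rw [← hgb, ← mul_smul, ← mul_smul, ← hc, ← hd, mul_smul, mul_smul, hcd']
    have h2 : (P : Subgroup G) ≤ C := by
      haveI : IsCyclic (P : Subgroup G) := isCyclic_of_prime_card hPc
      intro x hx
      rw [hC, Subgroup.mem_centralizer_iff]
      intro y hy
      exact congrArg Subtype.val ((IsCyclic.isMulCommutative (α := (P : Subgroup G))).is_comm.comm ⟨y, hy⟩ ⟨x, hx⟩)
    have h3 := Subgroup.card_le_of_le h2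
    rw [hPc] at h3
    omega
  have hd := Cfsg.Agent.H2.relIndex_centralizer_dvd (G := G) (r := 13) (by norm_num) hPc
  have hCN : C ≤ Subgroup.normalizer ((P : Subgroup G) : Set G) := Subgroup.centralizer_le_normalizer _
  have hNc := Subgroup.card_mul_index C
  have hCr : C.relIndex (Subgroup.normalizer ((P : Subgroup G) : Set G)) * (Subgroup.normalizer ((P : Subgroup G) : Set G)).index = C.index :=
    Subgroup.relIndex_mul_index hCN
  have hidx : Nat.card (Sylow 13 G) = (Subgroup.normalizer ((P : Subgroup G) : Set G)).index := P.card_eq_index_normalizer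
  have hn1 := card_sylow_modEq_one 13 G
  rw [← hCr, ← hidx, hCc, hcard] at hNc
  generalize C.relIndex (Subgroup.normalizer ((P : Subgroup G) : Set G)) = d at hd hNc
  generalize Nat.card (Sylow 13 G) = n at hn1 hNc
  have h12 : d ≤ 12 := Nat.le_of_dvd (by norm_num) hd
  unfold Nat.ModEq at hn1
  have hdn : d * n = 12 * 11 * 10 * 9 * 8 := by
    have : 13 * (d * n) = 13 * (12 * 11 * 10 * 9 * 8) := by rw [hNc]
    exact Nat.eq_of_mul_eq_mul_left (by norm_num) this
  interval_cases d <;> simp_all <;> omega

end Cfsg.Agent.S0710
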