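import Cfsg.Statements.S0712
import Cfsg.Agent.H3.Basic

set_option autoImplicit false
open Cfsg

namespace Cfsg.Agent.S0712

/-- Jordan: a primitive group in which the pointwise stabiliser of a set `s` is doubly transitive on the complement of `s` (which has at least 2 points) is `(|s| + 2)`-transitive. -/
theorem result {α : Type*} [Fintype α] [DecidableEq α] (G : Subgroup (Equiv.Perm α)) (hG : MulAction.IsPreprimitive G α) (s : Set α) {m : ℕ} (hsm : s.ncard = m) (hm : m + 2 ≤ Fintype.card α) (h2 : MulAction.IsMultiplyPretransitive (fixingSubgroup G s) (SubMulAction.ofFixingSubgroup G s) 2) : MulAction.IsMultiplyPretransitive G α (m + 2) := by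
  classical
  have hmt : MulAction.IsMultiplyPretransitive G α m := by
    rcases Nat.eq_zero_or_pos m with h0 | h0
    · subst h0
      exact MulAction.is_zero_pretransitive
    · obtain ⟨n, rfl⟩ : ∃ n, m = n + 1 := ⟨m - 1, by omega⟩
      have h1 : MulAction.IsPreprimitive (fixingSubgroup G s) (SubMulAction.ofFixingSubgroup G s) :=
        MulAction.isPreprimitive_of_is_two_pretransitive h2
      have h3 := hG.isMultiplyPreprimitive hsm (by rw [Nat.card_eq_fintype_card]; omega) h1
      haveI : MulAction.IsMultiplyPretransitive G α (n + 2) := h3.isMultiplyPretransitive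
      exact MulAction.isMultiplyPretransitive_of_le (n := n + 2) (by omega) (by rw [Nat.card_eq_fintype_card]; omega)
  have e0 : s ≃ Fin m := Finite.equivFinOfCardEq (by rw [Nat.card_coe_set_eq, hsm])
  let e : Fin m ↪ α := e0.symm.toEmbedding.trans (Function.Embedding.subtype _)
  have he : ∀ a ∈ s, ∃ i, e i = a := fun a ha => ⟨e0 ⟨a, ha⟩, by
    change (e0.symm (e0 ⟨a, ha⟩)).1 = a
    rw [Equiv.symm_apply_apply]⟩
  have hes : ∀ i, e i ∈ s := fun i => (e0.symm i).2
  have key : ∀ x : Fin (m + 2) ↪ α, ∃ (g : G) (X : Fin 2 ↪ SubMulAction.ofFixingSubgroup G s),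
      (∀ i : Fin m, g • x (Fin.castAdd 2 i) = e i) ∧ ∀ j : Fin 2, (X j).1 = g • x (Fin.natAdd m j) := by
    intro x
    obtain ⟨g, hg⟩ := MulAction.exists_smul_eq G (⟨fun i : Fin m => x (Fin.castAdd 2 i), fun i j hij => Fin.castAdd_injective m 2 (x.injective hij)⟩ : Fin m ↪ α) e
    have hg' : ∀ i : Fin m, g • x (Fin.castAdd 2 i) = e i := fun i => by
      rw [← hg]; rfl
    refine ⟨g, ⟨fun j => ⟨g • x (Fin.natAdd m j), ?_⟩, ?_⟩, hg', fun j => rfl⟩
    · intro hs
      obtain ⟨i, hi⟩ := he _ hs
      rw [← hg' i] at hi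
      have h3 := x.injective (smul_left_cancel g hi)
      have h4 := congrArg Fin.val h3
      simp only [Fin.val_castAdd, Fin.val_natAdd] at h4
      have := i.2
      omega
    · intro j k hjk
      have h3 : g • x (Fin.natAdd m j) = g • x (Fin.natAdd m k) := congrArg Subtype.val hjk
      have h4 := x.injective (smul_left_cancel g h3)
      have h5 := congrArg Fin.val h4
      simp only [Fin.val_natAdd] at h5
      exact Fin.ext (by omega)
  rw [MulAction.isMultiplyPretransitive_iff]
  intro x y
  obtain ⟨g, X, hg1, hg2⟩ := key x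
  obtain ⟨h, Y, hh1, hh2⟩ := key y
  obtain ⟨k, hk⟩ := MulAction.exists_smul_eq (fixingSubgroup G s) X Y
  have hk' : ∀ j, k.1 • (X j).1 = (Y j).1 := fun j => by rw [← hk]; rfl
  refine ⟨h⁻¹ * k.1 * g, ?_⟩
  ext i
  change (h⁻¹ * k.1 * g) • x i = y i
  rw [mul_smul, mul_smul, inv_smul_eq_iff]
  induction i using Fin.addCases with
  | left i =>
    rw [hg1, hh1]
    exact (mem_fixingSubgroup_iff G).1 k.2 _ (hes i)
  | right j =>
    rw [← hg2, ← hh2]
    exact hk' j

end Cfsg.Agent.S0712
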