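import Cfsg.Statements.S0722
import Mathlib.Tactic.Group
import Mathlib.GroupTheory.GroupAction.Primitive

set_option autoImplicit false
open Cfsg

namespace Cfsg.Agent.S0722

/-- In a primitive group `H`, with `N` a minimal normal subgroup and `K` a point stabiliser, `K ⊓ N` is maximal among proper `K`-invariant subgroups of `N`. -/
theorem result {α : Type*} [Finite α] (H : Subgroup (Equiv.Perm α)) [MulAction.IsPreprimitive H α] (N : Subgroup H) [N.Normal] (hN : N ≠ ⊥) (hmin : ∀ M : Subgroup H, M.Normal → M ≤ N → M = ⊥ ∨ M = N) (a : α) (X : Subgroup H) (hX : X ≤ N) (hKX : MulAction.stabilizer H a ⊓ N ≤ X) (hinv : MulAction.stabilizer H a ≤ Subgroup.normalizer (X : Set H)) : X = MulAction.stabilizer H a ⊓ N ∨ X = N := by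
  classical
  rcases subsingleton_or_nontrivial α with hα | hα
  · exfalso
    apply hN
    rw [eq_bot_iff]
    intro x _
    rw [Subgroup.mem_bot]
    apply Subtype.ext
    apply Equiv.ext
    intro y
    exact Subsingleton.elim _ _
  have hco := MulAction.IsPreprimitive.isCoatom_stabilizer_of_isPreprimitive H a
  set K := MulAction.stabilizer H a with hK
  have hnor : ∀ k ∈ K, ∀ x ∈ X, k * x * k⁻¹ ∈ X := by
    intro k hk x hx
    exact (Subgroup.mem_normalizer_iff.1 (hinv hk) x).1 hx
  let S : Subgroup H :=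
    { carrier := {g | ∃ k ∈ K, ∃ x ∈ X, g = k * x}
      one_mem' := ⟨1, one_mem _, 1, one_mem _, (mul_one 1).symm⟩
      mul_mem' := by
        rintro _ _ ⟨k, hk, x, hx, rfl⟩ ⟨k', hk', x', hx', rfl⟩
        have h1 := hnor k'⁻¹ (inv_mem hk') x hx
        rw [inv_inv] at h1
        exact ⟨k * k', mul_mem hk hk', (k'⁻¹ * x * k') * x', mul_mem h1 hx', by group⟩
      inv_mem' := by
        rintro _ ⟨k, hk, x, hx, rfl⟩
        exact ⟨k⁻¹, inv_mem hk, k * x⁻¹ * k⁻¹, hnor k hk _ (inv_mem hx), by group⟩ }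
  have hKS : K ≤ S := fun k hk => ⟨k, hk, 1, one_mem _, (mul_one k).symm⟩
  have hXS : X ≤ S := fun x hx => ⟨1, one_mem _, x, hx, (one_mul x).symm⟩
  rcases (hco.le_iff).1 hKS with h | h
  · right
    apply le_antisymm hX
    intro n hn
    have h1 : n ∈ S := by rw [h]; trivial
    obtain ⟨k, hk, x, hx, rfl⟩ := h1
    have h2 : k ∈ N := by
      have := mul_mem hn (inv_mem (hX hx))
      rwa [mul_inv_cancel_right] at this
    exact mul_mem (hKX ⟨hk, h2⟩) hx
  · left
    apply le_antisymm _ hKX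
    intro x hx
    refine ⟨?_, hX hx⟩
    rw [← h]
    exact hXS hx

end Cfsg.Agent.S0722
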