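import Cfsg.Statements.S0724
import Cfsg.Agent.H3.Basic

set_option autoImplicit false
open Cfsg

namespace Cfsg.Agent.S0724

/-- Blichfeldt's Theorem: if a finite set `L` of natural numbers contains the number of fixed points of every non-identity element of a permutation group `G` of degree `n`, then the order of `G` divides `∏ (n - l)` over `l ∈ L`. -/
theorem result {α : Type*} [Fintype α] [DecidableEq α] (G : Subgroup (Equiv.Perm α)) (L : Finset ℕ) (hL : ∀ g ∈ G, g ≠ 1 → Nat.card (MulAction.fixedBy α g) ∈ L) : Nat.card G ∣ ∏ l ∈ L, (Fintype.card α - l) := by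
  classical
  have hpow : ∀ j : ℕ, (Nat.card G : ℤ) ∣ ∑ g : G, ((Nat.card (MulAction.fixedBy α g) : ℤ)) ^ j := by
    intro j
    haveI : Fintype (Quotient (MulAction.orbitRel G (Fin j → α))) := Fintype.ofFinite _
    have h1 := MulAction.sum_card_fixedBy_eq_card_orbits_mul_card_group G (Fin j → α)
    have h2 : ∀ g : G, Fintype.card (MulAction.fixedBy (Fin j → α) g) = Nat.card (MulAction.fixedBy α g) ^ j := by
      intro g
      let e : MulAction.fixedBy (Fin j → α) g ≃ (Fin j → MulAction.fixedBy α g) :=
        { toFun := fun f i => ⟨f.1 i, congrFun f.2 i⟩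
          invFun := fun f => ⟨fun i => (f i).1, funext fun i => (f i).2⟩
          left_inv := fun f => rfl
          right_inv := fun f => rfl }
      rw [← Nat.card_eq_fintype_card, Nat.card_congr e, Nat.card_fun, Nat.card_fin]
    refine ⟨Fintype.card (Quotient (MulAction.orbitRel G (Fin j → α))), ?_⟩
    rw [Nat.card_eq_fintype_card, mul_comm]
    have h3 : ((∑ g : G, Fintype.card (MulAction.fixedBy (Fin j → α) g) : ℕ) : ℤ) = ((Fintype.card (Quotient (MulAction.orbitRel G (Fin j → α))) * Fintype.card G : ℕ) : ℤ) := by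
      exact_mod_cast h1
    rw [Nat.cast_mul] at h3
    rw [← h3, Nat.cast_sum]
    apply Finset.sum_congr rfl
    intro g _
    rw [h2, Nat.cast_pow]
  let P : Polynomial ℤ := ∏ l ∈ L, (Polynomial.X - Polynomial.C (l : ℤ))
  have hP : ∀ x : ℤ, P.eval x = ∏ l ∈ L, (x - l) := by
    intro x
    rw [Polynomial.eval_prod]
    apply Finset.prod_congr rfl
    intro l _
    rw [Polynomial.eval_sub, Polynomial.eval_X, Polynomial.eval_C]
  have hdvd : (Nat.card G : ℤ) ∣ ∑ g : G, P.eval (Nat.card (MulAction.fixedBy α g) : ℤ) := by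
    have h1 : ∑ g : G, P.eval (Nat.card (MulAction.fixedBy α g) : ℤ) = ∑ i ∈ Finset.range (P.natDegree + 1), P.coeff i * ∑ g : G, ((Nat.card (MulAction.fixedBy α g) : ℤ)) ^ i := by
      rw [Finset.sum_congr rfl (fun g _ => Polynomial.eval_eq_sum_range (p := P) _), Finset.sum_comm]
      apply Finset.sum_congr rfl
      intro i _
      rw [Finset.mul_sum]
    rw [h1]
    apply Finset.dvd_sum
    intro i _
    exact Dvd.dvd.mul_left (hpow i) _
  have hone : ∑ g : G, P.eval (Nat.card (MulAction.fixedBy α g) : ℤ) = P.eval (Fintype.card α : ℤ) := by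
    rw [Finset.sum_eq_single (1 : G)]
    · congr 2
      rw [Nat.card_eq_fintype_card, ← Set.toFinset_card]
      have : (MulAction.fixedBy α (1 : G)).toFinset = Finset.univ := by
        ext x
        simp
      rw [this, Finset.card_univ]
    · rintro ⟨g, hg⟩ _ hne
      rw [hP]
      apply Finset.prod_eq_zero (hL g hg (fun h => hne (Subtype.ext h)))
      rw [sub_eq_zero]
      rfl
    · intro h; exact absurd (Finset.mem_univ _) h
  by_cases hlt : ∀ l ∈ L, l ≤ Fintype.card α
  · rw [hone, hP] at hdvd
    have h1 : ∏ l ∈ L, ((Fintype.card α : ℤ) - l) = ((∏ l ∈ L, (Fintype.card α - l) : ℕ) : ℤ) := by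
      rw [Nat.cast_prod]
      apply Finset.prod_congr rfl
      intro l hl
      rw [Nat.cast_sub (hlt l hl)]
    rw [h1] at hdvd
    exact_mod_cast hdvd
  · push Not at hlt
    obtain ⟨l, hl, h⟩ := hlt
    have : ∏ l ∈ L, (Fintype.card α - l) = 0 := Finset.prod_eq_zero hl (by omega)
    rw [this]
    exact dvd_zero _

end Cfsg.Agent.S0724
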