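import Cfsg.Statements.S0726

-- import your own Cfsg.Agent.* helpers here

set_option autoImplicit false
open Cfsg

namespace Cfsg.Agent.S0726

/-- The left and right regular permutation representations of a group are each other's centralisers in the symmetric group: the centraliser of the left regular image is the right regular image, and a transitive subgroup centralising the left regular image is the whole right regular image. -/
theorem result {G : Type*} [Group G] : Subgroup.centralizer ((MulAction.toPermHom G G).range : Set (Equiv.Perm G)) = (MulAction.toPermHom Gᵐᵒᵖ G).range ∧ ∀ H : Subgroup (Equiv.Perm G), H ≤ Subgroup.centralizer ((MulAction.toPermHom G G).range : Set (Equiv.Perm G)) → MulAction.IsPretransitive H G → H = (MulAction.toPermHom Gᵐᵒᵖ G).range := by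
  have key : ∀ σ ∈ Subgroup.centralizer ((MulAction.toPermHom G G).range : Set (Equiv.Perm G)), ∀ g : G, σ g = g * σ 1 := by
    intro σ hσ g
    rw [Subgroup.mem_centralizer_iff] at hσ
    have h1 := hσ (MulAction.toPermHom G G g) ⟨g, rfl⟩
    have h2 := congrArg (fun e : Equiv.Perm G => e 1) h1
    simp only [Equiv.Perm.mul_apply, MulAction.toPermHom_apply, MulAction.toPerm_apply, smul_eq_mul, mul_one] at h2
    exact h2.symm
  have key2 : ∀ σ ∈ Subgroup.centralizer ((MulAction.toPermHom G G).range : Set (Equiv.Perm G)), σ = MulAction.toPermHom Gᵐᵒᵖ G (MulOpposite.op (σ 1)) := by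
    intro σ hσ
    ext g
    rw [key σ hσ g]
    rfl
  have h1 : Subgroup.centralizer ((MulAction.toPermHom G G).range : Set (Equiv.Perm G)) = (MulAction.toPermHom Gᵐᵒᵖ G).range := by
    apply le_antisymm
    · intro σ hσ
      exact ⟨_, (key2 σ hσ).symm⟩
    · rintro _ ⟨c, rfl⟩
      rw [Subgroup.mem_centralizer_iff]
      rintro _ ⟨g, rfl⟩
      ext x
      change g * (x * c.unop) = (g * x) * c.unop
      rw [mul_assoc]
  refine ⟨h1, fun H hH hT => ?_⟩
  apply le_antisymm
  · rw [← h1]; exact hH
  · rintro _ ⟨c, rfl⟩
    obtain ⟨h, hh⟩ := hT.exists_smul_eq (1 : G) c.unop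
    have h2 := key2 h.1 (hH h.2)
    have h3 : (h : Equiv.Perm G) 1 = c.unop := hh
    rw [h3] at h2
    have h4 : MulOpposite.op c.unop = c := rfl
    rw [h4] at h2
    rw [← h2]; exact h.2

end Cfsg.Agent.S0726
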