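import Cfsg.Statements.S0727
import Cfsg.Agent.H3.Basic
import Cfsg.Agent.H7.NF2

set_option autoImplicit false
open Cfsg

namespace Cfsg.Agent.S0727

/-- A sharply triply transitive permutation group of degree `2^f + 1` is isomorphic to the projective general linear group of degree 2 over the field with `2^f` elements. -/
theorem result {α : Type*} [Fintype α] [DecidableEq α] {f : ℕ} (hf : 1 ≤ f) (hα : Fintype.card α = 2 ^ f + 1) (G : Subgroup (Equiv.Perm α)) (h3 : MulAction.IsMultiplyPretransitive G α 3) (hsharp : ∀ x : Fin 3 ↪ α, MulAction.stabilizer G x = ⊥) : ∃ (F : Type) (_ : Field F) (_ : Fintype F), Fintype.card F = 2 ^ f ∧ Nonempty (G ≃* Matrix.ProjGenLinGroup (Fin 2) F) := by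
  classical
  let e0 : Fin (Fintype.card α) ≃ α := (Fintype.equivFin α).symm
  letI A : MulAction G (Fin (Fintype.card α)) := Equiv.mulAction G e0
  have hA : ∀ (g : G) (x : Fin (Fintype.card α)), g • x = e0.symm (g • e0 x) := fun _ _ => rfl
  have hemb : ∀ a b c : α, a ≠ b → a ≠ c → b ≠ c → ∃ x : Fin 3 ↪ α, x 0 = a ∧ x 1 = b ∧ x 2 = c := by
    intro a b c hab hac hbc
    refine ⟨⟨![a, b, c], ?_⟩, rfl, rfl, rfl⟩
    intro i j hij
    fin_cases i <;> fin_cases j
    · rfl
    · exact absurd hij hab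
    · exact absurd hij hac
    · exact absurd hij.symm hab
    · rfl
    · exact absurd hij hbc
    · exact absurd hij.symm hac
    · exact absurd hij.symm hbc
    · rfl
  refine Cfsg.Agent.H7.NF.main_three (α := Fin (Fintype.card α)) (G := G) (f := f) ?_ hf ?_ ?_
  · rw [Fintype.card_fin, hα]
  · intro a b c a' b' c' h1 h2 h4 h5 h6 h7
    obtain ⟨x, hx0, hx1, hx2⟩ := hemb (e0 a) (e0 b) (e0 c) (fun h => h1 (e0.injective h)) (fun h => h2 (e0.injective h)) (fun h => h4 (e0.injective h))
    obtain ⟨y, hy0, hy1, hy2⟩ := hemb (e0 a') (e0 b') (e0 c') (fun h => h5 (e0.injective h)) (fun h => h6 (e0.injective h)) (fun h => h7 (e0.injective h))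
    obtain ⟨g, hg⟩ := MulAction.exists_smul_eq G x y
    have hgi : ∀ i, g • x i = y i := fun i => by rw [← hg]; rfl
    refine ⟨g, ?_, ?_, ?_⟩
    · rw [hA, ← hx0, hgi, hy0, Equiv.symm_apply_apply]
    · rw [hA, ← hx1, hgi, hy1, Equiv.symm_apply_apply]
    · rw [hA, ← hx2, hgi, hy2, Equiv.symm_apply_apply]
  · intro g a b c h1 h2 h4 ga gb gc
    obtain ⟨x, hx0, hx1, hx2⟩ := hemb (e0 a) (e0 b) (e0 c) (fun h => h1 (e0.injective h)) (fun h => h2 (e0.injective h)) (fun h => h4 (e0.injective h))
    have h5 : g ∈ MulAction.stabilizer G x := by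
      rw [MulAction.mem_stabilizer_iff]
      ext i
      change g • x i = x i
      rw [hA, Equiv.symm_apply_eq] at ga gb gc
      fin_cases i
      · change g • x 0 = x 0
        rw [hx0]; exact ga
      · change g • x 1 = x 1
        rw [hx1]; exact gb
      · change g • x 2 = x 2
        rw [hx2]; exact gc
    rw [hsharp x] at h5
    exact Subgroup.mem_bot.1 h5

end Cfsg.Agent.S0727
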