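import Cfsg.Statements.S0733
import Cfsg.Agent.H3.Basic

set_option autoImplicit false
open Cfsg

namespace Cfsg.Agent.S0733

/-- A permutation group of affine type — generated by the translations of a finite vector space `V` over `ZMod p` together with a group `G₀` of linear automorphisms — is primitive on `V` if and only if `G₀` is irreducible on `V`. -/
theorem result {p : ℕ} [Fact p.Prime] {V : Type*} [AddCommGroup V] [Module (ZMod p) V] [Finite V] [Nontrivial V] (G₀ : Subgroup (V ≃ₗ[ZMod p] V)) (G : Subgroup (Equiv.Perm V)) (hG : ∀ σ : Equiv.Perm V, σ ∈ G ↔ ∃ g ∈ G₀, ∃ b : V, ∀ x : V, σ x = (g : V ≃ₗ[ZMod p] V) x + b) : MulAction.IsPreprimitive G V ↔ ∀ W : Submodule (ZMod p) V, (∀ g ∈ G₀, ∀ v ∈ W, (g : V ≃ₗ[ZMod p] V) v ∈ W) → W = ⊥ ∨ W = ⊤ := by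
  classical
  haveI : NeZero p := ⟨(Fact.out : p.Prime).ne_zero⟩
  have hmem : ∀ (g : V ≃ₗ[ZMod p] V) (b : V), g ∈ G₀ → ∃ σ ∈ G, ∀ x : V, σ x = g x + b := by
    intro g b hg
    let σ : Equiv.Perm V := (g.toEquiv).trans (Equiv.addRight b)
    exact ⟨σ, (hG σ).2 ⟨g, hg, b, fun x => rfl⟩, fun x => rfl⟩
  constructor
  · intro hprim W hW
    have hgW : ∀ g ∈ G₀, ∀ v, (g : V ≃ₗ[ZMod p] V) v ∈ W → v ∈ W := by
      intro g hg v hv
      have h1 := hW g⁻¹ (inv_mem hg) _ hv
      have h2 : (g⁻¹ : V ≃ₗ[ZMod p] V) (g v) = v := g.symm_apply_apply v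
      rwa [h2] at h1
    have hB : MulAction.IsBlock G (W : Set V) := by
      rw [MulAction.isBlock_iff_smul_eq_of_nonempty]
      rintro ⟨σ, hσ⟩ ⟨_, ⟨x, hx, rfl⟩, hy⟩
      obtain ⟨g, hg, b, hb⟩ := (hG σ).1 hσ
      have hy' : σ x ∈ W := hy
      rw [hb] at hy'
      have hbW : b ∈ W := by
        have := W.sub_mem hy' (hW g hg x hx)
        rwa [add_sub_cancel_left] at this
      ext z
      constructor
      · rintro ⟨w, hw, rfl⟩
        change σ w ∈ W
        rw [hb]
        exact W.add_mem (hW g hg w hw) hbW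
      · intro hz
        have hz' : z ∈ W := hz
        refine ⟨g.symm (z - b), ?_, ?_⟩
        · apply hgW g hg
          have h2 : g (g.symm (z - b)) = z - b := g.apply_symm_apply _
          rw [h2]
          exact W.sub_mem hz' hbW
        · change σ (g.symm (z - b)) = z
          rw [hb]
          have h2 : g (g.symm (z - b)) = z - b := g.apply_symm_apply _
          rw [h2, sub_add_cancel]
    rcases hprim.isTrivialBlock_of_isBlock hB with h | h
    · left
      rw [eq_bot_iff]
      intro x hx
      rw [Submodule.mem_bot]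
      exact h hx W.zero_mem
    · right
      rw [eq_top_iff]
      intro x _
      have : x ∈ (W : Set V) := by rw [h]; trivial
      exact this
  · intro hirr
    haveI : MulAction.IsPretransitive G V := by
      constructor
      intro x y
      obtain ⟨σ, hσ, h⟩ := hmem 1 (y - x) (one_mem _)
      refine ⟨⟨σ, hσ⟩, ?_⟩
      change σ x = y
      rw [h]
      change x + (y - x) = y
      rw [add_sub_cancel]
    refine { isTrivialBlock_of_isBlock := ?_ }
    intro B hB
    by_cases hBs : B.Subsingleton
    · exact Or.inl hBs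
    right
    rw [Set.not_subsingleton_iff] at hBs
    obtain ⟨x, hx, y, hy, hxy⟩ := hBs
    have htr : ∀ v, v + x ∈ B → ∀ z, z ∈ B ↔ z + v ∈ B := by
      intro v hv z
      obtain ⟨σ, hσ, h⟩ := hmem 1 v (one_mem _)
      have h' : ∀ z, σ z = z + v := h
      have h1 := (MulAction.isBlock_iff_smul_eq_of_nonempty.1 hB) (g := ⟨σ, hσ⟩) ⟨x + v, ⟨x, hx, h' x⟩, by rw [add_comm]; exact hv⟩
      constructor
      · intro hz
        rw [← h1]
        exact ⟨z, hz, h' z⟩
      · intro hz
        rw [← h1] at hz
        obtain ⟨w, hw, e⟩ := hz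
        have e' : w + v = z + v := (h' w).symm.trans e
        rw [← add_right_cancel e']
        exact hw
    let W' : AddSubgroup V :=
      { carrier := {v | v + x ∈ B}
        zero_mem' := by change 0 + x ∈ B; rwa [zero_add]
        add_mem' := by
          intro v w hv hw
          have h1 := (htr v hv (w + x)).1 hw
          change v + w + x ∈ B
          have h2 : v + w + x = w + x + v := by abel
          rwa [h2]
        neg_mem' := by
          intro v hv
          change -v + x ∈ B
          rw [htr v hv, neg_add_eq_sub, sub_add_cancel]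
          exact hx }
    let W : Submodule (ZMod p) V := AddSubgroup.toZModSubmodule p W'
    have hWm : ∀ v, v ∈ W ↔ v + x ∈ B := fun v => Iff.rfl
    have hinv : ∀ g ∈ G₀, ∀ v ∈ W, (g : V ≃ₗ[ZMod p] V) v ∈ W := by
      intro g hg v hv
      rw [hWm] at hv ⊢
      obtain ⟨σ, hσ, h⟩ := hmem g (x - g x) hg
      have hσx : σ x = x := by rw [h, add_sub_cancel]
      have h1 := (MulAction.isBlock_iff_smul_eq_of_nonempty.1 hB) (g := ⟨σ, hσ⟩) ⟨x, ⟨x, hx, hσx⟩, hx⟩
      rw [← h1]
      refine ⟨v + x, hv, ?_⟩
      change σ (v + x) = g v + x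
      rw [h, map_add]
      abel
    rcases hirr W hinv with h | h
    · exfalso
      apply hxy
      have h1 : y - x ∈ W := by rw [hWm, sub_add_cancel]; exact hy
      rw [h, Submodule.mem_bot, sub_eq_zero] at h1
      exact h1.symm
    · rw [Set.eq_univ_iff_forall]
      intro z
      have h1 : z - x ∈ W := by rw [h]; trivial
      rw [hWm, sub_add_cancel] at h1
      exact h1

end Cfsg.Agent.S0733
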