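import Cfsg.Statements.S0734
import Cfsg.Agent.H3.Basic

set_option autoImplicit false
open Cfsg

namespace Cfsg.Agent.S0734

/-- Higman's criterion for primitivity: a transitive action on a finite set is primitive if and only if every non-trivial orbital graph (edges = images of a fixed pair of distinct points) is connected. -/
theorem result {G : Type*} [Group G] {Ω : Type*} [Finite Ω] [MulAction G Ω] [MulAction.IsPretransitive G Ω] [Nontrivial Ω] : MulAction.IsPreprimitive G Ω ↔ ∀ a b : Ω, a ≠ b → (SimpleGraph.fromRel fun x y : Ω => ∃ g : G, g • a = x ∧ g • b = y).Connected := by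
  classical
  constructor
  · intro hprim a b hab
    set Γ := SimpleGraph.fromRel fun x y : Ω => ∃ g : G, g • a = x ∧ g • b = y with hΓ
    have hadj : ∀ (g : G) (x y : Ω), Γ.Adj x y → Γ.Adj (g • x) (g • y) := by
      intro g x y h
      rw [hΓ, SimpleGraph.fromRel_adj] at h ⊢
      obtain ⟨hne, h⟩ := h
      refine ⟨fun e => hne (smul_left_cancel g e), ?_⟩
      rcases h with ⟨k, h1, h2⟩ | ⟨k, h1, h2⟩
      · exact Or.inl ⟨g * k, by rw [mul_smul, h1], by rw [mul_smul, h2]⟩
      · exact Or.inr ⟨g * k, by rw [mul_smul, h1], by rw [mul_smul, h2]⟩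
    have hreach : ∀ (g : G) (x y : Ω), Γ.Reachable x y → Γ.Reachable (g • x) (g • y) := by
      intro g x y ⟨w⟩
      induction w with
      | nil => exact SimpleGraph.Reachable.refl _
      | cons h _ ih => exact (hadj g _ _ h).reachable.trans ih
    let B : Set Ω := {x | Γ.Reachable a x}
    have hB : MulAction.IsBlock G B := by
      rw [MulAction.isBlock_iff_smul_eq_of_nonempty]
      rintro g ⟨_, ⟨x, hx, rfl⟩, hy⟩
      have hx' : Γ.Reachable a x := hx
      have hy' : Γ.Reachable a (g • x) := hy
      have h1 : Γ.Reachable a (g • a) := hy'.trans (hreach g _ _ hx').symm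
      ext z
      constructor
      · rintro ⟨w, hw, rfl⟩
        exact h1.trans (hreach g _ _ hw)
      · intro hz
        refine ⟨g⁻¹ • z, ?_, smul_inv_smul g z⟩
        have h2 := hreach g⁻¹ _ _ (h1.symm.trans hz)
        rw [inv_smul_smul] at h2
        exact h2
    have hb : Γ.Adj a b := by
      rw [hΓ, SimpleGraph.fromRel_adj]
      exact ⟨hab, Or.inl ⟨1, one_smul _ _, one_smul _ _⟩⟩
    have hall : ∀ x, Γ.Reachable a x := by
      rcases hprim.isTrivialBlock_of_isBlock hB with h | h
      · exact absurd (h (SimpleGraph.Reachable.refl a : a ∈ B) (hb.reachable : b ∈ B)) hab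
      · intro x
        have : x ∈ B := by rw [h]; trivial
        exact this
    exact { preconnected := fun x y => (hall x).symm.trans (hall y), nonempty := ⟨a⟩ }
  · intro h
    refine { isTrivialBlock_of_isBlock := ?_ }
    intro B hB
    by_cases hBs : B.Subsingleton
    · exact Or.inl hBs
    right
    rw [Set.not_subsingleton_iff] at hBs
    obtain ⟨a, ha, b, hb, hab⟩ := hBs
    have hcon := h a b hab
    set Γ := SimpleGraph.fromRel fun x y : Ω => ∃ g : G, g • a = x ∧ g • b = y with hΓ
    have hstep : ∀ x y, Γ.Adj x y → x ∈ B → y ∈ B := by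
      intro x y hxy hx
      rw [hΓ, SimpleGraph.fromRel_adj] at hxy
      rcases hxy.2 with ⟨g, h1, h2⟩ | ⟨g, h1, h2⟩
      · have h3 := (MulAction.isBlock_iff_smul_eq_of_nonempty.1 hB) (g := g) ⟨x, ⟨a, ha, h1⟩, hx⟩
        rw [← h3]
        exact ⟨b, hb, h2⟩
      · have h3 := (MulAction.isBlock_iff_smul_eq_of_nonempty.1 hB) (g := g) ⟨x, ⟨b, hb, h2⟩, hx⟩
        rw [← h3]
        exact ⟨a, ha, h1⟩
    rw [Set.eq_univ_iff_forall]
    intro z
    obtain ⟨w⟩ := hcon.preconnected a z
    have key : ∀ (x y : Ω) (w : Γ.Walk x y), x ∈ B → y ∈ B := by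
      intro x y w
      induction w with
      | nil => exact id
      | cons h _ ih => exact fun hx => ih (hstep _ _ h hx)
    exact key a z w ha

end Cfsg.Agent.S0734
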