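import Cfsg.Statements.S0735

set_option autoImplicit false
open Cfsg
open scoped Pointwise

namespace Cfsg.Agent.S0735

/-- A 2-homogeneous permutation group (transitive on 2-subsets) of even order is doubly transitive; a non-trivial 2-homogeneous group is primitive. -/
theorem result {α : Type*} [Fintype α] [DecidableEq α] (G : Subgroup (Equiv.Perm α)) (h2 : MulAction.IsPretransitive G (Set.powersetCard α 2)) (hα : 3 ≤ Fintype.card α) : (Even (Nat.card G) → MulAction.IsMultiplyPretransitive G α 2) ∧ (G ≠ ⊥ → MulAction.IsPreprimitive G α) := by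
  classical
  have key : ∀ a b c d : α, a ≠ b → c ≠ d → ∃ g ∈ G, (g a = c ∧ g b = d) ∨ (g a = d ∧ g b = c) := by
    intro a b c d hab hcd
    obtain ⟨⟨g, hg⟩, e⟩ := MulAction.exists_smul_eq G (⟨{a, b}, Finset.card_pair hab⟩ : Set.powersetCard α 2) ⟨{c, d}, Finset.card_pair hcd⟩
    refine ⟨g, hg, ?_⟩
    have e1 : Finset.image g {a, b} = {c, d} := congrArg Subtype.val e
    rw [Finset.image_insert, Finset.image_singleton] at e1
    have h1 : g a ∈ ({c, d} : Finset α) := by rw [← e1]; simp
    have h2 : g b ∈ ({c, d} : Finset α) := by rw [← e1]; simp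
    have hne : g a ≠ g b := fun h => hab (g.injective h)
    simp only [Finset.mem_insert, Finset.mem_singleton] at h1 h2
    rcases h1 with h1 | h1
    · rcases h2 with h2 | h2
      · exact absurd (h1.trans h2.symm) hne
      · exact Or.inl ⟨h1, h2⟩
    · rcases h2 with h2 | h2
      · exact Or.inr ⟨h1, h2⟩
      · exact absurd (h1.trans h2.symm) hne
  constructor
  · intro heven
    rw [MulAction.is_two_pretransitive_iff]
    intro a b c d hab hcd
    obtain ⟨⟨t, htG⟩, ht⟩ := exists_prime_orderOf_dvd_card' (G := G) 2 heven.two_dvd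
    rw [Subgroup.orderOf_mk] at ht
    have ht1 : t ≠ 1 := by
      rintro rfl
      rw [orderOf_one] at ht
      norm_num at ht
    have ht2 : t * t = 1 := by rw [← pow_two, ← ht, pow_orderOf_eq_one]
    obtain ⟨x, hx⟩ : ∃ x, t x ≠ x := by
      by_contra hcon
      push Not at hcon
      exact ht1 (Equiv.ext hcon)
    have htt : t (t x) = x := by
      have := congrArg (fun σ : Equiv.Perm α => σ x) ht2
      exact this
    obtain ⟨g, hg, h1⟩ := key a b x (t x) hab (Ne.symm hx)
    obtain ⟨h, hh, h2⟩ := key x (t x) c d (Ne.symm hx) hcd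
    have main : ∀ u v : Equiv.Perm α, u ∈ G → v ∈ G → u a = x → u b = t x → v x = c → v (t x) = d → ∃ g : G, g • a = c ∧ g • b = d := by
      intro u v hu hv e1 e2 e3 e4
      refine ⟨⟨v * u, mul_mem hv hu⟩, ?_, ?_⟩
      · change v (u a) = c
        rw [e1, e3]
      · change v (u b) = d
        rw [e2, e4]
    have hu : ∃ u ∈ G, u a = x ∧ u b = t x := by
      rcases h1 with h1 | h1
      · exact ⟨g, hg, h1⟩
      · refine ⟨t * g, mul_mem htG hg, ?_, ?_⟩
        · change t (g a) = x
          rw [h1.1, htt]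
        · change t (g b) = t x
          rw [h1.2]
    have hv : ∃ v ∈ G, v x = c ∧ v (t x) = d := by
      rcases h2 with h2 | h2
      · exact ⟨h, hh, h2⟩
      · refine ⟨h * t, mul_mem hh htG, ?_, ?_⟩
        · change h (t x) = c
          exact h2.2
        · change h (t (t x)) = d
          rw [htt]; exact h2.1
    obtain ⟨u, hu, e1, e2⟩ := hu
    obtain ⟨v, hv, e3, e4⟩ := hv
    exact main u v hu hv e1 e2 e3 e4
  · intro hG
    obtain ⟨s, hs, x, hx⟩ : ∃ s ∈ G, ∃ x, s x ≠ x := by
      by_contra hcon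
      push Not at hcon
      apply hG
      rw [eq_bot_iff]
      intro s hs
      rw [Subgroup.mem_bot]
      exact Equiv.ext (hcon s hs)
    -- transitivity
    have hx1 : ∀ z, ∃ g ∈ G, g x = z := by
      intro z
      by_cases hz : z = x
      · exact ⟨1, one_mem _, hz.symm⟩
      · obtain ⟨g, hg, h1 | h1⟩ := key x (s x) x z (Ne.symm hx) (Ne.symm hz)
        · exact ⟨g * s, mul_mem hg hs, h1.2⟩
        · exact ⟨g, hg, h1.1⟩
    haveI : MulAction.IsPretransitive G α := by
      constructor
      intro y z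
      obtain ⟨g, hg, e1⟩ := hx1 y
      obtain ⟨h, hh, e2⟩ := hx1 z
      refine ⟨⟨h * g⁻¹, mul_mem hh (inv_mem hg)⟩, ?_⟩
      change h (g⁻¹ y) = z
      have e3 : g⁻¹ y = x := by rw [Equiv.Perm.inv_eq_iff_eq, e1]
      rw [e3, e2]
    refine { isTrivialBlock_of_isBlock := ?_ }
    intro B hB
    by_cases hBs : B.Subsingleton
    · exact Or.inl hBs
    right
    rw [Set.not_subsingleton_iff] at hBs
    obtain ⟨y, hy, z, hz, hyz⟩ := hBs
    rw [Set.eq_univ_iff_forall]
    intro w
    by_cases hwy : w = y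
    · rw [hwy]; exact hy
    obtain ⟨g, hg, h1⟩ := key y z y w hyz (Ne.symm hwy)
    have hmem : ∀ v ∈ B, g v ∈ (⟨g, hg⟩ : G) • B := fun v hv => ⟨v, hv, rfl⟩
    have hyy : y ∈ (⟨g, hg⟩ : G) • B := by
      rcases h1 with h1 | h1
      · have := hmem y hy; rwa [h1.1] at this
      · have := hmem z hz; rwa [h1.2] at this
    have heq := (MulAction.isBlock_iff_smul_eq_of_nonempty.1 hB) ⟨y, hyy, hy⟩
    rw [← heq]
    rcases h1 with h1 | h1
    · have := hmem z hz; rwa [h1.2] at this
    · have := hmem y hy; rwa [h1.1] at this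

end Cfsg.Agent.S0735
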