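import Cfsg.Statements.S0736
import Mathlib.NumberTheory.Padics.PadicVal.Basic
import Mathlib.Combinatorics.Enumerative.DoubleCounting

set_option autoImplicit false
open Cfsg

namespace Cfsg.Agent.S0736

theorem not_dvd_choose {p k j : ℕ} (hp : p.Prime) (hk : 0 < k) (h1 : p ^ j ∣ k) (h2 : ¬ p ^ (j + 1) ∣ k) :
    ¬ p ∣ (k + p ^ j - 1).choose (k - 1) := by
  haveI : Fact p.Prime := ⟨hp⟩
  have hq : 0 < p ^ j := pow_pos hp.pos j
  have e1 : k + p ^ j - 1 = (k - 1) + p ^ j := by omega
  have e2 : ((k - 1) + p ^ j).choose (k - 1) = ((k - 1) + p ^ j).choose (p ^ j) := by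
    rw [← Nat.choose_symm (Nat.le_add_left (p ^ j) (k - 1)), Nat.add_sub_cancel]
  rw [e1, e2]
  intro h
  have h3 := padicValNat_choose' (p := p) (n := k - 1) (k := p ^ j) (Nat.lt_succ_self _)
  have h4 : padicValNat p (((k - 1) + p ^ j).choose (p ^ j)) ≠ 0 := by
    have := (dvd_iff_padicValNat_ne_zero (p := p) (Nat.choose_pos (Nat.le_add_left (p ^ j) (k - 1))).ne').1 h
    exact this
  apply h4
  rw [h3, Finset.card_eq_zero, Finset.filter_eq_empty_iff]
  intro i hi
  have hi1 := (Finset.mem_Ico.1 hi).1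
  rw [not_le]
  have hpi : 0 < p ^ i := pow_pos hp.pos i
  rcases Nat.lt_or_ge j i with h5 | h5
  · have h6 : p ^ j < p ^ i := Nat.pow_lt_pow_right hp.one_lt h5
    rw [Nat.mod_eq_of_lt h6]
    obtain ⟨r, hr⟩ : ∃ r, r = k % p ^ i := ⟨_, rfl⟩
    have hjd : p ^ j ∣ p ^ i := pow_dvd_pow p h5.le
    have hrd : p ^ j ∣ r := by rw [hr]; exact (Nat.dvd_mod_iff hjd).2 h1
    have hr0 : r ≠ 0 := by
      intro h0
      apply h2
      exact (pow_dvd_pow p h5).trans (Nat.dvd_of_mod_eq_zero (hr.symm.trans h0))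
    have hrlt : r < p ^ i := by rw [hr]; exact Nat.mod_lt _ hpi
    have hdm := Nat.div_add_mod k (p ^ i)
    rw [← hr] at hdm
    have hrpos : 1 ≤ r := Nat.pos_of_ne_zero hr0
    have hk1 : (k - 1) % p ^ i = r - 1 := by
      have h7 : k - 1 = p ^ i * (k / p ^ i) + (r - 1) := by omega
      rw [h7, Nat.mul_add_mod, Nat.mod_eq_of_lt (show r - 1 < p ^ i by omega)]
    rw [hk1]
    obtain ⟨a, ha⟩ := hrd
    obtain ⟨b, hb⟩ := hjd
    have hab : a < b := by
      rw [ha, hb] at hrlt
      exact Nat.lt_of_mul_lt_mul_left hrlt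
    have : p ^ j * (a + 1) ≤ p ^ j * b := Nat.mul_le_mul_left _ hab
    rw [← hb, mul_add, mul_one, ← ha] at this
    omega
  · have h6 : p ^ i ∣ p ^ j := pow_dvd_pow p h5
    rw [Nat.mod_eq_zero_of_dvd h6, zero_add]
    exact Nat.mod_lt _ hpi

section
open scoped Pointwise
variable {α : Type*} [Fintype α] [DecidableEq α] (G : Subgroup (Equiv.Perm α))

/-- the image of a finite set -/
def im (g : Equiv.Perm α) (A : Finset α) : Finset α := A.image g

theorem im_card (g : Equiv.Perm α) (A : Finset α) : (im g A).card = A.card := Finset.card_image_of_injective _ g.injective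

theorem im_mul (g h : Equiv.Perm α) (A : Finset α) : im (g * h) A = im g (im h A) := by
  rw [im, im, im, Finset.image_image]; rfl

theorem im_one (A : Finset α) : im 1 A = A := by
  rw [im]
  exact Finset.image_id

theorem im_sub {g : Equiv.Perm α} {A B : Finset α} : im g A ⊆ im g B ↔ A ⊆ B := Finset.image_subset_image_iff g.injective

theorem main {k : ℕ} (hk : 2 ≤ k) (hG : ∀ A B : Finset α, A.card = k → B.card = k → ∃ g ∈ G, im g A = B)
    (hq : ∀ q : ℕ, IsPrimePow q → q ∣ k → k + q - 1 ≤ Fintype.card α) (A₀ : Finset α) (hA₀ : A₀.card = k - 1) (A : Finset α) (hA : A.card = k - 1) :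
    ∃ g ∈ G, im g A₀ = A := by
  classical
  let O : Finset (Finset α) := Finset.univ.filter (fun A => ∃ g ∈ G, im g A₀ = A)
  have hO : ∀ A, A ∈ O ↔ ∃ g ∈ G, im g A₀ = A := fun A => by simp [O]
  have hOc : ∀ A ∈ O, A.card = k - 1 := by
    intro A hA
    obtain ⟨g, -, rfl⟩ := (hO A).1 hA
    rw [im_card, hA₀]
  have hOG : ∀ g ∈ G, ∀ A, im g A ∈ O ↔ A ∈ O := by
    intro g hg A
    rw [hO, hO]
    constructor
    · rintro ⟨h, hh, e⟩
      refine ⟨g⁻¹ * h, mul_mem (inv_mem hg) hh, ?_⟩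
      rw [im_mul, e, ← im_mul, inv_mul_cancel, im_one]
    · rintro ⟨h, hh, e⟩
      exact ⟨g * h, mul_mem hg hh, by rw [im_mul, e]⟩
  -- sizes
  obtain ⟨p₀, hp₀, hp₀k⟩ := Nat.exists_prime_and_dvd (show k ≠ 1 by omega)
  have hkn : k + 1 ≤ Fintype.card α := by
    have := hq p₀ hp₀.isPrimePow hp₀k
    have := hp₀.two_le
    omega
  have hsup : ∀ A : Finset α, A.card = k - 1 → ∃ B, A ⊆ B ∧ B.card = k := by
    intro A hA
    obtain ⟨B, h1, h2, h3⟩ := Finset.exists_subsuperset_card_eq (s := A) (t := Finset.univ) (n := k) (Finset.subset_univ _) (by omega)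
      (by rw [Finset.card_univ]; omega)
    exact ⟨B, h1, h3⟩
  obtain ⟨B₀, hB₀, hB₀c⟩ := hsup A₀ hA₀
  let L : Finset α → Finset (Finset α) := fun B => O.filter (fun A => A ⊆ B)
  have hL : ∀ B : Finset α, B.card = k → (L B).card = (L B₀).card := by
    intro B hB
    obtain ⟨g, hg, e⟩ := hG B₀ B hB₀c hB
    symm
    refine Finset.card_bij (fun A _ => im g A) ?_ ?_ ?_
    · intro A hA
      obtain ⟨h1, h2⟩ := Finset.mem_filter.1 hA
      exact Finset.mem_filter.2 ⟨(hOG g hg A).2 h1, by rw [← e]; exact im_sub.2 h2⟩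
    · intro A _ A' _ h
      have := congrArg (im g⁻¹) h
      rwa [← im_mul, ← im_mul, inv_mul_cancel, im_one, im_one] at this
    · intro A hA
      obtain ⟨h1, h2⟩ := Finset.mem_filter.1 hA
      refine ⟨im g⁻¹ A, Finset.mem_filter.2 ⟨(hOG g⁻¹ (inv_mem hg) A).2 h1, ?_⟩, ?_⟩
      · have h3 : im g⁻¹ A ⊆ im g⁻¹ B := im_sub.2 h2
        rwa [← e, ← im_mul, inv_mul_cancel, im_one] at h3
      · rw [← im_mul, mul_inv_cancel, im_one]
  set l := (L B₀).card with hl
  have hl0 : 0 < l := Finset.card_pos.2 ⟨A₀, Finset.mem_filter.2 ⟨(hO A₀).2 ⟨1, one_mem _, im_one _⟩, hB₀⟩⟩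
  have hLsub : ∀ B, B.card = k → L B ⊆ Finset.powersetCard (k - 1) B := by
    intro B _ A hA
    obtain ⟨h1, h2⟩ := Finset.mem_filter.1 hA
    exact Finset.mem_powersetCard.2 ⟨h2, hOc A h1⟩
  have hPc : ∀ B : Finset α, B.card = k → (Finset.powersetCard (k - 1) B).card = k := by
    intro B hB
    rw [Finset.card_powersetCard, hB, Nat.choose_symm_of_eq_add (show k = (k - 1) + 1 by omega), Nat.choose_one_right]
  have hlk : l ≤ k := by
    have := Finset.card_le_card (hLsub B₀ hB₀c)
    rwa [hPc B₀ hB₀c] at this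
  -- double counting
  have hcount : ∀ S : Finset α, k ≤ S.card → (L S).card * k = l * S.card.choose (k - 1) := by
    intro S hS
    have h1 := Finset.card_mul_eq_card_mul (s := L S) (t := Finset.powersetCard k S) (fun A B => A ⊆ B) (m := S.card - (k - 1)) (n := l) (by
      intro A hA
      obtain ⟨h1, h2⟩ := Finset.mem_filter.1 hA
      have hAc := hOc A h1
      have h3 : (S \ A).card = S.card - (k - 1) := by rw [Finset.card_sdiff_of_subset h2, hAc]
      rw [← h3]
      symm
      refine Finset.card_bij (fun x _ => insert x A) ?_ ?_ ?_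
      · intro x hx
        obtain ⟨hx1, hx2⟩ := Finset.mem_sdiff.1 hx
        rw [Finset.mem_bipartiteAbove, Finset.mem_powersetCard]
        refine ⟨⟨Finset.insert_subset hx1 h2, ?_⟩, Finset.subset_insert _ _⟩
        rw [Finset.card_insert_of_notMem hx2, hAc]; omega
      · intro x hx y hy h
        obtain ⟨hx1, hx2⟩ := Finset.mem_sdiff.1 hx
        have : x ∈ insert y A := by rw [← h]; exact Finset.mem_insert_self _ _
        exact (Finset.mem_insert.1 this).resolve_right hx2
      · intro B hB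
        rw [Finset.mem_bipartiteAbove, Finset.mem_powersetCard] at hB
        obtain ⟨⟨hB1, hB2⟩, hB3⟩ := hB
        have h4 : (B \ A).card = 1 := by rw [Finset.card_sdiff_of_subset hB3, hB2, hAc]; omega
        obtain ⟨x, hx⟩ := Finset.card_eq_one.1 h4
        have hx1 : x ∈ B \ A := by rw [hx]; exact Finset.mem_singleton_self _
        refine ⟨x, Finset.mem_sdiff.2 ⟨hB1 (Finset.mem_sdiff.1 hx1).1, (Finset.mem_sdiff.1 hx1).2⟩, ?_⟩
        rw [Finset.insert_eq, ← hx, Finset.sdiff_union_of_subset hB3]) (by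
      intro B hB
      obtain ⟨hB1, hB2⟩ := Finset.mem_powersetCard.1 hB
      rw [← hL B hB2]
      congr 1
      ext A
      rw [Finset.mem_bipartiteBelow]
      constructor
      · rintro ⟨h1, h3⟩; exact Finset.mem_filter.2 ⟨(Finset.mem_filter.1 h1).1, h3⟩
      · intro h
        obtain ⟨h1, h3⟩ := Finset.mem_filter.1 h
        exact ⟨Finset.mem_filter.2 ⟨h1, h3.trans hB1⟩, h3⟩)
    rw [Finset.card_powersetCard] at h1
    have h2 := Nat.choose_succ_right_eq S.card (k - 1)
    rw [show k - 1 + 1 = k by omega] at h2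
    have h3 : 0 < S.card - (k - 1) := by omega
    apply Nat.eq_of_mul_eq_mul_right h3
    calc (L S).card * k * (S.card - (k - 1)) = ((L S).card * (S.card - (k - 1))) * k := by ring
      _ = S.card.choose k * l * k := by rw [h1]
      _ = l * (S.card.choose k * k) := by ring
      _ = l * S.card.choose (k - 1) * (S.card - (k - 1)) := by rw [h2]; ring
  have hdvd : k ∣ l := by
    rw [Nat.dvd_iff_prime_pow_dvd_dvd]
    intro p i hp hi
    rcases Nat.eq_zero_or_pos i with h0 | h0
    · rw [h0, pow_zero]; exact one_dvd _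
    set j := k.factorization p with hj
    have hk0 : k ≠ 0 := by omega
    have hij : i ≤ j := (hp.pow_dvd_iff_le_factorization hk0).1 hi
    have hjk : p ^ j ∣ k := (hp.pow_dvd_iff_le_factorization hk0).2 le_rfl
    have hjk' : ¬ p ^ (j + 1) ∣ k := fun h => by
      have := (hp.pow_dvd_iff_le_factorization hk0).1 h
      omega
    have hn := hq (p ^ j) (hp.isPrimePow.pow (by omega)) hjk
    obtain ⟨S, hS⟩ := Finset.exists_subset_card_eq (s := (Finset.univ : Finset α)) (n := k + p ^ j - 1) (by rw [Finset.card_univ]; exact hn)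
    have hpj : 0 < p ^ j := pow_pos hp.pos j
    have h1 := hcount S (by rw [hS.2]; omega)
    rw [hS.2] at h1
    have h2 : p ^ j ∣ l * (k + p ^ j - 1).choose (k - 1) := by
      rw [← h1]; exact Dvd.dvd.mul_left hjk _
    have h3 := not_dvd_choose hp (by omega) hjk hjk'
    have h4 : Nat.Coprime (p ^ j) ((k + p ^ j - 1).choose (k - 1)) := Nat.Coprime.pow_left _ ((Nat.Prime.coprime_iff_not_dvd hp).2 h3)
    exact (pow_dvd_pow p hij).trans (h4.dvd_of_dvd_mul_right h2)
  have hlk' : l = k := le_antisymm hlk (Nat.le_of_dvd hl0 hdvd)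
  obtain ⟨B, hAB, hB⟩ := hsup A hA
  have h5 : L B = Finset.powersetCard (k - 1) B := Finset.eq_of_subset_of_card_le (hLsub B hB) (by rw [hPc B hB, hL B hB, hlk'])
  have h6 : A ∈ L B := by rw [h5]; exact Finset.mem_powersetCard.2 ⟨hAB, hA⟩
  exact (hO A).1 (Finset.mem_filter.1 h6).1

end

/-- A `k`-homogeneous permutation group of degree `n`, `k ≥ 2`, with `k + q - 1 ≤ n` for every prime power `q` dividing `k`, is `(k-1)`-homogeneous. -/
theorem result {α : Type*} [Fintype α] [DecidableEq α] (G : Subgroup (Equiv.Perm α)) {k : ℕ} (hk : 2 ≤ k) (hG : MulAction.IsPretransitive G (Set.powersetCard α k)) (hq : ∀ q : ℕ, IsPrimePow q → q ∣ k → k + q - 1 ≤ Fintype.card α) : MulAction.IsPretransitive G (Set.powersetCard α (k - 1)) := by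
  classical
  have key : ∀ A B : Finset α, A.card = k → B.card = k → ∃ g ∈ G, im g A = B := by
    intro A B hA hB
    obtain ⟨⟨g, hg⟩, e⟩ := MulAction.exists_smul_eq G (⟨A, hA⟩ : Set.powersetCard α k) ⟨B, hB⟩
    refine ⟨g, hg, ?_⟩
    have := congrArg Subtype.val e
    exact this
  constructor
  rintro ⟨A, hA⟩ ⟨B, hB⟩
  obtain ⟨g, hg, e⟩ := main G hk key hq A hA B hB
  refine ⟨⟨g, hg⟩, Subtype.ext ?_⟩
  exact e

end Cfsg.Agent.S0736
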