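import Cfsg.Statements.S0738
import Cfsg.Agent.H7.Zas4

set_option autoImplicit false
open Cfsg
open Cfsg.Agent.H7.Zas3 MulAction

namespace Cfsg.Agent.S0738

/-- Let a finite Zassenhaus group of degree `n + 1` have two-point stabilisers of order `d` with `2d ≥ n - 1`. Then a normal subgroup of a point stabiliser acting regularly on the remaining points is elementary abelian, and the degree is a prime power plus one. -/
theorem result {G Ω : Type*} [Group G] [Finite G] [MulAction G Ω] [Fintype Ω] (hZ : Cfsg.IsZassenhausGroup G Ω) {a b : Ω} (hab : a ≠ b) (hd : Fintype.card Ω - 2 ≤ 2 * Nat.card ↥(MulAction.stabilizer G a ⊓ MulAction.stabilizer G b)) (F : Subgroup G) (hFle : F ≤ MulAction.stabilizer G a) (hFn : (F.subgroupOf (MulAction.stabilizer G a)).Normal) (hreg : ∀ y z : Ω, y ≠ a → z ≠ a → ∃! u : F, (u : G) • y = z) : IsMulCommutative F ∧ ∃ p f : ℕ, p.Prime ∧ (∀ u ∈ F, u ^ p = 1) ∧ Fintype.card Ω = p ^ f + 1 := by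
  have h := ker_of hab hFle hFn hreg
  have hcom := h.comm hZ hd
  have h3 := three_le hZ
  have hcard := h.card
  have hn1 : Nat.card F ≠ 1 := by omega
  obtain ⟨p, hp, hpd⟩ := Nat.exists_prime_and_dvd hn1
  haveI : Fact p.Prime := ⟨hp⟩
  obtain ⟨⟨u, hu⟩, hup⟩ := exists_prime_orderOf_dvd_card' (G := F) p hpd
  rw [Subgroup.orderOf_mk] at hup
  have hu1 : u ≠ 1 := by
    rintro rfl
    rw [orderOf_one] at hup
    exact hp.one_lt.ne hup
  let K : Subgroup G :=
    { carrier := {v | v ∈ F ∧ v ^ p = 1}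
      one_mem' := ⟨one_mem _, one_pow _⟩
      mul_mem' := by
        rintro x y ⟨hx, hx'⟩ ⟨hy, hy'⟩
        refine ⟨mul_mem hx hy, ?_⟩
        rw [(show Commute x y from hcom x hx y hy).mul_pow, hx', hy', one_mul]
      inv_mem' := by
        rintro x ⟨hx, hx'⟩
        exact ⟨inv_mem hx, by rw [inv_pow, hx', inv_one]⟩ }
  have hK : K = F := by
    refine h.eq_of_inv hZ hd K (fun v hv => hv.1) ?_ (u := u) ⟨hu, by rw [← hup, pow_orderOf_eq_one]⟩ hu1
    intro x hx v hv
    refine ⟨h.nor x hx.1 v hv.1, ?_⟩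
    rw [conj_pow, hv.2, mul_one, mul_inv_cancel]
  have hexp : ∀ v ∈ F, v ^ p = 1 := by
    intro v hv
    rw [← hK] at hv
    exact hv.2
  have hpg : IsPGroup p F := by
    intro v
    refine ⟨1, ?_⟩
    apply Subtype.ext
    rw [pow_one]
    exact hexp v.1 v.2
  obtain ⟨f, hf⟩ := IsPGroup.iff_card.1 hpg
  refine ⟨⟨⟨fun x y => Subtype.ext (hcom x.1 x.2 y.1 y.2)⟩⟩, p, f, hp, hexp, ?_⟩
  omega

end Cfsg.Agent.S0738
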