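import Cfsg.Statements.S0740
import Cfsg.Agent.H7.Zas3

set_option autoImplicit false
open Cfsg
open Cfsg.Agent.H7.Zas3 MulAction

namespace Cfsg.Agent.S0740

/-- In a finite Zassenhaus group any two points `a ≠ b` are swapped by an involution; every such involution has exactly one fixed point when the degree is odd and 0 or 2 fixed points when the degree is even; and if the two-point stabiliser has even order, some such involution has exactly 2 fixed points. -/
theorem result {G Ω : Type*} [Group G] [Finite G] [MulAction G Ω] [Fintype Ω] (hZ : Cfsg.IsZassenhausGroup G Ω) {a b : Ω} (hab : a ≠ b) : (∃ s : G, orderOf s = 2 ∧ s • a = b ∧ s • b = a) ∧ (∀ s : G, orderOf s = 2 → s • a = b → s • b = a → (Odd (Fintype.card Ω) → Nat.card (MulAction.fixedBy Ω s) = 1) ∧ (Even (Fintype.card Ω) → Nat.card (MulAction.fixedBy Ω s) = 0 ∨ Nat.card (MulAction.fixedBy Ω s) = 2)) ∧ (Even (Fintype.card Ω) → Even (Nat.card ↥(MulAction.stabilizer G a ⊓ MulAction.stabilizer G b)) → ∃ s : G, orderOf s = 2 ∧ s •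 a = b ∧ s • b = a ∧ Nat.card (MulAction.fixedBy Ω s) = 2) := by
  have second : ∀ s : G, orderOf s = 2 → s • a = b → s • b = a → (Odd (Fintype.card Ω) → Nat.card (MulAction.fixedBy Ω s) = 1) ∧
      (Even (Fintype.card Ω) → Nat.card (MulAction.fixedBy Ω s) = 0 ∨ Nat.card (MulAction.fixedBy Ω s) = 2) := by
    intro s hs _ _
    obtain ⟨hs1, hs2⟩ := orderOf_two_iff.1 hs
    have h1 := card_fixedBy_le hZ hs1
    have h2 := card_fixedBy_mod (Ω := Ω) hs2
    constructor
    · intro h
      have h3 := Nat.odd_iff.1 h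
      omega
    · intro h
      have h3 := Nat.even_iff.1 h
      omega
  refine ⟨?_, second, ?_⟩
  · obtain ⟨s, h1, h2, h3, h4⟩ := exists_swap_inv hZ hab
    exact ⟨s, orderOf_two_iff.2 ⟨h1, h2⟩, h3, h4⟩
  · intro he heven
    obtain ⟨t, ht1, ht2, ht3, ht4⟩ := exists_inv hZ hab heven hab
    obtain ⟨x, hx⟩ := exists_moved hZ ht1
    have hxa : x ≠ a := by rintro rfl; exact hx ht3
    have hxb : x ≠ b := by rintro rfl; exact hx ht4
    obtain ⟨s, h1, h2, h3, h4, h5⟩ := exists_fix_swap hZ hab heven (α := x) (u := a) (v := b) (Ne.symm hxa) (Ne.symm hxb) hab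
    refine ⟨s, orderOf_two_iff.2 ⟨h1, h2⟩, h4, h5, ?_⟩
    rcases (second s (orderOf_two_iff.2 ⟨h1, h2⟩) h4 h5).2 he with h | h
    · exfalso
      rw [Nat.card_eq_zero] at h
      rcases h with h | h
      · exact h.elim ⟨x, h3⟩
      · exact h.not_finite (inferInstance)
    · exact h

end Cfsg.Agent.S0740
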