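import Cfsg.Statements.S0744
import Cfsg.Agent.H3.Basic
import Cfsg.Agent.H7.Gleason

set_option autoImplicit false
open Cfsg

namespace Cfsg.Agent.S0744

/-- If for some `k > 1` the pointwise stabilisers of all `(k-1)`-subsets have the same order `> 1` and those of all `k`-subsets have the same order, then the group is `(k-1)`-transitive. -/
theorem result {α : Type*} [Fintype α] [DecidableEq α] (G : Subgroup (Equiv.Perm α)) {k : ℕ} (hk : 1 < k) (hkn : k ≤ Fintype.card α) (l m : ℕ) (hl : 1 < l) (hkm1 : ∀ s : Finset α, s.card = k - 1 → Nat.card (fixingSubgroup G (s : Set α)) = l) (hkm : ∀ s : Finset α, s.card = k → Nat.card (fixingSubgroup G (s : Set α)) = m) : MulAction.IsMultiplyPretransitive G α (k - 1) := by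
  classical
  obtain ⟨j, rfl⟩ : ∃ j, k = j + 2 := ⟨k - 2, by omega⟩
  change MulAction.IsMultiplyPretransitive G α (j + 1)
  have hkm1' : ∀ s : Finset α, s.card = j + 1 → Nat.card (fixingSubgroup G (s : Set α)) = l := hkm1
  have hins : ∀ (s : Finset α) (b : α), s.card = j + 1 → b ∉ s → fixingSubgroup G ((insert b s : Finset α) : Set α) ≤ fixingSubgroup G (s : Set α) ∧
      Nat.card (fixingSubgroup G ((insert b s : Finset α) : Set α)) = m := by
    intro s b hs hb
    refine ⟨?_, hkm _ (by rw [Finset.card_insert_of_notMem hb, hs])⟩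
    intro g hg
    rw [mem_fixingSubgroup_iff] at hg ⊢
    intro y hy
    exact hg y (Finset.mem_coe.2 (Finset.mem_insert_of_mem hy))
  obtain ⟨s0, hs0⟩ := Finset.exists_subset_card_eq (s := (Finset.univ : Finset α)) (n := j + 1) (by rw [Finset.card_univ]; omega)
  have hnotmem : ∀ s : Finset α, s.card = j + 1 → ∃ b, b ∉ s := by
    intro s hs
    by_contra hcon
    push Not at hcon
    have : s = Finset.univ := Finset.eq_univ_iff_forall.2 hcon
    rw [this, Finset.card_univ] at hs
    omega
  obtain ⟨b0, hb0⟩ := hnotmem s0 hs0.2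
  have hml : m ∣ l := by
    have h1 := hins s0 b0 hs0.2 hb0
    rw [← h1.2, ← hkm1' s0 hs0.2]
    exact Subgroup.card_dvd_of_le h1.1
  have hne : m ≠ l := by
    intro hme
    have h1 : fixingSubgroup G (s0 : Set α) = ⊥ := by
      rw [eq_bot_iff]
      intro g hg
      rw [Subgroup.mem_bot]
      apply Subtype.ext
      apply Equiv.ext
      intro x
      by_cases hx : x ∈ s0
      · rw [mem_fixingSubgroup_iff] at hg
        exact hg x hx
      · have h2 := hins s0 x hs0.2 hx
        have h3 : fixingSubgroup G ((insert x s0 : Finset α) : Set α) = fixingSubgroup G (s0 : Set α) :=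
          Subgroup.eq_of_le_of_card_ge h2.1 (by rw [h2.2, hkm1' s0 hs0.2, hme])
        rw [← h3, mem_fixingSubgroup_iff] at hg
        exact hg x (Finset.mem_coe.2 (Finset.mem_insert_self _ _))
    have h2 := hkm1' s0 hs0.2
    rw [h1, Subgroup.card_bot] at h2
    omega
  obtain ⟨c, hc⟩ := hml
  have hc1 : c ≠ 1 := by
    rintro rfl
    exact hne (by rw [hc, mul_one])
  obtain ⟨p, hp, hpc⟩ := Nat.exists_prime_and_dvd hc1
  haveI : Fact p.Prime := ⟨hp⟩
  refine Cfsg.Agent.H7.Gleason.gleason hp j (by omega) ?_
  intro s hs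
  let L := fixingSubgroup G (s : Set α)
  obtain ⟨P⟩ := (inferInstance : Nonempty (Sylow p L))
  have hcard : Nat.card ((P : Subgroup L).map L.subtype) = p ^ (l.factorization p) := by
    rw [Subgroup.card_map_of_injective L.subtype_injective, P.card_eq_multiplicity, hkm1' s hs]
  refine ⟨(P : Subgroup L).map L.subtype, P.2.map _, ?_⟩
  have hle : (P : Subgroup L).map L.subtype ≤ L := Subgroup.map_subtype_le _
  ext x
  constructor
  · intro hx
    by_contra hxs
    have h2 := hins s x hs (fun h => hxs (Finset.mem_coe.2 h))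
    have h3 : (P : Subgroup L).map L.subtype ≤ fixingSubgroup G ((insert x s : Finset α) : Set α) := by
      intro g hg
      rw [mem_fixingSubgroup_iff]
      intro y hy
      rw [Finset.mem_coe, Finset.mem_insert] at hy
      rcases hy with rfl | hy
      · exact hx ⟨g, hg⟩
      · exact (mem_fixingSubgroup_iff G).1 (hle hg) y hy
    have h4 := Subgroup.card_dvd_of_le h3
    rw [hcard, h2.2] at h4
    have h5 : p ^ (l.factorization p + 1) ∣ l := by
      rw [pow_succ]
      nth_rewrite 2 [hc]
      exact mul_dvd_mul h4 hpc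
    exact Nat.pow_succ_factorization_not_dvd (by omega) hp h5
  · intro hx g
    exact (mem_fixingSubgroup_iff G).1 (hle g.2) x hx

end Cfsg.Agent.S0744
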