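import Cfsg.Statements.S0750
import Cfsg.Agent.H7.Witt

set_option autoImplicit false
open Cfsg
open Cfsg.Agent.H7.Witt Module

namespace Cfsg.Agent.S0750

/-- Witt's Lemma for quadratic forms over a finite field, in any characteristic: if Q is a quadratic form on a finite-dimensional space V whose polar bilinear form is non-degenerate, then every linear equivalence between subspaces X, Y of V that preserves Q extends to a Q-preserving linear automorphism of V. (In odd characteristic this is the symmetric-bilinear case; in characteristic two it is the statement for non-degenerate quadratic forms.) -/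
theorem result {F V : Type*} [Field F] [Finite F] [AddCommGroup V] [Module F V] [FiniteDimensional F V] (Q : QuadraticForm F V) (hQ : (QuadraticMap.polarBilin Q).Nondegenerate) (X Y : Submodule F V) (φ : X ≃ₗ[F] Y) (hφ : ∀ x : X, Q (φ x : V) = Q (x : V)) : ∃ g : V ≃ₗ[F] V, (∀ v : V, Q (g v) = Q v) ∧ ∀ x : X, g (x : V) = (φ x : V) := by
  have hs : ∀ x y, QuadraticMap.polarBilin Q x y = QuadraticMap.polarBilin Q y x := fun x y => QuadraticMap.polar_comm Q x y
  have hadd : ∀ x y, Q (x + y) = Q x + Q y + QuadraticMap.polarBilin Q x y := by
    intro x y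
    change Q (x + y) = Q x + Q y + (Q (x + y) - Q x - Q y)
    ring
  have hsm : ∀ (a : F) (x : V), Q (a • x) = a * a * Q x := fun a x => QuadraticMap.map_smul Q a x
  obtain ⟨g, hg, hgx⟩ := witt_subspaces (σ := RingHom.id F) (B := QuadraticMap.polarBilin Q) (Q := Q)
    (step_quad hs (fun v hv => hQ.2 v hv) hadd hsm) X Y φ (fun x x' => by
      have h1 := hadd (φ x : V) (φ x' : V)
      have h2 := hadd (x : V) (x' : V)
      have h3 : Q ((φ x : V) + (φ x' : V)) = Q ((x : V) + (x' : V)) := by
        have := hφ (x + x')
        rw [map_add] at this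
        exact this
      rw [h3, hφ, hφ] at h1
      linear_combination h2 - h1) hφ
  exact ⟨g, hg.2, hgx⟩

end Cfsg.Agent.S0750
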