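import Cfsg.Statements.S0757
import Mathlib

set_option autoImplicit false
open Cfsg

namespace Cfsg.Agent.S0757

/-- The two diagonal forms Σ x_i^2 and Σ_(i<n) x_i^2 + α x_n^2 on F^(n+1), with α a non-square and 2 ≠ 0 in F, are inequivalent quadratic forms (so over a finite field of odd order there are exactly two classes of non-singular symmetric bilinear forms in each dimension). -/
theorem result {F : Type*} [Field F] (h2 : (2 : F) ≠ 0) (n : ℕ) (α : F) (hα : ¬ IsSquare α) : ¬ (QuadraticMap.weightedSumSquares F (fun _ : Fin (n + 1) => (1 : F))).Equivalent (QuadraticMap.weightedSumSquares F (fun i : Fin (n + 1) => if i = Fin.last n then α else (1 : F))) := by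
  rintro ⟨e⟩
  -- the matrix of the isometry
  let M : Matrix (Fin (n + 1)) (Fin (n + 1)) F := LinearMap.toMatrix' (e.toLinearEquiv : (Fin (n + 1) → F) →ₗ[F] (Fin (n + 1) → F))
  let c : Fin (n + 1) → F := fun i => if i = Fin.last n then α else 1
  have hQ : ∀ x : Fin (n + 1) → F, ∑ i, c i * (e x i * e x i) = ∑ i, x i * x i := by
    intro x
    have h := e.map_app x
    rw [QuadraticMap.weightedSumSquares_apply, QuadraticMap.weightedSumSquares_apply] at h
    simpa [c] using h
  have hB : ∀ x y : Fin (n + 1) → F, ∑ i, c i * (e x i * e y i) = ∑ i, x i * y i := by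
    intro x y
    have h1 := hQ (x + y)
    have hx := hQ x
    have h3 := hQ y
    have e1 : ∑ i, c i * (e (x + y) i * e (x + y) i) = ∑ i, c i * (e x i * e x i) + ∑ i, c i * (e y i * e y i) + 2 * ∑ i, c i * (e x i * e y i) := by
      rw [Finset.mul_sum, ← Finset.sum_add_distrib, ← Finset.sum_add_distrib]
      apply Finset.sum_congr rfl
      intro i _
      have : e (x + y) i = e x i + e y i := by
        have := e.toLinearEquiv.map_add x y
        exact congrFun this i
      rw [this]
      ring
    have e2 : ∑ i, (x + y) i * (x + y) i = ∑ i, x i * x i + ∑ i, y i * y i + 2 * ∑ i, x i * y i := by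
      rw [Finset.mul_sum, ← Finset.sum_add_distrib, ← Finset.sum_add_distrib]
      apply Finset.sum_congr rfl
      intro i _
      rw [Pi.add_apply]
      ring
    rw [e1, e2, hx, h3] at h1
    have h4 := add_left_cancel h1
    exact mul_left_cancel₀ h2 h4
  have hM : M.transpose * Matrix.diagonal c * M = 1 := by
    ext i j
    have h1 := hB (Pi.single i 1) (Pi.single j 1)
    rw [Matrix.mul_assoc, Matrix.mul_apply]
    have h2 : ∀ k, M.transpose i k * (Matrix.diagonal c * M) k j = c k * (e (Pi.single i 1) k * e (Pi.single j 1) k) := by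
      intro k
      rw [Matrix.diagonal_mul, Matrix.transpose_apply]
      have : ∀ i, M k i = e (Pi.single i 1) k := by
        intro i
        change LinearMap.toMatrix' (e.toLinearEquiv : (Fin (n + 1) → F) →ₗ[F] (Fin (n + 1) → F)) k i = _
        rw [LinearMap.toMatrix'_apply]
        congr 2
      rw [this, this]
      ring
    rw [Finset.sum_congr rfl (fun k _ => h2 k), h1, Matrix.one_apply]
    simp [Pi.single_apply, eq_comm]
  have hdet := congrArg Matrix.det hM
  rw [Matrix.det_mul, Matrix.det_mul, Matrix.det_transpose, Matrix.det_one, Matrix.det_diagonal] at hdet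
  have hprod : ∏ i, c i = α := by
    rw [Fin.prod_univ_castSucc]
    have : ∀ i : Fin n, c i.castSucc = 1 := by
      intro i
      simp only [c]
      rw [if_neg (Fin.castSucc_lt_last i).ne]
    simp [this, c]
  rw [hprod] at hdet
  have hM0 : M.det ≠ 0 := by
    intro h
    rw [h] at hdet
    simp at hdet
  apply hα
  refine ⟨M.det⁻¹, ?_⟩
  field_simp
  linear_combination hdet

end Cfsg.Agent.S0757
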