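import Cfsg.Statements.S0758
import Mathlib

set_option autoImplicit false
open Cfsg

namespace Cfsg.Agent.S0758

/-- For a finite field F of odd order q and a non-square α: the form x² + y² is isotropic iff q ≡ 1 mod 4, and the form x² + α y² is isotropic iff q ≡ 3 mod 4. -/
theorem result {F : Type*} [Field F] [Fintype F] (h2 : (2 : F) ≠ 0) (α : F) (hα : ¬ IsSquare α) : ((∃ x y : F, (x ≠ 0 ∨ y ≠ 0) ∧ x ^ 2 + y ^ 2 = 0) ↔ Fintype.card F % 4 = 1) ∧ ((∃ x y : F, (x ≠ 0 ∨ y ≠ 0) ∧ x ^ 2 + α * y ^ 2 = 0) ↔ Fintype.card F % 4 = 3) := by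
  have hch : ringChar F ≠ 2 := by
    intro h
    apply h2
    have := ringChar.Nat.cast_ringChar (R := F)
    rw [h] at this
    exact_mod_cast this
  have hodd : Fintype.card F % 4 = 1 ∨ Fintype.card F % 4 = 3 := by
    have := FiniteField.odd_card_of_char_ne_two hch
    omega
  have key : ∀ β : F, β ≠ 0 → ((∃ x y : F, (x ≠ 0 ∨ y ≠ 0) ∧ x ^ 2 + β * y ^ 2 = 0) ↔ IsSquare (-β)) := by
    intro β hβ
    constructor
    · rintro ⟨x, y, hxy, h⟩
      have hy : y ≠ 0 := by
        rintro rfl
        have : x = 0 := by simpa using h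
        rcases hxy with h | h
        · exact h this
        · exact h rfl
      refine ⟨x / y, ?_⟩
      field_simp
      linear_combination -h
    · rintro ⟨s, hs⟩
      exact ⟨s, 1, Or.inr one_ne_zero, by linear_combination -hs⟩
  have hα0 : α ≠ 0 := by
    rintro rfl
    exact hα ⟨0, by simp⟩
  constructor
  · have h1 := key 1 one_ne_zero
    simp only [one_mul] at h1
    rw [h1, FiniteField.isSquare_neg_one_iff]
    omega
  · rw [key α hα0]
    have hiff : IsSquare (-α) ↔ ¬ IsSquare (-1 : F) := by
      classical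
      have hn1 : (-1 : F) ≠ 0 := neg_ne_zero.2 one_ne_zero
      have h1 : quadraticChar F (-α) = quadraticChar F (-1) * quadraticChar F α := by
        rw [← map_mul, neg_one_mul]
      have h2 : quadraticChar F α = -1 := quadraticChar_neg_one_iff_not_isSquare.2 hα
      rw [← quadraticChar_one_iff_isSquare (neg_ne_zero.2 hα0), h1, h2, ← quadraticChar_neg_one_iff_not_isSquare]
      constructor
      · intro h
        linarith
      · intro h
        rw [h]
        norm_num
    rw [hiff, FiniteField.isSquare_neg_one_iff]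
    omega

end Cfsg.Agent.S0758
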