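import Cfsg.Statements.S0759
import Cfsg.Agent.H7.FormBasis

set_option autoImplicit false
open Cfsg
open Cfsg.Agent.H7.FormBasis Module

namespace Cfsg.Agent.S0759

/-- Type of the orthonormal form: over a finite field of odd order q and for m ≥ 1, the quadratic form Σ_(i<2m) x_i² on F^(2m) admits an m-dimensional subspace on which it vanishes identically if and only if it is not the case that q ≡ 3 (mod 4) and m is odd. -/
theorem result {F : Type*} [Field F] [Fintype F] (h2 : (2 : F) ≠ 0) (m : ℕ) (hm : 1 ≤ m) : (∃ W : Submodule F (Fin (2 * m) → F), Module.finrank F W = m ∧ ∀ w ∈ W, ∑ i, w i ^ 2 = 0) ↔ ¬ (Fintype.card F % 4 = 3 ∧ Odd m) := by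
  classical
  have hch : ringChar F ≠ 2 := by
    intro h
    apply h2
    have := ringChar.Nat.cast_ringChar (R := F)
    rw [h] at this
    exact_mod_cast this
  have hodd : Fintype.card F % 4 = 1 ∨ Fintype.card F % 4 = 3 := by
    have := FiniteField.odd_card_of_char_ne_two hch
    omega
  -- a linear map gives a subspace
  have hmap : ∀ {κ : Type} [Fintype κ] (hκ : Fintype.card κ = m) (φ : (κ → F) →ₗ[F] (Fin (2 * m) → F)),
      Function.Injective φ → (∀ u, ∑ i, φ u i ^ 2 = 0) →
      ∃ W : Submodule F (Fin (2 * m) → F), Module.finrank F W = m ∧ ∀ w ∈ W, ∑ i, w i ^ 2 = 0 := by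
    intro κ _ hκ φ hφ h0
    refine ⟨LinearMap.range φ, ?_, ?_⟩
    · rw [LinearMap.finrank_range_of_inj hφ, Module.finrank_fintype_fun_eq_card, hκ]
    · rintro _ ⟨u, rfl⟩
      exact h0 u
  constructor
  · rintro ⟨W, hW, hW0⟩ ⟨hq, hm'⟩
    have hn1 : ¬ IsSquare (-1 : F) := by
      rw [FiniteField.isSquare_neg_one_iff]
      omega
    apply hn1
    -- a basis of the space adapted to `W`
    let B : (Fin (2 * m) → F) → (Fin (2 * m) → F) → F := fun x y => ∑ i, x i * y i
    have hB0 : ∀ x ∈ W, ∀ y ∈ W, ∑ i, x i * y i = 0 := by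
      intro x hx y hy
      have h3 := hW0 (x + y) (W.add_mem hx hy)
      have e2 : ∑ i, (x + y) i ^ 2 = ∑ i, x i ^ 2 + ∑ i, y i ^ 2 + 2 * ∑ i, x i * y i := by
        rw [Finset.mul_sum, ← Finset.sum_add_distrib, ← Finset.sum_add_distrib]
        apply Finset.sum_congr rfl
        intro i _
        rw [Pi.add_apply]
        ring
      rw [e2, hW0 x hx, hW0 y hy, zero_add, zero_add] at h3
      exact (mul_eq_zero.1 h3).resolve_left h2
    obtain ⟨U, hU⟩ := Submodule.exists_isCompl W
    have hUf : finrank F U = m := by
      have := Submodule.finrank_add_eq_of_isCompl hU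
      rw [hW, Module.finrank_fintype_fun_eq_card, Fintype.card_fin] at this
      omega
    let bW : Basis (Fin m) F W := Module.finBasisOfFinrankEq F W hW
    let bU : Basis (Fin m) F U := Module.finBasisOfFinrankEq F U hUf
    let b : Basis (Fin m ⊕ Fin m) F (Fin (2 * m) → F) := (bW.prod bU).map (Submodule.prodEquivOfIsCompl W U hU)
    have hbl : ∀ i, b (Sum.inl i) = (bW i : Fin (2 * m) → F) := by
      intro i
      simp [b]
    have e : Fin (2 * m) ≃ Fin m ⊕ Fin m := Fintype.equivOfCardEq (by simp; omega)
    let P : Matrix (Fin m ⊕ Fin m) (Fin m ⊕ Fin m) F := fun i j => b i (e.symm j)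
    have hP : P.det ≠ 0 := by
      have h3 : LinearIndependent F P.row := by
        have h4 : LinearIndependent F (fun i => (LinearEquiv.funCongrLeft F F e.symm) (b i)) :=
          b.linearIndependent.map' _ (LinearEquiv.ker _)
        exact h4
      rw [Matrix.linearIndependent_rows_iff_isUnit, Matrix.isUnit_iff_isUnit_det] at h3
      exact h3.ne_zero
    let G : Matrix (Fin m ⊕ Fin m) (Fin m ⊕ Fin m) F := P * P.transpose
    have hG : ∀ i j, G i j = ∑ k, b i k * b j k := by
      intro i j
      change (P * P.transpose) i j = _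
      rw [Matrix.mul_apply]
      exact Equiv.sum_comp e.symm (fun k => b i k * b j k)
    have hG11 : G.toBlocks₁₁ = 0 := by
      ext i j
      change G (Sum.inl i) (Sum.inl j) = 0
      rw [hG, hbl, hbl]
      exact hB0 _ (bW i).2 _ (bW j).2
    have hG21 : G.toBlocks₂₁ = G.toBlocks₁₂.transpose := by
      ext i j
      change G (Sum.inr i) (Sum.inl j) = G (Sum.inl j) (Sum.inr i)
      rw [hG, hG]
      exact Finset.sum_congr rfl (fun k _ => mul_comm _ _)
    set A := G.toBlocks₁₂ with hA
    set D := G.toBlocks₂₂ with hD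
    have hGe : G = Matrix.fromBlocks 0 A A.transpose D := by
      rw [← hG11, ← hG21]
      exact (Matrix.fromBlocks_toBlocks G).symm
    have hS : (Matrix.fromBlocks 0 1 1 0 : Matrix (Fin m ⊕ Fin m) (Fin m ⊕ Fin m) F).det = (-1) ^ m := by
      have h3 : (Matrix.fromBlocks 0 1 1 0 : Matrix (Fin m ⊕ Fin m) (Fin m ⊕ Fin m) F) =
          Matrix.fromBlocks 1 1 0 1 * Matrix.fromBlocks 1 0 (-1) 1 * Matrix.fromBlocks 1 1 0 1 * Matrix.fromBlocks (-1) 0 0 1 := by
        simp [Matrix.fromBlocks_multiply]
      rw [h3, Matrix.det_mul, Matrix.det_mul, Matrix.det_mul, Matrix.det_fromBlocks_zero₂₁, Matrix.det_fromBlocks_zero₁₂,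
        Matrix.det_fromBlocks_zero₂₁, Matrix.det_neg]
      simp
    have hdet : G.det * (-1) ^ m = A.det * A.det := by
      rw [← hS, ← Matrix.det_mul, hGe]
      have : Matrix.fromBlocks 0 A A.transpose D * Matrix.fromBlocks 0 1 1 0 = Matrix.fromBlocks A 0 D A.transpose := by
        simp [Matrix.fromBlocks_multiply]
      rw [this, Matrix.det_fromBlocks_zero₁₂, Matrix.det_transpose]
    have hdet' : G.det = P.det * P.det := by
      change (P * P.transpose).det = _
      rw [Matrix.det_mul, Matrix.det_transpose]
    rw [hdet', hm'.neg_one_pow] at hdet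
    refine ⟨A.det / P.det, ?_⟩
    field_simp
    linear_combination hdet
  · intro hcon
    by_cases hsq : IsSquare (-1 : F)
    · obtain ⟨s, hs⟩ := hsq
      let e : Fin (2 * m) ≃ Fin m × Fin 2 := Fintype.equivOfCardEq (by simp; omega)
      let φ : (Fin m → F) →ₗ[F] (Fin (2 * m) → F) :=
        { toFun := fun u i => if (e i).2 = 0 then u (e i).1 else s * u (e i).1
          map_add' := fun u v => by
            funext i
            simp only [Pi.add_apply]
            split_ifs <;> ring
          map_smul' := fun c u => by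
            funext i
            simp only [Pi.smul_apply, smul_eq_mul, RingHom.id_apply]
            split_ifs <;> ring }
      have hφ : ∀ u i, φ u i = if (e i).2 = 0 then u (e i).1 else s * u (e i).1 := fun u i => rfl
      refine hmap (κ := Fin m) (by simp) φ ?_ ?_
      · rw [injective_iff_map_eq_zero]
        intro u hu
        funext j
        have h3 := congrFun hu (e.symm (j, 0))
        rw [hφ] at h3
        simpa using h3
      · intro u
        have h3 : ∑ i, φ u i ^ 2 = ∑ x : Fin m × Fin 2, (if x.2 = 0 then u x.1 else s * u x.1) ^ 2 := by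
          rw [← Equiv.sum_comp e]
          rfl
        rw [h3, Fintype.sum_prod_type]
        apply Finset.sum_eq_zero
        intro j _
        rw [Fin.sum_univ_two]
        simp only [if_true, Fin.isValue, one_ne_zero, if_false]
        linear_combination (-(u j ^ 2)) * hs
    · have hq3 : Fintype.card F % 4 = 3 := by
        rw [FiniteField.isSquare_neg_one_iff] at hsq
        omega
      have hme : Even m := by
        rw [← Nat.not_odd_iff_even]
        exact fun h => hcon ⟨hq3, h⟩
      obtain ⟨k, hk⟩ := hme
      obtain ⟨a, b, hab⟩ := exists_repr_one h2 (neg_ne_zero.2 (one_ne_zero (α := F))) (neg_ne_zero.2 (one_ne_zero (α := F)))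
      let e : Fin (2 * m) ≃ Fin k × (Fin 2 ⊕ Fin 2) := Fintype.equivOfCardEq (by simp; omega)
      let ψ : (Fin k × Fin 2 → F) → Fin k × (Fin 2 ⊕ Fin 2) → F := fun u x =>
        Sum.elim (fun j => u (x.1, j)) (fun j => if j = 0 then a * u (x.1, 0) - b * u (x.1, 1) else b * u (x.1, 0) + a * u (x.1, 1)) x.2
      let φ : (Fin k × Fin 2 → F) →ₗ[F] (Fin (2 * m) → F) :=
        { toFun := fun u i => ψ u (e i)
          map_add' := fun u v => by
            funext i
            simp only [ψ, Pi.add_apply]
            rcases (e i).2 with j | j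
            · simp
            · simp only [Sum.elim_inr]
              split_ifs <;> ring
          map_smul' := fun c u => by
            funext i
            simp only [ψ, Pi.smul_apply, smul_eq_mul, RingHom.id_apply]
            rcases (e i).2 with j | j
            · simp
            · simp only [Sum.elim_inr]
              split_ifs <;> ring }
      refine hmap (κ := Fin k × Fin 2) (by simp; omega) φ ?_ ?_
      · rw [injective_iff_map_eq_zero]
        rintro u hu
        funext ⟨i, j⟩
        have h3 : ψ u (e (e.symm (i, Sum.inl j))) = 0 := congrFun hu (e.symm (i, Sum.inl j))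
        rw [Equiv.apply_symm_apply] at h3
        exact h3
      · intro u
        have h3 : ∑ i, φ u i ^ 2 = ∑ x, ψ u x ^ 2 := by
          rw [← Equiv.sum_comp e]
          rfl
        rw [h3, Fintype.sum_prod_type]
        apply Finset.sum_eq_zero
        intro i _
        rw [Fintype.sum_sum_type, Fin.sum_univ_two, Fin.sum_univ_two]
        simp only [ψ, Sum.elim_inl, Sum.elim_inr, if_true, Fin.isValue, one_ne_zero, if_false]
        linear_combination (-(u (i, 0) ^ 2) - u (i, 1) ^ 2) * hab

end Cfsg.Agent.S0759
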