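import Cfsg.Statements.S0760
import Cfsg.Agent.H7.Witt

set_option autoImplicit false
open Cfsg
open Cfsg.Agent.H7.Witt Module

namespace Cfsg.Agent.S0760

/-- Witt index is well defined: if Q is a quadratic form on a finite-dimensional space V over a finite field with non-degenerate polar form, and W₁, W₂ are subspaces on which Q vanishes that are maximal with this property, then W₁ and W₂ have the same dimension, and twice this dimension is at most dim V. -/
theorem result {F V : Type*} [Field F] [Finite F] [AddCommGroup V] [Module F V] [FiniteDimensional F V] (Q : QuadraticForm F V) (hQ : (QuadraticMap.polarBilin Q).Nondegenerate) (W₁ W₂ : Submodule F V) (h₁ : ∀ w ∈ W₁, Q w = 0) (h₂ : ∀ w ∈ W₂, Q w = 0) (hmax₁ : ∀ W : Submodule F V, W₁ ≤ W → (∀ w ∈ W, Q w = 0) → W = W₁) (hmax₂ : ∀ W : Submodule F V, W₂ ≤ W → (∀ w ∈ W, Q w = 0) → W = W₂) : Module.finrank F W₁ = Module.finrank F W₂ ∧ 2 * Module.finrank F W₁ ≤ Module.finrank F V := by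
  have hs : ∀ x y, QuadraticMap.polarBilin Q x y = QuadraticMap.polarBilin Q y x := fun x y => QuadraticMap.polar_comm Q x y
  have hadd : ∀ x y, Q (x + y) = Q x + Q y + QuadraticMap.polarBilin Q x y := by
    intro x y
    change Q (x + y) = Q x + Q y + (Q (x + y) - Q x - Q y)
    ring
  have hsm : ∀ (a : F) (x : V), Q (a • x) = a * a * Q x := fun a x => QuadraticMap.map_smul Q a x
  have hBW : ∀ W : Submodule F V, (∀ w ∈ W, Q w = 0) → ∀ x ∈ W, ∀ y ∈ W, QuadraticMap.polarBilin Q x y = 0 := by
    intro W hW x hx y hy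
    have h1 := hadd x y
    rw [hW _ (W.add_mem hx hy), hW x hx, hW y hy] at h1
    linear_combination -h1
  have key : ∀ W₁ W₂ : Submodule F V, (∀ w ∈ W₁, Q w = 0) → (∀ w ∈ W₂, Q w = 0) →
      (∀ W : Submodule F V, W₁ ≤ W → (∀ w ∈ W, Q w = 0) → W = W₁) → finrank F W₁ ≤ finrank F W₂ → finrank F W₁ = finrank F W₂ := by
    intro W₁ W₂ h₁ h₂ hmax hle
    let b₁ := Module.finBasis F W₁
    let b₂ := Module.finBasis F W₂
    obtain ⟨g, hg, hgv⟩ := witt_families (σ := RingHom.id F) (B := QuadraticMap.polarBilin Q) (Q := Q)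
      (step_quad hs (fun v hv => hQ.2 v hv) hadd hsm) (finrank F W₁) (fun i => (b₁ i : V)) (fun i => (b₂ (Fin.castLE hle i) : V))
      (b₁.linearIndependent.map' W₁.subtype (Submodule.ker_subtype W₁))
      ((b₂.linearIndependent.map' W₂.subtype (Submodule.ker_subtype W₂)).comp _ (Fin.castLE_injective hle))
      (fun i j => by rw [hBW W₁ h₁ _ (b₁ i).2 _ (b₁ j).2, hBW W₂ h₂ _ (b₂ _).2 _ (b₂ _).2])
      (fun i => by rw [h₁ _ (b₁ i).2, h₂ _ (b₂ _).2])
    have h3 : W₁ ≤ W₂.comap (g : V →ₗ[F] V) := by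
      intro x hx
      have h4 : (⟨x, hx⟩ : W₁) ∈ Submodule.span F (Set.range b₁) := by rw [b₁.span_eq]; trivial
      have h5 : ∀ z : W₁, z ∈ Submodule.span F (Set.range b₁) → g (z : V) ∈ W₂ := by
        intro z hz
        induction hz using Submodule.span_induction with
        | mem z hz =>
          obtain ⟨i, rfl⟩ := hz
          have : g ((b₁ i : W₁) : V) = (b₂ (Fin.castLE hle i) : V) := hgv i
          rw [this]
          exact (b₂ _).2
        | zero => simp
        | add a b _ _ ha hb => rw [Submodule.coe_add, map_add]; exact W₂.add_mem ha hb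
        | smul a b _ hb => rw [Submodule.coe_smul, map_smul]; exact W₂.smul_mem a hb
      exact h5 _ h4
    have h4 := hmax _ h3 (fun w hw => by rw [← hg.2 w]; exact h₂ _ hw)
    have h5 : finrank F (W₂.comap (g : V →ₗ[F] V)) = finrank F W₂ := by
      have h6 : W₂.comap (g : V →ₗ[F] V) = W₂.map (g.symm : V →ₗ[F] V) := by
        rw [Submodule.map_equiv_eq_comap_symm]
        rfl
      rw [h6]
      exact LinearEquiv.finrank_map_eq g.symm W₂
    rw [← h5, h4]
  refine ⟨?_, ?_⟩
  · rcases le_total (finrank F W₁) (finrank F W₂) with h | h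
    · exact key W₁ W₂ h₁ h₂ hmax₁ h
    · exact (key W₂ W₁ h₂ h₁ hmax₂ h).symm
  · have h3 : W₁ ≤ LinearMap.BilinForm.orthogonal (QuadraticMap.polarBilin Q) W₁ := by
      intro x hx
      rw [LinearMap.BilinForm.mem_orthogonal_iff]
      intro y hy
      exact hBW W₁ h₁ y hy x hx
    have h4 := Submodule.finrank_mono h3
    rw [LinearMap.BilinForm.finrank_orthogonal hQ] at h4
    have h5 := Submodule.finrank_le W₁
    omega

end Cfsg.Agent.S0760
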