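import Cfsg.Statements.S0761
import Cfsg.Agent.H7.Witt

set_option autoImplicit false
open Cfsg
open Cfsg.Agent.H7.Witt Module

namespace Cfsg.Agent.S0761

/-- Hyperbolic partners: let B be a non-degenerate bilinear form on a finite-dimensional space, either alternating, or symmetric with 2 ≠ 0. If Z is a subspace on which B vanishes, x ∉ Z is isotropic and orthogonal to Z, then there is an isotropic y with B x y = 1 which is orthogonal to Z. -/
theorem result {F V : Type*} [Field F] [AddCommGroup V] [Module F V] [FiniteDimensional F V] (B : LinearMap.BilinForm F V) (hB : B.Nondegenerate) (hform : B.IsAlt ∨ (B.IsSymm ∧ (2 : F) ≠ 0)) (x : V) (Z : Submodule F V) (hxZ : x ∉ Z) (hx : B x x = 0) (hxz : ∀ z ∈ Z, B x z = 0) (hZ : ∀ z ∈ Z, ∀ z' ∈ Z, B z z' = 0) : ∃ y : V, B y y = 0 ∧ B x y = 1 ∧ ∀ z ∈ Z, B z y = 0 := by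
  have hs2 : ∃ ε : F, ε ≠ 0 ∧ ∀ x y, (RingHom.id F) (B x y) = ε * B y x := by
    rcases hform with hA | ⟨hS, -⟩
    · refine ⟨-1, neg_ne_zero.2 one_ne_zero, fun x y => ?_⟩
      have h := hA (x + y)
      simp only [map_add, LinearMap.add_apply, LinearMap.BilinForm.IsAlt.self_eq_zero hA, zero_add, add_zero] at h
      rw [RingHom.id_apply]
      linear_combination h
    · exact ⟨1, one_ne_zero, fun x y => by rw [RingHom.id_apply, hS.eq, one_mul]⟩
  obtain ⟨ε, hε, hs⟩ := hs2
  have hs' : ∀ x y, B x y = ε * B y x := hs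
  obtain ⟨w, hwx, hwZ⟩ := exists_orth hε (fun a => rfl) hs (fun v hv => hB.2 v hv) hxZ
  -- orthogonality is symmetric
  have hZw : ∀ z ∈ Z, B z w = 0 := fun z hz => by rw [hs', hwZ z hz, mul_zero]
  have hZx : ∀ z ∈ Z, B z x = 0 := fun z hz => by rw [hs', hxz z hz, mul_zero]
  rcases hform with hA | ⟨hS, h2⟩
  · refine ⟨ε⁻¹ • w, ?_, ?_, fun z hz => ?_⟩
    · exact LinearMap.BilinForm.IsAlt.self_eq_zero hA _
    · rw [map_smul, hs', hwx, smul_eq_mul, mul_one, inv_mul_cancel₀ hε]
    · rw [map_smul, hZw z hz, smul_zero]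
  · have hxw : B x w = 1 := by rw [hS.eq, hwx]
    refine ⟨w + (-(B w w / 2)) • x, ?_, ?_, fun z hz => ?_⟩
    · simp only [map_add, map_smul, LinearMap.add_apply, LinearMap.smul_apply, hwx, hxw, hx, smul_eq_mul]
      field_simp
      ring
    · rw [map_add, map_smul, hx, hxw]
      simp
    · rw [map_add, map_smul, hZw z hz, hZx z hz]
      simp

end Cfsg.Agent.S0761
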