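import Cfsg.Statements.S0762
import Mathlib

set_option autoImplicit false
open Cfsg

namespace Cfsg.Agent.S0762

/-- In characteristic two over a finite field, a quadratic form on a space of dimension at least 3 vanishes on some non-zero vector. -/
theorem result {F V : Type*} [Field F] [Finite F] [CharP F 2] [AddCommGroup V] [Module F V] [FiniteDimensional F V] (Q : QuadraticForm F V) (h3 : 3 ≤ Module.finrank F V) : ∃ v : V, v ≠ 0 ∧ Q v = 0 := by
  classical
  haveI := Fintype.ofFinite F
  have hch : ringChar F = 2 := ringChar.eq F 2 ▸ rfl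
  have hsq : ∀ a : F, ∃ s, a = s * s := fun a => FiniteField.isSquare_of_char_two hch a
  have hQs : ∀ (a : F) (x : V), Q (a • x) = a * a * Q x := fun a x => QuadraticMap.map_smul Q a x
  have hQadd : ∀ x y, Q (x + y) = Q x + Q y + QuadraticMap.polar Q x y := by
    intro x y
    change Q (x + y) = Q x + Q y + (Q (x + y) - Q x - Q y)
    ring
  haveI : Nontrivial V := Module.nontrivial_of_finrank_pos (R := F) (by omega)
  obtain ⟨v, hv⟩ := exists_ne (0 : V)
  -- a vector of `v^⊥` outside `⟨v⟩`
  obtain ⟨u, huK, hu⟩ : ∃ u, QuadraticMap.polarBilin Q v u = 0 ∧ u ∉ Submodule.span F {v} := by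
    by_contra hcon
    push Not at hcon
    have h1 : LinearMap.ker (QuadraticMap.polarBilin Q v) ≤ Submodule.span F {v} := fun u hu => hcon u hu
    have h2 := Submodule.finrank_mono h1
    rw [finrank_span_singleton hv] at h2
    have h3 := LinearMap.finrank_range_add_finrank_ker (QuadraticMap.polarBilin Q v)
    have h4 := Submodule.finrank_le (LinearMap.range (QuadraticMap.polarBilin Q v))
    rw [Module.finrank_self] at h4
    omega
  obtain ⟨s, hs⟩ := hsq (Q v)
  obtain ⟨t, ht⟩ := hsq (Q u)
  by_cases hs0 : s = 0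
  · exact ⟨v, hv, by rw [hs, hs0, mul_zero]⟩
  refine ⟨t • v + s • u, ?_, ?_⟩
  · intro h
    apply hu
    rw [Submodule.mem_span_singleton]
    refine ⟨-(s⁻¹ * t), ?_⟩
    have h1 : s • u = -(t • v) := by
      rw [eq_neg_iff_add_eq_zero, add_comm]
      exact h
    have h2 : u = s⁻¹ • (s • u) := by rw [smul_smul, inv_mul_cancel₀ hs0, one_smul]
    rw [h2, h1, smul_neg, smul_smul, neg_smul]
  · have h1 : QuadraticMap.polar Q (t • v) (s • u) = 0 := by
      have h2 : QuadraticMap.polarBilin Q (t • v) (s • u) = 0 := by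
        rw [map_smul, map_smul, LinearMap.smul_apply, huK, smul_zero, smul_zero]
      exact h2
    rw [hQadd, hQs, hQs, h1, hs, ht]
    have h2 : (2 : F) = 0 := CharTwo.two_eq_zero
    linear_combination (t * t * s * s) * h2

end Cfsg.Agent.S0762
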