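import Cfsg.Statements.S0763
import Mathlib

set_option autoImplicit false
open Cfsg

namespace Cfsg.Agent.S0763

/-- Binary quadratic forms in characteristic two over a finite field: if Q is a quadratic form on a 2-dimensional space whose polar form is non-degenerate, then either there are vectors v, w with Q v = Q w = 0 and polar value 1 (Q is xy in these coordinates), or there are v, w and μ with Q v = 1, Q w = μ, polar value 1 and x² + x + μ without roots in F (Q is x² + xy + μy²). -/
theorem result {F V : Type*} [Field F] [Finite F] [CharP F 2] [AddCommGroup V] [Module F V] (Q : QuadraticForm F V) (h2 : Module.finrank F V = 2) (hQ : (QuadraticMap.polarBilin Q).Nondegenerate) : (∃ v w : V, LinearIndependent F ![v, w] ∧ Q v = 0 ∧ Q w = 0 ∧ QuadraticMap.polar Q v w = 1) ∨ (∃ (v w : V) (μ : F), LinearIndependent F ![v, w] ∧ (∀ x : F, x ^ 2 + x + μ ≠ 0) ∧ Q v = 1 ∧ Q w = μ ∧ QuadraticMap.polar Q v w = 1) := by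
  classical
  haveI := Fintype.ofFinite F
  haveI : FiniteDimensional F V := Module.finite_of_finrank_pos (by omega)
  have hch : ringChar F = 2 := ringChar.eq F 2 ▸ rfl
  have hsq : ∀ a : F, ∃ s, a = s * s := fun a => FiniteField.isSquare_of_char_two hch a
  have h20 : (2 : F) = 0 := CharTwo.two_eq_zero
  have hQs : ∀ (a : F) (x : V), Q (a • x) = a * a * Q x := fun a x => QuadraticMap.map_smul Q a x
  have hQadd : ∀ x y, Q (x + y) = Q x + Q y + QuadraticMap.polarBilin Q x y := by
    intro x y
    change Q (x + y) = Q x + Q y + (Q (x + y) - Q x - Q y)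
    ring
  have hself : ∀ x, QuadraticMap.polarBilin Q x x = 0 := by
    intro x
    have h1 := hQadd x x
    have h2 : Q (x + x) = 4 * Q x := by
      rw [← two_smul F x, hQs]
      ring
    linear_combination h2 - h1 + Q x * h20
  have hli : ∀ v w : V, v ≠ 0 → QuadraticMap.polarBilin Q v w = 1 → LinearIndependent F ![v, w] := by
    intro v w hv hvw
    rw [LinearIndependent.pair_iff' hv]
    intro a ha
    rw [← ha, map_smul, hself, smul_zero] at hvw
    exact zero_ne_one hvw
  -- partners
  have hpart : ∀ v : V, v ≠ 0 → ∃ w, QuadraticMap.polarBilin Q v w = 1 := by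
    intro v hv
    obtain ⟨w, hw⟩ : ∃ w, QuadraticMap.polarBilin Q v w ≠ 0 := by
      by_contra hcon
      push Not at hcon
      exact hv (hQ.1 v hcon)
    exact ⟨(QuadraticMap.polarBilin Q v w)⁻¹ • w, by rw [map_smul, smul_eq_mul, inv_mul_cancel₀ hw]⟩
  by_cases hiso : ∃ v, v ≠ 0 ∧ Q v = 0
  · obtain ⟨v, hv, hQv⟩ := hiso
    obtain ⟨w, hw⟩ := hpart v hv
    have hw' : QuadraticMap.polarBilin Q w v = 1 := by
      have : QuadraticMap.polarBilin Q w v = QuadraticMap.polarBilin Q v w := QuadraticMap.polar_comm Q w v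
      rw [this, hw]
    have h1 : QuadraticMap.polarBilin Q v (w + Q w • v) = 1 := by rw [map_add, map_smul, hw, hself]; simp
    left
    refine ⟨v, w + Q w • v, hli v _ hv h1, hQv, ?_, h1⟩
    rw [hQadd, hQs, hQv, map_smul, hw', smul_eq_mul]
    linear_combination Q w * h20
  · push Not at hiso
    haveI : Nontrivial V := Module.nontrivial_of_finrank_pos (R := F) (by omega)
    obtain ⟨v0, hv0⟩ := exists_ne (0 : V)
    obtain ⟨s, hs⟩ := hsq (Q v0)
    have hs0 : s ≠ 0 := by
      rintro rfl
      exact hiso v0 hv0 (by rw [hs, mul_zero])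
    have hv : s⁻¹ • v0 ≠ 0 := smul_ne_zero (inv_ne_zero hs0) hv0
    have hQv : Q (s⁻¹ • v0) = 1 := by
      rw [hQs, hs]
      field_simp
    obtain ⟨w, hw⟩ := hpart _ hv
    right
    refine ⟨s⁻¹ • v0, w, Q w, hli _ _ hv hw, fun x hx => ?_, hQv, rfl, hw⟩
    have h1 : Q (x • (s⁻¹ • v0) + w) = 0 := by
      rw [hQadd, hQs, hQv, map_smul, LinearMap.smul_apply, hw, smul_eq_mul]
      linear_combination hx
    refine hiso _ ?_ h1
    intro h
    have h2 : QuadraticMap.polarBilin Q (s⁻¹ • v0) (x • (s⁻¹ • v0) + w) = QuadraticMap.polarBilin Q (s⁻¹ • v0) 0 := by rw [h]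
    rw [map_add, map_smul, hself, hw, map_zero, smul_zero, zero_add] at h2
    exact one_ne_zero h2

end Cfsg.Agent.S0763
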