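import Cfsg.Statements.S0766
import Cfsg.Agent.H7.SympBridge

set_option autoImplicit false
open Cfsg
open Cfsg.Agent.H7.Tv Module Matrix

namespace Cfsg.Agent.S0766

/-- The subgroup generated by the symplectic transvections acts transitively on ordered pairs (u, v) with f(u, v) = 1. -/
theorem result {F : Type*} [Field F] (m : ℕ) (u v u' v' : Fin m ⊕ Fin m → F) (h : Cfsg.sympForm m F u v = 1) (h' : Cfsg.sympForm m F u' v' = 1) : ∃ A ∈ Subgroup.closure {A : Matrix.symplecticGroup (Fin m) F | ∃ (w : Fin m ⊕ Fin m → F) (c : F), (A : Matrix (Fin m ⊕ Fin m) (Fin m ⊕ Fin m) F) = Cfsg.sympTransvection m w c}, (A : Matrix (Fin m ⊕ Fin m) (Fin m ⊕ Fin m) F).mulVec u = u' ∧ (A : Matrix (Fin m ⊕ Fin m) (Fin m ⊕ Fin m) F).mulVec v = v' := by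
  classical
  have hf := sf_alt (F := F) m
  set M := Subgroup.closure {A : Matrix.symplecticGroup (Fin m) F | ∃ (w : Fin m ⊕ Fin m → F) (c : F),
    (A : Matrix (Fin m ⊕ Fin m) (Fin m ⊕ Fin m) F) = Cfsg.sympTransvection m w c} with hM
  have hM' : ∀ v c, stv v c ∈ M := fun v c => Subgroup.subset_closure ⟨v, c, rfl⟩
  have hC : ∀ w ∈ (⊤ : Submodule F (Fin m ⊕ Fin m → F)), Ctr (sf m F) (M.map (spToGL m F)) w :=
    fun w _ => ctr_map M hM' w
  have hu : u ≠ 0 := by
    rintro rfl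
    have : sf m F 0 v = 1 := h
    rw [map_zero, LinearMap.zero_apply] at this
    exact zero_ne_one this
  have hu' : u' ≠ 0 := by
    rintro rfl
    have : sf m F 0 v' = 1 := h'
    rw [map_zero, LinearMap.zero_apply] at this
    exact zero_ne_one this
  obtain ⟨g, ⟨A, hA, hAg⟩, hgi, hgu, -⟩ := move hf hC hf.nd_top (Submodule.mem_top (x := u)) (Submodule.mem_top (x := u')) hu hu'
  have h1 : sf m F u' (ap g v) = 1 := by
    rw [← hgu, hgi]
    exact h
  obtain ⟨k, ⟨B, hB, hBk⟩, hki, hkv, hku, -⟩ := move_second hf hC (Submodule.mem_top (x := u')) (Submodule.mem_top (x := v'))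
    (Submodule.mem_top (x := ap g v)) h' h1
  refine ⟨B * A, M.mul_mem hB hA, ?_, ?_⟩
  · have : ap (spToGL m F (B * A)) u = u' := by
      rw [map_mul, ap_mul, hBk, hAg, hgu, hku]
    exact this
  · have : ap (spToGL m F (B * A)) v = v' := by
      rw [map_mul, ap_mul, hBk, hAg, hkv]
    exact this

end Cfsg.Agent.S0766
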