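import Cfsg.Statements.S0767
import Cfsg.Agent.H7.SympBridge

set_option autoImplicit false
open Cfsg
open Cfsg.Agent.H7.Tv Module Matrix

namespace Cfsg.Agent.S0767

/-- The root group of a point: T_v(c) T_v(d) = T_v(c + d), and for A in the symplectic group with A v = a v, the conjugate A T_v(c) A⁻¹ is again some T_v(d). -/
theorem result {F : Type*} [Field F] (m : ℕ) (v : Fin m ⊕ Fin m → F) : (∀ c d : F, Cfsg.sympTransvection m v c * Cfsg.sympTransvection m v d = Cfsg.sympTransvection m v (c + d)) ∧ ∀ (A : Matrix (Fin m ⊕ Fin m) (Fin m ⊕ Fin m) F) (a : F), A ∈ Matrix.symplecticGroup (Fin m) F → A.mulVec v = a • v → ∀ c : F, ∃ d : F, A * Cfsg.sympTransvection m v c * A⁻¹ = Cfsg.sympTransvection m v d := by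
  classical
  have hf := sf_alt (F := F) m
  refine ⟨?_, ?_⟩
  · intro c d
    apply mat_ext
    intro x
    rw [← Matrix.mulVec_mulVec, sympTransvection_mulVec, sympTransvection_mulVec, sympTransvection_mulVec]
    change x + (d * sf m F x v) • v + (c * sf m F (x + (d * sf m F x v) • v) v) • v = x + ((c + d) * sf m F x v) • v
    rw [map_add, LinearMap.add_apply, map_smul, LinearMap.smul_apply, hf.alt, smul_zero, add_zero]
    module
  · intro A a hA hAv c
    let A' : Matrix.symplecticGroup (Fin m) F := ⟨A, hA⟩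
    refine ⟨c * a * a, ?_⟩
    have hinv : A⁻¹ = ((A'⁻¹ : Matrix.symplecticGroup (Fin m) F) : Matrix (Fin m ⊕ Fin m) (Fin m ⊕ Fin m) F) := by
      apply Matrix.inv_eq_right_inv
      have : (A' * A'⁻¹ : Matrix.symplecticGroup (Fin m) F) = 1 := mul_inv_cancel A'
      exact congrArg Subtype.val this
    have h1 : A * Cfsg.sympTransvection m v c * A⁻¹ = ((A' * stv v c * A'⁻¹ : Matrix.symplecticGroup (Fin m) F) :
        Matrix (Fin m ⊕ Fin m) (Fin m ⊕ Fin m) F) := by
      rw [hinv]; rfl
    rw [h1]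
    apply coe_of_isSTv
    intro x
    have hAv' : ap (spToGL m F A') v = a • v := hAv
    rw [map_mul, map_mul, ap_mul, ap_mul, stv_isSTv, ap_add, ap_smul, hAv', map_inv, ap_ap_inv]
    have h2 : sf m F (ap (spToGL m F A')⁻¹ x) v = a * sf m F x v := by
      rw [← spToGL_iso A', ap_ap_inv, hAv', map_smul, smul_eq_mul]
    rw [h2]
    module

end Cfsg.Agent.S0767
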