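import Cfsg.Statements.S0768
import Cfsg.Agent.H7.SympSimple

set_option autoImplicit false
open scoped LinearAlgebra.Projectivization
open Cfsg
open Cfsg.Agent.H7.Tv Module Matrix

namespace Cfsg.Agent.S0768

/-- Primitivity: for m ≥ 1 and F finite, the symplectic group of the form sympForm (as a subgroup of the general linear group) acts primitively on the projective space of F^(2m). -/
theorem result {F : Type*} [Field F] [Finite F] (m : ℕ) (hm : 1 ≤ m) : MulAction.IsPreprimitive ↥(Cfsg.spGL m F) (ℙ F (Fin m ⊕ Fin m → F)) := by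
  classical
  have hf := sf_alt (F := F) m
  -- the action in coordinates
  have hact : ∀ (g : ↥(Cfsg.spGL m F)) (v : Fin m ⊕ Fin m → F) (hv : v ≠ 0),
      g • (Projectivization.mk F v hv : ℙ F (Fin m ⊕ Fin m → F)) = Projectivization.mk F (ap (g : GL (Fin m ⊕ Fin m) F) v)
        (fun h => hv (ap_eq_zero.1 h)) := fun g v hv => rfl
  have hmk : ∀ (v w : Fin m ⊕ Fin m → F) (hv : v ≠ 0) (hw : w ≠ 0),
      (Projectivization.mk F v hv : ℙ F (Fin m ⊕ Fin m → F)) = Projectivization.mk F w hw ↔ v ∈ Submodule.span F {w} := by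
    intro v w hv hw
    rw [Projectivization.mk_eq_mk_iff', Submodule.mem_span_singleton]
  haveI : MulAction.IsPretransitive ↥(Cfsg.spGL m F) (ℙ F (Fin m ⊕ Fin m → F)) := by
    constructor
    intro x y
    induction x using Projectivization.ind with | h v hv => ?_
    induction y using Projectivization.ind with | h w hw => ?_
    obtain ⟨A, hA⟩ := exists_move hv hw
    refine ⟨⟨spToGL m F A, spToGL_mem A⟩, ?_⟩
    rw [hact, hmk]
    change ap (spToGL m F A) v ∈ _
    rw [hA]
    exact Submodule.mem_span_singleton_self w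
  set i0 : Fin m := ⟨0, hm⟩
  let v : Fin m ⊕ Fin m → F := Pi.single (Sum.inl i0) 1
  let w : Fin m ⊕ Fin m → F := Pi.single (Sum.inr i0) 1
  have hv : v ≠ 0 := by
    intro h
    have := congrFun h (Sum.inl i0)
    simp [v] at this
  have hw : w ≠ 0 := by
    intro h
    have := congrFun h (Sum.inr i0)
    simp [w] at this
  have hvw : v ∉ Submodule.span F {w} := by
    intro h
    obtain ⟨c, hc⟩ := Submodule.mem_span_singleton.1 h
    have := congrFun hc (Sum.inl i0)
    simp [v, w] at this
  have hwv : w ∉ Submodule.span F {v} := by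
    intro h
    obtain ⟨c, hc⟩ := Submodule.mem_span_singleton.1 h
    have := congrFun hc (Sum.inr i0)
    simp [v, w] at this
  haveI : Nontrivial (ℙ F (Fin m ⊕ Fin m → F)) := by
    refine ⟨⟨Projectivization.mk F v hv, Projectivization.mk F w hw, ?_⟩⟩
    rw [Ne, hmk]
    exact hvw
  rw [← MulAction.isCoatom_stabilizer_iff_preprimitive ↥(Cfsg.spGL m F) (Projectivization.mk F v hv : ℙ F (Fin m ⊕ Fin m → F))]
  constructor
  · intro h
    obtain ⟨A, hA⟩ := exists_move hv hw
    have h1 : (⟨spToGL m F A, spToGL_mem A⟩ : ↥(Cfsg.spGL m F)) ∈ MulAction.stabilizer ↥(Cfsg.spGL m F)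
        (Projectivization.mk F v hv : ℙ F (Fin m ⊕ Fin m → F)) := by rw [h]; exact Subgroup.mem_top _
    rw [MulAction.mem_stabilizer_iff, hact, hmk] at h1
    apply hwv
    rw [← hA]
    exact h1
  · intro K hK
    obtain ⟨hle, g, hgK, hg⟩ := SetLike.lt_iff_le_and_exists.1 hK
    rw [MulAction.mem_stabilizer_iff, hact, hmk] at hg
    have key : ∀ x, Ctr (sf m F) (K.map (Cfsg.spGL m F).subtype) x := by
      refine ctr_all_of_perp hf (M := K.map (Cfsg.spGL m F).subtype) ?_ hv ?_ (g := (g : GL (Fin m ⊕ Fin m) F))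
        ⟨g, hgK, rfl⟩ hg
      · rintro _ ⟨k, -, rfl⟩
        exact k.2
      · intro x hx c k hk
        refine ⟨⟨k, stv_mem_spGL hk⟩, hle ?_, rfl⟩
        rw [MulAction.mem_stabilizer_iff, hact, hmk]
        change ap k v ∈ _
        rw [hk, hx, mul_zero, zero_smul, add_zero]
        exact Submodule.mem_span_singleton_self v
    have h1 := spGL_le key
    rw [eq_top_iff]
    intro k _
    obtain ⟨k', hk', hkk⟩ := h1 k.2
    have : k' = k := Subtype.ext hkk
    rw [← this]
    exact hk'

end Cfsg.Agent.S0768
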