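import Cfsg.Statements.S0770

set_option autoImplicit false
open Cfsg

namespace Cfsg.Agent.S0770

/-- For a field with at least 3 elements, an invertible matrix normalises the subgroup of invertible diagonal matrices of GL_n if and only if it is monomial (exactly one non-zero entry in each row). -/
theorem result {F : Type*} [Field F] (hF : ∃ a : F, a ≠ 0 ∧ a ≠ 1) (n : ℕ) (g : Matrix.GeneralLinearGroup (Fin n) F) : g ∈ Subgroup.normalizer ((Units.map (Matrix.diagonalRingHom (Fin n) F).toMonoidHom).range : Subgroup (Matrix.GeneralLinearGroup (Fin n) F)) ↔ ∀ i : Fin n, ∃! j : Fin n, (g : Matrix (Fin n) (Fin n) F) i j ≠ 0 := by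
  classical
  obtain ⟨a, ha0, ha1⟩ := hF
  let T : Subgroup (Matrix.GeneralLinearGroup (Fin n) F) := (Units.map (Matrix.diagonalRingHom (Fin n) F).toMonoidHom).range
  have hT : ∀ h : Matrix.GeneralLinearGroup (Fin n) F, h ∈ T ↔ ∃ d : Fin n → F, (∀ i, d i ≠ 0) ∧
      (h : Matrix (Fin n) (Fin n) F) = Matrix.diagonal d := by
    intro h
    constructor
    · rintro ⟨u, rfl⟩
      refine ⟨(u : Fin n → F), fun i hi => ?_, rfl⟩
      have h1 := congrFun u.mul_inv i
      rw [Pi.mul_apply, hi, zero_mul] at h1
      exact zero_ne_one h1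
    · rintro ⟨d, hd, hh⟩
      refine ⟨⟨d, fun i => (d i)⁻¹, ?_, ?_⟩, Units.ext hh.symm⟩
      · funext i
        exact mul_inv_cancel₀ (hd i)
      · funext i
        exact inv_mul_cancel₀ (hd i)
  have hconj : ∀ h : Matrix.GeneralLinearGroup (Fin n) F, ∀ d d' : Fin n → F, (h : Matrix (Fin n) (Fin n) F) = Matrix.diagonal d →
      (∀ i j, (g : Matrix (Fin n) (Fin n) F) i j * d j = d' i * (g : Matrix (Fin n) (Fin n) F) i j) →
      ((g * h * g⁻¹ : Matrix.GeneralLinearGroup (Fin n) F) : Matrix (Fin n) (Fin n) F) = Matrix.diagonal d' := by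
    intro h d d' hd h1
    have h2 : (g : Matrix (Fin n) (Fin n) F) * Matrix.diagonal d = Matrix.diagonal d' * (g : Matrix (Fin n) (Fin n) F) := by
      ext i j
      rw [Matrix.mul_diagonal, Matrix.diagonal_mul]
      exact h1 i j
    rw [Units.val_mul, Units.val_mul, hd, h2, Matrix.mul_assoc, Units.mul_inv, Matrix.mul_one]
  change g ∈ Subgroup.normalizer (T : Set _) ↔ _
  rw [Subgroup.mem_normalizer_iff]
  constructor
  · intro hg i
    obtain ⟨j, hj⟩ : ∃ j, (g : Matrix (Fin n) (Fin n) F) i j ≠ 0 := by
      by_contra hcon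
      push Not at hcon
      have h1 := congrFun (congrFun (Units.mul_inv g) i) i
      rw [Matrix.mul_apply, Finset.sum_eq_zero (fun j _ => by rw [hcon, zero_mul]), Matrix.one_apply_eq] at h1
      exact zero_ne_one h1
    refine ⟨j, hj, fun k hk => ?_⟩
    by_contra hjk
    -- the diagonal matrix with `a` at `j`
    let d : Fin n → F := Function.update (fun _ => 1) j a
    have hd : ∀ i, d i ≠ 0 := by
      intro i
      by_cases h : i = j
      · subst h
        simp only [d, Function.update_self]
        exact ha0
      · simp only [d]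
        rw [Function.update_of_ne h]
        exact one_ne_zero
    let h : Matrix.GeneralLinearGroup (Fin n) F := Units.map (Matrix.diagonalRingHom (Fin n) F).toMonoidHom
      ⟨d, fun i => (d i)⁻¹, funext fun i => mul_inv_cancel₀ (hd i), funext fun i => inv_mul_cancel₀ (hd i)⟩
    have hh : (h : Matrix (Fin n) (Fin n) F) = Matrix.diagonal d := rfl
    have h1 : h ∈ T := ⟨_, rfl⟩
    obtain ⟨d', hd', hh'⟩ := (hT _).1 ((hg h).1 h1)
    have h2 : (g : Matrix (Fin n) (Fin n) F) * Matrix.diagonal d = Matrix.diagonal d' * (g : Matrix (Fin n) (Fin n) F) := by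
      rw [← hh, ← hh', ← Units.val_mul, ← Units.val_mul, inv_mul_cancel_right]
    have h3 := congrFun (congrFun h2 i) j
    have h4 := congrFun (congrFun h2 i) k
    rw [Matrix.mul_diagonal, Matrix.diagonal_mul, mul_comm] at h3 h4
    have h5 := mul_right_cancel₀ hj h3
    have h6 := mul_right_cancel₀ hk h4
    rw [← h6] at h5
    simp only [d, Function.update_self] at h5
    rw [Function.update_of_ne hjk] at h5
    exact ha1 h5
  · intro hmono
    choose π hπ hπ' using hmono
    have hπz : ∀ i j, j ≠ π i → (g : Matrix (Fin n) (Fin n) F) i j = 0 := by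
      intro i j hj
      by_contra h
      exact hj (hπ' i j h)
    have hsum : ∀ i k, (g : Matrix (Fin n) (Fin n) F) i (π i) * ((g⁻¹ : Matrix.GeneralLinearGroup (Fin n) F) : Matrix (Fin n) (Fin n) F) (π i) k =
        (1 : Matrix (Fin n) (Fin n) F) i k := by
      intro i k
      have h1 := congrFun (congrFun (Units.mul_inv g) i) k
      rw [Matrix.mul_apply, Finset.sum_eq_single (π i)] at h1
      · exact h1
      · intro j _ hj
        rw [hπz i j hj, zero_mul]
      · intro h; exact absurd (Finset.mem_univ _) h
    have hinj : Function.Injective π := by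
      intro i i' hii
      by_contra hne
      have h1 := hsum i i
      have h2 := hsum i' i
      rw [Matrix.one_apply_eq] at h1
      rw [Matrix.one_apply_ne (Ne.symm hne), ← hii] at h2
      rcases mul_eq_zero.1 h2 with h3 | h3
      · rw [hii] at h3
        exact hπ i' h3
      · rw [h3, mul_zero] at h1
        exact zero_ne_one h1
    have hbij := Finite.injective_iff_bijective.1 hinj
    let e := Equiv.ofBijective π hbij
    intro h
    constructor
    · intro hh
      obtain ⟨d, hd, hh⟩ := (hT _).1 hh
      rw [hT]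
      refine ⟨fun i => d (π i), fun i => hd _, hconj h d _ hh ?_⟩
      intro i j
      by_cases hj : j = π i
      · rw [hj, mul_comm]
      · rw [hπz i j hj, zero_mul, mul_zero]
    · intro hh
      obtain ⟨d', hd', hh'⟩ := (hT _).1 hh
      let d : Fin n → F := fun j => d' (e.symm j)
      have hd : ∀ j, d j ≠ 0 := fun j => hd' _
      let h' : Matrix.GeneralLinearGroup (Fin n) F := Units.map (Matrix.diagonalRingHom (Fin n) F).toMonoidHom
        ⟨d, fun i => (d i)⁻¹, funext fun i => mul_inv_cancel₀ (hd i), funext fun i => inv_mul_cancel₀ (hd i)⟩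
      have h1 := hconj h' d d' rfl (by
        intro i j
        by_cases hj : j = π i
        · subst hj
          have : e.symm (π i) = i := e.symm_apply_apply i
          simp only [d]
          rw [this, mul_comm]
        · rw [hπz i j hj, zero_mul, mul_zero])
      have h2 : g * h * g⁻¹ = g * h' * g⁻¹ := Units.ext (hh'.trans h1.symm)
      have h3 : h = h' := mul_left_cancel (mul_right_cancel h2)
      rw [h3]
      exact ⟨_, rfl⟩

end Cfsg.Agent.S0770
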