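import Cfsg.Statements.S0772
import Cfsg.Agent.H7.SLStab

set_option autoImplicit false
open Cfsg
open Cfsg.Agent.H7.Tv Module Matrix

namespace Cfsg.Agent.S0772

/-- Maximal parabolics are maximal: over a finite field, for 0 < k < n the stabiliser in GL_n of the span of the first k coordinate vectors is a maximal proper subgroup. -/
theorem result {F : Type*} [Field F] [Finite F] (n k : ℕ) (hk0 : 0 < k) (hkn : k < n) : IsCoatom (Cfsg.stabilizing (Cfsg.glToMat (Fin n) F) {v : Fin n → F | ∀ i : Fin n, k ≤ (i : ℕ) → v i = 0}) := by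
  classical
  let W : Submodule F (Fin n → F) :=
    { carrier := {v | ∀ i : Fin n, k ≤ (i : ℕ) → v i = 0}
      add_mem' := fun {a b} ha hb i hi => by rw [Pi.add_apply, ha i hi, hb i hi, add_zero]
      zero_mem' := fun i _ => rfl
      smul_mem' := fun c a ha i hi => by rw [Pi.smul_apply, ha i hi, smul_zero] }
  have hst : Cfsg.stabilizing (Cfsg.glToMat (Fin n) F) {v : Fin n → F | ∀ i : Fin n, k ≤ (i : ℕ) → v i = 0}
      = Geo.subspaceStabilizer W := by
    ext g
    exact Iff.rfl
  rw [hst]
  let i0 : Fin n := ⟨0, by omega⟩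
  let i1 : Fin n := ⟨k, hkn⟩
  have hW0 : W ≠ ⊥ := by
    intro h
    have h1 : (Pi.single i0 1 : Fin n → F) ∈ W := by
      intro i hi
      rw [Pi.single_apply, if_neg]
      rintro rfl
      simp [i0] at hi
      omega
    rw [h, Submodule.mem_bot] at h1
    have := congrFun h1 i0
    simp at this
  have hW1 : W ≠ ⊤ := by
    intro h
    have h1 : (Pi.single i1 1 : Fin n → F) ∈ W := by rw [h]; trivial
    have := h1 i1 le_rfl
    simp at this
  constructor
  · intro h
    obtain ⟨g, -, hgW⟩ := exists_tv_notMem_stab hW0 hW1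
    apply hgW
    rw [h]
    trivial
  · intro M hM
    obtain ⟨hle, g, hgM, hg⟩ := SetLike.lt_iff_le_and_exists.1 hM
    have hSL : Geo.specialLinear (Fin n) F ≤ M := by
      refine SL_le_of_moves (W := W) (M := M) (fun u l hl hu k hk => hle (tv_mem_stab_left hk hu))
        (fun u l hl hW k hk => hle (tv_mem_stab_right hk hW)) hgM ?_
      by_contra hcon
      push Not at hcon
      exact hg (mem_stab_of_le W g hcon)
    rw [eq_top_iff]
    intro x _
    -- a diagonal element with the determinant of `x`
    let δ : Fˣ := Matrix.GeneralLinearGroup.det x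
    let D : Matrix (Fin n) (Fin n) F := Matrix.diagonal (Function.update 1 i0 (δ : F))
    have hD : D.det = δ := by
      rw [Matrix.det_diagonal, Finset.prod_update_of_mem (Finset.mem_univ _)]
      simp
    let d : GL (Fin n) F := Matrix.GeneralLinearGroup.mkOfDetNeZero D (by rw [hD]; exact δ.ne_zero)
    have hd : d ∈ M := by
      apply hle
      apply mem_stab_of_le
      intro v hv i hi
      change (D *ᵥ v) i = 0
      rw [Matrix.mulVec_diagonal, hv i hi, mul_zero]
    have hxd : x * d⁻¹ ∈ M := by
      apply hSL
      rw [mem_SL_iff]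
      have h1 : Matrix.GeneralLinearGroup.det (x * d⁻¹) = 1 := by
        rw [map_mul, map_inv]
        have : Matrix.GeneralLinearGroup.det d = δ := Units.ext hD
        rw [this]
        exact mul_inv_cancel _
      exact congrArg Units.val h1
    have := M.mul_mem hxd hd
    rwa [inv_mul_cancel_right] at this

end Cfsg.Agent.S0772
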