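import Cfsg.Statements.S0773
import Cfsg.Agent.H7.Parab3

set_option autoImplicit false
open Cfsg
open Module Matrix Cfsg.Agent.H7.Tv Cfsg.Agent.H7.Witt

namespace Cfsg.Agent.S0773

/-- The stabilisers in GL_n(F), F finite, of the coordinate subspaces of dimensions k and n − k are isomorphic groups, but when 2k ≠ n (and 0 < k < n) no element of GL_n conjugates one onto the other. -/
theorem result {F : Type*} [Field F] [Finite F] (n k : ℕ) (hk0 : 0 < k) (hkn : k < n) (h2 : 2 * k ≠ n) : Nonempty (↥(Cfsg.stabilizing (Cfsg.glToMat (Fin n) F) {v : Fin n → F | ∀ i : Fin n, k ≤ (i : ℕ) → v i = 0}) ≃* ↥(Cfsg.stabilizing (Cfsg.glToMat (Fin n) F) {v : Fin n → F | ∀ i : Fin n, n - k ≤ (i : ℕ) → v i = 0})) ∧ ∀ g : Matrix.GeneralLinearGroup (Fin n) F, (Cfsg.stabilizing (Cfsg.glToMat (Fin n) F) {v : Fin n → F | ∀ i : Fin n, k ≤ (i : ℕ) → v i = 0}).map (MulAut.conj g).toMonoidHom ≠ Cfsg.stabilizing (Cfsg.glToMat (Fin n) F) {v : Fin n → F | ∀ i : Fin n, n - k ≤ (i : ℕ) → v i = 0} := by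
  classical
  have hS : ∀ j : ℕ, ({v : Fin n → F | ∀ i : Fin n, j ≤ (i : ℕ) → v i = 0} : Set (Fin n → F)) = (cs n j F : Set (Fin n → F)) := fun j => rfl
  rw [hS, hS]
  constructor
  · -- the contragredient automorphism
    have hsub : ∀ A B : Matrix (Fin n) (Fin n) F, A.submatrix Fin.rev Fin.rev * B.submatrix Fin.rev Fin.rev = (A * B).submatrix Fin.rev Fin.rev :=
      fun A B => Matrix.submatrix_mul_equiv A B Fin.rev Fin.revPerm Fin.rev
    let P : GL (Fin n) F → GL (Fin n) F := fun g =>
      { val := (((g⁻¹ : GL (Fin n) F) : Matrix (Fin n) (Fin n) F)ᵀ).submatrix Fin.rev Fin.rev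
        inv := (((g : GL (Fin n) F) : Matrix (Fin n) (Fin n) F)ᵀ).submatrix Fin.rev Fin.rev
        val_inv := by
          rw [hsub, ← Matrix.transpose_mul, ← Units.val_mul, mul_inv_cancel, Units.val_one,
            Matrix.transpose_one, Matrix.submatrix_one _ Fin.rev_injective]
        inv_val := by
          rw [hsub, ← Matrix.transpose_mul, ← Units.val_mul, inv_mul_cancel, Units.val_one,
            Matrix.transpose_one, Matrix.submatrix_one _ Fin.rev_injective] }
    have hP : ∀ g, ((P g : GL (Fin n) F) : Matrix (Fin n) (Fin n) F) = (((g⁻¹ : GL (Fin n) F) : Matrix (Fin n) (Fin n) F)ᵀ).submatrix Fin.rev Fin.rev := fun g => rfl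
    have hPP : ∀ g, P (P g) = g := by
      intro g
      apply Units.ext
      rw [hP]
      ext i j
      rw [Matrix.submatrix_apply, Matrix.transpose_apply]
      change (((g : GL (Fin n) F) : Matrix (Fin n) (Fin n) F)ᵀ).submatrix Fin.rev Fin.rev (Fin.rev j) (Fin.rev i) = _
      rw [Matrix.submatrix_apply, Matrix.transpose_apply, Fin.rev_rev, Fin.rev_rev]
    let τ : GL (Fin n) F ≃* GL (Fin n) F :=
      { toFun := P
        invFun := P
        left_inv := hPP
        right_inv := hPP
        map_mul' := fun g h => by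
          apply Units.ext
          rw [Units.val_mul, hP, hP, hP, hsub, ← Matrix.transpose_mul, ← Units.val_mul,
            ← _root_.mul_inv_rev] }
    have hmem : ∀ g : GL (Fin n) F, ∀ j, j ≤ n → g ∈ Cfsg.stabilizing (Cfsg.glToMat (Fin n) F) (cs n j F : Set (Fin n → F)) →
        P g ∈ Cfsg.stabilizing (Cfsg.glToMat (Fin n) F) (cs n (n - j) F : Set (Fin n → F)) := by
      intro g j hj hg
      have hg' := (Cfsg.stabilizing (Cfsg.glToMat (Fin n) F) (cs n j F : Set (Fin n → F))).inv_mem hg
      rw [mem_stab_cs] at hg' ⊢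
      intro a b ha hb
      rw [hP, Matrix.submatrix_apply, Matrix.transpose_apply]
      apply hg'
      · rw [Fin.val_rev]
        omega
      · rw [Fin.val_rev]
        omega
    have hmap : (Cfsg.stabilizing (Cfsg.glToMat (Fin n) F) (cs n k F : Set (Fin n → F))).map (τ : _ →* _) =
        Cfsg.stabilizing (Cfsg.glToMat (Fin n) F) (cs n (n - k) F : Set (Fin n → F)) := by
      ext g
      constructor
      · rintro ⟨h, hh, rfl⟩
        exact hmem h k hkn.le hh
      · intro hg
        refine ⟨P g, ?_, hPP g⟩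
        have := hmem g (n - k) (Nat.sub_le _ _) hg
        rwa [Nat.sub_sub_self hkn.le] at this
    exact ⟨(τ.subgroupMap _).trans (MulEquiv.subgroupCongr hmap)⟩
  · intro g hg
    let W : Submodule F (Fin n → F) := (cs n k F).map (linE g : (Fin n → F) →ₗ[F] (Fin n → F))
    have hfr : ∀ j, j ≤ n → finrank F (cs n j F) = j := by
      intro j hj
      rw [← csf_span hj, finrank_span_eq_card (csf_li hj), Fintype.card_fin]
    have hWk : finrank F W = k := by
      rw [LinearEquiv.finrank_map_eq (linE g), hfr k hkn.le]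
    have hne : ∀ j, j < n → cs n j F ≠ ⊤ := by
      intro j hj h
      have h1 := hfr j hj.le
      rw [h, finrank_top, Module.finrank_fintype_fun_eq_card, Fintype.card_fin] at h1
      omega
    have hWne : W ≠ ⊤ := by
      intro h
      rw [h, finrank_top, Module.finrank_fintype_fun_eq_card, Fintype.card_fin] at hWk
      omega
    have hst : Cfsg.stabilizing (Cfsg.glToMat (Fin n) F) (W : Set (Fin n → F)) =
        Cfsg.stabilizing (Cfsg.glToMat (Fin n) F) (cs n (n - k) F : Set (Fin n → F)) := by
      rw [← hg]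
      have hWm : ∀ v, v ∈ W ↔ ap g⁻¹ v ∈ cs n k F := by
        intro v
        constructor
        · rintro ⟨u, hu, rfl⟩
          rw [LinearEquiv.coe_coe, linE_apply, ap_inv_ap]
          exact hu
        · intro hv
          exact ⟨_, hv, by rw [LinearEquiv.coe_coe, linE_apply, ap_ap_inv]⟩
      ext h
      constructor
      · intro hh
        refine ⟨g⁻¹ * h * g, ?_, by simp [MulAut.conj_apply, mul_assoc]⟩
        intro v
        have h1 : ap g v ∈ W ↔ ap h (ap g v) ∈ W := hh (ap g v)
        rw [hWm, hWm, ap_inv_ap] at h1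
        change v ∈ cs n k F ↔ ap (g⁻¹ * h * g) v ∈ cs n k F
        rw [ap_mul, ap_mul]
        exact h1
      · rintro ⟨x, hx, rfl⟩
        intro v
        change v ∈ W ↔ ap (g * x * g⁻¹) v ∈ W
        rw [hWm, hWm, ap_mul, ap_mul, ap_inv_ap]
        exact hx _
    have h1 := stab_le_imp (hne (n - k) (by omega)) hst.le
    have h2 := stab_le_imp hWne hst.ge
    have h3 := le_antisymm h1 h2
    rw [← h3, hfr (n - k) (Nat.sub_le _ _)] at hWk
    omega

end Cfsg.Agent.S0773
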