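import Cfsg.Statements.S0776
import Cfsg.Agent.H7.IsoStab

set_option autoImplicit false
open Cfsg
open Module Cfsg.Agent.H7.Quad Cfsg.Agent.H7.Tv Cfsg.Agent.H7.Witt Cfsg.Agent.H7.Herm

namespace Cfsg.Agent.S0776

/-- If W ≤ F^(2m) is a 2k-dimensional subspace on which the symplectic form is non-degenerate, then the stabiliser of W in Sp_2m(F) is isomorphic to Sp_2k(F) × Sp_(2m−2k)(F). -/
theorem result {F : Type*} [Field F] (m k : ℕ) (hk : k ≤ m) (W : Submodule F (Fin m ⊕ Fin m → F)) (hWk : Module.finrank F W = 2 * k) (hW : ∀ u ∈ W, (∀ v ∈ W, Cfsg.sympForm m F u v = 0) → u = 0) : Nonempty (↥(Cfsg.stabilizing (Cfsg.spToMat m F) (W : Set (Fin m ⊕ Fin m → F))) ≃* Matrix.symplecticGroup (Fin k) F × Matrix.symplecticGroup (Fin (m - k)) F) := by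
  have hAlt := sf_alt (F := F) m
  have hsz : ∀ x y, sf m F x y = 0 → sf m F y x = 0 := fun x y h => by rw [hAlt.skew, h, neg_zero]
  obtain ⟨W', hc, hW1, hW2⟩ := exists_compl (B := sf m F) hsz W hW
  obtain ⟨e⟩ := stab_prod (B := sf m F) (Q := fun _ => (0 : F)) W W' hc hW1 hW2 (fun _ _ _ _ => (add_zero _).symm)
  have hnd' : ∀ u ∈ W', (∀ v ∈ W', sf m F u v = 0) → u = 0 := by
    intro u hu h
    apply hAlt.nd
    intro x
    obtain ⟨w, hw, w', hw', rfl⟩ := Submodule.mem_sup.1 (show x ∈ W ⊔ W' by rw [hc.sup_eq_top]; trivial)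
    rw [map_add, LinearMap.add_apply, (hW1 u).1 hu w hw, hsz _ _ (h w' hw'), add_zero]
  have hf : finrank F W' = 2 * (m - k) := by
    have h1 := Submodule.finrank_add_eq_of_isCompl hc
    rw [hWk, Module.finrank_fintype_fun_eq_card, Fintype.card_sum, Fintype.card_fin] at h1
    omega
  obtain ⟨φ, hφ⟩ := symp_iso (B := (sf m F).domRestrict₁₂ W W) (fun x => hAlt.alt x)
    (fun u h => Subtype.ext (hW u u.2 (fun v hv => h ⟨v, hv⟩))) hWk
  obtain ⟨ψ, hψ⟩ := symp_iso (B := (sf m F).domRestrict₁₂ W' W') (fun x => hAlt.alt x)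
    (fun u h => Subtype.ext (hnd' u u.2 (fun v hv => h ⟨v, hv⟩))) hf
  have e1 := (isoCongr φ (Q := fun _ => (0 : F)) (Q' := fun _ => (0 : F)) hφ (fun _ => rfl)).trans (spIso k F).symm
  have e2 := (isoCongr ψ (Q := fun _ => (0 : F)) (Q' := fun _ => (0 : F)) hψ (fun _ => rfl)).trans (spIso (m - k) F).symm
  have hmap : (Cfsg.stabilizing (Cfsg.spToMat m F) (W : Set (Fin m ⊕ Fin m → F))).map (spIso m F : _ →* _) =
      stab (fun u v => sf m F u v) (fun _ => (0 : F)) W := by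
    ext g
    constructor
    · rintro ⟨A, hA, rfl⟩
      exact hA
    · intro hg
      refine ⟨(spIso m F).symm g, ?_, (spIso m F).apply_symm_apply g⟩
      intro v
      have h1 := hg v
      rw [← (spIso m F).apply_symm_apply g] at h1
      exact h1
  exact ⟨(((spIso m F).subgroupMap _).trans (MulEquiv.subgroupCongr hmap)).trans (e.trans (e1.prodCongr e2))⟩

end Cfsg.Agent.S0776
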