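import Cfsg.Statements.S0778

set_option autoImplicit false
open Cfsg
open Matrix

namespace Cfsg.Agent.S0778

/-- The elements of Sp_2m(F) stabilising both W = ⟨e_1..e_m⟩ and U = ⟨f_1..f_m⟩ form a subgroup isomorphic to GL_m(F) (block-diagonal matrices diag(X, X^(−ᵀ)) up to the sign convention of J), for m ≥ 1 or m = 0 alike. -/
theorem result {F : Type*} [Field F] (m : ℕ) : Nonempty (↥(Cfsg.stabilizing (Cfsg.spToMat m F) {v : Fin m ⊕ Fin m → F | ∀ i : Fin m, v (Sum.inr i) = 0} ⊓ Cfsg.stabilizing (Cfsg.spToMat m F) {v : Fin m ⊕ Fin m → F | ∀ i : Fin m, v (Sum.inl i) = 0}) ≃* Matrix.GeneralLinearGroup (Fin m) F) := by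
  classical
  let H := Cfsg.stabilizing (Cfsg.spToMat m F) {v : Fin m ⊕ Fin m → F | ∀ i : Fin m, v (Sum.inr i) = 0} ⊓
    Cfsg.stabilizing (Cfsg.spToMat m F) {v : Fin m ⊕ Fin m → F | ∀ i : Fin m, v (Sum.inl i) = 0}
  have hsp : ∀ a b : Matrix (Fin m) (Fin m) F, Matrix.fromBlocks a 0 0 b ∈ Matrix.symplecticGroup (Fin m) F ↔
      a * bᵀ = 1 ∧ b * aᵀ = 1 := by
    intro a b
    rw [SymplecticGroup.mem_iff, Matrix.J, Matrix.fromBlocks_transpose, Matrix.fromBlocks_multiply,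
      Matrix.fromBlocks_multiply, Matrix.fromBlocks_inj]
    simp
  have hmul : ∀ g : Matrix.GeneralLinearGroup (Fin m) F, (g : Matrix (Fin m) (Fin m) F) * ((g⁻¹ : Matrix.GeneralLinearGroup (Fin m) F) : Matrix (Fin m) (Fin m) F) = 1 := fun g => g.mul_inv
  have hmul' : ∀ g : Matrix.GeneralLinearGroup (Fin m) F, ((g⁻¹ : Matrix.GeneralLinearGroup (Fin m) F) : Matrix (Fin m) (Fin m) F) * (g : Matrix (Fin m) (Fin m) F) = 1 := fun g => g.inv_mul
  have hmem : ∀ g : Matrix.GeneralLinearGroup (Fin m) F, Matrix.fromBlocks (g : Matrix (Fin m) (Fin m) F) 0 0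
      ((g⁻¹ : Matrix.GeneralLinearGroup (Fin m) F) : Matrix (Fin m) (Fin m) F)ᵀ ∈ Matrix.symplecticGroup (Fin m) F := by
    intro g
    rw [hsp, Matrix.transpose_transpose, hmul, ← Matrix.transpose_mul, hmul, Matrix.transpose_one]
    exact ⟨rfl, rfl⟩
  have hst : ∀ g : Matrix.GeneralLinearGroup (Fin m) F, (⟨_, hmem g⟩ : Matrix.symplecticGroup (Fin m) F) ∈ H := by
    have key : ∀ g : Matrix.GeneralLinearGroup (Fin m) F, ∀ v : Fin m → F, (g : Matrix (Fin m) (Fin m) F) *ᵥ v = 0 ↔ v = 0 := by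
      intro g v
      constructor
      · intro h
        have := congrArg (fun w => ((g⁻¹ : Matrix.GeneralLinearGroup (Fin m) F) : Matrix (Fin m) (Fin m) F) *ᵥ w) h
        simpa [Matrix.mulVec_mulVec, hmul'] using this
      · rintro rfl
        exact Matrix.mulVec_zero _
    have key' : ∀ g : Matrix.GeneralLinearGroup (Fin m) F, ∀ v : Fin m → F, ((g⁻¹ : Matrix.GeneralLinearGroup (Fin m) F) : Matrix (Fin m) (Fin m) F)ᵀ *ᵥ v = 0 ↔ v = 0 := by
      intro g v
      constructor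
      · intro h
        have := congrArg (fun w => (g : Matrix (Fin m) (Fin m) F)ᵀ *ᵥ w) h
        simpa [Matrix.mulVec_mulVec, ← Matrix.transpose_mul, hmul'] using this
      · rintro rfl
        exact Matrix.mulVec_zero _
    intro g
    have hfb : ∀ v : Fin m ⊕ Fin m → F, Matrix.fromBlocks (g : Matrix (Fin m) (Fin m) F) 0 0
      ((g⁻¹ : Matrix.GeneralLinearGroup (Fin m) F) : Matrix (Fin m) (Fin m) F)ᵀ *ᵥ v =
        Sum.elim ((g : Matrix (Fin m) (Fin m) F) *ᵥ (v ∘ Sum.inl)) (((g⁻¹ : Matrix.GeneralLinearGroup (Fin m) F) : Matrix (Fin m) (Fin m) F)ᵀ *ᵥ (v ∘ Sum.inr)) := by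
      intro v
      rw [Matrix.fromBlocks_mulVec]
      simp
    constructor
    · intro v
      change (∀ i, v (Sum.inr i) = 0) ↔ ∀ i, (Matrix.fromBlocks (g : Matrix (Fin m) (Fin m) F) 0 0
        ((g⁻¹ : Matrix.GeneralLinearGroup (Fin m) F) : Matrix (Fin m) (Fin m) F)ᵀ *ᵥ v) (Sum.inr i) = 0
      rw [hfb]
      simp only [Sum.elim_inr]
      have := key' g (v ∘ Sum.inr)
      rw [funext_iff, funext_iff] at this
      exact this.symm
    · intro v
      change (∀ i, v (Sum.inl i) = 0) ↔ ∀ i, (Matrix.fromBlocks (g : Matrix (Fin m) (Fin m) F) 0 0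
        ((g⁻¹ : Matrix.GeneralLinearGroup (Fin m) F) : Matrix (Fin m) (Fin m) F)ᵀ *ᵥ v) (Sum.inl i) = 0
      rw [hfb]
      simp only [Sum.elim_inl]
      have := key g (v ∘ Sum.inl)
      rw [funext_iff, funext_iff] at this
      exact this.symm
  let f : Matrix.GeneralLinearGroup (Fin m) F →* H :=
    { toFun := fun g => ⟨⟨_, hmem g⟩, hst g⟩
      map_one' := by
        apply Subtype.ext
        apply Subtype.ext
        change Matrix.fromBlocks ((1 : Matrix.GeneralLinearGroup (Fin m) F) : Matrix (Fin m) (Fin m) F) 0 0 (((1 : Matrix.GeneralLinearGroup (Fin m) F)⁻¹ : Matrix.GeneralLinearGroup (Fin m) F) : Matrix (Fin m) (Fin m) F)ᵀ = 1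
        rw [inv_one]
        simp
      map_mul' := fun g h => by
        apply Subtype.ext
        apply Subtype.ext
        change Matrix.fromBlocks ((g * h : Matrix.GeneralLinearGroup (Fin m) F) : Matrix (Fin m) (Fin m) F) 0 0 (((g * h)⁻¹ : Matrix.GeneralLinearGroup (Fin m) F) : Matrix (Fin m) (Fin m) F)ᵀ =
          Matrix.fromBlocks (g : Matrix (Fin m) (Fin m) F) 0 0 ((g⁻¹ : Matrix.GeneralLinearGroup (Fin m) F) : Matrix (Fin m) (Fin m) F)ᵀ *
          Matrix.fromBlocks (h : Matrix (Fin m) (Fin m) F) 0 0 ((h⁻¹ : Matrix.GeneralLinearGroup (Fin m) F) : Matrix (Fin m) (Fin m) F)ᵀ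
        rw [Matrix.fromBlocks_multiply, _root_.mul_inv_rev]
        simp [Matrix.transpose_mul] }
  refine ⟨(MulEquiv.ofBijective f ⟨?_, ?_⟩).symm⟩
  · intro g h hgh
    have h1 := congrArg (fun x : H => ((x : Matrix.symplecticGroup (Fin m) F) : Matrix (Fin m ⊕ Fin m) (Fin m ⊕ Fin m) F)) hgh
    exact Units.ext (Matrix.fromBlocks_inj.1 h1).1
  · rintro ⟨⟨A, hA⟩, hAW, hAU⟩
    have hA21 : A.toBlocks₂₁ = 0 := by
      ext i j
      have h1 := (hAW (Pi.single (Sum.inl j) 1)).1 (fun k => by simp)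
      have h2 := h1 i
      change (A *ᵥ Pi.single (Sum.inl j) 1) (Sum.inr i) = 0 at h2
      change A (Sum.inr i) (Sum.inl j) = 0
      simpa using h2
    have hA12 : A.toBlocks₁₂ = 0 := by
      ext i j
      have h1 := (hAU (Pi.single (Sum.inr j) 1)).1 (fun k => by simp)
      have h2 := h1 i
      change (A *ᵥ Pi.single (Sum.inr j) 1) (Sum.inl i) = 0 at h2
      change A (Sum.inl i) (Sum.inr j) = 0
      simpa using h2
    have hAeq : A = Matrix.fromBlocks A.toBlocks₁₁ 0 0 A.toBlocks₂₂ := by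
      conv_lhs => rw [← Matrix.fromBlocks_toBlocks A, hA21, hA12]
    have hA' := hA
    rw [hAeq, hsp] at hA'
    have h3 : A.toBlocks₂₂ᵀ * A.toBlocks₁₁ = 1 := by
      have := congrArg Matrix.transpose hA'.2
      rw [Matrix.transpose_mul, Matrix.transpose_transpose, Matrix.transpose_one] at this
      exact mul_eq_one_comm.1 hA'.1
    refine ⟨⟨A.toBlocks₁₁, A.toBlocks₂₂ᵀ, hA'.1, h3⟩, ?_⟩
    apply Subtype.ext
    apply Subtype.ext
    change Matrix.fromBlocks A.toBlocks₁₁ 0 0 (A.toBlocks₂₂ᵀ)ᵀ = A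
    rw [Matrix.transpose_transpose, ← hAeq]

end Cfsg.Agent.S0778
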