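import Cfsg.Statements.S0779
import Cfsg.Agent.H7.Herm

set_option autoImplicit false
open Cfsg
open Cfsg.Agent.H7.Herm Matrix

namespace Cfsg.Agent.S0779

/-- Unitary transvections: let |F| = q², h the standard Hermitian form Σ x_i y_i^q and v ≠ 0 with h(v, v) = 0. The linear map x ↦ x + c h(x, v) v is an isometry of h if and only if c = 0 or c^(q−1) = −1. -/
theorem result {F : Type*} [Field F] [Fintype F] {q : ℕ} (hF : Fintype.card F = q ^ 2) (n : ℕ) (v : Fin n → F) (hv : v ≠ 0) (hv0 : Cfsg.hermForm n F q v v = 0) (c : F) : (∀ x y : Fin n → F, Cfsg.hermForm n F q ((Cfsg.unitaryTransvection n q v c).mulVec x) ((Cfsg.unitaryTransvection n q v c).mulVec y) = Cfsg.hermForm n F q x y) ↔ (c = 0 ∨ c ^ (q - 1) = -1) := by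
  obtain ⟨σ, hs1, hs2, hs3⟩ := exists_frob hF
  have hT : ∀ x, unitaryTransvection n q v c *ᵥ x = x + (c * hermForm n F q x v) • v := by
    intro x
    rw [unitaryTransvection, Matrix.add_mulVec, Matrix.one_mulVec, Matrix.smul_mulVec, Matrix.vecMulVec_mulVec]
    have : (fun j => v j ^ q) ⬝ᵥ x = hermForm n F q x v := by
      rw [hermForm, dotProduct]
      exact Finset.sum_congr rfl fun i _ => mul_comm _ _
    rw [this]
    funext i
    simp
    ring
  have hsym : ∀ x y, hermForm n F q x y ^ q = hermForm n F q y x := by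
    intro x y
    rw [← hB_eq hs1, ← hs1, hB_symm hs2, hB_eq hs1]
  have key : ∀ x y, hermForm n F q (unitaryTransvection n q v c *ᵥ x) (unitaryTransvection n q v c *ᵥ y) =
      hermForm n F q x y + (c + c ^ q) * (hermForm n F q x v * hermForm n F q v y) := by
    intro x y
    rw [hT, hT, ← hB_eq hs1, ← hB_eq hs1]
    simp only [map_add, LinearMap.map_smulₛₗ, LinearMap.add_apply, LinearMap.smul_apply, smul_eq_mul, map_mul]
    simp only [hB_eq hs1, hs1, hsym, hv0, RingHom.id_apply]
    ring
  constructor
  · intro h
    by_cases hc : c = 0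
    · exact Or.inl hc
    right
    obtain ⟨x, hx⟩ : ∃ x, hermForm n F q x v ≠ 0 := by
      by_contra hcon
      push Not at hcon
      exact hv (hB_nd (σ := σ) v (fun u => by rw [hB_eq hs1]; exact hcon u))
    have hx' : hermForm n F q v x ≠ 0 := by
      intro h0
      have := hsym v x
      rw [h0, zero_pow (by have := one_lt_q hF; omega)] at this
      exact hx this.symm
    have h1 := h x x
    rw [key, add_eq_left, mul_eq_zero] at h1
    have h2 := h1.resolve_right (mul_ne_zero hx hx')
    have h3 : c ^ (q - 1) * c = (-1) * c := by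
      rw [← pow_succ, Nat.sub_add_cancel (one_lt_q hF).le]
      linear_combination h2
    exact mul_right_cancel₀ hc h3
  · intro h x y
    rw [key, add_eq_left]
    have h2 : c + c ^ q = 0 := by
      rcases h with rfl | h
      · rw [zero_pow (by have := one_lt_q hF; omega), add_zero]
      · have h3 : c ^ (q - 1) * c = (-1) * c := by rw [h]
        rw [← pow_succ, Nat.sub_add_cancel (one_lt_q hF).le] at h3
        rw [h3]
        ring
    rw [h2, zero_mul]

end Cfsg.Agent.S0779
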