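import Cfsg.Statements.S0780
import Cfsg.Agent.H7.UniStd

set_option autoImplicit false
open Cfsg
open Module Matrix Cfsg.Agent.H7 Cfsg.Agent.H7.UTv Cfsg.Agent.H7.Tv

namespace Cfsg.Agent.S0780

/-- Generation of SU_n(q), n ≥ 3, (n, q) ≠ (3, 2), by unitary transvections: the subgroup generated by the elements whose matrix is x ↦ x + c h(x, v) v with v isotropic is all of SU_n(q). -/
theorem result {F : Type*} [Field F] [Fintype F] {q : ℕ} (hF : Fintype.card F = q ^ 2) (n : ℕ) (hn : 3 ≤ n) (h32 : ¬ (n = 3 ∧ q = 2)) : Subgroup.closure {A : ↥(Cfsg.SU n F q) | ∃ (v : Fin n → F) (c : F), Cfsg.hermForm n F q v v = 0 ∧ ((A : Matrix.SpecialLinearGroup (Fin n) F) : Matrix (Fin n) (Fin n) F) = Cfsg.unitaryTransvection n q v c} = ⊤ := by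
  obtain ⟨σ, hσ, hB, hBq, hGU⟩ := hm_std hF n
  have hcond : 4 ≤ n ∨ (n = 3 ∧ 3 ≤ q) := by
    by_cases h4 : 4 ≤ n
    · exact Or.inl h4
    · right
      refine ⟨by omega, ?_⟩
      have h1 := Cfsg.Agent.H7.Herm.one_lt_q hF
      have h2 : q ≠ 2 := fun h2 => h32 ⟨by omega, h2⟩
      omega
  have hgen := gen_cond hF hσ hB hcond
  have hr := suE_range (q := q) hGU
  rw [eq_top_iff]
  intro x _
  have h1 : suE n F q x ∈ TC (Cfsg.Agent.H7.Herm.hB n σ) ⊤ := by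
    rw [← hgen, ← hr]
    exact ⟨x, rfl⟩
  have h2 : TC (Cfsg.Agent.H7.Herm.hB n σ) ⊤ ≤ (Subgroup.closure {A : ↥(Cfsg.SU n F q) | ∃ (v : Fin n → F) (c : F),
      Cfsg.hermForm n F q v v = 0 ∧ ((A : Matrix.SpecialLinearGroup (Fin n) F) : Matrix (Fin n) (Fin n) F) =
        Cfsg.unitaryTransvection n q v c}).map (suE n F q) := by
    rw [TC, Subgroup.closure_le]
    rintro g ⟨u, hu, c, hu0, hc, hg⟩
    have h3 : g ∈ SUn (Cfsg.Agent.H7.Herm.hB n σ) := TC_le_SUn hB (uc_TC hu hu0 c hc g hg)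
    rw [← hr] at h3
    obtain ⟨y, rfl⟩ := h3
    refine ⟨y, Subgroup.subset_closure ⟨u, c, by rw [← hBq]; exact hu0, ?_⟩, rfl⟩
    exact (utv_iff (g := suE n F q y) hBq).2 hg
  obtain ⟨y, hy, hyx⟩ := h2 h1
  rw [← suE_inj n hyx]
  exact hy

end Cfsg.Agent.S0780
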