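import Cfsg.Statements.S0781
import Cfsg.Agent.H7.UniStd

set_option autoImplicit false
open Cfsg
open Module Matrix Cfsg.Agent.H7 Cfsg.Agent.H7.UTv Cfsg.Agent.H7.Tv

namespace Cfsg.Agent.S0781

/-- In SU_n(q) with n ≥ 4, or n = 3 and q > 2, every element whose matrix is a unitary transvection x ↦ x + c h(x, v) v (v isotropic) is a commutator ⁅B, C⁆ of two elements of SU_n(q). -/
theorem result {F : Type*} [Field F] [Fintype F] {q : ℕ} (hF : Fintype.card F = q ^ 2) (n : ℕ) (hn : 4 ≤ n ∨ (n = 3 ∧ 3 ≤ q)) (A : ↥(Cfsg.SU n F q)) (v : Fin n → F) (c : F) (hv0 : Cfsg.hermForm n F q v v = 0) (hA : ((A : Matrix.SpecialLinearGroup (Fin n) F) : Matrix (Fin n) (Fin n) F) = Cfsg.unitaryTransvection n q v c) : A ∈ commutatorSet ↥(Cfsg.SU n F q) := by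
  obtain ⟨σ, hσ, hB, hBq, hGU⟩ := hm_std hF n
  have hr := suE_range (q := q) hGU
  have h1 : IsTv (suE n F q A) v (c • Cfsg.Agent.H7.Herm.hB n σ v) := (utv_iff (g := suE n F q A) hBq).1 hA
  have hv : Cfsg.Agent.H7.Herm.hB n σ v v = 0 := by rw [hBq]; exact hv0
  by_cases hv0 : v = 0
  · refine ⟨1, 1, ?_⟩
    rw [commutatorElement_one_right]
    apply suE_inj n
    apply ap_ext
    intro x
    rw [h1, hv0, smul_zero, add_zero, map_one, ap_one]
  have h2 : Isom (Cfsg.Agent.H7.Herm.hB n σ) (suE n F q A) := (hGU _).1 A.2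
  have hc := utv_tr hB h2 hv0 hv h1
  obtain ⟨a, ha, b, hb, hab⟩ := utv_comm hB (by rw [Fintype.card_fin]; omega) hv hc h1
  rw [← hr] at ha hb
  obtain ⟨a', rfl⟩ := ha
  obtain ⟨b', rfl⟩ := hb
  refine ⟨a', b', ?_⟩
  apply suE_inj n
  rw [hab, commutatorElement_def]
  simp

end Cfsg.Agent.S0781
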