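import Cfsg.Statements.S0783
import Cfsg.Agent.H7.UniStd

set_option autoImplicit false
open Cfsg
open Module Matrix Cfsg.Agent.H7 Cfsg.Agent.H7.UTv Cfsg.Agent.H7.Tv

namespace Cfsg.Agent.S0783

/-- PGU_n(q)/PSU_n(q) is cyclic of order (n, q+1): for n ≥ 2 and |F| = q² there is a surjective homomorphism from GU_n(q) onto the cyclic group of order gcd(n, q + 1) whose kernel is generated by the determinant-one elements together with the centre. -/
theorem result {F : Type*} [Field F] [Fintype F] {q : ℕ} (hF : Fintype.card F = q ^ 2) (n : ℕ) (hn : 2 ≤ n) : ∃ φ : ↥(Cfsg.GU n F q) →* Multiplicative (ZMod (Nat.gcd n (q + 1))), Function.Surjective φ ∧ φ.ker = (Matrix.GeneralLinearGroup.det : Matrix.GeneralLinearGroup (Fin n) F →* Fˣ).ker.subgroupOf (Cfsg.GU n F q) ⊔ Subgroup.center ↥(Cfsg.GU n F q) := by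
  classical
  obtain ⟨σ, hσ, hB, hBq, hGU⟩ := hm_std hF n
  have hq1 := Cfsg.Agent.H7.Herm.one_lt_q hF
  let C : Subgroup Fˣ := (powMonoidHom (q + 1) : Fˣ →* Fˣ).ker
  have hcard : Nat.card Fˣ = (q + 1) * (q - 1) := by
    rw [Nat.card_eq_fintype_card, Fintype.card_units, hF]
    obtain ⟨r, rfl⟩ : ∃ r, q = r + 1 := ⟨q - 1, by omega⟩
    rw [Nat.add_sub_cancel]
    apply Nat.sub_eq_of_eq_add
    ring
  have hC : Nat.card C = q + 1 := by
    have h1 := IsCyclic.card_powMonoidHom_ker Fˣ (q + 1)
    rw [hcard] at h1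
    rw [h1]
    exact Nat.gcd_eq_right (Dvd.intro _ rfl)
  let f : GU n F q →* Fˣ := (Matrix.GeneralLinearGroup.det).comp (GU n F q).subtype
  have hfC : ∀ g, f g ∈ C := by
    intro g
    rw [MonoidHom.mem_ker, powMonoidHom_apply]
    apply Units.ext
    exact Cfsg.Agent.H7.Herm.det_pow hF (A := ((g : GL (Fin n) F) : Matrix (Fin n) (Fin n) F)) g.2
  let fC : GU n F q →* C := f.codRestrict C hfC
  have hsurj : Function.Surjective fC := by
    rintro ⟨c, hc⟩
    rw [MonoidHom.mem_ker, powMonoidHom_apply] at hc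
    refine ⟨⟨Cfsg.Agent.H7.Herm.dg (Function.update (fun _ => (1 : Fˣ)) (⟨0, by omega⟩ : Fin n) c), Cfsg.Agent.H7.Herm.dg_mem _ (fun i => ?_)⟩, ?_⟩
    · by_cases hi : i = ⟨0, by omega⟩
      · subst hi
        rw [Function.update_self, ← Units.val_pow_eq_pow_val, hc, Units.val_one]
      · rw [Function.update_of_ne hi, Units.val_one, one_pow]
    · apply Subtype.ext
      apply Units.ext
      change (Matrix.diagonal _).det = _
      rw [Matrix.det_diagonal]
      rw [Finset.prod_eq_single (⟨0, by omega⟩ : Fin n)]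
      · rw [Function.update_self]
      · intro i _ hi
        rw [Function.update_of_ne hi, Units.val_one]
      · intro h; exact absurd (Finset.mem_univ _) h
  let P : Subgroup C := (powMonoidHom n : C →* C).range
  have hP : Nat.card (C ⧸ P) = Nat.gcd n (q + 1) := by
    have h1 := IsCyclic.card_powMonoidHom_ker C n
    have h2 : Nat.card C = Nat.card (powMonoidHom n : C →* C).ker * Nat.card P := by
      rw [mul_comm]
      rw [← Subgroup.index_ker]
      exact (Subgroup.index_mul_card _).symm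
    have h3 : Nat.card C = Nat.card (C ⧸ P) * Nat.card P := Subgroup.card_eq_card_quotient_mul_card_subgroup P
    have h4 : 0 < Nat.card P := Nat.card_pos
    have h5 : Nat.card (C ⧸ P) = Nat.card (powMonoidHom n : C →* C).ker := Nat.eq_of_mul_eq_mul_right h4 (h3.symm.trans h2)
    rw [h5, h1, hC, Nat.gcd_comm]
  have e : (C ⧸ P) ≃* Multiplicative (ZMod (Nat.gcd n (q + 1))) := by
    apply mulEquivOfCyclicCardEq
    rw [hP, Nat.card_congr (Multiplicative.toAdd), Nat.card_zmod]
  refine ⟨(e.toMonoidHom.comp (QuotientGroup.mk' P)).comp fC, ?_, ?_⟩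
  · exact (e.surjective.comp (QuotientGroup.mk'_surjective P)).comp hsurj
  have hker : ∀ g : GU n F q, g ∈ ((e.toMonoidHom.comp (QuotientGroup.mk' P)).comp fC).ker ↔ fC g ∈ P := by
    intro g
    rw [MonoidHom.mem_ker]
    change e (QuotientGroup.mk (fC g)) = 1 ↔ _
    rw [map_eq_one_iff e e.injective, QuotientGroup.eq_one_iff]
  -- scalars
  have hscal : ∀ c : C, ∃ z : GU n F q, z ∈ Subgroup.center (GU n F q) ∧ fC z = c ^ n := by
    rintro ⟨c, hc⟩
    rw [MonoidHom.mem_ker, powMonoidHom_apply] at hc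
    refine ⟨⟨Cfsg.Agent.H7.Herm.dg (fun _ => c), Cfsg.Agent.H7.Herm.dg_mem _ (fun i => ?_)⟩, ?_, ?_⟩
    · rw [← Units.val_pow_eq_pow_val, hc, Units.val_one]
    · rw [Subgroup.mem_center_iff]
      intro g
      apply Subtype.ext
      apply Units.ext
      change _ * Matrix.diagonal _ = Matrix.diagonal _ * _
      rw [← Matrix.smul_one_eq_diagonal, Matrix.mul_smul, Matrix.smul_mul, mul_one, one_mul]
    · apply Subtype.ext
      apply Units.ext
      change (Matrix.diagonal _).det = _
      rw [Matrix.det_diagonal, Finset.prod_const, Finset.card_univ, Fintype.card_fin]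
      simp
  have hcen : ∀ z : GU n F q, z ∈ Subgroup.center (GU n F q) → fC z ∈ P := by
    intro z hz
    have hzI := (hGU _).1 z.2
    obtain ⟨c, hc⟩ : ∃ c : F, ∀ v, ap (z : GL (Fin n) F) v = c • v := by
      apply scalar_of_fix' hB (by rw [Fintype.card_fin]; exact hn) hzI
      intro a ha
      by_cases ha0 : a = 0
      · rw [ha0, ap_zero]; exact zero_mem _
      obtain ⟨k, hk0, hk⟩ := hB.exists_tz
      obtain ⟨t, ht⟩ := exists_utv ha k
      have htI := isom_utv hB.symm ha hk ht
      have h1 := congrArg (fun w : GU n F q => (w : GL (Fin n) F)) (Subgroup.mem_center_iff.1 hz ⟨t, (hGU t).2 htI⟩)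
      obtain ⟨b, -, hb, hab⟩ := exists_partner hB (nd_top hB) Submodule.mem_top ha0 ha
      have h2 : ap (t * (z : GL (Fin n) F)) b = ap ((z : GL (Fin n) F) * t) b := congrArg (fun w => ap w b) h1
      rw [ap_mul, ap_mul, ht, ht, ap_add, ap_smul] at h2
      have h3 := add_left_cancel h2
      rw [LinearMap.smul_apply, LinearMap.smul_apply, hab, smul_eq_mul, smul_eq_mul, mul_one] at h3
      rw [Submodule.mem_span_singleton]
      exact ⟨k⁻¹ * (k * Cfsg.Agent.H7.Herm.hB n σ a (ap (z : GL (Fin n) F) b)), by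
        rw [mul_smul, h3, smul_smul, inv_mul_cancel₀ hk0, one_smul]⟩
    -- the scalar is of norm one
    obtain ⟨a, -, b, -, ha, hb, hab⟩ := exists_hyp hB (nd_top hB) (by rw [finrank_top, finrank_fintype_fun_eq_card, Fintype.card_fin]; exact hn)
    have h1 := hzI a b
    rw [hc, hc, map_smul, LinearMap.map_smulₛₗ, LinearMap.smul_apply, hab, smul_eq_mul, smul_eq_mul, mul_one, hσ] at h1
    have hc0 : c ≠ 0 := by rintro rfl; rw [zero_mul] at h1; exact zero_ne_one h1
    have h2 : (Units.mk0 c hc0) ^ (q + 1) = 1 := by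
      apply Units.ext
      rw [Units.val_pow_eq_pow_val, Units.val_mk0, pow_succ', h1, Units.val_one]
    refine ⟨⟨Units.mk0 c hc0, by rw [MonoidHom.mem_ker, powMonoidHom_apply]; exact h2⟩, ?_⟩
    apply Subtype.ext
    apply Units.ext
    rw [powMonoidHom_apply]
    have h3 : ((z : GL (Fin n) F) : Matrix (Fin n) (Fin n) F) = Matrix.diagonal (fun _ => c) := by
      apply Matrix.ext_of_mulVec_single
      intro i
      have h4 := hc (Pi.single i 1)
      rw [ap] at h4
      rw [h4]
      rw [← Matrix.smul_one_eq_diagonal, Matrix.smul_mulVec, Matrix.one_mulVec]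
    change _ = ((z : GL (Fin n) F) : Matrix (Fin n) (Fin n) F).det
    rw [h3, Matrix.det_diagonal, Finset.prod_const, Finset.card_univ, Fintype.card_fin]
    simp
  have hdet : ∀ g : GU n F q, fC g = 1 ↔ g ∈ (Matrix.GeneralLinearGroup.det : Matrix.GeneralLinearGroup (Fin n) F →* Fˣ).ker.subgroupOf (GU n F q) := by
    intro g
    rw [Subgroup.mem_subgroupOf, MonoidHom.mem_ker]
    constructor
    · intro h
      exact congrArg Subtype.val h
    · intro h
      exact Subtype.ext h
  apply le_antisymm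
  · intro g hg
    rw [hker] at hg
    obtain ⟨c, hc⟩ := hg
    rw [powMonoidHom_apply] at hc
    obtain ⟨z, hz, hzc⟩ := hscal c
    have h1 : fC (g * z⁻¹) = 1 := by rw [map_mul, map_inv, hzc, hc, mul_inv_cancel]
    have h2 := Subgroup.mul_mem_sup ((hdet _).1 h1) hz
    rwa [inv_mul_cancel_right] at h2
  · rw [sup_le_iff]
    constructor
    · intro g hg
      rw [hker, (hdet g).2 hg]
      exact one_mem _
    · intro z hz
      rw [hker]
      exact hcen z hz

end Cfsg.Agent.S0783
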