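import Cfsg.Statements.S0785
import Cfsg.Agent.H7.QF

set_option autoImplicit false
open Cfsg
open Cfsg.Agent.H7.QF Cfsg.Agent.H7.Quad Cfsg.Agent.H7.Tv Matrix QuadraticMap

namespace Cfsg.Agent.S0785

/-- det(I) = {±1}: for a quadratic form on F^n whose polar form is non-degenerate, every element of the isometry group has determinant 1 or −1, and as soon as Q takes a non-zero value some isometry has determinant −1. -/
theorem result {F : Type*} [Field F] {n : ℕ} (Q : QuadraticForm F (Fin n → F)) (hQ : (QuadraticMap.polarBilin Q).Nondegenerate) : (∀ g : ↥(Cfsg.isometryGroup F ⇑Q), ((g : Matrix.GeneralLinearGroup (Fin n) F) : Matrix (Fin n) (Fin n) F).det = 1 ∨ ((g : Matrix.GeneralLinearGroup (Fin n) F) : Matrix (Fin n) (Fin n) F).det = -1) ∧ ((∃ v, Q v ≠ 0) → ∃ g : ↥(Cfsg.isometryGroup F ⇑Q), ((g : Matrix.GeneralLinearGroup (Fin n) F) : Matrix (Fin n) (Fin n) F).det = -1) := by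
  have hB0 : ∀ x y, polarBilin Q x y = x ⬝ᵥ (LinearMap.toMatrix₂' F (polarBilin Q) *ᵥ y) := by
    intro x y
    rw [← Matrix.toLinearMap₂'_apply', Matrix.toLinearMap₂'_toMatrix']
  have hdet : (LinearMap.toMatrix₂' F (polarBilin Q)).det ≠ 0 := by
    intro h
    obtain ⟨v, hv, hv'⟩ := Matrix.exists_mulVec_eq_zero_iff.2 h
    apply hv
    apply pB_nd hQ
    intro u
    rw [hB0, hv', dotProduct_zero]
  constructor
  · intro g
    have hg := mem_isometryGroup.1 g.2
    have h1 : ∀ x y, polarBilin Q (ap g.1 x) (ap g.1 y) = polarBilin Q x y := by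
      intro x y
      rw [pB_apply, pB_apply, polar, polar, ← ap_add, hg, hg, hg]
    have h2 : ((g : GL (Fin n) F) : Matrix (Fin n) (Fin n) F)ᵀ * LinearMap.toMatrix₂' F (polarBilin Q) *
        ((g : GL (Fin n) F) : Matrix (Fin n) (Fin n) F) = LinearMap.toMatrix₂' F (polarBilin Q) := by
      ext i j
      have h3 := h1 (Pi.single i 1) (Pi.single j 1)
      rw [hB0, hB0, ap_def, ap_def, ← Matrix.vecMul_transpose, ← Matrix.dotProduct_mulVec, Matrix.mulVec_mulVec,
        Matrix.mulVec_mulVec] at h3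
      simpa [mul_assoc] using h3
    have h3 := congrArg Matrix.det h2
    rw [Matrix.det_mul, Matrix.det_mul, Matrix.det_transpose] at h3
    have h4 : ((g : GL (Fin n) F) : Matrix (Fin n) (Fin n) F).det * ((g : GL (Fin n) F) : Matrix (Fin n) (Fin n) F).det = 1 := by
      apply mul_right_cancel₀ hdet
      rw [one_mul]
      linear_combination h3
    exact mul_self_eq_one_iff.1 h4
  · rintro ⟨v, hv⟩
    have hu : IsUnit (reflectionMatrix ⇑Q v).det := by rw [refl_det Q hv]; exact isUnit_one.neg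
    refine ⟨⟨Matrix.GeneralLinearGroup.mk'' (reflectionMatrix ⇑Q v) hu, ?_⟩, refl_det Q hv⟩
    rw [mem_isometryGroup]
    exact refl_iso Q hv

end Cfsg.Agent.S0785
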