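import Cfsg.Statements.S0786
import Cfsg.Agent.H7.OrthGen

set_option autoImplicit false
open Cfsg
open Module Cfsg.Agent.H7 Cfsg.Agent.H7.Orth Cfsg.Agent.H7.Tv

namespace Cfsg.Agent.S0786

/-- Generation by reflections: if F is finite, Q is a quadratic form on F^n with non-degenerate polar form, and (|F|, n) ≠ (2, 4), then the isometry group of Q is generated by the reflections r_v, Q(v) ≠ 0. -/
theorem result {F : Type*} [Field F] [Fintype F] {n : ℕ} (Q : QuadraticForm F (Fin n → F)) (hQ : (QuadraticMap.polarBilin Q).Nondegenerate) (h : Fintype.card F ≠ 2 ∨ n ≠ 4) : Subgroup.closure {g : ↥(Cfsg.isometryGroup F ⇑Q) | ∃ v : Fin n → F, Q v ≠ 0 ∧ ((g : Matrix.GeneralLinearGroup (Fin n) F) : Matrix (Fin n) (Fin n) F) = Cfsg.reflectionMatrix ⇑Q v} = ⊤ := by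
  have hQ' := qf_pB hQ
  have hO := O_eq_RR' hQ' (by
    rw [Nat.card_eq_fintype_card, Fintype.card_fin]
    rcases h with h | h
    · left
      have := Fintype.one_lt_card (α := F)
      omega
    · exact Or.inr h)
  apply Subgroup.map_injective (Cfsg.isometryGroup F ⇑Q).subtype_injective
  rw [map_closure_sub, ← MonoidHom.range_eq_map, Subgroup.range_subtype]
  refine Eq.trans ?_ hO.symm
  rw [RR]
  congr 1
  ext g
  constructor
  · rintro ⟨⟨g, hg⟩, ⟨v, hv, e⟩, rfl⟩
    refine ⟨v, trivial, hv, ?_⟩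
    apply Units.ext
    rw [Rf_coe hQ hv]
    exact e
  · rintro ⟨v, -, hv, rfl⟩
    exact ⟨⟨Rf (⇑Q) (QuadraticMap.polarBilin Q) v, Rf_mem_O hQ' hv⟩, ⟨v, hv, Rf_coe hQ hv⟩, rfl⟩

end Cfsg.Agent.S0786
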