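import Cfsg.Statements.S0789
import Cfsg.Agent.H7.OrthCount

set_option autoImplicit false
open Cfsg
open Module Cfsg.Agent.H7 Cfsg.Agent.H7.Orth Cfsg.Agent.H7.Tv

namespace Cfsg.Agent.S0789

/-- Ω has index 2 in O for q even: if F is finite of characteristic two, n ≥ 2, Q is a quadratic form on F^n with non-degenerate polar form, and (|F|, n) ≠ (2, 4), then the commutator subgroup of the isometry group of Q has index 2 in it. -/
theorem result {F : Type*} [Field F] [Fintype F] [CharP F 2] {n : ℕ} (hn : 2 ≤ n) (Q : QuadraticForm F (Fin n → F)) (hQ : (QuadraticMap.polarBilin Q).Nondegenerate) (h : Fintype.card F ≠ 2 ∨ n ≠ 4) : (Cfsg.Omega F ⇑Q).index = 2 := by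
  have hQ' := qf_pB hQ
  have hO := O_eq_RR' hQ' (by
    rw [Nat.card_eq_fintype_card, Fintype.card_fin]
    rcases h with h | h
    · left
      have := Fintype.one_lt_card (α := F)
      omega
    · exact Or.inr h)
  exact omega_index_even hQ' hO CharTwo.two_eq_zero (by rw [Fintype.card_fin]; omega)

end Cfsg.Agent.S0789
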