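import Cfsg.Statements.S0790
import Cfsg.Agent.H7.OrthCount

set_option autoImplicit false
open Cfsg
open Module Cfsg.Agent.H7 Cfsg.Agent.H7.Orth Cfsg.Agent.H7.Tv

namespace Cfsg.Agent.S0790

/-- −1 ∈ Ω⁺_2m(q) iff q^m ≡ 1 (mod 4), for q odd and m ≥ 1 (so that in the other case SO⁺_2m(q) = 2 × Ω⁺_2m(q)). -/
theorem result {F : Type*} [Field F] [Fintype F] {q : ℕ} (hF : Fintype.card F = q) (hodd : Odd q) (m : ℕ) (hm : 1 ≤ m) : (∃ g : ↥(Cfsg.isometryGroup F (Cfsg.quadFormPlus m F)), g ∈ Cfsg.Omega F (Cfsg.quadFormPlus m F) ∧ ((g : Matrix.GeneralLinearGroup (Fin m ⊕ Fin m) F) : Matrix (Fin m ⊕ Fin m) (Fin m ⊕ Fin m) F) = -1) ↔ q ^ m % 4 = 1 := by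
  have h2 : (2 : F) ≠ 0 := two_ne_zero_of_odd (by rw [hF]; exact hodd)
  obtain ⟨B, hQ⟩ := exists_qf_plus (F := F) m
  have hc : Fintype.card (Fin m ⊕ Fin m) = m + m := by simp
  rw [ng_mem_omega' hQ h2 (by omega) (by rw [hc]; exact ⟨m, rfl⟩), card_plus_one hF]
  have hq1 : Odd (q ^ m) := hodd.pow
  have hq2 : Odd (q ^ (m - 1)) := hodd.pow
  have hcop : Nat.Coprime 4 (q ^ (m - 1)) := by
    have h4 : Nat.Coprime 2 (q ^ (m - 1)) := (Nat.coprime_two_left).2 hq2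
    have := Nat.Coprime.pow_left 2 h4
    exact this
  rw [hcop.dvd_mul_right]
  obtain ⟨k, hk⟩ := hq1
  rw [hk]
  omega

end Cfsg.Agent.S0790
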