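import Cfsg.Statements.S0791
import Cfsg.Agent.H7.OrthCount

set_option autoImplicit false
open Cfsg
open Module Cfsg.Agent.H7 Cfsg.Agent.H7.Orth Cfsg.Agent.H7.Tv

namespace Cfsg.Agent.S0791

/-- −1 ∈ Ω⁻_2m(q) iff q^m ≡ −1 (mod 4), for q odd and m ≥ 1; for the minus-type form quadFormMinus (m−1) with anisotropic binary part. -/
theorem result {F : Type*} [Field F] [Fintype F] {q : ℕ} (hF : Fintype.card F = q) (hodd : Odd q) (m : ℕ) (hm : 1 ≤ m) (a b : F) (hab : ∀ z₁ z₂ : F, z₁ ^ 2 + a * z₁ * z₂ + b * z₂ ^ 2 = 0 → z₁ = 0 ∧ z₂ = 0) : (∃ g : ↥(Cfsg.isometryGroup F (Cfsg.quadFormMinus (m - 1) F a b)), g ∈ Cfsg.Omega F (Cfsg.quadFormMinus (m - 1) F a b) ∧ ((g : Matrix.GeneralLinearGroup ((Fin (m - 1) ⊕ Fin (m - 1)) ⊕ Fin 2) F) : Matrix ((Fin (m - 1) ⊕ Fin (m - 1)) ⊕ Fin 2) ((Fin (m - 1) ⊕ Fin (m - 1)) ⊕ Fin 2) F) = -1) ↔ q ^ m % 4 = 3 := by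
  have h2 : (2 : F) ≠ 0 := two_ne_zero_of_odd (by rw [hF]; exact hodd)
  obtain ⟨B, hQ⟩ := exists_qf_minus (F := F) (m - 1) hab
  have hc : Fintype.card ((Fin (m - 1) ⊕ Fin (m - 1)) ⊕ Fin 2) = m - 1 + (m - 1) + 2 := by simp
  rw [ng_mem_omega' hQ h2 (by omega) (by rw [hc]; exact ⟨m - 1 + 1, by ring⟩), card_minus_one hF _ _ _ hab]
  have hq1 : Odd (q ^ m) := hodd.pow
  have hq2 : Odd (q ^ (m - 1)) := hodd.pow
  have hcop : Nat.Coprime 4 (q ^ (m - 1)) := by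
    have h4 : Nat.Coprime 2 (q ^ (m - 1)) := (Nat.coprime_two_left).2 hq2
    have := Nat.Coprime.pow_left 2 h4
    exact this
  rw [hcop.dvd_mul_right, show m - 1 + 1 = m by omega]
  obtain ⟨k, hk⟩ := hq1
  rw [hk]
  omega

end Cfsg.Agent.S0791
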