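import Cfsg.Statements.S0792
import Cfsg.Agent.H7.OrthGen

set_option autoImplicit false
open Cfsg
open Module Cfsg.Agent.H7 Cfsg.Agent.H7.Orth Cfsg.Agent.H7.Tv

namespace Cfsg.Agent.S0792

/-- For q odd and Q with non-degenerate polar form on F^n, the determinant-one isometries form the subgroup generated by all products r_u r_v of two reflections (Q(u), Q(v) ≠ 0). -/
theorem result {F : Type*} [Field F] [Fintype F] (h2 : (2 : F) ≠ 0) {n : ℕ} (Q : QuadraticForm F (Fin n → F)) (hQ : (QuadraticMap.polarBilin Q).Nondegenerate) : Cfsg.specialIsometryGroup F ⇑Q = Subgroup.closure {g : ↥(Cfsg.isometryGroup F ⇑Q) | ∃ u v : Fin n → F, Q u ≠ 0 ∧ Q v ≠ 0 ∧ ((g : Matrix.GeneralLinearGroup (Fin n) F) : Matrix (Fin n) (Fin n) F) = Cfsg.reflectionMatrix ⇑Q u * Cfsg.reflectionMatrix ⇑Q v} := by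
  have hQ' := qf_pB hQ
  have hO : O (⇑Q) = RR (⇑Q) (QuadraticMap.polarBilin Q) ⊤ := O_eq_RR' hQ' (by
    left
    rw [Nat.card_eq_fintype_card]
    by_contra h
    have h1 := Fintype.one_lt_card (α := F)
    have h3 : Fintype.card F = 2 := by omega
    apply h2
    have h4 := FiniteField.cast_card_eq_zero F
    rw [h3] at h4
    exact_mod_cast h4)
  set P := Subgroup.closure {g : ↥(Cfsg.isometryGroup F ⇑Q) | ∃ u v : Fin n → F, Q u ≠ 0 ∧ Q v ≠ 0 ∧ ((g : Matrix.GeneralLinearGroup (Fin n) F) : Matrix (Fin n) (Fin n) F) = Cfsg.reflectionMatrix ⇑Q u * Cfsg.reflectionMatrix ⇑Q v} with hP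
  have hneg : (-1 : F) ≠ 1 := fun h => h2 (by linear_combination -h)
  let r : (v : Fin n → F) → Q v ≠ 0 → ↥(Cfsg.isometryGroup F ⇑Q) := fun v hv =>
    ⟨Rf (⇑Q) (QuadraticMap.polarBilin Q) v, Rf_mem_O hQ' hv⟩
  have hrr : ∀ v hv, r v hv * r v hv = 1 := fun v hv => Subtype.ext (Rf_sq hQ' hv)
  have hrm : ∀ u v hu hv, r u hu * r v hv ∈ P := by
    intro u v hu hv
    refine Subgroup.subset_closure ⟨u, v, hu, hv, ?_⟩
    rw [← Rf_coe hQ hu, ← Rf_coe hQ hv]
    rfl
  apply le_antisymm
  · intro w hw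
    have hstep : ∀ (v : Fin n → F) (hv : Q v ≠ 0) (x : ↥(Cfsg.isometryGroup F ⇑Q)),
        (x ∈ P ∨ ∃ u, ∃ hu : Q u ≠ 0, r u hu * x ∈ P) → (r v hv * x ∈ P ∨ ∃ u, ∃ hu : Q u ≠ 0, r u hu * (r v hv * x) ∈ P) := by
      rintro v hv x (h | ⟨u, hu, h⟩)
      · right
        exact ⟨v, hv, by rw [← mul_assoc, hrr v hv, one_mul]; exact h⟩
      · left
        have e : r v hv * x = (r v hv * r u hu) * (r u hu * x) := by
          rw [mul_assoc, ← mul_assoc (r u hu), hrr u hu, one_mul]
        rw [e]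
        exact mul_mem (hrm v u hv hu) h
    have key : ∀ g ∈ RR (⇑Q) (QuadraticMap.polarBilin Q) ⊤, ∀ x : ↥(Cfsg.isometryGroup F ⇑Q), (x : Matrix.GeneralLinearGroup (Fin n) F) = g →
        (x ∈ P ∨ ∃ u, ∃ hu : Q u ≠ 0, r u hu * x ∈ P) := by
      intro g hg
      induction hg using Subgroup.closure_induction_left with
      | one =>
        intro x hx
        left
        have : x = 1 := Subtype.ext hx
        rw [this]; exact one_mem _
      | mul_left x hx y hy ih =>
        obtain ⟨u, -, hu, rfl⟩ := hx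
        intro x hx
        have e : x = r u hu * ⟨y, RR_le_O hQ' ⊤ hy⟩ := Subtype.ext hx
        rw [e]
        exact hstep u hu _ (ih _ rfl)
      | inv_mul_cancel x hx y hy ih =>
        obtain ⟨u, -, hu, rfl⟩ := hx
        intro x hx
        rw [Rf_inv hQ' hu] at hx
        have e : x = r u hu * ⟨y, RR_le_O hQ' ⊤ hy⟩ := Subtype.ext hx
        rw [e]
        exact hstep u hu _ (ih _ rfl)
    have hwR : ((w : ↥(Cfsg.isometryGroup F ⇑Q)) : Matrix.GeneralLinearGroup (Fin n) F) ∈ RR (⇑Q) (QuadraticMap.polarBilin Q) ⊤ := by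
      rw [← hO]; exact w.2
    -- elements of `P` have determinant one
    have hdet : ∀ x ∈ P, ((x : Matrix.GeneralLinearGroup (Fin n) F) : Matrix (Fin n) (Fin n) F).det = 1 := by
      intro x hx
      induction hx using Subgroup.closure_induction with
      | mem x hx =>
        obtain ⟨u, v, hu, hv, e⟩ := hx
        rw [e, Matrix.det_mul, QF.refl_det Q hu, QF.refl_det Q hv]
        ring
      | one => simp
      | mul x y _ _ hx hy =>
        have : (((x * y : ↥(Cfsg.isometryGroup F ⇑Q)) : Matrix.GeneralLinearGroup (Fin n) F) : Matrix (Fin n) (Fin n) F) =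
          ((x : Matrix.GeneralLinearGroup (Fin n) F) : Matrix (Fin n) (Fin n) F) *
          ((y : Matrix.GeneralLinearGroup (Fin n) F) : Matrix (Fin n) (Fin n) F) := rfl
        rw [this, Matrix.det_mul, hx, hy, one_mul]
      | inv x _ hx =>
        have h6 : (((x * x⁻¹ : ↥(Cfsg.isometryGroup F ⇑Q)) : Matrix.GeneralLinearGroup (Fin n) F) : Matrix (Fin n) (Fin n) F) =
          ((x : Matrix.GeneralLinearGroup (Fin n) F) : Matrix (Fin n) (Fin n) F) *
          ((x⁻¹ : ↥(Cfsg.isometryGroup F ⇑Q)) : Matrix.GeneralLinearGroup (Fin n) F) := rfl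
        rw [mul_inv_cancel] at h6
        have h7 := congrArg Matrix.det h6
        rw [Matrix.det_mul, hx, one_mul] at h7
        rw [← h7]
        simp
    have hw1 : ((w : Matrix.GeneralLinearGroup (Fin n) F) : Matrix (Fin n) (Fin n) F).det = 1 := by
      have h6 : Matrix.GeneralLinearGroup.det (w : Matrix.GeneralLinearGroup (Fin n) F) = 1 := hw
      have h7 := congrArg Units.val h6
      exact h7
    rcases key _ hwR w rfl with h | ⟨u, hu, h⟩
    · exact h
    · exfalso
      have h6 := hdet _ h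
      have h7 : (((r u hu * w : ↥(Cfsg.isometryGroup F ⇑Q)) : Matrix.GeneralLinearGroup (Fin n) F) : Matrix (Fin n) (Fin n) F) =
          reflectionMatrix ⇑Q u * ((w : Matrix.GeneralLinearGroup (Fin n) F) : Matrix (Fin n) (Fin n) F) := by
        rw [← Rf_coe hQ hu]; rfl
      rw [h7, Matrix.det_mul, QF.refl_det Q hu, hw1, mul_one] at h6
      exact hneg h6
  · rw [hP, Subgroup.closure_le]
    rintro x ⟨u, v, hu, hv, e⟩
    change Matrix.GeneralLinearGroup.det (x : Matrix.GeneralLinearGroup (Fin n) F) = 1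
    apply Units.ext
    change ((x : Matrix.GeneralLinearGroup (Fin n) F) : Matrix (Fin n) (Fin n) F).det = 1
    rw [e, Matrix.det_mul, QF.refl_det Q hu, QF.refl_det Q hv]
    ring

end Cfsg.Agent.S0792
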