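import Cfsg.Statements.S0793
import Cfsg.Agent.H7.QF

set_option autoImplicit false
open Cfsg
open Cfsg.Agent.H7.QF Matrix QuadraticMap

namespace Cfsg.Agent.S0793

/-- Root elements: if Q(u) = Q(v) = 0 and f(u, v) = 0 (f the polar form), then for every c the Siegel matrix T_(u,v)(c) preserves Q, fixes u and v, and T(c) T(d) = T(c + d). -/
theorem result {F : Type*} [Field F] {n : ℕ} (Q : QuadraticForm F (Fin n → F)) (u v : Fin n → F) (hu : Q u = 0) (hv : Q v = 0) (huv : QuadraticMap.polar ⇑Q u v = 0) : (∀ c x, Q ((Cfsg.siegelMatrix ⇑Q u v c).mulVec x) = Q x) ∧ (∀ c, (Cfsg.siegelMatrix ⇑Q u v c).mulVec u = u ∧ (Cfsg.siegelMatrix ⇑Q u v c).mulVec v = v) ∧ ∀ c d, Cfsg.siegelMatrix ⇑Q u v c * Cfsg.siegelMatrix ⇑Q u v d = Cfsg.siegelMatrix ⇑Q u v (c + d) := by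
  refine ⟨siegel_iso Q hu hv huv, ?_, siegel_mul Q hu hv huv⟩
  have huv' : polarBilin Q u v = 0 := huv
  intro c
  rw [siegel_mulVec, siegel_mulVec, pB_self, pB_self, hu, hv, pB_symm Q v u, huv']
  simp

end Cfsg.Agent.S0793
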