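import Cfsg.Statements.S0794
import Cfsg.Agent.H7.OrthGen

set_option autoImplicit false
open Cfsg
open Module Cfsg.Agent.H7 Cfsg.Agent.H7.Orth Cfsg.Agent.H7.Tv

namespace Cfsg.Agent.S0794

/-- For q odd, n ≥ 5 and Q with non-degenerate polar form: an isometry whose matrix is a Siegel transformation T_(u,v)(c) (u, v singular and orthogonal) is a commutator in the isometry group, so lies in Ω. -/
theorem result {F : Type*} [Field F] [Fintype F] (h2 : (2 : F) ≠ 0) {n : ℕ} (hn : 5 ≤ n) (Q : QuadraticForm F (Fin n → F)) (hQ : (QuadraticMap.polarBilin Q).Nondegenerate) (u v : Fin n → F) (hu : Q u = 0) (hv : Q v = 0) (huv : QuadraticMap.polar ⇑Q u v = 0) (c : F) (g : ↥(Cfsg.isometryGroup F ⇑Q)) (hg : ((g : Matrix.GeneralLinearGroup (Fin n) F) : Matrix (Fin n) (Fin n) F) = Cfsg.siegelMatrix ⇑Q u v c) : g ∈ commutatorSet ↥(Cfsg.isometryGroup F ⇑Q) ∧ g ∈ Cfsg.Omega F ⇑Q := by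
  have hQ' := qf_pB hQ
  have h5 : 5 ≤ Fintype.card (Fin n) := by rw [Fintype.card_fin]; exact hn
  have hgS : ((g : ↥(Cfsg.isometryGroup F ⇑Q)) : Matrix.GeneralLinearGroup (Fin n) F) =
      Sg (⇑Q) (QuadraticMap.polarBilin Q) u (c • v) := by
    apply Units.ext
    rw [hg, Sg_coe hQ hu hv huv]
  obtain ⟨x, hx, y, hy, e⟩ := root_comm hQ' h5 (a := u) (b := c • v) hu (by rw [hQ'.smul, hv, mul_zero])
    (by rw [map_smul, QF.pB_apply, huv, smul_zero])
  have h2 : g ∈ commutatorSet ↥(Cfsg.isometryGroup F ⇑Q) := by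
    refine ⟨⟨x, hx⟩, ⟨y, hy⟩, ?_⟩
    apply Subtype.ext
    rw [hgS, e]
    rfl
  exact ⟨h2, by rw [Cfsg.Omega, commutator_eq_closure]; exact Subgroup.subset_closure h2⟩

end Cfsg.Agent.S0794
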