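import Cfsg.Statements.S0795
import Cfsg.Agent.H7.OrthGen

set_option autoImplicit false
open Cfsg
open Module Cfsg.Agent.H7 Cfsg.Agent.H7.Orth Cfsg.Agent.H7.Tv

namespace Cfsg.Agent.S0795

/-- Generation of Ω by root elements: for q odd, n ≥ 5 and Q with non-degenerate polar form on F^n, the commutator subgroup of the isometry group equals the subgroup generated by the isometries whose matrices are Siegel transformations T_(u,v)(c) with u, v singular and orthogonal. -/
theorem result {F : Type*} [Field F] [Fintype F] (h2 : (2 : F) ≠ 0) {n : ℕ} (hn : 5 ≤ n) (Q : QuadraticForm F (Fin n → F)) (hQ : (QuadraticMap.polarBilin Q).Nondegenerate) : Cfsg.Omega F ⇑Q = Subgroup.closure {g : ↥(Cfsg.isometryGroup F ⇑Q) | ∃ (u v : Fin n → F) (c : F), Q u = 0 ∧ Q v = 0 ∧ QuadraticMap.polar ⇑Q u v = 0 ∧ ((g : Matrix.GeneralLinearGroup (Fin n) F) : Matrix (Fin n) (Fin n) F) = Cfsg.siegelMatrix ⇑Q u v c} := by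
  have hQ' := qf_pB hQ
  have h5 : 5 ≤ Fintype.card (Fin n) := by rw [Fintype.card_fin]; exact hn
  apply Subgroup.map_injective (Cfsg.isometryGroup F ⇑Q).subtype_injective
  have h1 := omega_eq hQ' h5
  rw [Geo.omegaGL] at h1
  rw [h1, map_closure_sub, TT]
  congr 1
  ext g
  constructor
  · rintro ⟨a, b, ha, hb, hab, rfl⟩
    refine ⟨⟨Sg (⇑Q) (QuadraticMap.polarBilin Q) a b, Sg_mem_O hQ' ha hab⟩, ⟨a, b, 1, ha, hb, hab, ?_⟩, rfl⟩
    have := Sg_coe hQ ha hb hab 1
    rw [one_smul] at this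
    exact this
  · rintro ⟨⟨g, hg⟩, ⟨u, v, c, hu, hv, huv, e⟩, rfl⟩
    refine ⟨u, c • v, hu, by rw [hQ'.smul, hv, mul_zero], by rw [map_smul, QF.pB_apply, huv, smul_zero], ?_⟩
    apply Units.ext
    rw [Sg_coe hQ hu hv huv]
    exact e

end Cfsg.Agent.S0795
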