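import Cfsg.Statements.S0796

set_option autoImplicit false
open Cfsg

namespace Cfsg.Agent.S0796

/-- If G is finite and acts faithfully and primitively on X, H is the stabiliser of a point, A is a normal subgroup of H whose normal closure in G is G, then for every non-trivial normal subgroup K of G the quotient G ⧸ K is isomorphic to A ⧸ B for some normal subgroup B of A. -/
theorem result {G X : Type*} [Group G] [Finite G] [MulAction G X] [FaithfulSMul G X] (hprim : MulAction.IsPreprimitive G X) (x : X) (A : Subgroup G) (hA : A ≤ MulAction.stabilizer G x) (hAn : (A.subgroupOf (MulAction.stabilizer G x)).Normal) (hgen : Subgroup.normalClosure (A : Set G) = ⊤) (K : Subgroup G) [K.Normal] (hK : K ≠ ⊥) : ∃ (B : Subgroup A) (_ : B.Normal), Nonempty (G ⧸ K ≃* A ⧸ B) := by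
  classical
  have hfix : MulAction.fixedPoints K X ≠ .univ := by
    intro h
    apply hK
    rw [Subgroup.eq_bot_iff_forall]
    intro k hk
    apply FaithfulSMul.eq_of_smul_eq_smul (α := X)
    intro y
    rw [one_smul]
    exact Set.eq_univ_iff_forall.1 h y ⟨k, hk⟩
  have htr := MulAction.IsQuasiPreprimitive.isPretransitive_of_normal (G := G) (X := X) (N := K) hfix
  have hsup : A ⊔ K = ⊤ := by
    rw [eq_top_iff, ← hgen, Subgroup.normalClosure, Subgroup.closure_le]
    intro y hy
    rw [Group.mem_conjugatesOfSet_iff] at hy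
    obtain ⟨a, ha, hay⟩ := hy
    obtain ⟨g, rfl⟩ := isConj_iff.1 hay
    obtain ⟨k, hk⟩ := MulAction.exists_smul_eq K x (g • x)
    have hst : (k : G)⁻¹ * g ∈ MulAction.stabilizer G x := by
      rw [MulAction.mem_stabilizer_iff, mul_smul, ← hk, Subgroup.smul_def, inv_smul_smul]
    have h1 : ((k : G)⁻¹ * g) * a * ((k : G)⁻¹ * g)⁻¹ ∈ A := by
      have := hAn.conj_mem ⟨a, hA ha⟩ ha ⟨_, hst⟩
      exact this
    have h2 : g * a * g⁻¹ = (k : G) * (((k : G)⁻¹ * g) * a * ((k : G)⁻¹ * g)⁻¹) * (k : G)⁻¹ := by group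
    rw [h2]
    exact (A ⊔ K).mul_mem ((A ⊔ K).mul_mem (Subgroup.mem_sup_right k.2) (Subgroup.mem_sup_left h1))
      ((A ⊔ K).inv_mem (Subgroup.mem_sup_right k.2))
  let f : A →* G ⧸ K := (QuotientGroup.mk' K).comp A.subtype
  have hf : Function.Surjective f := by
    intro z
    obtain ⟨g, rfl⟩ := QuotientGroup.mk'_surjective K z
    have hg : g ∈ A ⊔ K := by rw [hsup]; trivial
    obtain ⟨a, ha, k, hk, rfl⟩ := Subgroup.mem_sup_of_normal_right.1 hg
    refine ⟨⟨a, ha⟩, ?_⟩
    change QuotientGroup.mk' K a = _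
    rw [map_mul, (QuotientGroup.eq_one_iff k).2 hk |> (fun h => (h : QuotientGroup.mk' K k = 1)), mul_one]
  exact ⟨f.ker, inferInstance, ⟨(QuotientGroup.quotientKerEquivOfSurjective f hf).symm⟩⟩

end Cfsg.Agent.S0796
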