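import Cfsg.Statements.S0798
import Cfsg.Agent.H7.OrthClass

set_option autoImplicit false
open Cfsg
open Module Cfsg.Agent.H7 Cfsg.Agent.H7.Orth Cfsg.Agent.H7.Tv

namespace Cfsg.Agent.S0798

/-- For q odd, n ≥ 2 even, Q with non-degenerate polar form (n, |F|) ≠ (4, 3), and a fixed c ≠ 0: the subgroup of the isometry group generated by the reflections r_v with Q(v) ∈ c·(F^×)² has index 2. -/
theorem result {F : Type*} [Field F] [Fintype F] (h2 : (2 : F) ≠ 0) {n : ℕ} (hn : 2 ≤ n) (heven : Even n) (Q : QuadraticForm F (Fin n → F)) (hQ : (QuadraticMap.polarBilin Q).Nondegenerate) (h43 : ¬ (n = 4 ∧ Fintype.card F = 3)) (c : F) (hc : c ≠ 0) : (Subgroup.closure {g : ↥(Cfsg.isometryGroup F ⇑Q) | ∃ (v : Fin n → F) (t : F), t ≠ 0 ∧ Q v = c * t ^ 2 ∧ ((g : Matrix.GeneralLinearGroup (Fin n) F) : Matrix (Fin n) (Fin n) F) = Cfsg.reflectionMatrix ⇑Q v}).index = 2 := by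
  have hQ' := qf_pB hQ
  have h1 := class_index hQ' h2 (by rw [Fintype.card_fin]; exact heven) (by rw [Fintype.card_fin]; exact hn) (by
    rw [Fintype.card_fin, Nat.card_eq_fintype_card]
    intro h4
    have h3 : Fintype.card F ≠ 3 := fun h => h43 ⟨h4, h⟩
    have h5 := FiniteField.odd_card_of_char_ne_two (ringChar_ne_two h2)
    have h6 := Fintype.one_lt_card (α := F)
    omega) hc
  refine Eq.trans ?_ h1
  rw [RC]
  congr 2
  ext g
  constructor
  · rintro ⟨v, t, ht, h3, h4⟩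
    have hv : Q v ≠ 0 := by rw [h3]; exact mul_ne_zero hc (pow_ne_zero 2 ht)
    refine ⟨v, t, ht, h3, ?_⟩
    apply Units.ext
    rw [h4, Rf_coe hQ hv]
  · rintro ⟨v, t, ht, h3, h4⟩
    have hv : Q v ≠ 0 := by rw [h3]; exact mul_ne_zero hc (pow_ne_zero 2 ht)
    refine ⟨v, t, ht, h3, ?_⟩
    rw [h4, Rf_coe hQ hv]

end Cfsg.Agent.S0798
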