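import Cfsg.Statements.S0802
import Cfsg.Agent.H7.KF6
import Cfsg.Agent.S0252

set_option autoImplicit false
open Cfsg
open Matrix Cfsg.Agent.H7.KF Cfsg.Agent.H7.IsoCl Cfsg.Agent.H7.SL2

namespace Cfsg.Agent.S0802

section
variable {F : Type*} [Field F] [Fintype F]

theorem exists_klein (h2 : (2 : F) ≠ 0) : ∃ V : Subgroup (PSL F), IsKleinFour V := by
  have h := card_klein h2
  have hpos : 0 < Nat.card {V : Subgroup (PSL F) // IsKleinFour V} := by
    apply Nat.pos_of_ne_zero
    intro h0
    rw [h0, mul_zero] at h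
    have : 0 < Nat.card (PSL F) := Nat.card_pos
    rw [← h] at this
    exact lt_irrefl _ this
  obtain ⟨⟨V, hV⟩⟩ := (Nat.card_pos_iff.1 hpos).1
  exact ⟨V, hV⟩

theorem exists_a4 (h2 : (2 : F) ≠ 0) : ∃ H : Subgroup (PSL F), Nonempty (H ≃* alternatingGroup (Fin 4)) := by
  obtain ⟨V, hV⟩ := exists_klein h2
  obtain ⟨h1, h3, h4⟩ := norm_setup hV (cent_V h2 hV)
  rcases card_norm_V h2 hV with h | h
  · exact ⟨_, a4_of h1 h3 h4 h⟩
  · obtain ⟨e⟩ := s4_of h1 h3 h4 h
    exact sub_of_inj (((Subgroup.normalizer (V : Set (PSL F))).subtype.comp e.symm.toMonoidHom).comp (alternatingGroup (Fin 4)).subtype)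
      ((Subtype.val_injective.comp e.symm.injective).comp Subtype.val_injective)

theorem no_a4_aux (h2 : (2 : F) = 0) (h3 : Nat.Coprime 3 (Fintype.card F - 1)) {x w : SL F} (hx : x * x = 1) (hx1 : x ≠ 1) (hw : w * w * w = 1)
    (hc : (w * x * w⁻¹) * x = x * (w * x * w⁻¹)) : w * x * w⁻¹ = x := by
  obtain ⟨x', hx'⟩ : ∃ x', w * x * w⁻¹ = x' := ⟨_, rfl⟩
  rw [hx'] at hc ⊢
  have hxx : x' * x' = 1 := by
    rw [← hx']
    calc w * x * w⁻¹ * (w * x * w⁻¹) = w * (x * x) * w⁻¹ := by group
      _ = 1 := by rw [hx]; group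
  obtain ⟨a, b, c, d, h, rfl⟩ := exists_S x
  obtain ⟨a', b', c', d', h', rfl⟩ := exists_S x'
  have t1 := (sq_iff_even h2 _).1 hx
  have t2 := (sq_iff_even h2 _).1 hxx
  rw [tr_S] at t1 t2
  rw [S_mul, S_mul] at hc
  obtain ⟨e1, e2, e3, e4⟩ := S_inj hc
  have hbc : b * c' = b' * c := by linear_combination -e1
  have sqz : ∀ z : F, z ^ 2 = 0 → z = 0 := fun z hz => (pow_eq_zero_iff two_ne_zero).1 hz
  have A1 : (a + 1) ^ 2 = b * c := by linear_combination a * t1 - h + (a - b * c) * h2
  have A2 : (a' + 1) ^ 2 = b' * c' := by linear_combination a' * t2 - h' + (a' - b' * c') * h2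
  have B1 : (a + 1) * b' = (a' + 1) * b := by
    have : ((a + 1) * b' - (a' + 1) * b) ^ 2 = 0 := by
      linear_combination b' ^ 2 * A1 + b ^ 2 * A2 + b * b' * hbc + (-(a + 1) * b' * (a' + 1) * b + b * b' * b' * c) * h2
    exact sub_eq_zero.1 (sqz _ this)
  have B2 : (a + 1) * c' = (a' + 1) * c := by
    have : ((a + 1) * c' - (a' + 1) * c) ^ 2 = 0 := by
      linear_combination c' ^ 2 * A1 + c ^ 2 * A2 - c * c' * hbc + (-(a + 1) * c' * (a' + 1) * c + b * c' * c' * c) * h2
    exact sub_eq_zero.1 (sqz _ this)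
  obtain ⟨l, hl1, hl2, hl3⟩ : ∃ l : F, a' + 1 = l * (a + 1) ∧ b' = l * b ∧ c' = l * c := by
    by_cases hb : b = 0
    · have hc0 : c ≠ 0 := by
        rintro rfl
        apply hx1
        rw [hb, mul_zero] at A1
        have ha := sqz _ A1
        rw [S_one]
        apply S_eq
        · linear_combination ha - h2
        · exact hb
        · rfl
        · linear_combination t1 - ha
      refine ⟨c' / c, ?_, ?_, ?_⟩
      · field_simp
        linear_combination -B2
      · field_simp
        linear_combination -hbc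
      · field_simp
    · refine ⟨b' / b, ?_, ?_, ?_⟩
      · field_simp
        linear_combination -B1
      · field_simp
      · field_simp
        linear_combination hbc
  set X : Matrix (Fin 2) (Fin 2) F := !![a, b; c, d] + 1 with hX
  have hX' : (!![a', b'; c', d'] + 1 : Matrix (Fin 2) (Fin 2) F) = l • X := by
    rw [hX, Matrix.one_fin_two]
    ext i j
    fin_cases i <;> fin_cases j
    · simpa using hl1
    · simpa using hl2
    · simpa using hl3
    · simp
      linear_combination hl1 + t2 - l * t1 + (1 - l - a' + l * a + a' - a' - l * a + a' ) * 0 + (-a' + l * a) * h2 + (a' - l * a) * 0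
  have hm : w.1 * !![a, b; c, d] = !![a', b'; c', d'] * w.1 := by
    have h5 : w * S a b c d h = S a' b' c' d' h' * w := by rw [← hx']; group
    exact congrArg Subtype.val h5
  have hwX : w.1 * X = l • (X * w.1) := by
    rw [← smul_mul_assoc, ← hX', hX, mul_add, add_mul, hm, mul_one, one_mul]
  have hw' : w.1 * (w.1 * w.1) = 1 := by
    have : w.1 * w.1 * w.1 = 1 := congrArg Subtype.val hw
    rw [← mul_assoc, this]
  have hl : l ^ 3 • X = X := by
    have h5 : w.1 * (w.1 * (w.1 * X)) = l ^ 3 • (X * (w.1 * (w.1 * w.1))) := by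
      rw [hwX, mul_smul_comm, mul_smul_comm, ← mul_assoc w.1 X, hwX, smul_mul_assoc, mul_smul_comm, ← mul_assoc w.1, ← mul_assoc w.1 X, hwX,
        smul_mul_assoc, smul_mul_assoc, smul_smul, smul_smul]
      congr 1
      · ring
      · simp only [mul_assoc]
    rw [hw', mul_one] at h5
    rw [← h5, ← mul_assoc, ← mul_assoc, mul_assoc w.1 w.1, hw', one_mul]
  have hX0 : X ≠ 0 := by
    intro h0
    apply hx1
    rw [hX, Matrix.one_fin_two] at h0
    have z1 := congrFun (congrFun h0 0) 0
    have z2 := congrFun (congrFun h0 0) 1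
    have z3 := congrFun (congrFun h0 1) 0
    have z4 := congrFun (congrFun h0 1) 1
    simp at z1 z2 z3 z4
    rw [S_one]
    apply S_eq
    · linear_combination z1 - h2
    · exact z2
    · exact z3
    · linear_combination z4 - h2
  have hl3' : l ^ 3 = 1 := by
    by_contra hne
    apply hX0
    have : (l ^ 3 - 1) • X = 0 := by rw [sub_smul, hl, one_smul, sub_self]
    exact (smul_eq_zero.1 this).resolve_left (sub_ne_zero.2 hne)
  have hl0 : l ≠ 0 := by
    rintro rfl
    norm_num at hl3'
  have hl1' : l = 1 := by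
    have h5 : orderOf l ∣ 3 := orderOf_dvd_of_pow_eq_one hl3'
    have h6 : orderOf l ∣ Fintype.card F - 1 := orderOf_dvd_of_pow_eq_one (FiniteField.pow_card_sub_one_eq_one l hl0)
    exact orderOf_eq_one_iff.1 (Nat.eq_one_of_dvd_coprimes h3 h5 h6)
  subst hl1'
  apply S_eq
  · linear_combination hl1
  · linear_combination hl2
  · linear_combination hl3
  · linear_combination t2 - t1 - hl1
end

/-- PSL_2(p^n) has a subgroup isomorphic to A_4 if and only if it is not the case that p = 2 and n is odd. -/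
theorem result {F : Type*} [Field F] [Fintype F] (p n : ℕ) [Fact p.Prime] [CharP F p] (hF : Fintype.card F = p ^ n) : (∃ H : Subgroup (Matrix.ProjectiveSpecialLinearGroup (Fin 2) F), Nonempty (H ≃* alternatingGroup (Fin 4))) ↔ ¬ (p = 2 ∧ Odd n) := by
  classical
  constructor
  · rintro ⟨H, ⟨e⟩⟩ ⟨rfl, hn⟩
    have h2 : (2 : F) = 0 := by
      have := CharP.cast_eq_zero F 2
      exact_mod_cast this
    let x0 : alternatingGroup (Fin 4) := ⟨Equiv.swap 0 1 * Equiv.swap 2 3, by rw [Equiv.Perm.mem_alternatingGroup]; decide⟩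
    let w0 : alternatingGroup (Fin 4) := ⟨Equiv.swap 0 1 * Equiv.swap 1 2, by rw [Equiv.Perm.mem_alternatingGroup]; decide⟩
    let ψ : alternatingGroup (Fin 4) →* PSL F := H.subtype.comp e.symm.toMonoidHom
    have hψ : Function.Injective ψ := Subtype.val_injective.comp e.symm.injective
    obtain ⟨x, hx⟩ := pr_surj (ψ x0)
    obtain ⟨w, hw⟩ := pr_surj (ψ w0)
    have hinj := pr_inj (F := F) h2
    have e1 : x * x = 1 := by
      apply hinj
      rw [map_mul, hx, ← map_mul, map_one, show x0 * x0 = 1 by decide, map_one]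
    have e2 : x ≠ 1 := by
      rintro rfl
      rw [map_one] at hx
      have : x0 = 1 := hψ (by rw [← hx, map_one])
      revert this; decide
    have e3 : w * w * w = 1 := by
      apply hinj
      rw [map_mul, map_mul, hw, ← map_mul, ← map_mul, map_one, show w0 * w0 * w0 = 1 by decide, map_one]
    have e4 : (w * x * w⁻¹) * x = x * (w * x * w⁻¹) := by
      apply hinj
      simp only [map_mul, map_inv, hx, hw]
      have e40 : w0 * x0 * w0⁻¹ * x0 = x0 * (w0 * x0 * w0⁻¹) := by decide
      have e41 := congrArg ψ e40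
      simp only [map_mul, map_inv] at e41
      exact e41
    have h3 : Nat.Coprime 3 (Fintype.card F - 1) := by
      rw [hF, Nat.Prime.coprime_iff_not_dvd Nat.prime_three]
      intro hd
      obtain ⟨k, rfl⟩ := hn
      have h5 : 2 ^ (2 * k + 1) % 3 = 2 := by
        rw [pow_succ, pow_mul, Nat.mul_mod, Nat.pow_mod]
        norm_num
      have h6 : 1 ≤ 2 ^ (2 * k + 1) := Nat.one_le_two_pow
      generalize 2 ^ (2 * k + 1) = M at hd h5 h6
      omega
    have e5 := no_a4_aux h2 h3 e1 e2 e3 e4
    have e6 : w0 * x0 * w0⁻¹ = x0 := by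
      apply hψ
      simp only [map_mul, map_inv]
      rw [← hx, ← hw, ← map_mul, ← map_inv, ← map_mul, e5]
    revert e6; decide
  · intro h
    by_cases hp : p = 2
    · subst hp
      have hn : Even n := by
        rw [← Nat.not_odd_iff_even]
        intro ho; exact h ⟨rfl, ho⟩
      obtain ⟨k, rfl⟩ := hn
      have hk : 1 ≤ k := by
        by_contra hcon
        have : k = 0 := by omega
        subst this
        have h1 : 1 < Fintype.card F := Fintype.one_lt_card
        rw [hF] at h1
        norm_num at h1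
      haveI : Fintype (GaloisField 2 2) := Fintype.ofFinite _
      have hc : Fintype.card (GaloisField 2 2) = 4 := by
        rw [← Nat.card_eq_fintype_card, GaloisField.card 2 2 (by norm_num)]
        norm_num
      obtain ⟨f⟩ := exists_hom_pow (K := GaloisField 2 2) (F := F) hk (by
        rw [hF, hc, show (4 : ℕ) = 2 ^ 2 by norm_num, ← pow_mul]; congr 1; ring)
      obtain ⟨φ, hφ⟩ := psl_embed f
      obtain ⟨e⟩ := S0252.result hc
      obtain ⟨ψ, hψ⟩ := alt_embed
      exact sub_of_inj ((φ.comp e.symm.toMonoidHom).comp ψ) ((hφ.comp e.symm.injective).comp hψ)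
    · apply exists_a4
      intro h2
      have h3 : CharP F 2 := CharTwo.of_one_ne_zero_of_two_eq_zero one_ne_zero h2
      exact hp (CharP.eq F ‹CharP F p› h3)

end Cfsg.Agent.S0802
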