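import Cfsg.Statements.S0803
import Cfsg.Agent.H7.KF6
import Cfsg.Agent.S0242

set_option autoImplicit false
open Cfsg
open Matrix Cfsg.Agent.H7.KF Cfsg.Agent.H7.IsoCl Cfsg.Agent.H7.SL2

namespace Cfsg.Agent.S0803

/-- PSL_2(q) has a subgroup isomorphic to S_4 iff q² ≡ 1 (mod 16). -/
theorem result {F : Type*} [Field F] [Fintype F] {q : ℕ} (hF : Fintype.card F = q) : (∃ H : Subgroup (Matrix.ProjectiveSpecialLinearGroup (Fin 2) F), Nonempty (H ≃* Equiv.Perm (Fin 4))) ↔ q ^ 2 % 16 = 1 := by
  classical
  subst hF
  constructor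
  · rintro ⟨H, ⟨e⟩⟩
    by_cases h2 : (2 : F) = 0
    · exfalso
      let ψ : Equiv.Perm (Fin 4) →* PSL F := H.subtype.comp e.symm.toMonoidHom
      have hψ : Function.Injective ψ := Subtype.val_injective.comp e.symm.injective
      let y0 : Equiv.Perm (Fin 4) := finRotate 4
      obtain ⟨y, hy⟩ := pr_surj (ψ y0)
      have hinj := pr_inj (F := F) h2
      have e1 : (y * y) * (y * y) = 1 := by
        apply hinj
        rw [map_mul, map_mul, hy, ← map_mul, ← map_mul, map_one, show (y0 * y0) * (y0 * y0) = 1 by decide, map_one]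
      have e2 : y * y ≠ 1 := by
        intro h
        have h3 : ψ (y0 * y0) = 1 := by rw [map_mul, ← hy, ← map_mul, h, map_one]
        have : y0 * y0 = 1 := hψ (by rw [h3, map_one])
        revert this; decide
      apply e2
      rw [sq_iff_even h2] at e1 ⊢
      obtain ⟨a, b, c, d, h, rfl⟩ := exists_S y
      rw [S_mul, tr_S] at e1
      rw [tr_S]
      have h3 : (a + d) ^ 2 = 0 := by linear_combination e1 + (a * d - b * c) * h2
      exact (pow_eq_zero_iff two_ne_zero).1 h3
    · have hodd : Odd (Fintype.card F) := by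
        obtain ⟨p, hp⟩ := CharP.exists F
        obtain ⟨n, hpp, hn⟩ := FiniteField.card F p
        rw [hn]
        apply Odd.pow
        rcases hpp.eq_two_or_odd' with h | h
        · exfalso
          apply h2
          have := CharP.cast_eq_zero F p
          rw [h] at this
          exact_mod_cast this
        · exact h
      have h3 : 24 ∣ Nat.card (PSL F) := by
        have : Nat.card H = 24 := by
          rw [Nat.card_congr e.toEquiv, Nat.card_perm, Nat.card_eq_fintype_card, Fintype.card_fin]; rfl
        rw [← this]; exact Subgroup.card_subgroup_dvd_card _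
      have hSL := card_SL h2
      rw [card_sl2 (S0242.result (F := F) rfl 2 (by norm_num))] at hSL
      have h4 : 16 ∣ Fintype.card F * (Fintype.card F ^ 2 - 1) := by
        rw [hSL]
        obtain ⟨k, hk⟩ := h3
        rw [hk]
        exact ⟨3 * k, by ring⟩
      have h5 : Nat.Coprime 16 (Fintype.card F) := by
        rw [show 16 = 2 ^ 4 by norm_num]
        exact Nat.Coprime.pow_left 4 (Nat.coprime_two_left.2 hodd)
      have h6 := h5.dvd_of_dvd_mul_left h4
      have h7 : 1 ≤ Fintype.card F ^ 2 := Nat.one_le_pow _ _ Fintype.card_pos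
      omega
  · intro hq
    have hodd : Odd (Fintype.card F) := by
      rw [Nat.odd_iff]
      by_contra hcon
      obtain ⟨k, hk⟩ : ∃ k, Fintype.card F = 2 * k := ⟨Fintype.card F / 2, by omega⟩
      rw [hk, show (2 * k) ^ 2 = 2 * (2 * k ^ 2) by ring] at hq
      omega
    have h2 : (2 : F) ≠ 0 := two_ne hodd
    have hsq : IsSquare (2 : F) := by
      rw [FiniteField.isSquare_two_iff]
      have h8 : Fintype.card F ^ 2 % 16 = ((Fintype.card F % 16) ^ 2) % 16 := by rw [Nat.pow_mod]
      rw [h8] at hq
      have h9 : Fintype.card F % 16 < 16 := Nat.mod_lt _ (by norm_num)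
      have h10 : Fintype.card F % 8 = (Fintype.card F % 16) % 8 := by omega
      rw [h10]
      interval_cases Fintype.card F % 16 <;> simp_all
    have h := card_klein h2
    have hpos : 0 < Nat.card {V : Subgroup (PSL F) // IsKleinFour V} := by
      apply Nat.pos_of_ne_zero
      intro h0
      rw [h0, mul_zero] at h
      have : 0 < Nat.card (PSL F) := Nat.card_pos
      rw [← h] at this
      exact lt_irrefl _ this
    obtain ⟨⟨V, hV⟩⟩ := (Nat.card_pos_iff.1 hpos).1
    obtain ⟨h1, h3, h4⟩ := norm_setup hV (cent_V h2 hV)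
    exact ⟨_, s4_of h1 h3 h4 (card_norm_V_sq h2 hsq hV)⟩

end Cfsg.Agent.S0803
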