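import Cfsg.Statements.S0804
import Cfsg.Agent.H7.KF6
import Cfsg.Agent.H7.QuadExt
import Cfsg.Agent.S0242
import Cfsg.Agent.S0252
import Cfsg.Agent.S0253
import Cfsg.Agent.S0299

set_option autoImplicit false
open Cfsg
open Matrix Cfsg.Agent.H7.KF Cfsg.Agent.H7.IsoCl Cfsg.Agent.H7.SL2 Cfsg.Agent.H7.Rho Cfsg.Agent.H7.Orth

namespace Cfsg.Agent.S0804

theorem key5 : ∀ a b : ZMod 5, (a = 1 ∨ a = -1 ∨ a = 0) → (b = 1 ∨ b = 4) → IsSquare (a * b) := by decide

theorem chi4v (z : ZMod 4) : ((ZMod.χ₄ z : ℤ) : ZMod 5) = 1 ∨ ((ZMod.χ₄ z : ℤ) : ZMod 5) = -1 ∨ ((ZMod.χ₄ z : ℤ) : ZMod 5) = 0 := by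
  revert z; decide

section
variable {F : Type*} [Field F]

/-- a sum-zero vector -/
def tv (k X Y P R : F) : Fin 5 → F :=
  ![2 * X + 2 * Y, k * X + (-1 - k) * Y + P + R, (-1 - k) * X + k * Y + k * P + (-1 - k) * R,
    (-1 - k) * X + k * Y - k * P - (-1 - k) * R, k * X + (-1 - k) * Y - P - R]

theorem tv_q {k : F} (hk : k ^ 2 = 1 - k) (X Y P R : F) : ∑ i, tv k X Y P R i ^ 2 = 10 * X ^ 2 + 10 * Y ^ 2 + (4 - 2 * k) * P ^ 2 + (6 + 2 * k) * R ^ 2 := by
  simp only [tv, Fin.sum_univ_five, Matrix.cons_val_zero, Matrix.cons_val_one, Matrix.cons_val]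
  linear_combination (4 * (X ^ 2 + Y ^ 2) - 8 * X * Y + 2 * P ^ 2 + 2 * R ^ 2 - 4 * P * R) * hk

theorem tv_sum (k X Y P R : F) : ∑ i, tv k X Y P R i = 0 := by
  simp only [tv, Fin.sum_univ_five, Matrix.cons_val_zero, Matrix.cons_val_one, Matrix.cons_val]
  ring

/-- the data -/
structure Dat (F : Type*) [Field F] where
  k : F
  α : F
  β : F
  z : F
  w : F
  r : F
  hk : k ^ 2 = 1 - k
  hab : α ^ 2 + β ^ 2 = -1
  hzw : (4 - 2 * k) * z ^ 2 + (4 - 2 * k) * w ^ 2 = 10
  hr : r ^ 2 * (6 + 2 * k) = 4 - 2 * k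

/-- the embedding -/
def E (D : Dat F) (x : Fin 2 ⊕ Fin 2 → F) : Fin 5 → F :=
  tv D.k (x (.inl 0) + x (.inr 0)) (x (.inl 1) + x (.inr 1))
    (D.z * (D.α * (x (.inl 0) - x (.inr 0)) - D.β * (x (.inl 1) - x (.inr 1))) - D.w * (D.β * (x (.inl 0) - x (.inr 0)) + D.α * (x (.inl 1) - x (.inr 1))))
    (D.r * (D.w * (D.α * (x (.inl 0) - x (.inr 0)) - D.β * (x (.inl 1) - x (.inr 1))) + D.z * (D.β * (x (.inl 0) - x (.inr 0)) + D.α * (x (.inl 1) - x (.inr 1)))))

theorem E_q (D : Dat F) (x : Fin 2 ⊕ Fin 2 → F) : ∑ i, E D x i ^ 2 = 40 * quadFormPlus 2 F x := by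
  rw [E, tv_q D.hk, quadFormPlus, Fin.sum_univ_two]
  generalize x (.inl 0) = x0
  generalize x (.inr 0) = y0
  generalize x (.inl 1) = x1
  generalize x (.inr 1) = y1
  linear_combination (D.w * (D.α * (x0 - y0) - D.β * (x1 - y1)) + D.z * (D.β * (x0 - y0) + D.α * (x1 - y1))) ^ 2 * D.hr
    + ((D.α * (x0 - y0) - D.β * (x1 - y1)) ^ 2 + (D.β * (x0 - y0) + D.α * (x1 - y1)) ^ 2) * D.hzw
    + 10 * ((x0 - y0) ^ 2 + (x1 - y1) ^ 2) * D.hab

theorem E_add (D : Dat F) (x y : Fin 2 ⊕ Fin 2 → F) : E D (x + y) = E D x + E D y := by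
  funext i
  fin_cases i <;> simp [E, tv] <;> ring

theorem E_smul (D : Dat F) (c : F) (x : Fin 2 ⊕ Fin 2 → F) : E D (c • x) = c • E D x := by
  funext i
  fin_cases i <;> simp [E, tv] <;> ring

/-- the sum-zero vectors -/
def W0 (F : Type*) [Field F] : Submodule F (Fin 5 → F) := LinearMap.ker (∑ i, (LinearMap.proj i : (Fin 5 → F) →ₗ[F] F))

theorem mem_W0 {x : Fin 5 → F} : x ∈ W0 F ↔ ∑ i, x i = 0 := by
  rw [W0, LinearMap.mem_ker, LinearMap.sum_apply]
  rfl

theorem finrank_W0 : Module.finrank F (W0 F) = 4 := by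
  have h := LinearMap.finrank_range_add_finrank_ker (∑ i, (LinearMap.proj i : (Fin 5 → F) →ₗ[F] F))
  have h1 : LinearMap.range (∑ i, (LinearMap.proj i : (Fin 5 → F) →ₗ[F] F)) = ⊤ := by
    rw [LinearMap.range_eq_top]
    intro a
    refine ⟨Pi.single 0 a, ?_⟩
    rw [LinearMap.sum_apply]
    simp
  rw [h1, finrank_top, Module.finrank_self, Module.finrank_fintype_fun_eq_card, Fintype.card_fin] at h
  change Module.finrank F (W0 F) = 4
  change 1 + Module.finrank F (W0 F) = 5 at h
  omega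

variable [Fintype F]

theorem E_inj (D : Dat F) (h40 : (40 : F) ≠ 0) : Function.Injective (E D) := by
  obtain ⟨B, hQ⟩ := exists_qf_plus (F := F) 2
  refine inj_of_isometric hQ (RingHom.id F) (E D) (E_add D) (fun x => (∑ i, x i ^ 2) / 40) ?_
  intro x
  rw [E_q]
  change 40 * _ / 40 = quadFormPlus 2 F x
  field_simp

theorem E_surj (D : Dat F) (h40 : (40 : F) ≠ 0) (y : Fin 5 → F) (hy : ∑ i, y i = 0) : ∃ x, E D x = y := by
  let L : (Fin 2 ⊕ Fin 2 → F) →ₗ[F] W0 F :=
    { toFun := fun x => ⟨E D x, mem_W0.2 (tv_sum _ _ _ _ _)⟩, map_add' := fun a b => Subtype.ext (E_add D a b), map_smul' := fun a b => Subtype.ext (E_smul D a b) }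
  have h1 : Function.Injective L := fun a b h => E_inj D h40 (congrArg Subtype.val h)
  have h2 : Module.finrank F (Fin 2 ⊕ Fin 2 → F) = Module.finrank F (W0 F) := by
    rw [finrank_W0, Module.finrank_fintype_fun_eq_card]
    simp
  obtain ⟨x, hx⟩ := (LinearMap.injective_iff_surjective_of_finrank_eq_finrank h2).1 h1 ⟨y, mem_W0.2 hy⟩
  exact ⟨x, congrArg Subtype.val hx⟩

/-- the representation of the alternating group -/
noncomputable def em (D : Dat F) (h40 : (40 : F) ≠ 0) : Emb F (K := F) (quadFormPlus 2 F) (alternatingGroup (Fin 5)) (Fin 5 → F) where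
  f := RingHom.id F
  E := E D
  inj := E_inj D h40
  Eadd := E_add D
  Esmul := E_smul D
  q' := fun x => (∑ i, x i ^ 2) / 40
  hq := by
    intro x
    rw [E_q]
    change 40 * _ / 40 = quadFormPlus 2 F x
    field_simp
  A g x := fun i => x (g.1⁻¹ i)
  A_one x := rfl
  A_mul g h x := by
    funext i
    change x ((g.1 * h.1)⁻¹ i) = x (h.1⁻¹ (g.1⁻¹ i))
    rw [_root_.mul_inv_rev]; rfl
  A_add g v w := rfl
  A_smul g c w := rfl
  A_q g x := by
    rw [Equiv.sum_comp g.1⁻¹ (fun i => x i ^ 2)]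
  range g x := by
    apply E_surj D h40
    rw [Equiv.sum_comp g.1⁻¹ (E D x)]
    exact tv_sum _ _ _ _ _

theorem icosa (D : Dat F) (h40 : (40 : F) ≠ 0) (h3 : 3 ≤ Fintype.card F) : ∃ H : Subgroup (PSL F), Nonempty (H ≃* alternatingGroup (Fin 5)) := by
  haveI : IsSimpleGroup (alternatingGroup (Fin 5)) := alternatingGroup.isSimpleGroup (by simp)
  have hperf : commutator (alternatingGroup (Fin 5)) = ⊤ := commutator_alternatingGroup_eq_top (by simp)
  obtain ⟨e⟩ := S0299.result h3
  let ρ := (em D h40).rep.rho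
  have hΩ : ∀ g, ρ g ∈ Omega F (quadFormPlus 2 F) := fun g => perfect_hom hperf ρ g
  let π : alternatingGroup (Fin 5) →* Omega F (quadFormPlus 2 F) := ρ.codRestrict _ hΩ
  let Θ : alternatingGroup (Fin 5) →* PSL F × PSL F := e.toMonoidHom.comp ((QuotientGroup.mk' (Subgroup.center (Omega F (quadFormPlus 2 F)))).comp π)
  let Θ1 : alternatingGroup (Fin 5) →* PSL F := (MonoidHom.fst _ _).comp Θ
  let Θ2 : alternatingGroup (Fin 5) →* PSL F := (MonoidHom.snd _ _).comp Θ
  by_cases h1 : Function.Injective Θ1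
  · exact sub_of_inj Θ1 h1
  by_cases h2 : Function.Injective Θ2
  · exact sub_of_inj Θ2 h2
  exfalso
  have k1 : Θ1.ker = ⊤ := by
    rcases (MonoidHom.normal_ker Θ1).eq_bot_or_eq_top with h | h
    · exact absurd ((MonoidHom.ker_eq_bot_iff _).1 h) h1
    · exact h
  have k2 : Θ2.ker = ⊤ := by
    rcases (MonoidHom.normal_ker Θ2).eq_bot_or_eq_top with h | h
    · exact absurd ((MonoidHom.ker_eq_bot_iff _).1 h) h2
    · exact h
  have hΘ : ∀ g, Θ g = 1 := by
    intro g
    apply Prod.ext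
    · have : g ∈ Θ1.ker := by rw [k1]; trivial
      exact this
    · have : g ∈ Θ2.ker := by rw [k2]; trivial
      exact this
  have hcen : ∀ g, π g ∈ Subgroup.center (Omega F (quadFormPlus 2 F)) := by
    intro g
    have h := hΘ g
    have h4 : (QuotientGroup.mk' (Subgroup.center (Omega F (quadFormPlus 2 F)))) (π g) = 1 := e.injective (by rw [map_one]; exact h)
    exact (QuotientGroup.eq_one_iff _).1 h4
  have htriv : ∀ g, ρ g = 1 := by
    intro g
    have h := perfect_triv hperf (π.codRestrict _ hcen) (fun a b => by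
      apply Subtype.ext
      exact ((Subgroup.mem_center_iff.1 a.2) b.1).symm) g
    exact congrArg (fun x => x.1.1) h
  obtain ⟨x, hx⟩ := E_surj D h40 ![1, -1, 0, 0, 0] (by simp [Fin.sum_univ_five])
  let g : alternatingGroup (Fin 5) := ⟨Equiv.swap 0 2 * Equiv.swap 2 3, by rw [Equiv.Perm.mem_alternatingGroup]; decide⟩
  have hg : g ∈ ρ.ker := htriv g
  rw [Emb.mem_ker] at hg
  have h5 := hg x
  change (fun i => E D x (g.1⁻¹ i)) = E D x at h5
  rw [hx] at h5
  have h6 := congrFun h5 0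
  have h7 : g.1⁻¹ 0 = 3 := by decide
  rw [h7] at h6
  simp at h6
end

/-- PSL_2(q) has a subgroup isomorphic to A_5 iff 5 ∣ q(q² − 1). -/
theorem result {F : Type*} [Field F] [Fintype F] {q : ℕ} (hF : Fintype.card F = q) : (∃ H : Subgroup (Matrix.ProjectiveSpecialLinearGroup (Fin 2) F), Nonempty (H ≃* alternatingGroup (Fin 5))) ↔ 5 ∣ q * (q ^ 2 - 1) := by
  classical
  subst hF
  constructor
  · rintro ⟨H, ⟨e⟩⟩
    have h1 : Nat.card H ∣ Nat.card (PSL F) := Subgroup.card_subgroup_dvd_card _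
    have h2 : Nat.card H = 60 := by
      rw [Nat.card_congr e.toEquiv, nat_card_alternatingGroup]
      simp
      decide
    rw [h2] at h1
    have h3 := Subgroup.card_eq_card_quotient_mul_card_subgroup (Subgroup.center (SL F))
    rw [card_sl2 (S0242.result (F := F) rfl 2 (by norm_num))] at h3
    rw [h3]
    exact ((show 5 ∣ 60 by norm_num).trans h1).mul_right _
  · intro h
    obtain ⟨p, hp⟩ := CharP.exists F
    obtain ⟨n, hpp, hn⟩ := FiniteField.card F p
    haveI : Fact p.Prime := ⟨hpp⟩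
    have h5p : Nat.Prime 5 := by norm_num
    by_cases hp5 : p = 5
    · subst hp5
      haveI : Fintype (ZMod 5) := inferInstance
      obtain ⟨f⟩ := exists_hom_pow (K := ZMod 5) (F := F) (m := n) n.pos (by rw [hn, ZMod.card])
      obtain ⟨φ, hφ⟩ := psl_embed f
      obtain ⟨e⟩ := S0253.result (F := ZMod 5) (ZMod.card 5)
      exact sub_of_inj (φ.comp e.symm.toMonoidHom) (hφ.comp e.symm.injective)
    have h5 : 5 ∣ Fintype.card F ^ 2 - 1 := by
      rcases (Nat.Prime.dvd_mul h5p).1 h with h | h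
      · exfalso
        rw [hn] at h
        exact hp5 ((Nat.prime_dvd_prime_iff_eq h5p hpp).1 (h5p.dvd_of_dvd_pow h)).symm
      · exact h
    by_cases hp2 : p = 2
    · subst hp2
      have hn2 : Even (n : ℕ) := by
        rw [← Nat.not_odd_iff_even]
        rintro ⟨k, hk⟩
        rw [hn, hk, ← pow_mul] at h5
        have h6 : 2 ^ ((2 * k + 1) * 2) % 5 = 4 := by
          rw [show (2 * k + 1) * 2 = 4 * k + 2 by ring, pow_add, pow_mul, Nat.mul_mod, Nat.pow_mod]
          norm_num
        have h7 : 1 ≤ 2 ^ ((2 * k + 1) * 2) := Nat.one_le_two_pow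
        generalize 2 ^ ((2 * k + 1) * 2) = M at h5 h6 h7
        omega
      obtain ⟨k, hk⟩ := hn2
      have hk1 : 1 ≤ k := by
        have := n.pos
        omega
      haveI : Fintype (GaloisField 2 2) := Fintype.ofFinite _
      have hc : Fintype.card (GaloisField 2 2) = 4 := by
        rw [← Nat.card_eq_fintype_card, GaloisField.card 2 2 (by norm_num)]
        norm_num
      obtain ⟨f⟩ := exists_hom_pow (K := GaloisField 2 2) (F := F) hk1 (by
        rw [hn, hk, hc, show (4 : ℕ) = 2 ^ 2 by norm_num, ← pow_mul]; congr 1; ring)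
      obtain ⟨φ, hφ⟩ := psl_embed f
      obtain ⟨e⟩ := S0252.result hc
      exact sub_of_inj (φ.comp e.symm.toMonoidHom) (hφ.comp e.symm.injective)
    -- the icosahedral case
    have cast_ne : ∀ r : ℕ, r.Prime → r ≠ p → (r : F) ≠ 0 := by
      intro r hr hrp h0
      rw [CharP.cast_eq_zero_iff F p] at h0
      exact hrp ((Nat.prime_dvd_prime_iff_eq hpp hr).1 h0).symm
    have h20 : (2 : F) ≠ 0 := by exact_mod_cast cast_ne 2 Nat.prime_two (Ne.symm hp2)
    have h50 : (5 : F) ≠ 0 := by exact_mod_cast cast_ne 5 h5p (Ne.symm hp5)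
    have h3 : 3 ≤ Fintype.card F := by
      have h4 : 1 < Fintype.card F := Fintype.one_lt_card
      rcases Nat.lt_or_ge 2 (Fintype.card F) with h6 | h6
      · exact h6
      · exfalso
        have : Fintype.card F = 2 := by omega
        rw [this] at h5
        norm_num at h5
    obtain ⟨s, hs⟩ : IsSquare (5 : F) := by
      have h8 : Fintype.card F % 5 = 1 ∨ Fintype.card F % 5 = 4 := by
        have h9 : Fintype.card F ^ 2 % 5 = 1 := by
          have : 1 ≤ Fintype.card F ^ 2 := Nat.one_le_pow _ _ (by omega)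
          omega
        rw [Nat.pow_mod] at h9
        have h10 : Fintype.card F % 5 < 5 := Nat.mod_lt _ (by norm_num)
        interval_cases Fintype.card F % 5 <;> simp_all
      haveI : Fact (Nat.Prime 5) := ⟨h5p⟩
      have h11 := FiniteField.isSquare_odd_prime_iff (F := F) (p := 5) (by
          intro h0
          apply h20
          have := ringChar.Nat.cast_ringChar (R := F)
          rw [h0] at this
          exact_mod_cast this) (by norm_num)
      have h12 : IsSquare ((5 : ℕ) : F) := by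
        rw [h11]
        have h13 : ((Fintype.card F : ℕ) : ZMod 5) = 1 ∨ ((Fintype.card F : ℕ) : ZMod 5) = 4 := by
          rcases h8 with h8 | h8
          · left
            rw [← ZMod.natCast_mod, h8]; rfl
          · right
            rw [← ZMod.natCast_mod, h8]; rfl
        have key : ∀ a b : ZMod 5, (a = 1 ∨ a = -1 ∨ a = 0) → (b = 1 ∨ b = 4) → quadraticChar (ZMod 5) (a * b) ≠ -1 := by
          intro a b ha hb h0
          rw [quadraticChar_neg_one_iff_not_isSquare] at h0
          exact h0 (key5 a b ha hb)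
        exact key _ _ (chi4v _) h13
      exact_mod_cast h12
    have hs' : s ^ 2 = 5 := by rw [sq, ← hs]
    have hs0 : s ≠ 0 := by
      rintro rfl
      apply h50
      rw [← hs']; ring
    set k : F := (s - 1) / 2 with hk
    have hkk : k ^ 2 = 1 - k := by
      rw [hk]; field_simp
      linear_combination hs'
    have hcc : (4 - 2 * k) * (6 + 2 * k) = 20 := by linear_combination (-4 : F) * hkk
    have h200 : (20 : F) ≠ 0 := by
      rw [show (20 : F) = 2 * 2 * 5 by norm_num]
      exact mul_ne_zero (mul_ne_zero h20 h20) h50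
    have hc0 : 4 - 2 * k ≠ 0 := by
      intro h0
      rw [h0, zero_mul] at hcc
      exact h200 hcc.symm
    obtain ⟨α, β, hab⟩ := binary h20 (one_ne_zero (α := F)) one_ne_zero (-1)
    obtain ⟨z, w, hzw⟩ := binary h20 hc0 hc0 10
    have D : Dat F :=
      { k := k, α := α, β := β, z := z, w := w, r := (4 - 2 * k) / (2 * s)
        hk := hkk
        hab := by linear_combination hab
        hzw := hzw
        hr := by
          have h15 : (2 * s) ^ 2 = 20 := by rw [mul_pow, hs']; norm_num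
          rw [div_pow, h15, div_mul_eq_mul_div, div_eq_iff h200]
          linear_combination (4 - 2 * k) * hcc }
    exact icosa D (by
      rw [show (40 : F) = 2 * 20 by norm_num]
      exact mul_ne_zero h20 h200) h3

end Cfsg.Agent.S0804
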