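import Cfsg.Statements.S0805
import Cfsg.Agent.H7.KF6
import Cfsg.Agent.S0242
import Cfsg.Agent.S0265

set_option autoImplicit false
open Cfsg
open Matrix Cfsg.Agent.H7.KF Cfsg.Agent.H7.IsoCl Cfsg.Agent.H7.SL2

namespace Cfsg.Agent.S0805

theorem pgl_embed {K F : Type*} [Field K] [Field F] (f : K →+* F) (hf : ∀ x : K, IsSquare (f x)) :
    ∃ φ : ProjGenLinGroup (Fin 2) K →* PSL F, Function.Injective φ := by
  choose s hs using fun g : GL (Fin 2) K => hf (g : Matrix (Fin 2) (Fin 2) K).det
  have hs0 : ∀ g, s g ≠ 0 := by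
    intro g h
    have h1 := hs g
    rw [h, mul_zero, map_eq_zero] at h1
    exact ((Matrix.isUnit_iff_isUnit_det _).1 g.isUnit).ne_zero h1
  let A : GL (Fin 2) K → SL F := fun g => ⟨(s g)⁻¹ • (g : Matrix (Fin 2) (Fin 2) K).map f, by
    have h1 : ((g : Matrix (Fin 2) (Fin 2) K).map f).det = f (g : Matrix (Fin 2) (Fin 2) K).det := (RingHom.map_det f _).symm
    rw [Matrix.det_smul, h1, hs, Fintype.card_fin]
    have := hs0 g
    field_simp⟩
  have hA : ∀ g, (A g).1 = (s g)⁻¹ • (g : Matrix (Fin 2) (Fin 2) K).map f := fun g => rfl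
  have hmul : ∀ g h, pr F (A (g * h)) = pr F (A g) * pr F (A h) := by
    intro g h
    rw [← map_mul, pr_eq]
    have h1 : s (g * h) * s (g * h) = (s g * s h) * (s g * s h) := by
      rw [← hs, Units.val_mul, Matrix.det_mul, map_mul, hs, hs]; ring
    have h2 : (A g * A h).1 = (s g * s h)⁻¹ • ((g * h : GL (Fin 2) K) : Matrix (Fin 2) (Fin 2) K).map f := by
      rw [Matrix.SpecialLinearGroup.coe_mul, hA, hA, smul_mul_assoc, mul_smul_comm, smul_smul, Units.val_mul, Matrix.map_mul, _root_.mul_inv]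
    rcases mul_self_eq_mul_self_iff.1 h1 with h3 | h3
    · left
      apply Subtype.ext
      rw [hA, h3]; exact h2.symm
    · right
      apply Subtype.ext
      rw [Matrix.SpecialLinearGroup.coe_neg, hA, h3, inv_neg, neg_smul, h2]
  let φ : GL (Fin 2) K →* PSL F := MonoidHom.mk' (fun g => pr F (A g)) hmul
  have hker : φ.ker = Subgroup.center (GL (Fin 2) K) := by
    ext g
    rw [MonoidHom.mem_ker]
    change pr F (A g) = 1 ↔ _
    rw [pr_eq_one, GeneralLinearGroup.center_eq_range_scalar]
    have key : ∀ c : F, c * c = 1 → (s g)⁻¹ • (g : Matrix (Fin 2) (Fin 2) K).map f = c • (1 : Matrix (Fin 2) (Fin 2) F) →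
        g ∈ (GeneralLinearGroup.scalar (Fin 2) : Kˣ →* GL (Fin 2) K).range := by
      intro c hc h
      have h1 : (g : Matrix (Fin 2) (Fin 2) K).map f = (s g * c) • (1 : Matrix (Fin 2) (Fin 2) F) := by
        rw [← smul_smul, ← h, smul_smul, mul_inv_cancel₀ (hs0 g), one_smul]
      have h01 : (g : Matrix (Fin 2) (Fin 2) K) 0 1 = 0 := by
        apply f.injective
        have := congrFun (congrFun h1 0) 1
        simpa using this
      have h10 : (g : Matrix (Fin 2) (Fin 2) K) 1 0 = 0 := by
        apply f.injective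
        have := congrFun (congrFun h1 1) 0
        simpa using this
      have h11 : (g : Matrix (Fin 2) (Fin 2) K) 1 1 = (g : Matrix (Fin 2) (Fin 2) K) 0 0 := by
        apply f.injective
        have e1 := congrFun (congrFun h1 1) 1
        have e2 := congrFun (congrFun h1 0) 0
        simp at e1 e2
        rw [e1, e2]
      have hne : (g : Matrix (Fin 2) (Fin 2) K) 0 0 ≠ 0 := by
        intro h0
        have := ((Matrix.isUnit_iff_isUnit_det _).1 g.isUnit).ne_zero
        apply this
        rw [Matrix.det_fin_two, h0, h01]; ring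
      refine ⟨Units.mk0 _ hne, ?_⟩
      apply Units.ext
      ext i j
      fin_cases i <;> fin_cases j
      · simp
      · simp [h01]
      · simp [h10]
      · simp [h11]
    constructor
    · rintro (h | h)
      · apply key 1 (mul_one 1)
        rw [one_smul]; exact congrArg Subtype.val h
      · apply key (-1) (by ring)
        rw [neg_smul, one_smul]
        have := congrArg Subtype.val h
        rw [Matrix.SpecialLinearGroup.coe_neg, Matrix.SpecialLinearGroup.coe_one] at this
        exact this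
    · rintro ⟨c, rfl⟩
      have h1 : s (GeneralLinearGroup.scalar (Fin 2) c) * s (GeneralLinearGroup.scalar (Fin 2) c) = f c * f c := by
        rw [← hs, ← map_mul]
        congr 1
        rw [Matrix.det_fin_two]
        simp
      have h2 : ((GeneralLinearGroup.scalar (Fin 2) c : GL (Fin 2) K) : Matrix (Fin 2) (Fin 2) K).map f = f c • (1 : Matrix (Fin 2) (Fin 2) F) := by
        ext i j
        fin_cases i <;> fin_cases j <;> simp
      have hc0 : f c ≠ 0 := by
        rw [ne_eq, map_eq_zero]; exact c.ne_zero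
      rcases mul_self_eq_mul_self_iff.1 h1 with h3 | h3
      · left
        apply Subtype.ext
        rw [hA, h2, h3, smul_smul, inv_mul_cancel₀ hc0, one_smul]; rfl
      · right
        apply Subtype.ext
        rw [hA, h2, h3, inv_neg, neg_smul, smul_smul, inv_mul_cancel₀ hc0, one_smul]; rfl
  exact ⟨(QuotientGroup.kerLift φ).comp (QuotientGroup.quotientMulEquivOfEq hker.symm).toMonoidHom,
    (QuotientGroup.kerLift_injective φ).comp (QuotientGroup.quotientMulEquivOfEq hker.symm).injective⟩

/-- Subfield subgroups: let F be a finite field of odd order q and K a finite field with |K|^m = q, m ≥ 1. Then PSL_2(F) has a subgroup isomorphic to PSL_2(K), and has a subgroup isomorphic to PGL_2(K) if and only if m is even. -/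
theorem result {F K : Type*} [Field F] [Fintype F] [Field K] [Fintype K] {q : ℕ} (hF : Fintype.card F = q) (hodd : Odd q) (m : ℕ) (hm : 1 ≤ m) (hK : Fintype.card K ^ m = q) : (∃ H : Subgroup (Matrix.ProjectiveSpecialLinearGroup (Fin 2) F), Nonempty (H ≃* Matrix.ProjectiveSpecialLinearGroup (Fin 2) K)) ∧ ((∃ H : Subgroup (Matrix.ProjectiveSpecialLinearGroup (Fin 2) F), Nonempty (H ≃* Matrix.ProjGenLinGroup (Fin 2) K)) ↔ Even m) := by
  classical
  obtain ⟨f⟩ := exists_hom_pow (K := K) (F := F) hm (by rw [hF, hK])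
  have h2 : (2 : F) ≠ 0 := two_ne (by rw [hF]; exact hodd)
  constructor
  · obtain ⟨φ, hφ⟩ := psl_embed f
    exact sub_of_inj φ hφ
  set q0 := Fintype.card K with hq0
  have hq0odd : Odd q0 := by
    rw [← hK] at hodd
    exact (Nat.odd_pow_iff (by omega)).1 hodd
  have hq02 : 2 ≤ q0 := Fintype.one_lt_card
  constructor
  · rintro ⟨H, ⟨e⟩⟩
    by_contra hme
    rw [Nat.not_even_iff_odd] at hme
    have h1 : Nat.card H ∣ Nat.card (PSL F) := Subgroup.card_subgroup_dvd_card _
    rw [Nat.card_congr e.toEquiv, S0265.result, card_sl2 (S0242.result (F := K) rfl 2 (by norm_num)), ← hq0] at h1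
    have hSL := card_SL h2
    rw [card_sl2 (S0242.result (F := F) rfl 2 (by norm_num)), hF] at hSL
    have h3 : 2 * (q0 * (q0 ^ 2 - 1)) ∣ q * (q ^ 2 - 1) := by
      rw [hSL]; exact Nat.mul_dvd_mul_left 2 h1
    obtain ⟨t, ht⟩ := hme
    have h4 : q ^ 2 - 1 = (q0 ^ 2 - 1) * ∑ i ∈ Finset.range m, (q0 ^ 2) ^ i := by
      have h5 := Nat.geomSum_eq (show 2 ≤ q0 ^ 2 by nlinarith) m
      rw [h5, ← hK, ← pow_mul, ← pow_mul, mul_comm m 2, Nat.mul_div_cancel']
      rw [pow_mul]
      exact Nat.sub_one_dvd_pow_sub_one _ _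
    have h6 : Odd (∑ i ∈ Finset.range m, (q0 ^ 2) ^ i) := by
      rw [Finset.odd_sum_iff_odd_card_odd, Finset.filter_true_of_mem (fun i _ => (hq0odd.pow).pow), Finset.card_range]
      exact ⟨t, ht⟩
    rw [h4] at h3
    have h7 : 2 * (q0 * (q0 ^ 2 - 1)) ∣ (q * ∑ i ∈ Finset.range m, (q0 ^ 2) ^ i) * (q0 ^ 2 - 1) := by
      have : q * ((q0 ^ 2 - 1) * ∑ i ∈ Finset.range m, (q0 ^ 2) ^ i) = (q * ∑ i ∈ Finset.range m, (q0 ^ 2) ^ i) * (q0 ^ 2 - 1) := by ring
      rw [← this]; exact h3
    rw [← mul_assoc] at h7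
    have h8 : 0 < q0 ^ 2 - 1 := by
      have : 4 ≤ q0 ^ 2 := by nlinarith
      omega
    have h9 := Nat.dvd_of_mul_dvd_mul_right h8 h7
    have h10 : 2 ∣ q * ∑ i ∈ Finset.range m, (q0 ^ 2) ^ i := (Dvd.intro _ rfl).trans h9
    have h11 : Odd (q * ∑ i ∈ Finset.range m, (q0 ^ 2) ^ i) := hodd.mul h6
    rw [← Nat.not_even_iff_odd, even_iff_two_dvd] at h11
    exact h11 h10
  · rintro ⟨k, rfl⟩
    have hk : 1 ≤ k := by omega
    obtain ⟨φ, hφ⟩ := pgl_embed f (by
      intro x
      by_cases hx : x = 0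
      · rw [hx, map_zero]; exact ⟨0, by ring⟩
      · rw [FiniteField.isSquare_iff (by
          intro h
          apply h2
          have := ringChar.Nat.cast_ringChar (R := F)
          rw [h] at this
          exact_mod_cast this) (by rw [ne_eq, map_eq_zero]; exact hx), ← map_pow]
        have h1 : q0 - 1 ∣ Fintype.card F / 2 := by
          rw [hF, ← hK]
          have h5 : q0 ^ (k + k) - 1 = (q0 ^ k - 1) * (q0 ^ k + 1) := by
            have : q0 ^ (k + k) - 1 = (q0 ^ k) ^ 2 - 1 ^ 2 := by rw [one_pow, ← pow_mul, mul_two]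
            rw [this, Nat.sq_sub_sq, mul_comm]
          have h6 : 2 ∣ q0 ^ k + 1 := by
            rw [← even_iff_two_dvd]
            exact (hq0odd.pow).add_one
          obtain ⟨c, hc⟩ := h6
          have h7 : 1 ≤ q0 ^ (k + k) := Nat.one_le_pow _ _ (by omega)
          have h8 : q0 ^ (k + k) / 2 = (q0 ^ k - 1) * c := by
            have : q0 ^ (k + k) = 2 * ((q0 ^ k - 1) * c) + 1 := by
              have : (q0 ^ k - 1) * (q0 ^ k + 1) = 2 * ((q0 ^ k - 1) * c) := by rw [hc]; ring
              omega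
            omega
          rw [h8]
          exact (Nat.sub_one_dvd_pow_sub_one _ _).mul_right c
        obtain ⟨c, hc⟩ := h1
        rw [hc, pow_mul, FiniteField.pow_card_sub_one_eq_one x hx, one_pow, map_one])
    exact sub_of_inj φ hφ

end Cfsg.Agent.S0805
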