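import Cfsg.Statements.S0808
import Cfsg.Agent.H7.KF4
import Cfsg.Agent.S0242

set_option autoImplicit false
open Cfsg
open Matrix Cfsg.Agent.H7.KF Cfsg.Agent.H7.IsoCl Cfsg.Agent.H7.SL2

namespace Cfsg.Agent.S0808

abbrev Conjs {G : Type*} [Group G] (V : Subgroup G) := {W : Subgroup G // ∃ g : G, W = V.map (MulAut.conj g).toMonoidHom}

theorem klein_map {G : Type*} [Group G] {V : Subgroup G} (hV : IsKleinFour V) (g : G) : IsKleinFour (V.map (MulAut.conj g).toMonoidHom) := by
  rw [klein_iff]
  constructor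
  · rw [Subgroup.card_map_of_injective (MulAut.conj g).injective, hV.card_four]
  · rintro _ ⟨v, hv, rfl⟩
    rw [← map_mul, (klein_iff.1 hV).2 v hv, map_one]

theorem map_map {G : Type*} [Group G] (V : Subgroup G) (g h : G) :
    (V.map (MulAut.conj g).toMonoidHom).map (MulAut.conj h).toMonoidHom = V.map (MulAut.conj (h * g)).toMonoidHom := by
  rw [Subgroup.map_map, map_mul]
  rfl

/-- Conjugacy classes of four-groups in PSL_2(q), q odd: if q ≡ 3 or 5 (mod 8) all Klein four-subgroups are conjugate; if q ≡ 1 or 7 (mod 8) there are two Klein four-subgroups which are not conjugate, and every Klein four-subgroup is conjugate to one of them. -/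
theorem result {F : Type*} [Field F] [Fintype F] {q : ℕ} (hF : Fintype.card F = q) (hodd : Odd q) : ((q % 8 = 3 ∨ q % 8 = 5) → ∀ V W : Subgroup (Matrix.ProjectiveSpecialLinearGroup (Fin 2) F), IsKleinFour V → IsKleinFour W → ∃ g : Matrix.ProjectiveSpecialLinearGroup (Fin 2) F, W = V.map (MulAut.conj g).toMonoidHom) ∧ ((q % 8 = 1 ∨ q % 8 = 7) → ∃ V₁ V₂ : Subgroup (Matrix.ProjectiveSpecialLinearGroup (Fin 2) F), IsKleinFour V₁ ∧ IsKleinFour V₂ ∧ (¬ ∃ g : Matrix.ProjectiveSpecialLinearGroup (Fin 2) F, V₂ = V₁.map (MulAut.conj g).toMonoidHom) ∧ ∀ W : Subgroup (Matrix.ProjectiveSpecialLinearGroup (Fin 2) F), IsKleinFour W → (∃ g : Matrix.ProjectiveSpecialLinearGroup (Fin 2) F, W = V₁.map (MulAut.conj g).toMonoidHom) ∨ (∃ g : Matrix.ProjectiveSpecialLinearGroup (Fin 2) F, W = V₂.map (MulAut.conj g).toMonoidHom)) := by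
  classical
  subst hF
  have h2 : (2 : F) ≠ 0 := two_ne hodd
  have hcK := card_klein h2
  have hSL := card_SL h2
  rw [card_sl2 (S0242.result (F := F) rfl 2 (by norm_num))] at hSL
  constructor
  · intro hq V W hV hW
    have hN : Nat.card (Subgroup.normalizer (V : Set (PSL F))) = 12 := by
      rcases card_norm_V h2 hV with h | h
      · exact h
      · exfalso
        have h3 : 24 ∣ Nat.card (PSL F) := by rw [← h]; exact Subgroup.card_subgroup_dvd_card _
        have h4 : 16 ∣ Fintype.card F * (Fintype.card F ^ 2 - 1) := by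
          rw [hSL]
          obtain ⟨k, hk⟩ := h3
          rw [hk]
          exact ⟨3 * k, by ring⟩
        have h5 : Nat.Coprime 16 (Fintype.card F) := by
          rw [show 16 = 2 ^ 4 by norm_num]
          exact Nat.Coprime.pow_left 4 (Nat.coprime_two_left.2 hodd)
        have h6 := h5.dvd_of_dvd_mul_left h4
        obtain ⟨k, hk⟩ : ∃ k, Fintype.card F = 8 * k + Fintype.card F % 8 := ⟨Fintype.card F / 8, by omega⟩
        obtain ⟨m, hm⟩ := h6
        rcases hq with hq | hq
        · rw [hq] at hk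
          rw [hk, show (8 * k + 3) ^ 2 - 1 = 16 * (4 * k ^ 2 + 3 * k) + 8 by
            rw [show (8 * k + 3) ^ 2 = (16 * (4 * k ^ 2 + 3 * k) + 8) + 1 by ring]; omega] at hm
          omega
        · rw [hq] at hk
          rw [hk, show (8 * k + 5) ^ 2 - 1 = 16 * (4 * k ^ 2 + 5 * k + 1) + 8 by
            rw [show (8 * k + 5) ^ 2 = (16 * (4 * k ^ 2 + 5 * k + 1) + 8) + 1 by ring]; omega] at hm
          omega
    have ho := card_orbit_norm V
    rw [hN, ← hcK, mul_comm] at ho
    have ho' := Nat.eq_of_mul_eq_mul_left (by norm_num) ho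
    let f : Conjs V → {V : Subgroup (PSL F) // IsKleinFour V} := fun U => ⟨U.1, by
      obtain ⟨g, hg⟩ := U.2
      rw [hg]; exact klein_map hV g⟩
    have hf : Function.Injective f := fun a b h => by
      have h' := Subtype.ext_iff.1 h
      exact Subtype.ext h'
    have hf' := ((Nat.bijective_iff_injective_and_card f).2 ⟨hf, ho'⟩).2
    obtain ⟨U, hU⟩ := hf' ⟨W, hW⟩
    obtain ⟨g, hg⟩ := U.2
    exact ⟨g, by rw [← hg]; exact (congrArg Subtype.val hU).symm⟩
  · intro hq
    have hsq : IsSquare (2 : F) := by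
      rw [FiniteField.isSquare_two_iff]
      omega
    have hN : ∀ V : Subgroup (PSL F), IsKleinFour V → Nat.card (Subgroup.normalizer (V : Set (PSL F))) = 24 := fun V hV => card_norm_V_sq h2 hsq hV
    have ho : ∀ V : Subgroup (PSL F), IsKleinFour V → 2 * Nat.card (Conjs V) = Nat.card {V : Subgroup (PSL F) // IsKleinFour V} := by
      intro V hV
      have h3 := card_orbit_norm V
      rw [hN V hV] at h3
      have h4 : 12 * (2 * Nat.card (Conjs V)) = 12 * Nat.card {V : Subgroup (PSL F) // IsKleinFour V} := by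
        rw [hcK, ← h3]; ring
      exact Nat.eq_of_mul_eq_mul_left (by norm_num) h4
    let f : ∀ V : Subgroup (PSL F), IsKleinFour V → Conjs V → {V : Subgroup (PSL F) // IsKleinFour V} := fun V hV U => ⟨U.1, by
      obtain ⟨g, hg⟩ := U.2
      rw [hg]; exact klein_map hV g⟩
    have hf : ∀ V hV, Function.Injective (f V hV) := fun V hV a b h => by
      have h' := Subtype.ext_iff.1 h
      exact Subtype.ext h'
    have hpos : 0 < Nat.card {V : Subgroup (PSL F) // IsKleinFour V} := by
      apply Nat.pos_of_ne_zero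
      intro h0
      rw [h0, mul_zero] at hcK
      have : 0 < Nat.card (PSL F) := Nat.card_pos
      rw [← hcK] at this
      exact lt_irrefl _ this
    obtain ⟨⟨V₁, hV₁⟩⟩ := (Nat.card_pos_iff.1 hpos).1
    obtain ⟨⟨V₂, hV₂⟩, hV₂'⟩ : ∃ U : {V : Subgroup (PSL F) // IsKleinFour V}, U ∉ Set.range (f V₁ hV₁) := by
      by_contra hcon
      push Not at hcon
      have h3 : Function.Surjective (f V₁ hV₁) := hcon
      have h4 := Nat.card_congr (Equiv.ofBijective _ ⟨hf V₁ hV₁, h3⟩)
      have h5 := ho V₁ hV₁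
      omega
    have hnc : ¬ ∃ g : PSL F, V₂ = V₁.map (MulAut.conj g).toMonoidHom := by
      rintro ⟨g, hg⟩
      exact hV₂' ⟨⟨V₂, g, hg⟩, rfl⟩
    refine ⟨V₁, V₂, hV₁, hV₂, hnc, ?_⟩
    intro W hW
    by_contra hcon
    push Not at hcon
    obtain ⟨hc1, hc2⟩ := hcon
    let F' : Option (Conjs V₁ ⊕ Conjs V₂) → {V : Subgroup (PSL F) // IsKleinFour V} := fun o =>
      o.elim ⟨W, hW⟩ (Sum.elim (f V₁ hV₁) (f V₂ hV₂))
    have hF' : Function.Injective F' := by
      have d1 : ∀ (a : Conjs V₁) (b : Conjs V₂), a.1 ≠ b.1 := by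
        rintro ⟨_, g, rfl⟩ ⟨_, h, rfl⟩ hab
        apply hnc
        refine ⟨h⁻¹ * g, ?_⟩
        change V₁.map _ = V₂.map _ at hab
        rw [← map_map, hab, map_map, inv_mul_cancel, map_one]
        ext x; simp
      rintro (_ | (a | a)) (_ | (b | b)) hab
      · rfl
      · exfalso
        obtain ⟨g, hg⟩ := b.2
        apply hc1 g
        rw [← hg]; exact congrArg Subtype.val hab
      · exfalso
        obtain ⟨g, hg⟩ := b.2
        apply hc2 g
        rw [← hg]; exact congrArg Subtype.val hab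
      · exfalso
        obtain ⟨g, hg⟩ := a.2
        apply hc1 g
        rw [← hg]; exact (congrArg Subtype.val hab).symm
      · exact congrArg (fun x => some (Sum.inl x)) (hf V₁ hV₁ hab)
      · exact absurd (congrArg Subtype.val hab) (d1 a b)
      · exfalso
        obtain ⟨g, hg⟩ := a.2
        apply hc2 g
        rw [← hg]; exact (congrArg Subtype.val hab).symm
      · exact absurd (congrArg Subtype.val hab).symm (d1 b a)
      · exact congrArg (fun x => some (Sum.inr x)) (hf V₂ hV₂ hab)
    have h3 := Nat.card_le_card_of_injective F' hF'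
    rw [Finite.card_option, Nat.card_sum] at h3
    have h4 := ho V₁ hV₁
    have h5 := ho V₂ hV₂
    omega

end Cfsg.Agent.S0808
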