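import Cfsg.Statements.S0813
import Mathlib
import Cfsg.Agent.H8.AutI
open Cfsg.Agent.H8.AutPSL

set_option autoImplicit false
open Cfsg

namespace Cfsg.Agent.S0813



/-- |Aut(PSL_n(q))|, q = p^f: for n ≥ 3 it is 2 f |PGL_n(q)|, and for n = 2 (q ≥ 4) it is f |PGL_2(q)|. -/
theorem result {F : Type*} [Field F] [Fintype F] (p f : ℕ) [Fact p.Prime] (hf : 1 ≤ f) (hF : Fintype.card F = p ^ f) (n : ℕ) (hn : 2 ≤ n) (h2 : n = 2 → 4 ≤ p ^ f) : Nat.card (MulAut (Matrix.ProjectiveSpecialLinearGroup (Fin n) F)) = (if n = 2 then 1 else 2) * f * Nat.card (Matrix.ProjGenLinGroup (Fin n) F) := by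
  have hF' : Nat.card F = p ^ f := by rw [Nat.card_eq_fintype_card, hF]
  obtain ⟨k1, k2⟩ := fieldAut F hF' hf
  rw [← card_dgN hn]
  have main : ∀ {A : Type _} [Group A] (Ψ : MulAut (Matrix.ProjectiveSpecialLinearGroup (Fin n) F) →* A), Function.Surjective Ψ → Ψ.ker = dgN n F →
      Nat.card (MulAut (Matrix.ProjectiveSpecialLinearGroup (Fin n) F)) = Nat.card A * Nat.card (dgN n F) := by
    intro A _ Ψ hs hk
    have h1 := Ψ.ker.card_mul_index
    rw [Subgroup.index_ker, MonoidHom.range_eq_top.2 hs, Subgroup.card_top, hk] at h1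
    rw [← h1, mul_comm]
  by_cases h : n = 2
  · subst h
    obtain ⟨Ψ, hker, hΨ⟩ := exists_Psi2 (F := F)
    rw [if_pos rfl, main Ψ (fun a => ⟨_, hΨ a⟩) hker, k2, one_mul]
  · rw [if_neg h]
    obtain ⟨Ψ, hker, hΨ⟩ := exists_Psi (F := F) (by omega : 3 ≤ n)
    rw [main Ψ (fun a => ⟨_, hΨ a⟩) hker, Nat.card_prod, k2]
    have h2 : Nat.card ℤˣ = 2 := by rw [Nat.card_eq_fintype_card]; rfl
    rw [h2]; ring

end Cfsg.Agent.S0813
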