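import Cfsg.Statements.S0815
import Mathlib
import Cfsg.Agent.H8.TVU6

set_option autoImplicit false
open Cfsg

namespace Cfsg.Agent.S0815



/-- |Aut(PSU_n(q))| = gcd(n, q+1) · 2f · |PSU_n(q)| for q = p^f, n ≥ 3, (n, q) ≠ (3, 2); the form is realised over F with |F| = q². -/
theorem result {F : Type*} [Field F] [Fintype F] (p f : ℕ) [Fact p.Prime] (hf : 1 ≤ f) {q : ℕ} (hq : q = p ^ f) (hF : Fintype.card F = q ^ 2) (n : ℕ) (hn : 3 ≤ n) (h32 : ¬ (n = 3 ∧ q = 2)) : Nat.card (MulAut (Cfsg.PSU n F q)) = Nat.gcd n (q + 1) * (2 * f) * Nat.card (Cfsg.PSU n F q) := by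
  haveI : CharP F p := Cfsg.Agent.H8.TVU.charP_of_card F (k := f * 2) (by rw [hF, hq, ← pow_mul]) (by omega)
  let X := Cfsg.Agent.H8.TVU.mdU p hF hn h32
  obtain ⟨Ψ, hk, hΨ⟩ := X.exists_Psi (Cfsg.Agent.H8.TVU.fullU p hF hn h32)
  obtain ⟨h4, h5⟩ := Cfsg.Agent.H8.AutPSL.fieldAut F (p := p) (f := 2 * f) (by rw [Nat.card_eq_fintype_card, hF, hq, ← pow_mul, mul_comm]) (by omega)
  have h6 : Nat.card (MulAut (Cfsg.PSU n F q)) = Nat.card Ψ.ker * Nat.card Ψ.range := by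
    rw [← Subgroup.index_ker, Subgroup.card_mul_index]
  have h7 : Ψ.range = ⊤ := MonoidHom.range_eq_top.2 (fun a => ⟨_, hΨ a⟩)
  rw [h6, h7, Subgroup.card_top, h5, hk, X.card_N (Cfsg.Agent.H8.TVU.dtU p hF hn h32) (Cfsg.Agent.H8.TVU.dtU_surj p hF hn h32) (Cfsg.Agent.H8.TVU.dtU_ker p hF hn h32) _ (Cfsg.Agent.H8.TVU.dtU_Z p hF hn h32), Cfsg.Agent.H8.TVU.Z_index hF]
  ring

end Cfsg.Agent.S0815
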