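import Cfsg.Statements.S0819
import Mathlib

set_option autoImplicit false
open Cfsg

namespace Cfsg.Agent.S0819

abbrev CC := ZMod 2 × ZMod 2

def cm (x y : CC) : CC := (x.1 * y.1 + x.2 * y.2, x.1 * y.2 + x.2 * y.1 + x.2 * y.2)

def stepC (a b : CC) (t : CC × CC × CC) : CC × CC × CC := (cm t.1 a + t.2.1, cm t.1 b + t.2.2, t.1)

def runC (a b : CC) : ℕ → CC × CC × CC → CC × CC × CC
  | 0, t => t
  | (n + 1), t => runC a b n (stepC a b t)

theorem chk : ∀ a b : CC, runC a b 12 (0, 0, (1, 0)) = (0, 0, (1, 0)) ∨ runC a b 21 (0, 0, (1, 0)) = (0, 0, (1, 0)) ∨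
    ((runC a b 5 (0, 0, (1, 0))).1 = 0 ∧ (runC a b 5 (0, 0, (1, 0))).2.1 = 0) := by
  decide +kernel

section
open Matrix
variable {F : Type*} [Field F] [CharP F 2]

/-- decoding -/
def ps (ω : F) (x : CC) : F := ZMod.castHom (dvd_refl 2) F x.1 + ZMod.castHom (dvd_refl 2) F x.2 * ω

theorem ps_add (ω : F) (x y : CC) : ps ω (x + y) = ps ω x + ps ω y := by
  simp only [ps, Prod.fst_add, Prod.snd_add, map_add]; ring

theorem ps_mul {ω : F} (hω : ω ^ 2 = ω + 1) (x y : CC) : ps ω (cm x y) = ps ω x * ps ω y := by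
  simp only [ps, cm, map_add, map_mul]
  linear_combination (-(ZMod.castHom (dvd_refl 2) F x.2 * ZMod.castHom (dvd_refl 2) F y.2)) * hω

theorem ps_zero (ω : F) : ps ω 0 = 0 := by
  simp [ps]

theorem ps_one (ω : F) : ps ω (1, 0) = 1 := by
  simp [ps]

theorem ch3 (X : Matrix (Fin 3) (Fin 3) F) (hX : X.det = 1) :
    X * X * X = (X 0 0 + X 1 1 + X 2 2) • (X * X) +
      (-(X 0 0 * X 1 1 - X 0 1 * X 1 0 + X 0 0 * X 2 2 - X 0 2 * X 2 0 + X 1 1 * X 2 2 - X 1 2 * X 2 1)) • X + (1 : Matrix (Fin 3) (Fin 3) F) := by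
  rw [Matrix.det_fin_three] at hX
  ext i j
  fin_cases i <;> fin_cases j <;>
    simp [Matrix.mul_apply, Fin.sum_univ_three] <;> first | ring1 | linear_combination hX

theorem run_pow {ω : F} (hω : ω ^ 2 = ω + 1) (X : Matrix (Fin 3) (Fin 3) F) (a b : CC)
    (hX : X * X * X = ps ω a • (X * X) + ps ω b • X + (1 : Matrix (Fin 3) (Fin 3) F)) :
    ∀ (n : ℕ) (t : CC × CC × CC) (k : ℕ), X ^ k = ps ω t.1 • (X * X) + ps ω t.2.1 • X + ps ω t.2.2 • (1 : Matrix (Fin 3) (Fin 3) F) →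
      X ^ (k + n) = ps ω (runC a b n t).1 • (X * X) + ps ω (runC a b n t).2.1 • X + ps ω (runC a b n t).2.2 • (1 : Matrix (Fin 3) (Fin 3) F)
  | 0, t, k, h => h
  | (n + 1), t, k, h => by
    have h1 : X ^ (k + 1) = ps ω (stepC a b t).1 • (X * X) + ps ω (stepC a b t).2.1 • X + ps ω (stepC a b t).2.2 • (1 : Matrix (Fin 3) (Fin 3) F) := by
      rw [pow_succ, h, add_mul, add_mul, smul_mul_assoc, smul_mul_assoc, smul_mul_assoc, one_mul, hX]
      simp only [stepC, ps_add, ps_mul hω]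
      module
    have h2 := run_pow hω X a b hX n (stepC a b t) (k + 1) h1
    rw [show k + 1 + n = k + (n + 1) by omega] at h2
    exact h2
end

theorem exω {F : Type*} [Field F] [Fintype F] (hF : Fintype.card F = 4) : ∃ _ : CharP F 2, ∃ ω : F, ω ^ 2 = ω + 1 ∧ ∀ x : F, ∃ c, ps ω c = x := by
  have h40 : (4 : F) = 0 := by
    have := Nat.cast_card_eq_zero F
    rw [hF] at this
    exact_mod_cast this
  have h20 : (2 : F) = 0 := by
    have h1 : (2 : F) ^ 2 = 0 := by linear_combination h40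
    exact pow_eq_zero_iff (two_ne_zero) |>.1 h1
  haveI hc : CharP F 2 := CharTwo.of_one_ne_zero_of_two_eq_zero one_ne_zero h20
  have hp : ∀ x : F, x = 0 ∨ x = 1 ∨ x ^ 2 + x + 1 = 0 := by
    intro x
    have h1 : x ^ 4 = x := by
      have := FiniteField.pow_card x
      rwa [hF] at this
    have h2 : x * ((x - 1) * (x ^ 2 + x + 1)) = 0 := by linear_combination h1
    rcases mul_eq_zero.1 h2 with h | h
    · exact Or.inl h
    · rcases mul_eq_zero.1 h with h | h
      · exact Or.inr (Or.inl (sub_eq_zero.1 h))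
      · exact Or.inr (Or.inr h)
  obtain ⟨ω, hω0⟩ : ∃ ω : F, ω ^ 2 + ω + 1 = 0 := by
    by_contra hcon
    push Not at hcon
    classical
    have h1 : (Finset.univ : Finset F) ⊆ {0, 1} := by
      intro x _
      rcases hp x with h | h | h
      · simp [h]
      · simp [h]
      · exact absurd h (hcon x)
    have h2 := (Finset.card_le_card h1).trans Finset.card_le_two
    rw [Finset.card_univ, hF] at h2
    omega
  refine ⟨hc, ω, by linear_combination hω0 - (ω + 1) * h20, fun x => ?_⟩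
  rcases hp x with h | h | h
  · exact ⟨(0, 0), by rw [h]; exact ps_zero ω⟩
  · exact ⟨(1, 0), by rw [h]; exact ps_one ω⟩
  · have h1 : (x - ω) * (x - ω - 1) = 0 := by
      linear_combination h + hω0 - (ω * x + x + 1) * h20
    rcases mul_eq_zero.1 h1 with h2 | h2
    · exact ⟨(0, 1), by rw [sub_eq_zero.1 h2]; simp [ps]⟩
    · exact ⟨(1, 1), by
        have : x = 1 + ω := by linear_combination h2
        rw [this]; simp [ps]⟩

/-- No element of PSL_3(4) has order 15. -/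
theorem result {F : Type*} [Field F] [Fintype F] (hF : Fintype.card F = 4) (g : Matrix.ProjectiveSpecialLinearGroup (Fin 3) F) : orderOf g ≠ 15 := by
  obtain ⟨hc, ω, hω, hsurj⟩ := exω hF
  obtain ⟨g, rfl⟩ := QuotientGroup.mk_surjective g
  intro hord
  have toPSL : ∀ n, g ^ n ∈ Subgroup.center (Matrix.SpecialLinearGroup (Fin 3) F) → orderOf (QuotientGroup.mk g : Matrix.ProjectiveSpecialLinearGroup (Fin 3) F) ∣ n := by
    intro n hn
    apply orderOf_dvd_of_pow_eq_one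
    rw [← QuotientGroup.mk_pow]
    exact (QuotientGroup.eq_one_iff _).2 hn
  have h3 := ch3 (g : Matrix (Fin 3) (Fin 3) F) g.2
  obtain ⟨a, ha⟩ := hsurj ((g : Matrix (Fin 3) (Fin 3) F) 0 0 + (g : Matrix (Fin 3) (Fin 3) F) 1 1 + (g : Matrix (Fin 3) (Fin 3) F) 2 2)
  obtain ⟨b, hb⟩ := hsurj (-((g : Matrix (Fin 3) (Fin 3) F) 0 0 * (g : Matrix (Fin 3) (Fin 3) F) 1 1 - (g : Matrix (Fin 3) (Fin 3) F) 0 1 * (g : Matrix (Fin 3) (Fin 3) F) 1 0 +
    (g : Matrix (Fin 3) (Fin 3) F) 0 0 * (g : Matrix (Fin 3) (Fin 3) F) 2 2 - (g : Matrix (Fin 3) (Fin 3) F) 0 2 * (g : Matrix (Fin 3) (Fin 3) F) 2 0 +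
    (g : Matrix (Fin 3) (Fin 3) F) 1 1 * (g : Matrix (Fin 3) (Fin 3) F) 2 2 - (g : Matrix (Fin 3) (Fin 3) F) 1 2 * (g : Matrix (Fin 3) (Fin 3) F) 2 1))
  rw [← ha, ← hb] at h3
  have hrun := fun n => run_pow hω (g : Matrix (Fin 3) (Fin 3) F) a b h3 n (0, 0, (1, 0)) 0 (by
    show _ = ps ω (0 : CC) • _ + ps ω (0 : CC) • _ + ps ω ((1, 0) : CC) • _
    rw [pow_zero, ps_zero, ps_one, zero_smul, zero_smul, zero_add, zero_add, one_smul])
  have hone : ∀ n, runC a b n (0, 0, (1, 0)) = (0, 0, (1, 0)) → orderOf (QuotientGroup.mk g : Matrix.ProjectiveSpecialLinearGroup (Fin 3) F) ∣ n := by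
    intro n hn
    have h4 := hrun n
    rw [hn] at h4
    have h4 : (g : Matrix (Fin 3) (Fin 3) F) ^ (0 + n) = ps ω (0 : CC) • ((g : Matrix (Fin 3) (Fin 3) F) * (g : Matrix (Fin 3) (Fin 3) F)) + ps ω (0 : CC) • (g : Matrix (Fin 3) (Fin 3) F) +
      ps ω ((1, 0) : CC) • (1 : Matrix (Fin 3) (Fin 3) F) := h4
    rw [ps_zero, ps_one, zero_smul, zero_smul, zero_add, zero_add, one_smul, zero_add] at h4
    apply toPSL
    have : g ^ n = 1 := by
      apply Subtype.ext
      rw [Matrix.SpecialLinearGroup.coe_pow, h4, Matrix.SpecialLinearGroup.coe_one]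
    rw [this]; exact one_mem _
  rcases chk a b with h | h | ⟨h, h'⟩
  · have := hone 12 h
    rw [hord] at this
    norm_num at this
  · have := hone 21 h
    rw [hord] at this
    norm_num at this
  · have h4 := hrun 5
    rw [h, h', ps_zero, zero_smul, zero_smul, zero_add, zero_add, zero_add] at h4
    have h5 : orderOf (QuotientGroup.mk g : Matrix.ProjectiveSpecialLinearGroup (Fin 3) F) ∣ 5 := by
      apply toPSL
      obtain ⟨r, hr⟩ : ∃ r, r = ps ω (runC a b 5 (0, 0, (1, 0))).2.2 := ⟨_, rfl⟩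
      rw [← hr] at h4
      refine Matrix.SpecialLinearGroup.mem_center_iff.2 ⟨r, ?_, ?_⟩
      · have := (g ^ 5).2
        rw [Matrix.SpecialLinearGroup.coe_pow, h4, Matrix.det_smul, Matrix.det_one, mul_one] at this
        exact this
      · rw [Matrix.SpecialLinearGroup.coe_pow, h4]
        ext i j
        simp [Matrix.scalar_apply, Matrix.diagonal_apply, Matrix.one_apply]
    rw [hord] at h5
    norm_num at h5

end Cfsg.Agent.S0819
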