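import Cfsg.Statements.S0820

set_option autoImplicit false
open Cfsg

namespace Cfsg.Agent.S0820

open Matrix

/-- a transvection -/
def tr (F : Type*) [Field F] : Matrix.SpecialLinearGroup (Fin 3) F :=
  ⟨1 + Matrix.single 0 2 1, by
    have := Matrix.det_transvection_of_ne (R := F) (0 : Fin 3) 2 (by decide) 1
    exact this⟩

theorem std {F : Type*} [Field F] (X : Matrix.SpecialLinearGroup (Fin 3) F)
    (h1 : ((X : Matrix (Fin 3) (Fin 3) F) - 1) * ((X : Matrix (Fin 3) (Fin 3) F) - 1) = 0) (h2 : X ≠ 1) :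
    ∃ A : Matrix.SpecialLinearGroup (Fin 3) F, X = A * tr F * A⁻¹ := by
  set N : Matrix (Fin 3) (Fin 3) F := (X : Matrix (Fin 3) (Fin 3) F) - 1 with hN
  have hN0 : N ≠ 0 := by
    intro h
    apply h2
    apply Subtype.ext
    exact sub_eq_zero.1 h
  obtain ⟨e, he⟩ : ∃ e, N *ᵥ e ≠ 0 := by
    by_contra hcon
    push Not at hcon
    apply hN0
    apply Matrix.toLin'.injective
    apply LinearMap.ext
    intro v
    rw [Matrix.toLin'_apply, hcon, map_zero, LinearMap.zero_apply]
  set v := N *ᵥ e with hv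
  have hNv : N *ᵥ v = 0 := by
    rw [hv, Matrix.mulVec_mulVec, h1, Matrix.zero_mulVec]
  obtain ⟨u, hu, huv⟩ : ∃ u, N *ᵥ u = 0 ∧ u ∉ Submodule.span F {v} := by
    by_contra hcon
    push Not at hcon
    have hle : LinearMap.ker (Matrix.toLin' N) ≤ Submodule.span F {v} := by
      intro u hu
      apply hcon
      rwa [LinearMap.mem_ker, Matrix.toLin'_apply] at hu
    have hle2 : LinearMap.range (Matrix.toLin' N) ≤ LinearMap.ker (Matrix.toLin' N) := by
      rintro _ ⟨w, rfl⟩
      rw [LinearMap.mem_ker, Matrix.toLin'_apply, Matrix.toLin'_apply, Matrix.mulVec_mulVec, h1, Matrix.zero_mulVec]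
    have hsp : Module.finrank F (Submodule.span F {v}) ≤ 1 := by
      have := finrank_span_le_card (R := F) ({v} : Set (Fin 3 → F))
      simpa using this
    have h3 := LinearMap.finrank_range_add_finrank_ker (Matrix.toLin' N)
    have h4 := Submodule.finrank_mono hle
    have h5 := Submodule.finrank_mono hle2
    rw [Module.finrank_fintype_fun_eq_card, Fintype.card_fin] at h3
    omega
  have hli : ∀ a b c : F, a • v + b • u + c • e = 0 → a = 0 ∧ b = 0 ∧ c = 0 := by
    intro a b c h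
    have hc : c = 0 := by
      have h3 : N *ᵥ (a • v + b • u + c • e) = 0 := by rw [h, Matrix.mulVec_zero]
      rw [Matrix.mulVec_add, Matrix.mulVec_add, Matrix.mulVec_smul, Matrix.mulVec_smul, Matrix.mulVec_smul, hNv, hu, smul_zero,
        smul_zero, zero_add, zero_add, ← hv] at h3
      exact (smul_eq_zero.1 h3).resolve_right he
    rw [hc, zero_smul, add_zero] at h
    have hb : b = 0 := by
      by_contra hb
      apply huv
      rw [Submodule.mem_span_singleton]
      refine ⟨-(b⁻¹ * a), ?_⟩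
      have : u = b⁻¹ • (b • u) := by rw [smul_smul, inv_mul_cancel₀ hb, one_smul]
      rw [this, show b • u = -(a • v) from eq_neg_of_add_eq_zero_right h, smul_neg, smul_smul, neg_smul]
    rw [hb, zero_smul, add_zero] at h
    exact ⟨(smul_eq_zero.1 h).resolve_right he, hb, hc⟩
  let A0 : Matrix (Fin 3) (Fin 3) F := fun i j => (![v, u, e] j) i
  have hA0 : A0.det ≠ 0 := by
    intro hdet
    obtain ⟨w, hw0, hw⟩ := Matrix.exists_mulVec_eq_zero_iff.2 hdet
    have h3 : w 0 • v + w 1 • u + w 2 • e = 0 := by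
      ext i
      have := congrFun hw i
      simp only [A0, Matrix.mulVec, dotProduct, Fin.sum_univ_three, Pi.zero_apply] at this
      simp only [Pi.add_apply, Pi.smul_apply, smul_eq_mul, Pi.zero_apply]
      rw [← this]
      simp
      ring
    obtain ⟨h4, h5, h6⟩ := hli _ _ _ h3
    apply hw0
    ext i
    fin_cases i
    · exact h4
    · exact h5
    · exact h6
  let A1 : Matrix (Fin 3) (Fin 3) F := fun i j => (![v, A0.det⁻¹ • u, e] j) i
  have hA1 : A1.det = 1 := by
    have h3 : A1 = A0 * Matrix.diagonal ![1, A0.det⁻¹, 1] := by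
      ext i j
      rw [Matrix.mul_diagonal]
      fin_cases j <;> simp [A1, A0, mul_comm]
    rw [h3, Matrix.det_mul, Matrix.det_diagonal, Fin.prod_univ_three]
    simp [hA0]
  let A : Matrix.SpecialLinearGroup (Fin 3) F := ⟨A1, hA1⟩
  refine ⟨A, ?_⟩
  apply _root_.eq_mul_inv_of_mul_eq
  apply Subtype.ext
  rw [Matrix.SpecialLinearGroup.coe_mul, Matrix.SpecialLinearGroup.coe_mul]
  change (X : Matrix (Fin 3) (Fin 3) F) * A1 = A1 * (1 + Matrix.single 0 2 1)
  have hX : (X : Matrix (Fin 3) (Fin 3) F) = 1 + N := by rw [hN]; abel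
  rw [hX, add_mul, one_mul, mul_add, mul_one]
  congr 1
  have hcol : ∀ j, (N * A1).col j = N *ᵥ (A1.col j) := fun j => rfl
  ext i j
  have h3 : (N * A1) i j = (N *ᵥ (![v, A0.det⁻¹ • u, e] j)) i := rfl
  rw [h3]
  fin_cases j
  · change (N *ᵥ v) i = _
    rw [hNv]
    simp [Matrix.mul_apply, Matrix.single_apply]
  · change (N *ᵥ (A0.det⁻¹ • u)) i = _
    rw [Matrix.mulVec_smul, hu, smul_zero]
    simp [Matrix.mul_apply, Matrix.single_apply]
  · change (N *ᵥ e) i = _
    rw [← hv]
    rw [Matrix.mul_apply, Fin.sum_univ_three]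
    have e1 : A1 i 0 = v i := rfl
    simp [Matrix.single_apply, e1]

theorem lift {F : Type*} [Field F] [Fintype F] (hF : Fintype.card F = 4) (x : Matrix.ProjectiveSpecialLinearGroup (Fin 3) F)
    (hx : orderOf x = 2) : ∃ A : Matrix.SpecialLinearGroup (Fin 3) F, x = QuotientGroup.mk (A * tr F * A⁻¹) := by
  have h2 : (1 : F) + 1 = 0 := by
    have h3 : (4 : F) = 0 := by
      have h4 : ((Fintype.card F : ℕ) : F) = 0 := Nat.cast_card_eq_zero F
      rw [hF] at h4
      exact_mod_cast h4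
    have h4 : (1 + 1 : F) * (1 + 1) = 0 := by rw [← h3]; norm_num
    rcases mul_eq_zero.1 h4 with h | h <;> exact h
  obtain ⟨X, rfl⟩ := QuotientGroup.mk_surjective x
  have hX2 : X ^ 2 ∈ Subgroup.center (Matrix.SpecialLinearGroup (Fin 3) F) := by
    rw [← QuotientGroup.eq_one_iff, QuotientGroup.mk_pow, ← hx, pow_orderOf_eq_one]
  obtain ⟨r, hr, hr'⟩ := Matrix.SpecialLinearGroup.mem_center_iff.1 hX2
  rw [Fintype.card_fin] at hr
  -- the scalar
  let s : Matrix.SpecialLinearGroup (Fin 3) F := ⟨Matrix.scalar (Fin 3) r, by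
    rw [Matrix.scalar_apply, Matrix.det_diagonal, Finset.prod_const, Finset.card_univ, Fintype.card_fin, hr]⟩
  have hs : s ∈ Subgroup.center (Matrix.SpecialLinearGroup (Fin 3) F) :=
    Matrix.SpecialLinearGroup.mem_center_iff.2 ⟨r, by rw [Fintype.card_fin]; exact hr, rfl⟩
  have hY : (QuotientGroup.mk (s * X) : Matrix.ProjectiveSpecialLinearGroup (Fin 3) F) = QuotientGroup.mk X := by
    rw [QuotientGroup.mk_mul, (QuotientGroup.eq_one_iff s).2 hs, one_mul]
  have hYY : (s * X) ^ 2 = 1 := by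
    have hc : Commute s X := (Subgroup.mem_center_iff.1 hs X).symm
    rw [hc.mul_pow]
    apply Subtype.ext
    rw [Matrix.SpecialLinearGroup.coe_mul, ← hr', Matrix.SpecialLinearGroup.coe_pow]
    change (Matrix.scalar (Fin 3) r) ^ 2 * Matrix.scalar (Fin 3) r = 1
    rw [← map_pow, ← map_mul, ← pow_succ, hr, map_one]
  have hY1 : s * X ≠ 1 := by
    intro h
    rw [h] at hY
    rw [← hY, QuotientGroup.mk_one, orderOf_one] at hx
    norm_num at hx
  have hm : ((s * X : Matrix.SpecialLinearGroup (Fin 3) F) : Matrix (Fin 3) (Fin 3) F) * ((s * X : Matrix.SpecialLinearGroup (Fin 3) F) : Matrix (Fin 3) (Fin 3) F) = 1 := by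
    rw [← Matrix.SpecialLinearGroup.coe_mul, ← pow_two, hYY]; rfl
  obtain ⟨A, hA⟩ := std (s * X) (by
    rw [sub_mul, mul_sub, mul_one, one_mul, hm]
    generalize ((s * X : Matrix.SpecialLinearGroup (Fin 3) F) : Matrix (Fin 3) (Fin 3) F) = Z
    have h3 : ∀ W : Matrix (Fin 3) (Fin 3) F, W + W = 0 := by
      intro W
      have : W + W = ((1 : F) + 1) • W := by rw [add_smul, one_smul]
      rw [this, h2, zero_smul]
    have h4 : (1 : Matrix (Fin 3) (Fin 3) F) - Z - (Z - 1) = (1 + 1) - (Z + Z) := by abel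
    rw [h4, h3, h3, sub_zero]) hY1
  exact ⟨A, by rw [← hA, hY]⟩

/-- Any two elements of order 2 of PSL_3(4) are conjugate. -/
theorem result {F : Type*} [Field F] [Fintype F] (hF : Fintype.card F = 4) (x y : Matrix.ProjectiveSpecialLinearGroup (Fin 3) F) (hx : orderOf x = 2) (hy : orderOf y = 2) : IsConj x y := by
  obtain ⟨A, hA⟩ := lift hF x hx
  obtain ⟨B, hB⟩ := lift hF y hy
  rw [hA, hB]
  have h1 : ∀ (g t : Matrix.SpecialLinearGroup (Fin 3) F),
      IsConj (QuotientGroup.mk t : Matrix.ProjectiveSpecialLinearGroup (Fin 3) F) (QuotientGroup.mk (g * t * g⁻¹)) := by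
    intro g t
    rw [isConj_iff]
    exact ⟨QuotientGroup.mk g, rfl⟩
  exact (h1 A _).symm.trans (h1 B _)

end Cfsg.Agent.S0820
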