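import Cfsg.Statements.S0826
import Cfsg.Agent.H7.PermMod

set_option autoImplicit false
open Cfsg
open Cfsg.Agent.H7.PermMod

namespace Cfsg.Agent.S0826

/-- S_2n ≤ Sp_(2n−2)(2) for n ≥ 3: there is an injective homomorphism from the symmetric group on 2n letters into the symplectic group of degree 2n − 2 over the field with two elements. -/
theorem result (n : ℕ) (hn : 3 ≤ n) : ∃ f : Equiv.Perm (Fin (2 * n)) →* Matrix.symplecticGroup (Fin (n - 1)) (ZMod 2), Function.Injective f := by
  obtain ⟨m, rfl⟩ : ∃ m, n = m + 1 := ⟨n - 1, by omega⟩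
  exact exists_emb (F := ZMod 2) (by decide) m (by omega)

end Cfsg.Agent.S0826
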