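import Cfsg.Statements.S0828
import Cfsg.Agent.H7.Parab

set_option autoImplicit false
open Cfsg
open Module Cfsg.Agent.H7.Quad Cfsg.Agent.H7.Tv Cfsg.Agent.H7.Witt Cfsg.Agent.H7.Herm

namespace Cfsg.Agent.S0828

/-- The symplectic generalised quadrangle over a field with q elements: the number of 2-dimensional subspaces of F^4 on which the symplectic form vanishes is (q + 1)(q² + 1), and every non-zero vector lies in exactly q + 1 of them. -/
theorem result {F : Type*} [Field F] [Fintype F] {q : ℕ} (hF : Fintype.card F = q) : Nat.card {W : Submodule F (Fin 2 ⊕ Fin 2 → F) // Module.finrank F W = 2 ∧ ∀ u ∈ W, ∀ v ∈ W, Cfsg.sympForm 2 F u v = 0} = (q + 1) * (q ^ 2 + 1) ∧ ∀ v : Fin 2 ⊕ Fin 2 → F, v ≠ 0 → Nat.card {W : Submodule F (Fin 2 ⊕ Fin 2 → F) // Module.finrank F W = 2 ∧ v ∈ W ∧ ∀ u ∈ W, ∀ w ∈ W, Cfsg.sympForm 2 F u w = 0} = q + 1 := by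
  have hq1 : 1 < q := by rw [← hF]; exact Fintype.one_lt_card
  have hgl : ∏ i : Fin 2, (q ^ 2 - q ^ (i : ℕ)) = (q ^ 2 - 1) * (q ^ 2 - q) := by
    rw [Fin.prod_univ_two]
    simp
  have hpos : 0 < q ^ 2 - q := by
    apply Nat.sub_pos_of_lt
    nlinarith
  have hpos' : 0 < q ^ 2 - 1 := by
    apply Nat.sub_pos_of_lt
    nlinarith
  have hspan2 : ∀ y : Fin 2 → (Fin 2 ⊕ Fin 2 → F), (∀ i j, sf 2 F (y i) (y j) = 0) ↔
      ∀ u ∈ Submodule.span F (Set.range y), ∀ v ∈ Submodule.span F (Set.range y), sf 2 F u v = 0 := by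
    intro y
    constructor
    · intro h
      have h4 : Submodule.span F (Set.range y) ≤ prp (sf 2 F) (Submodule.span F (Set.range y)) := by
        rw [Submodule.span_le]
        rintro _ ⟨i, rfl⟩
        exact mem_prp_span.2 (fun i' => h i' i)
      exact fun u hu v hv => h4 hv u hu
    · exact fun h i j => h _ (Submodule.subset_span ⟨i, rfl⟩) _ (Submodule.subset_span ⟨j, rfl⟩)
  constructor
  · have h1 := card_subspaces (F := F) 2 (fun W : Submodule F (Fin 2 ⊕ Fin 2 → F) => ∀ u ∈ W, ∀ v ∈ W, Cfsg.sympForm 2 F u v = 0)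
    have h2 : Nat.card {y : Fin 2 → (Fin 2 ⊕ Fin 2 → F) // LinearIndependent F y ∧
        ∀ u ∈ Submodule.span F (Set.range y), ∀ v ∈ Submodule.span F (Set.range y), Cfsg.sympForm 2 F u v = 0} =
        ∏ j ∈ Finset.range 2, (q ^ (2 * 2 - j) - q ^ j) := by
      rw [← card_sp_frames hF]
      exact Nat.card_congr (Equiv.subtypeEquivRight fun y => and_congr_right fun _ => (hspan2 y).symm)
    rw [h2, Nat.card_eq_fintype_card (α := F), hF, hgl, Finset.prod_range_succ, Finset.prod_range_one] at h1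
    apply Nat.eq_of_mul_eq_mul_right (Nat.mul_pos hpos' hpos)
    rw [← h1]
    have a1 : 1 ≤ q ^ 2 := Nat.one_le_pow _ _ (by omega)
    have a2 : q ≤ q ^ 2 := by nlinarith
    have a3 : 1 ≤ q ^ 4 := Nat.one_le_pow _ _ (by omega)
    have a4 : q ≤ q ^ 3 := by nlinarith
    norm_num
    zify [a1, a2, a3, a4]
    ring
  · intro v hv
    have hyli : LinearIndependent F ![v] := LinearIndependent.of_subsingleton 0 hv
    have hr : Set.range ![v] = {v} := by simp
    have h1 := count_alt (B := sf 2 F) (sf_alt 2).alt (sf_nd' 2) ![v] hyli (by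
      intro i i'
      fin_cases i; fin_cases i'
      exact (sf_alt 2).alt v)
    rw [finrank_sp, Nat.card_eq_fintype_card (α := F), hF, hr, pow_one] at h1
    classical
    let T := {W : Submodule F (Fin 2 ⊕ Fin 2 → F) // Module.finrank F W = 2 ∧ v ∈ W ∧ ∀ u ∈ W, ∀ w ∈ W, Cfsg.sympForm 2 F u w = 0}
    haveI : Finite (Submodule F (Fin 2 ⊕ Fin 2 → F)) := Finite.of_injective (fun W : Submodule F (Fin 2 ⊕ Fin 2 → F) => (W : Set (Fin 2 ⊕ Fin 2 → F))) SetLike.coe_injective
    haveI := Fintype.ofFinite T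
    have h2 : Nat.card {w // w ∉ Submodule.span F {v} ∧ sf 2 F w w = 0 ∧ ∀ i : Fin 1, sf 2 F (![v] i) w = 0} =
        Nat.card (Σ W : T, {w : W.1 // (w : Fin 2 ⊕ Fin 2 → F) ∉ Submodule.span F {v}}) := by
      have hsig : ∀ (p p' : Σ W : T, {w : W.1 // (w : Fin 2 ⊕ Fin 2 → F) ∉ Submodule.span F {v}}),
          p.1.1 = p'.1.1 → ((p.2.1 : Fin 2 ⊕ Fin 2 → F) = (p'.2.1 : Fin 2 ⊕ Fin 2 → F)) → p = p' := by
        rintro ⟨⟨W, hW⟩, ⟨s, hs1⟩, hs⟩ ⟨⟨W', hW'⟩, ⟨s', hs1'⟩, hs'⟩ h1 h2
        dsimp only at h1 h2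
        subst h1
        subst h2
        rfl
      have hli2 : ∀ w, w ∉ Submodule.span F {v} → LinearIndependent F ![v, w] := by
        intro w hw
        rw [LinearIndependent.pair_iff' hv]
        intro a ha
        exact hw (ha ▸ Submodule.smul_mem _ a (Submodule.mem_span_singleton_self v))
      have hfr2 : ∀ w, w ∉ Submodule.span F {v} → finrank F (Submodule.span F (Set.range ![v, w])) = 2 := by
        intro w hw
        rw [finrank_span_eq_card (hli2 w hw), Fintype.card_fin]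
      refine Nat.card_congr
        { toFun := fun w => ⟨⟨Submodule.span F (Set.range ![v, w.1]), hfr2 _ w.2.1, Submodule.subset_span ⟨0, rfl⟩, ?_⟩,
            ⟨⟨w.1, Submodule.subset_span ⟨1, rfl⟩⟩, w.2.1⟩⟩
          invFun := fun p => ⟨p.2.1, p.2.2, (sf_alt 2).alt _, fun i => ?_⟩
          left_inv := fun _ => rfl
          right_inv := ?_ }
      · apply (hspan2 _).1
        have h3 : sf 2 F v w.1 = 0 := w.2.2.2 0
        intro i j
        fin_cases i <;> fin_cases j
        · exact (sf_alt 2).alt v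
        · exact h3
        · exact ((sf_alt 2).skew _ _).trans (neg_eq_zero.2 h3)
        · exact (sf_alt 2).alt _
      · fin_cases i
        exact p.1.2.2.2 v p.1.2.2.1 _ p.2.1.2
      · rintro ⟨⟨W, hW⟩, ⟨w, hw1⟩, hw⟩
        refine hsig _ _ ?_ rfl
        dsimp only
        apply Submodule.eq_of_le_of_finrank_eq
        · rw [Submodule.span_le]
          rintro _ ⟨i, rfl⟩
          fin_cases i
          · exact hW.2.1
          · exact hw1
        · rw [hfr2 w hw, hW.1]
    have h3 : ∀ W : T, Nat.card {w : W.1 // (w : Fin 2 ⊕ Fin 2 → F) ∉ Submodule.span F {v}} = q ^ 2 - q := by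
      intro W
      haveI := Fintype.ofFinite W.1
      have h4 : Nat.card {w : W.1 // (w : Fin 2 ⊕ Fin 2 → F) ∈ Submodule.span F {v}} = q := by
        have h5 : Nat.card {w : W.1 // (w : Fin 2 ⊕ Fin 2 → F) ∈ Submodule.span F {v}} = Nat.card (Submodule.span F {v}) :=
          Nat.card_congr
            { toFun := fun w => ⟨w.1, w.2⟩
              invFun := fun w => ⟨⟨w.1, (Submodule.span_singleton_le_iff_mem _ _).2 W.2.2.1 w.2⟩, w.2⟩
              left_inv := fun _ => rfl
              right_inv := fun _ => rfl }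
        rw [h5, Module.natCard_eq_pow_finrank (K := F), finrank_span_singleton hv, pow_one, Nat.card_eq_fintype_card, hF]
      have h6 : Nat.card W.1 = q ^ 2 := by
        rw [Module.natCard_eq_pow_finrank (K := F), W.2.1, Nat.card_eq_fintype_card, hF]
      rw [Nat.card_eq_fintype_card, Fintype.card_subtype_compl, ← Nat.card_eq_fintype_card, ← Nat.card_eq_fintype_card, h4, h6]
    rw [h2, Nat.card_sigma, Finset.sum_congr rfl (fun W _ => h3 W), Finset.sum_const, smul_eq_mul, Finset.card_univ,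
      ← Nat.card_eq_fintype_card] at h1
    apply Nat.eq_of_mul_eq_mul_right hpos
    rw [h1]
    have a2 : q ≤ q ^ 2 := by nlinarith
    have a4 : q ≤ q ^ 3 := by nlinarith
    norm_num
    zify [a2, a4]
    ring

end Cfsg.Agent.S0828
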