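import Cfsg.Statements.S0829
import Cfsg.Agent.H7.Parab

set_option autoImplicit false
open Cfsg
open Module Cfsg.Agent.H7.Quad Cfsg.Agent.H7.Tv Cfsg.Agent.H7.Witt Cfsg.Agent.H7.Herm

namespace Cfsg.Agent.S0829

/-- The unitary quadrangle of PSU_4(q): with |F| = q², the number of 2-dimensional subspaces of F^4 on which the Hermitian form Σ x_i y_i^q vanishes is (q + 1)(q³ + 1). -/
theorem result {F : Type*} [Field F] [Fintype F] {q : ℕ} (hF : Fintype.card F = q ^ 2) : Nat.card {W : Submodule F (Fin 4 → F) // Module.finrank F W = 2 ∧ ∀ u ∈ W, ∀ v ∈ W, Cfsg.hermForm 4 F q u v = 0} = (q + 1) * (q ^ 3 + 1) := by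
  obtain ⟨σ, hs1, hs2, hs3⟩ := exists_frob hF
  have hsz : ∀ x y, hB 4 σ x y = 0 → hB 4 σ y x = 0 := fun x y h => by rw [← hB_symm hs2, h, map_zero]
  have hq1 : 1 < q := one_lt_q hF
  have hgl : ∏ i : Fin 2, ((q ^ 2) ^ 2 - (q ^ 2) ^ (i : ℕ)) = ((q ^ 2) ^ 2 - 1) * ((q ^ 2) ^ 2 - q ^ 2) := by
    rw [Fin.prod_univ_two]
    simp
  have b1 : 1 < q ^ 2 := by nlinarith
  have hpos : 0 < (q ^ 2) ^ 2 - q ^ 2 := by
    apply Nat.sub_pos_of_lt
    nlinarith
  have hpos' : 0 < (q ^ 2) ^ 2 - 1 := by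
    apply Nat.sub_pos_of_lt
    nlinarith
  have hspan2 : ∀ y : Fin 2 → (Fin 4 → F), (∀ i j, hB 4 σ (y i) (y j) = 0) ↔
      ∀ u ∈ Submodule.span F (Set.range y), ∀ v ∈ Submodule.span F (Set.range y), Cfsg.hermForm 4 F q u v = 0 := by
    intro y
    constructor
    · intro h
      have h4 : Submodule.span F (Set.range y) ≤ prp (hB 4 σ) (Submodule.span F (Set.range y)) := by
        rw [Submodule.span_le]
        rintro _ ⟨i, rfl⟩
        exact mem_prp_span.2 (fun i' => h i' i)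
      exact fun u hu v hv => by
        rw [← hB_eq hs1]
        exact h4 hu v hv
    · exact fun h i j => by
        rw [hB_eq hs1]
        exact h _ (Submodule.subset_span ⟨j, rfl⟩) _ (Submodule.subset_span ⟨i, rfl⟩)
  have h1 := card_subspaces (F := F) 2 (fun W : Submodule F (Fin 4 → F) => ∀ u ∈ W, ∀ v ∈ W, Cfsg.hermForm 4 F q u v = 0)
  have h2 : Nat.card {y : Fin 2 → (Fin 4 → F) // LinearIndependent F y ∧
      ∀ u ∈ Submodule.span F (Set.range y), ∀ v ∈ Submodule.span F (Set.range y), Cfsg.hermForm 4 F q u v = 0} =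
      ∏ j ∈ Finset.range 2, (q ^ 2) ^ j * isoN q (4 - 2 * j) := by
    rw [← card_gu_frames hF hs1 4 2 (by norm_num)]
    exact Nat.card_congr (Equiv.subtypeEquivRight fun y => and_congr_right fun _ => (hspan2 y).symm)
  rw [h2, Nat.card_eq_fintype_card (α := F), hF, hgl, Finset.prod_range_succ, Finset.prod_range_one] at h1
  apply Nat.eq_of_mul_eq_mul_right (Nat.mul_pos hpos' hpos)
  rw [← h1]
  rw [isoN, isoN, if_pos (by decide), if_pos (by decide)]
  have a1 : 1 ≤ (q ^ 2) ^ 2 := Nat.one_le_pow _ _ (by positivity)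
  have a2 : q ^ 2 ≤ (q ^ 2) ^ 2 := by nlinarith
  have a3 : 1 ≤ q ^ 4 := Nat.one_le_pow _ _ (by omega)
  have a4 : 1 ≤ q ^ 2 := Nat.one_le_pow _ _ (by omega)
  norm_num
  zify [a1, a2, a3, a4]
  ring

end Cfsg.Agent.S0829
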