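import Cfsg.Statements.S0831
import Cfsg.Agent.H7.TwoFam

set_option autoImplicit false
open Cfsg
open Cfsg.Agent.H7.TwoFam

namespace Cfsg.Agent.S0831

/-- the polar form -/
def bpm (m : ℕ) (F : Type*) [Field F] : LinearMap.BilinForm F (Fin m ⊕ Fin m → F) :=
  LinearMap.mk₂ F (fun x y => ∑ i : Fin m, (x (.inl i) * y (.inr i) + x (.inr i) * y (.inl i)))
    (fun x x' y => by
      rw [← Finset.sum_add_distrib]
      exact Finset.sum_congr rfl fun i _ => by simp only [Pi.add_apply]; ring)
    (fun a x y => by
      rw [smul_eq_mul, Finset.mul_sum]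
      exact Finset.sum_congr rfl fun i _ => by simp only [Pi.smul_apply, smul_eq_mul]; ring)
    (fun x y y' => by
      rw [← Finset.sum_add_distrib]
      exact Finset.sum_congr rfl fun i _ => by simp only [Pi.add_apply]; ring)
    (fun a x y => by
      rw [smul_eq_mul, Finset.mul_sum]
      exact Finset.sum_congr rfl fun i _ => by simp only [Pi.smul_apply, smul_eq_mul]; ring)

theorem bpm_apply (m : ℕ) {F : Type*} [Field F] (x y : Fin m ⊕ Fin m → F) :
    bpm m F x y = ∑ i : Fin m, (x (.inl i) * y (.inr i) + x (.inr i) * y (.inl i)) := rfl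

theorem bpm_add (m : ℕ) {F : Type*} [Field F] (x y : Fin m ⊕ Fin m → F) :
    quadFormPlus m F (x + y) = quadFormPlus m F x + quadFormPlus m F y + bpm m F x y := by
  rw [bpm_apply, quadFormPlus, quadFormPlus, quadFormPlus, ← Finset.sum_add_distrib, ← Finset.sum_add_distrib]
  exact Finset.sum_congr rfl fun i _ => by simp only [Pi.add_apply]; ring

theorem bpm_symm (m : ℕ) {F : Type*} [Field F] (x y : Fin m ⊕ Fin m → F) : bpm m F x y = bpm m F y x := by
  rw [bpm_apply, bpm_apply]
  exact Finset.sum_congr rfl fun i _ => by ring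

theorem bpm_nd (m : ℕ) {F : Type*} [Field F] : (bpm m F).Nondegenerate := by
  have h : ∀ x : Fin m ⊕ Fin m → F, (∀ y, bpm m F x y = 0) → x = 0 := by
    intro x hx
    ext (i | i)
    · have := hx (Pi.single (Sum.inr i) 1)
      rw [bpm_apply, Finset.sum_eq_single i] at this
      · simpa using this
      · intro j _ hj
        simp [Pi.single_apply, hj]
      · intro h; exact absurd (Finset.mem_univ _) h
    · have := hx (Pi.single (Sum.inl i) 1)
      rw [bpm_apply, Finset.sum_eq_single i] at this
      · simpa using this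
      · intro j _ hj
        simp [Pi.single_apply, hj]
      · intro h; exact absurd (Finset.mem_univ _) h
  constructor
  · exact h
  · intro y hy
    exact h y (fun x => by rw [bpm_symm]; exact hy x)

/-- The two families of maximal totally singular subspaces of the hyperbolic quadric: for the form Σ x_i y_i on F^(2m), m ≥ 1, and m-dimensional subspaces U, W, X on which it vanishes, the parities of m − dim(U ∩ W), m − dim(W ∩ X) and m − dim(U ∩ X) sum to an even number (so 'even codimension of the intersection' is an equivalence relation), and there exist two such subspaces meeting in codimension 1 (so there are exactly two classes). -/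
theorem result {F : Type*} [Field F] (m : ℕ) (hm : 1 ≤ m) : (∀ U W X : Submodule F (Fin m ⊕ Fin m → F), (Module.finrank F U = m ∧ ∀ w ∈ U, Cfsg.quadFormPlus m F w = 0) → (Module.finrank F W = m ∧ ∀ w ∈ W, Cfsg.quadFormPlus m F w = 0) → (Module.finrank F X = m ∧ ∀ w ∈ X, Cfsg.quadFormPlus m F w = 0) → Even ((m - Module.finrank F ↥(U ⊓ W)) + (m - Module.finrank F ↥(W ⊓ X)) + (m - Module.finrank F ↥(U ⊓ X)))) ∧ ∃ U W : Submodule F (Fin m ⊕ Fin m → F), (Module.finrank F U = m ∧ ∀ w ∈ U, Cfsg.quadFormPlus m F w = 0) ∧ (Module.finrank F W = m ∧ ∀ w ∈ W, Cfsg.quadFormPlus m F w = 0) ∧ Module.finrank F ↥(U ⊓ W) + 1 = m := by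
  constructor
  · rintro U W X ⟨hU, hU0⟩ ⟨hW, hW0⟩ ⟨hX, hX0⟩
    exact parity (Q := quadFormPlus m F) (B := bpm m F) (bpm_add m) (bpm_symm m) (bpm_nd m)
      (by rw [Module.finrank_fintype_fun_eq_card]; simp; omega) hU hU0 hW hW0 hX hX0
  · obtain ⟨k, rfl⟩ : ∃ k, m = k + 1 := ⟨m - 1, by omega⟩
    let f : (Fin (k + 1) → F) →ₗ[F] (Fin (k + 1) ⊕ Fin (k + 1) → F) :=
      { toFun := fun v => Sum.elim v 0
        map_add' := fun v w => by ext (i | i) <;> simp
        map_smul' := fun a v => by ext (i | i) <;> simp }
    let g : (Fin (k + 1) → F) →ₗ[F] (Fin (k + 1) ⊕ Fin (k + 1) → F) :=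
      { toFun := fun v => Sum.elim (fun i => if i = 0 then 0 else v i) (fun i => if i = 0 then v i else 0)
        map_add' := fun v w => by ext (i | i) <;> by_cases h : i = 0 <;> simp [h]
        map_smul' := fun a v => by ext (i | i) <;> by_cases h : i = 0 <;> simp [h] }
    let h : (Fin k → F) →ₗ[F] (Fin (k + 1) ⊕ Fin (k + 1) → F) :=
      { toFun := fun v => Sum.elim (Fin.cons 0 v) 0
        map_add' := fun v w => by
          ext (i | i)
          · refine Fin.cases ?_ (fun i => ?_) i <;> simp
          · simp
        map_smul' := fun a v => by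
          ext (i | i)
          · refine Fin.cases ?_ (fun i => ?_) i <;> simp
          · simp }
    have hf : Function.Injective f := fun v w hvw => funext fun i => congrFun hvw (Sum.inl i)
    have hg : Function.Injective g := by
      intro v w hvw
      funext i
      by_cases hi : i = 0
      · have := congrFun hvw (Sum.inr i)
        simpa [g, hi] using this
      · have := congrFun hvw (Sum.inl i)
        simpa [g, hi] using this
    have hh : Function.Injective h := by
      intro v w hvw
      funext i
      have := congrFun hvw (Sum.inl i.succ)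
      simpa [h] using this
    have hfg : LinearMap.range f ⊓ LinearMap.range g = LinearMap.range h := by
      apply le_antisymm
      · rintro _ ⟨⟨v, rfl⟩, ⟨w, hw⟩⟩
        refine ⟨fun i => v i.succ, ?_⟩
        ext (i | i)
        · refine Fin.cases ?_ (fun i => ?_) i
          · have := congrFun hw (Sum.inl 0)
            simp only [g, f, LinearMap.coe_mk, AddHom.coe_mk, Sum.elim_inl, if_true] at this
            simp [h, f, this]
          · simp [h, f]
        · simp [h, f]
      · rintro _ ⟨v, rfl⟩
        refine ⟨⟨Fin.cons 0 v, rfl⟩, ⟨Fin.cons 0 v, ?_⟩⟩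
        ext (i | i)
        · refine Fin.cases ?_ (fun i => ?_) i
          · simp [h, g]
          · simp [h, g]
        · refine Fin.cases ?_ (fun i => ?_) i
          · simp [h, g]
          · simp [h, g]
    refine ⟨LinearMap.range f, LinearMap.range g, ⟨?_, ?_⟩, ⟨?_, ?_⟩, ?_⟩
    · rw [LinearMap.finrank_range_of_inj hf, Module.finrank_fintype_fun_eq_card, Fintype.card_fin]
    · rintro _ ⟨v, rfl⟩
      simp [quadFormPlus, f]
    · rw [LinearMap.finrank_range_of_inj hg, Module.finrank_fintype_fun_eq_card, Fintype.card_fin]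
    · rintro _ ⟨v, rfl⟩
      simp only [quadFormPlus, g, LinearMap.coe_mk, AddHom.coe_mk, Sum.elim_inl, Sum.elim_inr]
      apply Finset.sum_eq_zero
      intro i _
      by_cases h : i = 0 <;> simp [h]
    · rw [hfg, LinearMap.finrank_range_of_inj hh, Module.finrank_fintype_fun_eq_card, Fintype.card_fin]

end Cfsg.Agent.S0831
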