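import Cfsg.Statements.S0833
import Cfsg.Agent.H7.FormBasis

set_option autoImplicit false
open Cfsg
open scoped TensorProduct

namespace Cfsg.Agent.S0833

/-- If B₁, B₂ are non-degenerate alternating forms on U (dim 2k) and W (dim 2l), then B₁ ⊗ B₂ on U ⊗ W is symmetric, non-degenerate, and vanishes identically on some subspace of dimension 2kl (half of dim U ⊗ W). -/
theorem result {F U W : Type*} [Field F] [Fintype F] [AddCommGroup U] [Module F U] [FiniteDimensional F U] [AddCommGroup W] [Module F W] [FiniteDimensional F W] (B₁ : LinearMap.BilinForm F U) (B₂ : LinearMap.BilinForm F W) (h₁ : B₁.Nondegenerate) (h₂ : B₂.Nondegenerate) (hA₁ : B₁.IsAlt) (hA₂ : B₂.IsAlt) (k l : ℕ) (hU : Module.finrank F U = 2 * k) (hW : Module.finrank F W = 2 * l) : (B₁.tmul B₂).IsSymm ∧ (B₁.tmul B₂).Nondegenerate ∧ (∃ X : Submodule F (TensorProduct F U W), Module.finrank F X = 2 * k * l ∧ ∀ x ∈ X, ∀ y ∈ X, (B₁.tmul B₂) x y = 0) := by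
  have hs1 : ∀ x y, B₁ x y = - B₁ y x := fun x y => (LinearMap.BilinForm.IsAlt.neg_eq hA₁ y x).symm
  have hs2 : ∀ x y, B₂ x y = - B₂ y x := fun x y => (LinearMap.BilinForm.IsAlt.neg_eq hA₂ y x).symm
  have hsymm : (B₁.tmul B₂).IsSymm := by
    rw [LinearMap.isSymm_iff_eq_flip]
    apply TensorProduct.ext'
    intro x₁ x₂
    apply TensorProduct.ext'
    intro y₁ y₂
    rw [LinearMap.flip_apply, LinearMap.BilinForm.tensorDistrib_tmul, LinearMap.BilinForm.tensorDistrib_tmul,
      hs1 x₁ y₁, hs2 x₂ y₂]
    simp
  refine ⟨hsymm, ?_, ?_⟩
  · have hr : ∀ z, (∀ x, (B₁.tmul B₂) x z = 0) → z = 0 := by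
      intro z hz
      let b := Module.finBasis F U
      let c := Module.finBasis F W
      let b' := B₁.dualBasis h₁ b
      let c' := B₂.dualBasis h₂ c
      apply (b.tensorProduct c).ext_elem
      intro ij
      have h1 := hz (b' ij.1 ⊗ₜ c' ij.2)
      rw [← (b.tensorProduct c).sum_repr z, map_sum, Finset.sum_eq_single ij] at h1
      · rw [map_smul, Module.Basis.tensorProduct_apply', LinearMap.BilinForm.tensorDistrib_tmul,
          LinearMap.BilinForm.apply_dualBasis_left, LinearMap.BilinForm.apply_dualBasis_left] at h1
        simpa using h1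
      · intro kl _ hne
        rw [map_smul, Module.Basis.tensorProduct_apply', LinearMap.BilinForm.tensorDistrib_tmul,
          LinearMap.BilinForm.apply_dualBasis_left, LinearMap.BilinForm.apply_dualBasis_left]
        by_cases h3 : kl.1 = ij.1
        · have h4 : kl.2 ≠ ij.2 := fun h => hne (Prod.ext h3 h)
          rw [if_neg h4]; simp
        · rw [if_neg h3]; simp
      · intro h; exact absurd (Finset.mem_univ _) h
    constructor
    · rw [LinearMap.separatingLeft_iff_linear_nontrivial]
      intro z hz
      apply hr
      intro x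
      have := LinearMap.congr_fun hz x
      rw [← hsymm.eq]
      simpa using this
    · intro z hz
      exact hr z hz
  · obtain ⟨m, k', b, hef, hee, hff, hrad⟩ := H7.FormBasis.exists_symplectic_basis (B := B₁) hA₁
    have hk' : k' = 0 := by
      by_contra hne
      have h1 : b (Sum.inr ⟨0, Nat.pos_of_ne_zero hne⟩) = 0 := h₁.1 _ (hrad _)
      exact b.ne_zero _ h1
    subst hk'
    have hmk : m = k := by
      have := Module.finrank_eq_card_basis b
      rw [hU] at this
      simp at this
      omega
    subst hmk
    let e : Fin m → U := fun i => b (Sum.inl (Sum.inl i))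
    have hli : LinearIndependent F e := b.linearIndependent.comp (fun i => Sum.inl (Sum.inl i)) (fun i j h => by simpa using h)
    let L : Submodule F U := Submodule.span F (Set.range e)
    have hLd : Module.finrank F L = m := by
      have := finrank_span_eq_card hli
      simpa using this
    have hLi : ∀ x ∈ L, ∀ y ∈ L, B₁ x y = 0 := by
      intro x hx y hy
      induction hx using Submodule.span_induction with
      | mem x hx =>
        obtain ⟨i, rfl⟩ := hx
        induction hy using Submodule.span_induction with
        | mem y hy =>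
          obtain ⟨j, rfl⟩ := hy
          exact hee i j
        | zero => simp
        | add y z _ _ h1 h2 => rw [map_add, h1, h2, add_zero]
        | smul a y _ h1 => rw [map_smul, h1, smul_zero]
      | zero => simp
      | add x z _ _ h1 h2 => rw [map_add, LinearMap.add_apply, h1, h2, add_zero]
      | smul a x _ h1 => rw [map_smul, LinearMap.smul_apply, h1, smul_zero]
    refine ⟨LinearMap.range (LinearMap.rTensor W L.subtype), ?_, ?_⟩
    · rw [LinearMap.finrank_range_of_inj (Module.Flat.rTensor_preserves_injective_linearMap _ L.injective_subtype),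
        Module.finrank_tensorProduct, hLd, hW]
      ring
    · rintro _ ⟨x, rfl⟩ _ ⟨y, rfl⟩
      induction x using TensorProduct.induction_on with
      | zero => simp
      | add x z h1 h2 => rw [map_add, map_add, LinearMap.add_apply, h1, h2, add_zero]
      | tmul u w =>
        induction y using TensorProduct.induction_on with
        | zero => simp
        | add x z h1 h2 => rw [map_add, map_add, h1, h2, add_zero]
        | tmul u' w' =>
          rw [LinearMap.rTensor_tmul, LinearMap.rTensor_tmul, LinearMap.BilinForm.tensorDistrib_tmul]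
          rw [show B₁ (L.subtype u) (L.subtype u') = 0 from hLi _ u.2 _ u'.2, smul_zero]

end Cfsg.Agent.S0833
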