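import Cfsg.Statements.S0836

set_option autoImplicit false
open Cfsg

namespace Cfsg.Agent.S0836

/-- For i ≠ j and any scalar c, the elementary transvection 1 + c E_ij is a commutator ⁅g, h⁆ of two elements of SL_n(F) provided n ≥ 3, or n = 2 and F contains x ≠ 0 with x² ≠ 1. -/
theorem result {F : Type*} [Field F] (n : ℕ) (hn : 3 ≤ n ∨ (n = 2 ∧ ∃ x : F, x ≠ 0 ∧ x ^ 2 ≠ 1)) (i j : Fin n) (hij : i ≠ j) (c : F) (t : Matrix.SpecialLinearGroup (Fin n) F) (ht : (t : Matrix (Fin n) (Fin n) F) = Matrix.transvection i j c) : t ∈ commutatorSet (Matrix.SpecialLinearGroup (Fin n) F) := by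
  have hcomm : ∀ g h : Matrix.SpecialLinearGroup (Fin n) F, (g : Matrix (Fin n) (Fin n) F) * h = t * h * g → t ∈ commutatorSet (Matrix.SpecialLinearGroup (Fin n) F) := by
    intro g h hgh
    refine ⟨g, h, ?_⟩
    have h1 : g * h = t * h * g := Subtype.ext hgh
    rw [commutatorElement_def, h1]
    group
  by_cases hk : ∃ k, k ≠ i ∧ k ≠ j
  · obtain ⟨k, hki, hkj⟩ := hk
    refine hcomm ⟨Matrix.transvection i k c, Matrix.det_transvection_of_ne i k hki.symm c⟩
      ⟨Matrix.transvection k j 1, Matrix.det_transvection_of_ne k j hkj 1⟩ ?_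
    rw [ht]
    simp only [Matrix.transvection]
    simp only [add_mul, mul_add, one_mul, mul_one, Matrix.single_mul_single_same, Matrix.single_mul_single_of_ne _ _ _ _ hij.symm,
      Matrix.single_mul_single_of_ne _ _ _ _ hkj.symm, add_zero]
    abel
  · obtain ⟨rfl, x, hx0, hx1⟩ : n = 2 ∧ ∃ x : F, x ≠ 0 ∧ x ^ 2 ≠ 1 := by
      rcases hn with hn | hn
      · exfalso
        apply hk
        by_contra hcon
        push Not at hcon
        have h1 : (Finset.univ : Finset (Fin n)) ⊆ {i, j} := by
          intro k _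
          by_cases hki : k = i
          · simp [hki]
          · simp [hcon k hki]
        have h2 := Finset.card_le_card h1
        rw [Finset.card_univ, Fintype.card_fin] at h2
        have h3 := Finset.card_le_two (a := i) (b := j)
        omega
      · exact hn
    have hx2 : x ^ 2 - 1 ≠ 0 := sub_ne_zero.2 hx1
    have hij' : (i = 0 ∧ j = 1) ∨ (i = 1 ∧ j = 0) := by omega
    rcases hij' with ⟨rfl, rfl⟩ | ⟨rfl, rfl⟩
    · refine hcomm ⟨!![x, 0; 0, x⁻¹], by rw [Matrix.det_fin_two_of]; field_simp; ring⟩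
        ⟨!![1, c / (x ^ 2 - 1); 0, 1], by rw [Matrix.det_fin_two_of]; ring⟩ ?_
      rw [ht]
      ext k l
      fin_cases k <;> fin_cases l <;> simp [Matrix.transvection, Matrix.mul_apply, Fin.sum_univ_two]
      field_simp
      ring
    · refine hcomm ⟨!![x⁻¹, 0; 0, x], by rw [Matrix.det_fin_two_of]; field_simp; ring⟩
        ⟨!![1, 0; c / (x ^ 2 - 1), 1], by rw [Matrix.det_fin_two_of]; ring⟩ ?_
      rw [ht]
      ext k l
      fin_cases k <;> fin_cases l <;> simp [Matrix.transvection, Matrix.mul_apply, Fin.sum_univ_two]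
      field_simp
      ring

end Cfsg.Agent.S0836
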