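import Cfsg.Statements.S0837
import Cfsg.Agent.H7.IsoStab

set_option autoImplicit false
open Cfsg
open Module Cfsg.Agent.H7.Quad Cfsg.Agent.H7.Tv Cfsg.Agent.H7.Witt Cfsg.Agent.H7.Herm

namespace Cfsg.Agent.S0837

/-- If W ≤ F^n (|F| = q²) is a k-dimensional subspace on which the Hermitian form Σ x_i y_i^q is non-degenerate, then the stabiliser of W in GU_n(q) is isomorphic to GU_k(q) × GU_(n−k)(q). -/
theorem result {F : Type*} [Field F] [Fintype F] {q : ℕ} (hF : Fintype.card F = q ^ 2) (n k : ℕ) (hk : k ≤ n) (W : Submodule F (Fin n → F)) (hWk : Module.finrank F W = k) (hW : ∀ u ∈ W, (∀ v ∈ W, Cfsg.hermForm n F q u v = 0) → u = 0) : Nonempty (↥((Cfsg.stabilizing (Cfsg.glToMat (Fin n) F) (W : Set (Fin n → F))).subgroupOf (Cfsg.GU n F q)) ≃* ↥(Cfsg.GU k F q) × ↥(Cfsg.GU (n - k) F q)) := by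
  obtain ⟨σ, hs1, hs2, hs3⟩ := exists_frob hF
  have hsz : ∀ x y, hB n σ x y = 0 → hB n σ y x = 0 := fun x y h => by rw [← hB_symm hs2, h, map_zero]
  have hW0 : ∀ u ∈ W, (∀ v ∈ W, hB n σ u v = 0) → u = 0 := by
    intro u hu h
    apply hW u hu
    intro v hv
    rw [← hB_eq hs1]
    exact hsz _ _ (h v hv)
  obtain ⟨W', hc, hW1, hW2⟩ := exists_compl (B := hB n σ) hsz W hW0
  obtain ⟨e⟩ := stab_prod (B := hB n σ) (Q := fun _ => (0 : F)) W W' hc hW1 hW2 (fun _ _ _ _ => (add_zero _).symm)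
  have hnd' : ∀ u ∈ W', (∀ v ∈ W', hB n σ u v = 0) → u = 0 := by
    intro u hu h
    apply hB_nd (σ := σ)
    intro x
    obtain ⟨w, hw, w', hw', rfl⟩ := Submodule.mem_sup.1 (show x ∈ W ⊔ W' by rw [hc.sup_eq_top]; trivial)
    rw [map_add, hsz _ _ ((hW1 u).1 hu w hw), h w' hw', add_zero]
  have hf : finrank F W' = n - k := by
    have h1 := Submodule.finrank_add_eq_of_isCompl hc
    rw [hWk, Module.finrank_fintype_fun_eq_card, Fintype.card_fin] at h1
    omega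
  obtain ⟨φ, hφ⟩ := herm_iso hs3 hs2 (B := (hB n σ).domRestrict₁₂ W W) hWk (fun x y => hB_symm hs2 _ _)
    (fun u h => Subtype.ext (hW0 u u.2 (fun v hv => h ⟨v, hv⟩)))
  obtain ⟨ψ, hψ⟩ := herm_iso hs3 hs2 (B := (hB n σ).domRestrict₁₂ W' W') hf (fun x y => hB_symm hs2 _ _)
    (fun u h => Subtype.ext (hnd' u u.2 (fun v hv => h ⟨v, hv⟩)))
  have e1 := (isoCongr φ (Q := fun _ => (0 : F)) (Q' := fun _ => (0 : F)) hφ (fun _ => rfl)).trans (guIso k hs1).symm
  have e2 := (isoCongr ψ (Q := fun _ => (0 : F)) (Q' := fun _ => (0 : F)) hψ (fun _ => rfl)).trans (guIso (n - k) hs1).symm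
  have hmap : ((Cfsg.stabilizing (Cfsg.glToMat (Fin n) F) (W : Set (Fin n → F))).subgroupOf (Cfsg.GU n F q)).map (guIso n hs1 : _ →* _) =
      stab (fun u v => hB n σ u v) (fun _ => (0 : F)) W := by
    ext g
    constructor
    · rintro ⟨A, hA, rfl⟩
      exact hA
    · intro hg
      refine ⟨(guIso n hs1).symm g, ?_, (guIso n hs1).apply_symm_apply g⟩
      intro v
      have h1 := hg v
      rw [← (guIso n hs1).apply_symm_apply g] at h1
      exact h1
  exact ⟨(((guIso n hs1).subgroupMap _).trans (MulEquiv.subgroupCongr hmap)).trans (e.trans (e1.prodCongr e2))⟩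

end Cfsg.Agent.S0837
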