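import Cfsg.Statements.S0838
import Cfsg.Agent.H7.Disc

set_option autoImplicit false
open Cfsg
open Cfsg.Agent.H7.QF Cfsg.Agent.H7.Disc

namespace Cfsg.Agent.S0838

/-- Over a finite field with 2 ≠ 0 and n odd: two quadratic forms Q₁, Q₂ on F^n with non-degenerate polar forms are similar — there are an invertible linear map g and a scalar c ≠ 0 with Q₂ (g v) = c · Q₁ v for all v. -/
theorem result {F : Type*} [Field F] [Fintype F] (h2 : (2 : F) ≠ 0) {n : ℕ} (hn : Odd n) (Q₁ Q₂ : QuadraticForm F (Fin n → F)) (h₁ : (QuadraticMap.polarBilin Q₁).Nondegenerate) (h₂ : (QuadraticMap.polarBilin Q₂).Nondegenerate) : ∃ (g : (Fin n → F) ≃ₗ[F] (Fin n → F)) (c : F), c ≠ 0 ∧ ∀ v, Q₂ (g v) = c * Q₁ v := by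
  classical
  obtain ⟨m, rfl⟩ : ∃ m, n = m + 1 := ⟨n - 1, by have := hn.pos; omega⟩
  have hch : ringChar F ≠ 2 := by
    intro h
    apply h2
    have h3 := ringChar.Nat.cast_ringChar (R := F)
    rw [h] at h3
    exact_mod_cast h3
  obtain ⟨α, hα⟩ := FiniteField.exists_nonsquare hch
  have hα0 : α ≠ 0 := by
    rintro rfl
    exact hα ⟨0, by simp⟩
  have hnd : ∀ Q : QuadraticForm F (Fin (m + 1) → F), (QuadraticMap.polarBilin Q).Nondegenerate →
      ∀ v, (∀ u, QuadraticMap.polarBilin Q v u = 0) → v = 0 := fun Q hQ v hv => hQ.1 v hv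
  have hfr : Module.finrank F (Fin (m + 1) → F) = m + 1 := by simp
  have h1' := exists_ty h2 hα (pB_symm Q₁) (hnd Q₁ h₁) hfr
  have h2' := exists_ty h2 hα (pB_symm Q₂) (hnd Q₂ h₂) hfr
  have h3' := exists_ty (B := α • QuadraticMap.polarBilin Q₁) h2 hα (fun x y => by
    rw [LinearMap.smul_apply, LinearMap.smul_apply, LinearMap.smul_apply, LinearMap.smul_apply, pB_symm]) (fun v hv => by
    apply hnd Q₁ h₁
    intro u
    have := hv u
    rw [LinearMap.smul_apply, LinearMap.smul_apply, smul_eq_mul] at this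
    exact (mul_eq_zero.1 this).resolve_left hα0) hfr
  -- isometries of the polar forms give isometries of the quadratic forms
  have key : ∀ (c : F) (δ : F), Ty m (c • QuadraticMap.polarBilin Q₁) δ → Ty m (QuadraticMap.polarBilin Q₂) δ → c ≠ 0 →
      ∃ (g : (Fin (m + 1) → F) ≃ₗ[F] (Fin (m + 1) → F)) (c : F), c ≠ 0 ∧ ∀ v, Q₂ (g v) = c * Q₁ v := by
    intro c δ hc1 hc2 hc0
    obtain ⟨g, hg⟩ := iso_of_ty hc1 hc2
    refine ⟨g, c, hc0, fun v => ?_⟩
    have h4 := hg v v
    rw [pB_self, LinearMap.smul_apply, LinearMap.smul_apply, pB_self, smul_eq_mul] at h4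
    apply mul_left_cancel₀ h2
    rw [h4]
    ring
  have hodd : ∀ s : F, s ≠ 0 → α ^ (m + 1) * s ^ 2 ≠ 1 := by
    intro s hs h
    apply hα
    obtain ⟨r, hr⟩ := hn
    have h4 : m = 2 * r := by omega
    refine ⟨(α ^ r * s)⁻¹, ?_⟩
    rw [← mul_inv]
    apply eq_inv_of_mul_eq_one_left
    rw [← h, h4]
    ring
  have h1one : Ty m (QuadraticMap.polarBilin Q₁) 1 → Ty m ((1 : F) • QuadraticMap.polarBilin Q₁) 1 := fun h => by rwa [one_smul]
  have h1al : Ty m (QuadraticMap.polarBilin Q₁) α → Ty m ((1 : F) • QuadraticMap.polarBilin Q₁) α := fun h => by rwa [one_smul]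
  rcases h1' with a1 | a1 <;> rcases h2' with a2 | a2
  · exact key 1 1 (h1one a1) a2 one_ne_zero
  · rcases h3' with a3 | a3
    · exfalso
      obtain ⟨s, hs, h4⟩ := sq_of_ty a1 a3
      rw [mul_one] at h4
      exact hodd s hs h4.symm
    · exact key α α a3 a2 hα0
  · rcases h3' with a3 | a3
    · exact key α 1 a3 a2 hα0
    · exfalso
      obtain ⟨s, hs, h4⟩ := sq_of_ty a1 a3
      apply hodd s hs
      apply mul_left_cancel₀ hα0
      rw [mul_one]
      linear_combination -h4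
  · exact key 1 α (h1al a1) a2 one_ne_zero

end Cfsg.Agent.S0838
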