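import Cfsg.Statements.S0839
import Cfsg.Agent.H7.SLSimple

set_option autoImplicit false
open Cfsg
open Matrix Cfsg.Agent.H7.Tv

namespace Cfsg.Agent.S0839

/-- Every transvection t ∈ SL_(n+2)(F) (rank(t − 1) = 1, (t − 1)² = 0) is conjugate in SL_(n+2)(F) to 1 + v·e_0ᵀ for some column vector v with v_0 = 0 (the group A of matrices that are the identity except in the first column below the diagonal); the dimension is written n + 2 ≥ 2. -/
theorem result {F : Type*} [Field F] (n : ℕ) (t : Matrix.SpecialLinearGroup (Fin (n + 2)) F) (ht : Cfsg.IsTransvection (t : Matrix (Fin (n + 2)) (Fin (n + 2)) F)) : ∃ (g : Matrix.SpecialLinearGroup (Fin (n + 2)) F) (v : Fin (n + 2) → F), v 0 = 0 ∧ ((g⁻¹ * t * g : Matrix.SpecialLinearGroup (Fin (n + 2)) F) : Matrix (Fin (n + 2)) (Fin (n + 2)) F) = 1 + Matrix.vecMulVec v (Pi.single 0 1) := by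
  classical
  obtain ⟨h1, h2⟩ := ht
  set N : Matrix (Fin (n + 2)) (Fin (n + 2)) F := (t : Matrix (Fin (n + 2)) (Fin (n + 2)) F) - 1 with hN
  -- rank one
  obtain ⟨u, w, hu, hw, hNu⟩ : ∃ u w : Fin (n + 2) → F, u ≠ 0 ∧ w ≠ 0 ∧ N = vecMulVec u w := by
    rw [Matrix.rank, finrank_eq_one_iff'] at h1
    obtain ⟨⟨u, hu⟩, hu0, hspan⟩ := h1
    have hu0' : u ≠ 0 := fun h => hu0 (Subtype.ext h)
    obtain ⟨k, hk⟩ : ∃ k, u k ≠ 0 := by
      by_contra hcon
      push Not at hcon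
      exact hu0' (funext hcon)
    have hN' : N = vecMulVec u (fun j => N k j / u k) := by
      ext i j
      obtain ⟨c, hc⟩ := hspan ⟨N.mulVecLin (Pi.single j 1), LinearMap.mem_range_self _ _⟩
      have hc' : c • u = N *ᵥ Pi.single j 1 := congrArg Subtype.val hc
      have hk' := congrFun hc' k
      have hi' := congrFun hc' i
      simp only [Pi.smul_apply, smul_eq_mul, Matrix.mulVec_single_one, Matrix.col_apply] at hk' hi'
      rw [vecMulVec_apply, ← hi', ← hk']
      field_simp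
    refine ⟨u, _, hu0', ?_, hN'⟩
    intro h
    rw [h, Matrix.vecMulVec_zero] at hN'
    apply hu0'
    obtain ⟨v, hv⟩ := hu
    rw [← hv, hN']
    simp
  have hwu : w ⬝ᵥ u = 0 := by
    rw [hNu, Matrix.vecMulVec_mul_vecMulVec] at h2
    obtain ⟨i, hi⟩ : ∃ i, u i ≠ 0 := by
      by_contra hcon
      push Not at hcon
      exact hu (funext hcon)
    obtain ⟨j, hj⟩ : ∃ j, w j ≠ 0 := by
      by_contra hcon
      push Not at hcon
      exact hw (funext hcon)
    have h3 := congrFun (congrFun h2 i) j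
    simp only [Matrix.vecMulVec_apply, Matrix.zero_apply, Pi.smul_apply, smul_eq_mul] at h3
    rcases mul_eq_zero.1 h3 with h4 | h4
    · exact absurd h4 hi
    · exact (mul_eq_zero.1 h4).resolve_right hj
  obtain ⟨g, hg, hgw⟩ := SL_trans (ι := Fin (n + 2)) (F := F) (by rw [Fintype.card_fin]; omega) (u := w) (v := Pi.single 0 1) hw (by
    intro h
    have := congrFun h 0
    simp at this)
  have hgdet : (g : Matrix (Fin (n + 2)) (Fin (n + 2)) F).det = 1 := (mem_SL_iff g).1 hg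
  let G : Matrix.SpecialLinearGroup (Fin (n + 2)) F := ⟨(g : Matrix (Fin (n + 2)) (Fin (n + 2)) F)ᵀ, by rw [Matrix.det_transpose, hgdet]⟩
  have hGw : w ᵥ* (G : Matrix (Fin (n + 2)) (Fin (n + 2)) F) = Pi.single 0 1 := by
    change w ᵥ* (g : Matrix (Fin (n + 2)) (Fin (n + 2)) F)ᵀ = _
    rw [Matrix.vecMul_transpose]
    exact hgw
  refine ⟨G, ((G⁻¹ : Matrix.SpecialLinearGroup (Fin (n + 2)) F) : Matrix (Fin (n + 2)) (Fin (n + 2)) F) *ᵥ u, ?_, ?_⟩
  · have h3 : (((G⁻¹ : Matrix.SpecialLinearGroup (Fin (n + 2)) F) : Matrix (Fin (n + 2)) (Fin (n + 2)) F) *ᵥ u) 0 =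
        Pi.single 0 1 ⬝ᵥ (((G⁻¹ : Matrix.SpecialLinearGroup (Fin (n + 2)) F) : Matrix (Fin (n + 2)) (Fin (n + 2)) F) *ᵥ u) := by
      rw [single_dotProduct, one_mul]
    rw [h3, ← hGw, Matrix.dotProduct_mulVec, Matrix.vecMul_vecMul, ← Matrix.SpecialLinearGroup.coe_mul, mul_inv_cancel,
      Matrix.SpecialLinearGroup.coe_one, Matrix.vecMul_one, hwu]
  · have h3 : (t : Matrix (Fin (n + 2)) (Fin (n + 2)) F) = 1 + vecMulVec u w := by
      rw [← hNu, hN]
      abel
    rw [Matrix.SpecialLinearGroup.coe_mul, Matrix.SpecialLinearGroup.coe_mul, h3, Matrix.mul_add, Matrix.add_mul, Matrix.mul_one,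
      ← Matrix.SpecialLinearGroup.coe_mul, inv_mul_cancel, Matrix.SpecialLinearGroup.coe_one, Matrix.mul_vecMulVec,
      Matrix.vecMulVec_mul, hGw]

end Cfsg.Agent.S0839
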