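import Cfsg.Statements.S0841
import Mathlib

set_option autoImplicit false
open Cfsg

namespace Cfsg.Agent.S0841

/-- If the commutator subgroup of G lies in the centre, then for all x, y in G and every natural number n one has (x * y) ^ n = x ^ n * y ^ n * c ^ (n * (n - 1) / 2) with c = y⁻¹ * x⁻¹ * y * x. -/
theorem result {G : Type*} [Group G] (hG : commutator G ≤ Subgroup.center G) (x y : G) (n : ℕ) : (x * y) ^ n = x ^ n * y ^ n * (y⁻¹ * x⁻¹ * y * x) ^ (n * (n - 1) / 2) := by
  set c : G := y⁻¹ * x⁻¹ * y * x with hcdef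
  have hc : ∀ g : G, g * c = c * g := by
    have h1 : c ∈ Subgroup.center G := by
      apply hG
      have h2 : y⁻¹ * x⁻¹ * y⁻¹⁻¹ * x⁻¹⁻¹ ∈ commutator G := Subgroup.commutator_mem_commutator (Subgroup.mem_top _) (Subgroup.mem_top _)
      rwa [inv_inv, inv_inv] at h2
    exact fun g => Subgroup.mem_center_iff.mp h1 g
  have hyx : y * x = x * y * c := by
    rw [hcdef]; group
  have hcp : ∀ (k : ℕ) (g : G), g * c ^ k = c ^ k * g := by
    intro k g
    exact (Commute.pow_right (show Commute g c from hc g) k)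
  have h1 : ∀ n : ℕ, y ^ n * x = x * y ^ n * c ^ n := by
    intro n
    induction n with
    | zero => simp
    | succ n ih =>
      calc y ^ (n + 1) * x = y * (y ^ n * x) := by rw [pow_succ']; group
        _ = y * x * y ^ n * c ^ n := by rw [ih]; group
        _ = x * y * (c * y ^ n) * c ^ n := by rw [hyx]; group
        _ = x * y * (y ^ n * c) * c ^ n := by rw [hc]
        _ = x * y ^ (n + 1) * c ^ (n + 1) := by rw [pow_succ' y, pow_succ' c]; group
  have hk : ∀ n : ℕ, (n + 1) * (n + 1 - 1) / 2 = n * (n - 1) / 2 + n := by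
    intro n
    have := Nat.triangle_succ n
    simpa using this
  induction n with
  | zero => simp
  | succ n ih =>
    calc (x * y) ^ (n + 1) = (x * y) ^ n * (x * y) := pow_succ _ _
      _ = x ^ n * y ^ n * (c ^ (n * (n - 1) / 2) * (x * y)) := by rw [ih]; group
      _ = x ^ n * y ^ n * ((x * y) * c ^ (n * (n - 1) / 2)) := by rw [hcp]
      _ = x ^ n * (y ^ n * x) * y * c ^ (n * (n - 1) / 2) := by group
      _ = x ^ n * x * y ^ n * (c ^ n * y) * c ^ (n * (n - 1) / 2) := by rw [h1]; group
      _ = x ^ n * x * y ^ n * (y * c ^ n) * c ^ (n * (n - 1) / 2) := by rw [hcp n y]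
      _ = x ^ n * x * (y ^ n * y) * (c ^ n * c ^ (n * (n - 1) / 2)) := by group
      _ = x ^ n * x * (y ^ n * y) * c ^ (n * (n - 1) / 2 + n) := by rw [← pow_add, add_comm n]
      _ = _ := by rw [hk, ← pow_succ, ← pow_succ]

end Cfsg.Agent.S0841
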