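import Cfsg.Statements.S0842
import Mathlib
import Cfsg.Agent.H1.QS3

set_option autoImplicit false
open Cfsg

namespace Cfsg.Agent.S0842

open scoped commutatorElement Pointwise


/-- Suppose a Sylow 2-subgroup S of the finite group G is generalized quaternion of order at least 16, and let D be the commutator subgroup of S, C its centralizer and N its normalizer in G. Then there is a subgroup K of odd order, contained in C and normalized by N, with K ⊔ S = N and K ⊔ (S ⊓ C) = C, and C has index 2 in N. -/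
theorem result {G : Type*} [Group G] [Finite G] (S : Sylow 2 G) (n : ℕ) (e : (S : Subgroup G) ≃* QuaternionGroup (2 ^ (n + 2))) (D : Subgroup G) (hD : D = ⁅(S : Subgroup G), (S : Subgroup G)⁆) : ∃ K : Subgroup G, Odd (Nat.card K) ∧ K ≤ Subgroup.centralizer (D : Set G) ∧ Subgroup.normalizer (D : Set G) ≤ Subgroup.normalizer (K : Set G) ∧ K ⊔ (S : Subgroup G) = Subgroup.normalizer (D : Set G) ∧ K ⊔ ((S : Subgroup G) ⊓ Subgroup.centralizer (D : Set G)) = Subgroup.centralizer (D : Set G) ∧ ((Subgroup.centralizer (D : Set G)).subgroupOf (Subgroup.normalizer (D : Set G))).index = 2 := by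
  obtain ⟨y, t, hy, hyS, htS, hinv, hcos, hDz, hyy, hCz, hcyc, ⟨Q, hQ⟩, hYC, htop, hSC, hSN, hfac, hCN, hNC⟩ :=
    Cfsg.Agent.H1.quat_derived S n e D hD
  set C := Subgroup.centralizer (D : Set G) with hC
  set K := (oddCore C).map C.subtype with hK
  have hKC : K ≤ C := Subgroup.map_subtype_le _
  have hCK : ∀ c ∈ C, ∃ k ∈ K, ∃ w ∈ Subgroup.zpowers y, c = k * w := by
    intro c hc
    have h1 : (⟨c, hc⟩ : C) ∈ oddCore C ⊔ (Subgroup.zpowers y).subgroupOf C := by rw [htop]; trivial
    obtain ⟨k, hk, w, hw, hkw⟩ := Subgroup.mem_sup_of_normal_left.mp h1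
    exact ⟨k, ⟨k, hk, rfl⟩, w, hw, (congrArg Subtype.val hkw).symm⟩
  have hyleS : Subgroup.zpowers y ≤ (S : Subgroup G) := by rw [Subgroup.zpowers_le]; exact hyS
  refine ⟨K, ?_, hKC, ?_, ?_, ?_, ?_⟩
  · rw [hK, Subgroup.card_map_of_injective C.subtype_injective]
    exact Cfsg.Agent.L0.odd_card_oddCore C
  · exact hNC.trans (Cfsg.Agent.H1.normalizer_le_normalizer_char (Cfsg.Agent.L0.pPrimeCore_characteristic 2 C))
  · apply le_antisymm
    · exact sup_le (hKC.trans hCN) hSN
    · intro h hh
      obtain ⟨a, ha, b, hb, rfl⟩ := hfac h hh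
      obtain ⟨k, hk, w, hw, rfl⟩ := hCK a ha
      exact mul_mem (mul_mem ((le_sup_left : K ≤ _) hk) ((le_sup_right : (S : Subgroup G) ≤ _) (hyleS hw))) ((le_sup_right : (S : Subgroup G) ≤ _) hb)
  · rw [hSC]
    apply le_antisymm
    · exact sup_le hKC hYC
    · intro c hc
      obtain ⟨k, hk, w, hw, rfl⟩ := hCK c hc
      exact mul_mem ((le_sup_left : K ≤ _) hk) ((le_sup_right : Subgroup.zpowers y ≤ _) hw)
  · -- index two
    rw [Subgroup.index_eq_two_iff]
    have htN : t ∈ Subgroup.normalizer (D : Set G) := hSN htS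
    have htC : t ∉ C := by
      intro h
      have h1 : t ∈ (S : Subgroup G) ⊓ C := ⟨htS, h⟩
      rw [hSC] at h1
      have h2 := hinv y (Subgroup.mem_zpowers y)
      obtain ⟨i, rfl⟩ := Subgroup.mem_zpowers_iff.mp h1
      have h3 : y ^ i * y * (y ^ i)⁻¹ = y := by
        rw [((Commute.refl y).zpow_left i).eq, mul_inv_cancel_right]
      rw [h3] at h2
      have h4 : orderOf y ∣ 2 := orderOf_dvd_of_pow_eq_one (by rw [pow_two]; nth_rewrite 1 [h2]; group)
      rw [hy] at h4
      have h5 := Nat.le_of_dvd (by norm_num) h4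
      have h6 : 2 ^ 3 ≤ 2 ^ (n + 3) := Nat.pow_le_pow_right (by norm_num) (by omega)
      omega
    refine ⟨⟨t, htN⟩, ?_⟩
    rintro ⟨b, hb⟩
    simp only [Subgroup.mem_subgroupOf]
    change Xor' (b * t ∈ C) (b ∈ C)
    obtain ⟨a, ha, s, hs, rfl⟩ := hfac b hb
    rcases hcos s hs with h1 | ⟨c, hc, rfl⟩
    · right
      have hsC : s ∈ C := hYC h1
      refine ⟨mul_mem ha hsC, ?_⟩
      intro h2
      exact htC ((Subgroup.mul_mem_cancel_left C (mul_mem ha hsC)).mp h2)
    · left
      have hcC : c ∈ C := hYC hc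
      constructor
      · have e1 : a * (t * c) * t = a * (t * c * t⁻¹) * (t * t) := by group
        have e2 : t * t ∈ C := by
          have h2 : t * t ∈ (S : Subgroup G) := mul_mem htS htS
          rcases hcos (t * t) h2 with h3 | ⟨d, hd, h3⟩
          · exact hYC h3
          · exfalso
            apply htC
            have : t = d := mul_left_cancel h3
            rw [this]; exact hYC hd
        rw [e1, hinv c hc]
        exact mul_mem (mul_mem ha (inv_mem hcC)) e2
      · intro h2
        apply htC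
        have h3 : t * c ∈ C := (Subgroup.mul_mem_cancel_left C ha).mp h2
        exact (Subgroup.mul_mem_cancel_right C hcC).mp h3

end Cfsg.Agent.S0842
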