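import Cfsg.Statements.S0843
import Mathlib
import Cfsg.Agent.H1.QS3

set_option autoImplicit false
open Cfsg

namespace Cfsg.Agent.S0843

open scoped commutatorElement Pointwise


/-- Suppose a Sylow 2-subgroup S of the finite group G is generalized quaternion of order at least 16; let D be the commutator subgroup of S and X the set of elements of the centralizer of D whose order is divisible by the order of D. Then D is contained in the cyclic subgroup generated by any element of X; an element of G conjugating some element of X into the centralizer of D normalizes D; and the normalizer of D maps X to itself under conjugation. -/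
theorem result {G : Type*} [Group G] [Finite G] (S : Sylow 2 G) (n : ℕ) (e : (S : Subgroup G) ≃* QuaternionGroup (2 ^ (n + 2))) (D : Subgroup G) (hD : D = ⁅(S : Subgroup G), (S : Subgroup G)⁆) : (∀ y : G, y ∈ Subgroup.centralizer (D : Set G) → Nat.card D ∣ orderOf y → D ≤ Subgroup.zpowers y) ∧ (∀ g y : G, y ∈ Subgroup.centralizer (D : Set G) → Nat.card D ∣ orderOf y → g * y * g⁻¹ ∈ Subgroup.centralizer (D : Set G) → g ∈ Subgroup.normalizer (D : Set G)) ∧ (∀ g y : G, g ∈ Subgroup.normalizer (D : Set G) → y ∈ Subgroup.centralizer (D : Set G) → Nat.card D ∣ orderOf y → g * y * g⁻¹ ∈ Subgroup.centralizer (D : Set G) ∧ Nat.card D ∣ orderOf (g * y * g⁻¹)) := by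
  obtain ⟨y, t, hy, hyS, htS, hinv, hcos, hDz, hyy, hCz, hcyc, ⟨Q, hQ⟩, hYC, htop, hSC, hSN, hfac, hCN, hNC⟩ :=
    Cfsg.Agent.H1.quat_derived S n e D hD
  have hcardD : Nat.card D = 2 ^ (n + 2) := by rw [hDz, Nat.card_zpowers, hyy]
  have key : ∀ w : G, w ∈ Subgroup.centralizer (D : Set G) → Nat.card D ∣ orderOf w → D ≤ Subgroup.zpowers w := by
    intro w hw hd
    rw [hDz]
    refine Cfsg.Agent.H1.le_zpowers_of_cyclic_sylow (C := Subgroup.centralizer (D : Set G)) ?_ ?_ hyy hcyc hw (by rw [← hcardD]; exact hd)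
    · intro c hc
      rw [hCz, Subgroup.mem_centralizer_singleton_iff] at hc
      exact hc
    · exact hYC (mul_mem (Subgroup.mem_zpowers y) (Subgroup.mem_zpowers y))
  refine ⟨key, ?_, ?_⟩
  · intro g w hw hd hgw
    have h1 := key w hw hd
    have hd' : Nat.card D ∣ orderOf (g * w * g⁻¹) := by rw [Cfsg.Agent.H1.orderOf_conj]; exact hd
    have h2 := key _ hgw hd'
    -- both D and gDg⁻¹ lie in the cyclic group generated by g w g⁻¹
    apply Cfsg.Agent.H1.mem_normalizer_of_conj_mem
    have h3 : D.map (MulAut.conj g).toMonoidHom ≤ Subgroup.zpowers (g * w * g⁻¹) := by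
      rintro _ ⟨d, hd, rfl⟩
      obtain ⟨i, hi⟩ := Subgroup.mem_zpowers_iff.mp (h1 hd)
      rw [← hi]
      change g * w ^ i * g⁻¹ ∈ _
      rw [← conj_zpow]
      exact zpow_mem (Subgroup.mem_zpowers _) i
    have h4 : D.map (MulAut.conj g).toMonoidHom ≤ D := by
      apply Cfsg.Agent.H1.sub_total_of_card (A := Subgroup.zpowers (g * w * g⁻¹)) inferInstance h3 h2
      rw [Subgroup.card_map_of_injective (MulAut.conj g).injective]
    intro x hx
    exact h4 ⟨x, hx, rfl⟩
  · intro g w hg hw hd
    refine ⟨?_, by rw [Cfsg.Agent.H1.orderOf_conj]; exact hd⟩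
    exact (Subgroup.mem_normalizer_iff.mp (hNC hg) w).mp hw

end Cfsg.Agent.S0843
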