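import Cfsg.Statements.S0844
import Mathlib
import Cfsg.Agent.H1.QS4

set_option autoImplicit false
open Cfsg

namespace Cfsg.Agent.S0844

open scoped commutatorElement Pointwise


/-- Suppose a Sylow 2-subgroup S of the finite group G is generalized quaternion of order at least 16. Then G has two non-principal irreducible characters χ₁ and χ₂ with χ₁ 1 = χ₂ 1 + 1 such that χ₁ g - χ₂ g = 1 for every element g whose order is not divisible by 4. -/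
theorem result {G : Type*} [Group G] [Fintype G] (S : Sylow 2 G) (n : ℕ) (e : (S : Subgroup G) ≃* QuaternionGroup (2 ^ (n + 2))) : ∃ χ₁ χ₂ : G → ℂ, Cfsg.IsIrrCharacter G χ₁ ∧ Cfsg.IsIrrCharacter G χ₂ ∧ χ₁ ≠ (fun _ => 1) ∧ χ₂ ≠ (fun _ => 1) ∧ χ₁ 1 = χ₂ 1 + 1 ∧ ∀ g : G, ¬ 4 ∣ orderOf g → χ₁ g - χ₂ g = 1 := by
  obtain ⟨f, hf1, hf2, hf3, hf4, hf5⟩ := Cfsg.Agent.H1.quat_exceptional S n e
  obtain ⟨χ₁, χ₂, h1, h2, h3, h4, h5⟩ := Cfsg.Agent.H1.norm_three_chars hf1 hf2 hf3 hf4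
  refine ⟨χ₁, χ₂, χ₁.2, χ₂.2, h1, h2, h4, ?_⟩
  intro g hg
  have h6 : f g = 0 := by
    by_contra hne
    apply hg
    refine dvd_trans ?_ (hf5 g hne)
    exact ⟨2 ^ n, by ring⟩
  rw [h5 g] at h6
  linear_combination -h6

end Cfsg.Agent.S0844
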