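import Cfsg.Statements.S0845
import Mathlib
import Cfsg.Agent.H1.BSQ2

set_option autoImplicit false
open Cfsg

namespace Cfsg.Agent.S0845

open scoped commutatorElement Pointwise


/-- Suppose a Sylow 2-subgroup S of the finite group G is generalized quaternion of order at least 16. Then G has a normal subgroup M of even order such that G / M is non-abelian, that is, M does not contain the commutator subgroup of G. -/
theorem result {G : Type*} [Group G] [Finite G] (S : Sylow 2 G) (n : ℕ) (e : (S : Subgroup G) ≃* QuaternionGroup (2 ^ (n + 2))) : ∃ M : Subgroup G, M.Normal ∧ Even (Nat.card M) ∧ ¬ commutator G ≤ M := by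
  have hm : 2 ≤ 2 ^ (n + 2) := by rw [pow_succ, pow_succ]; have := Nat.one_le_two_pow (n := n); omega
  haveI : Fact (Nat.Prime 2) := ⟨Nat.prime_two⟩
  obtain ⟨z, hz, hzn, hcard⟩ := Cfsg.Agent.H1.quat_normal S hm e
  refine ⟨oddCore G ⊔ Subgroup.zpowers z, hzn, ?_, ?_⟩
  · rw [hcard]; exact ⟨Nat.card (oddCore G), by ring⟩
  · intro hle
    -- the commutator subgroup of S
    have h1 : 4 ∣ Nat.card (commutator (S : Subgroup G)) := by
      have h2 : 4 ∣ orderOf (⁅e.symm (QuaternionGroup.a 1), e.symm (QuaternionGroup.xa 0)⁆ : (S : Subgroup G)) := by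
        rw [← map_commutatorElement, MulEquiv.orderOf_eq]
        exact Cfsg.Agent.H1.quat_comm_order n
      have h3 : orderOf (⁅e.symm (QuaternionGroup.a 1), e.symm (QuaternionGroup.xa 0)⁆ : (S : Subgroup G)) ∣ Nat.card (commutator (S : Subgroup G)) := by
        have h4 : (⁅e.symm (QuaternionGroup.a 1), e.symm (QuaternionGroup.xa 0)⁆ : (S : Subgroup G)) ∈ commutator (S : Subgroup G) :=
          Subgroup.commutator_mem_commutator (Subgroup.mem_top _) (Subgroup.mem_top _)
        have h5 := orderOf_dvd_natCard (⟨_, h4⟩ : commutator (S : Subgroup G))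
        rwa [← Subgroup.orderOf_coe] at h5
      exact h2.trans h3
    have h6 : Nat.card (commutator (S : Subgroup G)) ∣ Nat.card (oddCore G ⊔ Subgroup.zpowers z : Subgroup G) := by
      have h7 : (commutator (S : Subgroup G)).map (S : Subgroup G).subtype ≤ oddCore G ⊔ Subgroup.zpowers z := by
        refine le_trans ?_ hle
        rw [commutator_def, commutator_def, Subgroup.map_commutator]
        exact Subgroup.commutator_mono le_top le_top
      have h8 := Subgroup.card_dvd_of_le h7
      rwa [Subgroup.card_map_of_injective (Subgroup.subtype_injective _)] at h8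
    rw [hcard] at h6
    have h9 := h1.trans h6
    have hodd := Cfsg.Agent.L0.odd_card_oddCore G
    obtain ⟨k, hk⟩ := hodd
    omega

end Cfsg.Agent.S0845
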