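import Cfsg.Statements.S0848
import Mathlib
import Cfsg.Agent.H1.D8b
import Cfsg.Agent.H1.QS

set_option autoImplicit false
open Cfsg

namespace Cfsg.Agent.S0848

open scoped commutatorElement Pointwise
open Cfsg.Agent.H1 Subgroup DihedralGroup

theorem div64 {d : ℕ} (h : d ∣ 64) : d = 1 ∨ d = 2 ∨ d = 4 ∨ d = 8 ∨ d = 16 ∨ d = 32 ∨ d = 64 := by
  have h1 : d ∈ Nat.divisors 64 := Nat.mem_divisors.mpr ⟨h, by norm_num⟩
  have h2 : Nat.divisors 64 = {1, 2, 4, 8, 16, 32, 64} := by decide
  rw [h2] at h1
  simpa using h1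

theorem arith1 {m a : ℕ} (hm : Odd m) (ha : 0 < a) (h : 32 * (a * (a + 1)) = m * ((a : ℤ) - 1) ^ 2) : 8 * m = 360 := by
  obtain ⟨d, rfl⟩ : ∃ d, a = d + 1 := ⟨a - 1, by omega⟩
  push_cast at h
  have h1 : (d : ℤ) ∣ 64 := ⟨m * d - 32 * d - 96, by linear_combination h⟩
  have h2 : d ∣ 64 := by exact_mod_cast h1
  obtain ⟨k, rfl⟩ := hm
  push_cast at h
  rcases div64 h2 with rfl | rfl | rfl | rfl | rfl | rfl | rfl <;> push_cast at h <;> omega

theorem arith2 {m a : ℕ} (hm : Odd m) (ha : 0 < a) (h : 32 * (a * (a + 1)) = m * ((a : ℤ) + 2) ^ 2) : 8 * m = 168 := by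
  have h1 : ((a + 2 : ℕ) : ℤ) ∣ 64 := ⟨m * (a + 2) - 32 * (a + 2) + 96, by push_cast; linear_combination h⟩
  have h2 : (a + 2) ∣ 64 := by exact_mod_cast h1
  obtain ⟨k, rfl⟩ := hm
  push_cast at h
  rcases div64 h2 with h3 | h3 | h3 | h3 | h3 | h3 | h3
  · omega
  · omega
  all_goals
    first
    | (have h4 : a = 2 := by omega
       subst h4; push_cast at h; omega)
    | (have h4 : a = 6 := by omega
       subst h4; push_cast at h; omega)
    | (have h4 : a = 14 := by omega
       subst h4; push_cast at h; omega)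
    | (have h4 : a = 30 := by omega
       subst h4; push_cast at h; omega)
    | (have h4 : a = 62 := by omega
       subst h4; push_cast at h; omega)

/-- If a finite group equals its own commutator subgroup and contains an involution whose centralizer is isomorphic to the dihedral group of order 8, then the group has order 168 or 360. -/
theorem result {G : Type*} [Group G] [Finite G] (hperf : commutator G = ⊤) (t : G) (ht : orderOf t = 2) (e : Subgroup.centralizer ({t} : Set G) ≃* DihedralGroup 4) : Nat.card G = 168 ∨ Nat.card G = 360 := by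
  classical
  haveI := Fintype.ofFinite G
  set H := centralizer ({t} : Set G) with hH
  obtain ⟨u, hu, heu, hu4, huu, het', hmem⟩ := d8_setup ht hH e
  have htH : t ∈ H := by rw [hH]; exact mem_centralizer_singleton_iff.mpr rfl
  have het := het' htH
  have ht1 : t ≠ 1 := by intro h; rw [h, orderOf_one] at ht; omega
  have htt : t * t = 1 := by rw [← pow_two, ← ht]; exact pow_orderOf_eq_one t
  have hcardH : Nat.card H = 8 := by rw [Nat.card_congr e.toEquiv, DihedralGroup.nat_card]
  have hHp : IsPGroup 2 H := IsPGroup.of_card (n := 3) (by rw [hcardH]; norm_num)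
  obtain ⟨S, hHS⟩ := hHp.exists_le_sylow
  have hZ : (S : Subgroup G) ≤ H := by
    haveI : Nontrivial (S : Subgroup G) := by
      refine ⟨⟨⟨t, hHS htH⟩, 1, ?_⟩⟩
      intro h
      exact ht1 (congrArg Subtype.val h)
    haveI := S.2.center_nontrivial
    obtain ⟨⟨z, hz⟩, hz1⟩ := exists_ne (1 : center (S : Subgroup G))
    have hzH : (z : G) ∈ H := by
      rw [hH, mem_centralizer_singleton_iff]
      exact (congrArg Subtype.val (mem_center_iff.mp hz ⟨t, hHS htH⟩)).symm
    have hz2 : e ⟨z, hzH⟩ = r 2 := by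
      apply d4_center
      · intro w
        obtain ⟨⟨c, hc⟩, rfl⟩ := e.surjective w
        rw [← map_mul, ← map_mul]
        congr 1
        apply Subtype.ext
        exact (congrArg Subtype.val (mem_center_iff.mp hz ⟨c, hHS hc⟩)).symm
      · intro h
        have h1 : (⟨(z : G), hzH⟩ : H) = 1 := e.injective (by rw [h, map_one])
        have h2 : (z : G) = 1 := congrArg Subtype.val h1
        apply hz1
        apply Subtype.ext
        apply Subtype.ext
        exact h2
    have hzt : (z : G) = t := congrArg Subtype.val (e.injective (by rw [hz2, het] : e ⟨z, hzH⟩ = e ⟨t, htH⟩))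
    intro s hs
    rw [hH, mem_centralizer_singleton_iff, ← hzt]
    exact congrArg Subtype.val (mem_center_iff.mp hz ⟨s, hs⟩)
  have hSH : (S : Subgroup G) = H := le_antisymm hZ hHS
  have hQH : zpowers u ≤ H := by rw [zpowers_le]; exact hu
  have hall : ∀ w ∈ H, orderOf w = 2 → IsConj t w := by
    intro w hw hw2
    have hord : ∀ x ∈ zpowers u, orderOf x = 2 → x = t := by
      intro x hx hx2
      obtain ⟨i, hi⟩ := (hmem x (hQH hx)).mp hx
      have h1 : orderOf (e ⟨x, hQH hx⟩) = 2 := by
        rw [e.orderOf_eq, ← Subgroup.orderOf_coe]; exact hx2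
      rw [hi] at h1
      have h2 : r i = r 2 := by
        have h3 : (r i : DihedralGroup 4) * r i = 1 := by rw [← pow_two, ← h1]; exact pow_orderOf_eq_one _
        have h4 : (r i : DihedralGroup 4) ≠ 1 := by intro h; rw [h, orderOf_one] at h1; omega
        revert h3 h4
        clear h1 hi
        revert i
        decide
      exact congrArg Subtype.val (e.injective (by rw [hi, h2, het] : e ⟨x, hQH hx⟩ = e ⟨t, htH⟩))
    by_cases hwQ : w ∈ zpowers u
    · rw [hord w hwQ hw2]
    · rcases Cfsg.Agent.S0111.result S (zpowers u) (by rw [hSH]; exact hQH) (by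
        have h1 := Subgroup.relIndex_mul_relIndex ⊥ (zpowers u) H bot_le hQH
        rw [relIndex_bot_left, relIndex_bot_left, Nat.card_zpowers, hu4, hcardH] at h1
        rw [hSH]
        omega) w hw2 (by rw [hSH]; exact hw) hwQ with ⟨M, hM, hMi, -⟩ | ⟨g, hg⟩
      · exfalso
        have h1 : commutator G ≤ M := by
          haveI := hM
          rw [← Subgroup.Normal.quotient_commutative_iff_commutator_le]
          haveI : Fact (Nat.Prime 2) := ⟨Nat.prime_two⟩
          have hc : Nat.card (G ⧸ M) = 2 := hMi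
          haveI : IsCyclic (G ⧸ M) := isCyclic_of_prime_card hc
          infer_instance
        rw [hperf, top_le_iff] at h1
        rw [h1, index_top] at hMi
        omega
      · have := hord _ hg (by rw [orderOf_conj]; exact hw2)
        exact (isConj_iff.mpr ⟨g, this⟩).symm
  obtain ⟨a, s, ha, hs, heq⟩ := d8_core ht hH e hall
  have hm1 : Nat.card G = 8 * H.index := by rw [← H.card_mul_index, hcardH]
  have hodd : Odd H.index := by
    rw [← Nat.not_even_iff_odd, even_iff_two_dvd, ← hSH]
    exact S.not_dvd_index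
  have ha' : (a : ℚ) ≠ 0 := by exact_mod_cast ha.ne'
  have ha'' : (a : ℚ) + 1 ≠ 0 := by positivity
  rcases hs with rfl | rfl
  · right
    rw [hm1]
    apply arith1 hodd ha
    rw [hm1] at heq
    have : ((32 * (a * (a + 1)) : ℤ) : ℚ) = (((H.index : ℤ) * ((a : ℤ) - 1) ^ 2 : ℤ) : ℚ) := by
      push_cast at heq ⊢
      field_simp at heq
      linear_combination (-1 / 8 : ℚ) * heq
    exact_mod_cast this
  · left
    rw [hm1]
    apply arith2 hodd ha
    rw [hm1] at heq
    have : ((32 * (a * (a + 1)) : ℤ) : ℚ) = (((H.index : ℤ) * ((a : ℤ) + 2) ^ 2 : ℤ) : ℚ) := by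
      push_cast at heq ⊢
      field_simp at heq
      linear_combination (-1 / 8 : ℚ) * heq
    exact_mod_cast this

end Cfsg.Agent.S0848
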