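import Cfsg.Statements.S0850
import Cfsg.Agent.H4.TI

set_option autoImplicit false
open Cfsg

namespace Cfsg.Agent.S0850

/-- Let K be a subgroup of the finite group G that meets each conjugate by an element outside its normalizer N trivially, is properly contained in N, and contains the centralizer of each of its non-identity elements (a T.I. subgroup with Frobenius normalizer). Then no element of N outside K is conjugate in G to an element of K, and for every class function ϑ of N that vanishes on N away from K and at the identity, the function induced from ϑ to G agrees with ϑ on all of N. -/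
theorem result {G : Type*} [Group G] [Fintype G] (K : Subgroup G) (hTI : ∀ g : G, g ∉ Subgroup.normalizer (K : Set G) → ∀ k ∈ K, g * k * g⁻¹ ∈ K → k = 1) (hlt : K < Subgroup.normalizer (K : Set G)) (hC : ∀ k ∈ K, k ≠ 1 → Subgroup.centralizer ({k} : Set G) ≤ K) : (∀ x ∈ Subgroup.normalizer (K : Set G), x ∉ K → ∀ g : G, g * x * g⁻¹ ∉ K) ∧ ∀ (ϑ : Subgroup.normalizer (K : Set G) → ℂ), Cfsg.IsClassFunction (Subgroup.normalizer (K : Set G)) ϑ → (∀ x : Subgroup.normalizer (K : Set G), (x : G) ∉ K → ϑ x = 0) → ϑ 1 = 0 → ∀ x : Subgroup.normalizer (K : Set G), Cfsg.indFun (Subgroup.normalizer (K : Set G)) ϑ x = ϑ x := by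
  classical
  have hpart : ∀ x ∈ Subgroup.normalizer (K : Set G), x ∉ K → ∀ g : G, g * x * g⁻¹ ∉ K := by
    intro x hx hxK g hg
    -- every nontrivial power of x is outside K
    have hpow : ∀ j : ℕ, x ^ j ∈ K → x ^ j = 1 := by
      intro j hj
      by_contra hne
      apply hxK
      apply hC _ hj hne
      rw [Subgroup.mem_centralizer_singleton_iff]
      exact ((Commute.refl x).pow_left j).symm
    have hx1 : x ≠ 1 := fun h => hxK (h ▸ K.one_mem)
    have ho : orderOf x ≠ 1 := fun h => hx1 (orderOf_eq_one_iff.mp h)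
    obtain ⟨p, hp, hpd⟩ := Nat.exists_prime_and_dvd ho
    haveI : Fact p.Prime := ⟨hp⟩
    have hpK : p ∣ Nat.card K := by
      have h1 : orderOf (⟨g * x * g⁻¹, hg⟩ : K) ∣ Nat.card K := orderOf_dvd_natCard _
      have h2 : orderOf (⟨g * x * g⁻¹, hg⟩ : K) = orderOf x := by
        rw [Subgroup.orderOf_mk]
        have := MulEquiv.orderOf_eq (MulAut.conj g) x
        simpa [MulAut.conj_apply] using this
      rw [h2] at h1
      exact hpd.trans h1
    set y := x ^ (orderOf x / p) with hy
    have hyo : orderOf y = p := by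
      rw [hy, orderOf_pow_of_dvd (Nat.div_pos (Nat.le_of_dvd (orderOf_pos x) hpd) hp.pos).ne' (Nat.div_dvd_of_dvd hpd)]
      exact Nat.div_div_self hpd (orderOf_pos x).ne'
    have hy1 : y ≠ 1 := by
      intro h; rw [h, orderOf_one] at hyo; exact hp.one_lt.ne hyo
    have hyN : y ∈ Subgroup.normalizer (K : Set G) := Subgroup.pow_mem _ hx _
    have hyK : y ∉ K := fun h => hy1 (hpow _ h)
    -- action of zpowers y on K
    have hzN : Subgroup.zpowers y ≤ Subgroup.normalizer (K : Set G) := by
      rw [Subgroup.zpowers_le]; exact hyN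
    letI : MulAction (Subgroup.zpowers y) K :=
      { smul := fun z k => ⟨(z : G) * k * (z : G)⁻¹, (Subgroup.mem_normalizer_iff.mp (hzN z.2) k).mp k.2⟩
        one_smul := fun k => by apply Subtype.ext; show ((1 : Subgroup.zpowers y) : G) * k * ((1 : Subgroup.zpowers y) : G)⁻¹ = k; simp
        mul_smul := fun a b k => by
          apply Subtype.ext
          show ((a * b : Subgroup.zpowers y) : G) * k * ((a * b : Subgroup.zpowers y) : G)⁻¹ = (a : G) * ((b : G) * k * (b : G)⁻¹) * (a : G)⁻¹
          simp [mul_assoc] }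
    have hP : IsPGroup p (Subgroup.zpowers y) := by
      apply IsPGroup.of_card (n := 1)
      rw [Nat.card_zpowers, hyo, pow_one]
    have h1 := hP.card_modEq_card_fixedPoints K
    have h2 : p ∣ Nat.card (MulAction.fixedPoints (Subgroup.zpowers y) K) := by
      have := (Nat.modEq_zero_iff_dvd.mpr hpK)
      exact (Nat.modEq_zero_iff_dvd.mp (h1.symm.trans this))
    have hone : (1 : K) ∈ MulAction.fixedPoints (Subgroup.zpowers y) K := by
      intro z
      apply Subtype.ext
      show (z : G) * ((1 : K) : G) * (z : G)⁻¹ = ((1 : K) : G)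
      simp
    have h3 : 1 < Nat.card (MulAction.fixedPoints (Subgroup.zpowers y) K) := by
      have hpos : 0 < Nat.card (MulAction.fixedPoints (Subgroup.zpowers y) K) :=
        Nat.card_pos_iff.mpr ⟨⟨⟨1, hone⟩⟩, inferInstance⟩
      exact lt_of_lt_of_le hp.one_lt (Nat.le_of_dvd hpos h2)
    haveI : Nontrivial (MulAction.fixedPoints (Subgroup.zpowers y) K) := Finite.one_lt_card_iff_nontrivial.mp h3
    obtain ⟨k, hk⟩ := exists_ne (⟨1, hone⟩ : MulAction.fixedPoints (Subgroup.zpowers y) K)
    have hk1 : ((k : K) : G) ≠ 1 := by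
      intro h
      apply hk
      apply Subtype.ext
      apply Subtype.ext
      exact h
    have hfix := k.2 ⟨y, Subgroup.mem_zpowers y⟩
    have hfix' : y * ((k : K) : G) * y⁻¹ = ((k : K) : G) := congrArg Subtype.val hfix
    apply hyK
    apply hC _ (k : K).2 hk1
    rw [Subgroup.mem_centralizer_singleton_iff]
    rw [mul_inv_eq_iff_eq_mul] at hfix'
    exact hfix'
  refine ⟨hpart, ?_⟩
  intro ϑ hϑ hsupp h1 x
  by_cases hxK : (x : G) ∈ K
  · by_cases hx1 : x = 1
    · subst hx1
      have := H4.indFun_one (Subgroup.normalizer (K : Set G)) ϑ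
      rw [h1, mul_zero] at this
      simpa [h1] using this
    · exact H4.indFun_ti (K : Set G) (fun g hg t ht h => hTI g hg t ht h) ϑ hϑ hsupp x hxK hx1
  · apply H4.indFun_eq_of_ti (Subgroup.normalizer (K : Set G)) ϑ hϑ x
    intro g hg hne
    exfalso
    have h2 : g⁻¹ * (x : G) * g ∈ K := by
      by_contra hcon
      exact hne (hsupp ⟨g⁻¹ * (x : G) * g, hg⟩ hcon)
    have h3 := hpart x x.2 hxK g⁻¹
    rw [inv_inv] at h3
    exact h3 h2

end Cfsg.Agent.S0850
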