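import Cfsg.Statements.S0860
import Cfsg.Agent.H4.Misc2

set_option autoImplicit false
open Cfsg

namespace Cfsg.Agent.S0860

/-- Let a group A act on the set of irreducible characters and on the set of conjugacy classes of a finite group G in such a way that (a • χ) evaluated on the class a • C equals χ evaluated on C, for all a, χ and C. Then every element of A fixes exactly as many irreducible characters as it fixes conjugacy classes. -/
theorem result {G : Type*} [Group G] [Finite G] {A : Type*} [Group A] [MulAction A (Cfsg.IrrCharacter G)] [MulAction A (ConjClasses G)] (hcompat : ∀ (a : A) (χ : Cfsg.IrrCharacter G) (g g' : G), ConjClasses.mk g' = a • ConjClasses.mk g → ((a • χ : Cfsg.IrrCharacter G) : G → ℂ) g' = (χ : G → ℂ) g) (a : A) : Nat.card {χ : Cfsg.IrrCharacter G // a • χ = χ} = Nat.card {C : ConjClasses G // a • C = C} := by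
  choose s hs using fun g : G => (ConjClasses.exists_rep (a⁻¹ • ConjClasses.mk g))
  have hs' : ∀ g : G, ConjClasses.mk g = a • ConjClasses.mk (s g) := by
    intro g; rw [hs, smul_inv_smul]
  have h1 := H4.brauer_perm_general (fun χ : IrrCharacter G => a • χ) s (fun χ g => hcompat a χ (s g) g (hs' g))
  rw [h1]
  apply Nat.card_congr
  apply Equiv.subtypeEquivRight
  intro C
  constructor
  · intro h
    obtain ⟨g, rfl⟩ := ConjClasses.exists_rep C
    have h2 := ConjClasses.mk_eq_mk_iff_isConj.2 (h g rfl)
    rw [hs, inv_smul_eq_iff] at h2
    exact h2.symm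
  · rintro h g rfl
    apply ConjClasses.mk_eq_mk_iff_isConj.1
    rw [hs, inv_smul_eq_iff]
    exact h.symm

end Cfsg.Agent.S0860
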