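import Cfsg.Statements.S0861
import Cfsg.Agent.H4.Misc3
import Cfsg.Agent.S0169

set_option autoImplicit false
open Cfsg

namespace Cfsg.Agent.S0861

/-- Let P be a normal abelian Sylow p-subgroup of the finite group G and suppose some element g of P has centralizer exactly P. Then the number of irreducible characters of G is at most the order of P, and if equality holds then G / P is abelian (the commutator subgroup lies in P). -/
theorem result {G : Type*} [Group G] [Finite G] (p : ℕ) [Fact p.Prime] (P : Sylow p G) [(P : Subgroup G).Normal] (hab : ∀ a ∈ P, ∀ b ∈ P, a * b = b * a) (g : G) (hg : g ∈ P) (hC : Subgroup.centralizer ({g} : Set G) = P) : Nat.card (Cfsg.IrrCharacter G) ≤ Nat.card P ∧ (Nat.card (Cfsg.IrrCharacter G) = Nat.card P → commutator G ≤ P) := by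
  classical
  have := Fintype.ofFinite G
  have hp : p.Prime := Fact.out
  have hn : NeZero (Nat.card G) := ⟨Nat.card_pos.ne'⟩
  set n := Nat.card G with hndef
  have hpow : ∀ g : G, g ^ n = 1 := fun g => pow_card_eq_one'
  obtain ⟨k, hk⟩ := (IsPGroup.iff_orderOf.1 P.isPGroup') ⟨g, hg⟩
  have hgk : orderOf g = p ^ k := by rw [← hk, ← Subgroup.orderOf_coe]
  -- degrees prime to p
  have hdeg : ∀ χ : IrrCharacter G, (χ : G → ℂ) g ≠ 0 := by
    intro χ
    obtain ⟨d, ρ, hρ, hρχ⟩ := χ.2
    have h1 : Module.finrank ℂ (Fin d → ℂ) ∣ (P : Subgroup G).index := S0169.result ρ (P : Subgroup G) hab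
    have h2 : ¬ p ∣ (P : Subgroup G).index := P.not_dvd_index
    apply H4.char_ne_zero_of_not_dvd hp (H4.IsIrr.isCharacter χ.2) hgk (d := d)
    · rw [← hρχ, Representation.char_one]; simp
    · intro h3
      apply h2
      have h4 : Module.finrank ℂ (Fin d → ℂ) = d := by simp
      rw [h4] at h1
      exact h3.trans h1
  have hcent : ∀ s : H4.GalIdx n, Nat.card (Subgroup.centralizer ({g ^ H4.galExp n s} : Set G)) = Nat.card P := by
    intro s
    rw [← hC]
    congr 1
    have h1 : Subgroup.centralizer ({g ^ H4.galExp n s} : Set G) = Subgroup.centralizer ({g} : Set G) := by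
      ext x
      rw [Subgroup.mem_centralizer_singleton_iff, Subgroup.mem_centralizer_singleton_iff]
      constructor
      · intro h
        obtain ⟨j, hj⟩ := exists_pow_eq_self_of_coprime (G := G) (x := g) (n := H4.galExp n s)
          ((H4.galExp_coprime n s).coprime_dvd_right (orderOf_dvd_natCard g))
        have h2 : Commute x (g ^ H4.galExp n s) := h
        have h3 := h2.pow_right j
        rw [hj] at h3
        exact h3
      · intro h
        have h2 : Commute x g := h
        exact h2.pow_right _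
    rw [h1]
  have hsq : ∀ s : H4.GalIdx n, ∑ χ : IrrCharacter G, ‖(χ : G → ℂ) (g ^ H4.galExp n s)‖ ^ 2 = (Nat.card P : ℝ) := by
    intro s
    have h1 := H5.second_orthogonality (g ^ H4.galExp n s) (g ^ H4.galExp n s)
    rw [if_pos (IsConj.refl _), hcent] at h1
    have h2 : ((∑ χ : IrrCharacter G, ‖(χ : G → ℂ) (g ^ H4.galExp n s)‖ ^ 2 : ℝ) : ℂ) = ((Nat.card P : ℝ) : ℂ) := by
      push_cast
      rw [← h1]
      apply Finset.sum_congr rfl; intro χ _
      rw [Complex.mul_conj, Complex.normSq_eq_norm_sq]; push_cast; rfl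
    exact_mod_cast h2
  have hS : (0 : ℝ) < Fintype.card (H4.GalIdx n) := by exact_mod_cast Fintype.card_pos
  have htot : ∑ χ : IrrCharacter G, ∑ s : H4.GalIdx n, ‖(χ : G → ℂ) (g ^ H4.galExp n s)‖ ^ 2
      = (Fintype.card (H4.GalIdx n) : ℝ) * Nat.card P := by
    rw [Finset.sum_comm, Finset.sum_congr rfl (fun s _ => hsq s), Finset.sum_const, Finset.card_univ, nsmul_eq_mul]
  have hle : ∀ χ : IrrCharacter G, (Fintype.card (H4.GalIdx n) : ℝ) ≤ ∑ s : H4.GalIdx n, ‖(χ : G → ℂ) (g ^ H4.galExp n s)‖ ^ 2 :=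
    fun χ => H4.card_le_sum_norm_sq n (H4.IsIrr.isCharacter χ.2) g (hpow g) (hdeg χ)
  have hcardle : (Fintype.card (IrrCharacter G) : ℝ) * Fintype.card (H4.GalIdx n) ≤ (Fintype.card (H4.GalIdx n) : ℝ) * Nat.card P := by
    rw [← htot, ← nsmul_eq_mul, ← Finset.card_univ, ← Finset.sum_const]
    exact Finset.sum_le_sum (fun χ _ => hle χ)
  constructor
  · rw [mul_comm] at hcardle
    have := le_of_mul_le_mul_left hcardle hS
    rw [Nat.card_eq_fintype_card (α := IrrCharacter G)]
    exact_mod_cast this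
  · intro heq
    have heq' : ∀ χ ∈ (Finset.univ : Finset (IrrCharacter G)), (Fintype.card (H4.GalIdx n) : ℝ) = ∑ s : H4.GalIdx n, ‖(χ : G → ℂ) (g ^ H4.galExp n s)‖ ^ 2 := by
      rw [← Finset.sum_eq_sum_iff_of_le (fun χ _ => hle χ), htot, Finset.sum_const, Finset.card_univ, nsmul_eq_mul,
        ← Nat.card_eq_fintype_card (α := IrrCharacter G), heq, mul_comm]
    apply H4.commutator_le_of_linear
    intro χ hχ hker
    have h1 := heq' ⟨χ, hχ⟩ (Finset.mem_univ _)
    have h2 : ∀ s : H4.GalIdx n, χ (g ^ H4.galExp n s) = χ 1 := fun s => hker _ ((P : Subgroup G).pow_mem hg _)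
    simp only [h2, Finset.sum_const, Finset.card_univ, nsmul_eq_mul] at h1
    obtain ⟨d, hd, hd'⟩ := H4.IsIrr.exists_degree hχ
    rw [hd', Complex.norm_natCast] at h1
    have h3 : (d : ℝ) ^ 2 = 1 := by
      have : (Fintype.card (H4.GalIdx n) : ℝ) * 1 = Fintype.card (H4.GalIdx n) * (d : ℝ) ^ 2 := by rw [mul_one]; exact h1
      exact (mul_left_cancel₀ hS.ne' this).symm
    have h4 : d ^ 2 = 1 := by exact_mod_cast h3
    have h5 : d = 1 := by nlinarith
    rw [hd', h5]; simp

end Cfsg.Agent.S0861
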