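import Cfsg.Statements.S0864
import Cfsg.Agent.H4.ExtLin

set_option autoImplicit false
open Cfsg

namespace Cfsg.Agent.S0864

/-- Let N be a normal subgroup of the finite group G and λ a character of N of degree 1 invariant under conjugation by G. Suppose that for every prime p dividing the order of λ (in the group of functions under pointwise multiplication) there is a subgroup H containing N, of index prime to p and with the index of N in H a power of p, together with a character of H of degree 1 restricting to λ. Then λ is the restriction of a character of G of degree 1. -/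
theorem result {G : Type*} [Group G] [Finite G] (N : Subgroup G) [hN : N.Normal] (lam : N → ℂ) (hlam : Cfsg.IsCharacter N lam ∧ lam 1 = 1) (hinv : ∀ (g : G) (n : N), lam ⟨g * n * g⁻¹, hN.conj_mem (n : G) n.2 g⟩ = lam n) (hsyl : ∀ p : ℕ, p.Prime → p ∣ orderOf lam → ∃ (H : Subgroup G) (hNH : N ≤ H) (ν : H → ℂ), Nat.Coprime H.index p ∧ (∃ k : ℕ, N.relIndex H = p ^ k) ∧ Cfsg.IsCharacter H ν ∧ ν 1 = 1 ∧ ∀ n : N, ν ⟨(n : G), hNH n.2⟩ = lam n) : ∃ μ : G → ℂ, Cfsg.IsCharacter G μ ∧ μ 1 = 1 ∧ ∀ n : N, μ n = lam n := by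
  obtain ⟨l, rfl⟩ := H4.exists_hom_of_degree_one hlam.1 hlam.2
  have hord : orderOf (fun g : N => (l g : ℂ)) = orderOf l := H4.orderOf_homFun l
  obtain ⟨χ, hχ, hχN⟩ := H4.extends_of_local hN (fun g : N => (l g : ℂ)) (H4.isIrr_hom l) hinv (by
    intro p hp
    by_cases h : p ∣ orderOf l
    · left
      obtain ⟨H, hNH, ν, hcop, _, hν, hν1, hνN⟩ := hsyl p hp (by rw [hord]; exact h)
      exact ⟨H, hNH, ν, hcop, hν, hνN⟩
    · right; right
      refine ⟨orderOf l, 1, by simp, by rwa [one_mul], fun n => ?_⟩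
      have h1 := congrFun (H4.detChar_linear l) n
      have h2 : detChar (fun g : N => (l g : ℂ)) n = (l n : ℂ) := h1
      rw [h2, ← Units.val_pow_eq_pow_val, ← MonoidHom.pow_apply]
      have h3 : l ^ orderOf l = 1 := pow_orderOf_eq_one l
      exact congrArg (fun z : N →* ℂˣ => ((z n : ℂˣ) : ℂ)) h3)
  refine ⟨χ, H4.IsIrr.isCharacter hχ, ?_, hχN⟩
  have := hχN 1
  simpa using this

end Cfsg.Agent.S0864
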