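import Cfsg.Statements.S0865
import Cfsg.Agent.H4.ExtLin

set_option autoImplicit false
open Cfsg

namespace Cfsg.Agent.S0865

/-- Let N be a normal subgroup of the finite group G and λ a character of N of degree 1, invariant under conjugation by G, whose order (under pointwise multiplication) is coprime to the index of N. Then there is a character μ of G of degree 1 restricting to λ with the same order as λ, and μ is the only degree-1 character of G restricting to λ whose order is coprime to the index of N. -/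
theorem result {G : Type*} [Group G] [Finite G] (N : Subgroup G) [hN : N.Normal] (lam : N → ℂ) (hlam : Cfsg.IsCharacter N lam ∧ lam 1 = 1) (hinv : ∀ (g : G) (n : N), lam ⟨g * n * g⁻¹, hN.conj_mem (n : G) n.2 g⟩ = lam n) (hcop : Nat.Coprime N.index (orderOf lam)) : ∃ μ : G → ℂ, (Cfsg.IsCharacter G μ ∧ μ 1 = 1 ∧ (∀ n : N, μ n = lam n) ∧ orderOf μ = orderOf lam) ∧ ∀ μ' : G → ℂ, Cfsg.IsCharacter G μ' ∧ μ' 1 = 1 → (∀ n : N, μ' n = lam n) → Nat.Coprime N.index (orderOf μ') → μ' = μ := by
  obtain ⟨l, rfl⟩ := H4.exists_hom_of_degree_one hlam.1 hlam.2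
  have hord : orderOf (fun g : N => (l g : ℂ)) = orderOf l := H4.orderOf_homFun l
  rw [hord] at hcop
  obtain ⟨μ, hμ, hμo⟩ := H4.linear_coprime_extension hN l (fun g n => Units.ext (hinv g n)) hcop
  refine ⟨H4.homFun G μ, ⟨H4.homFun_isCharacter μ, ?_, ?_, ?_⟩, ?_⟩
  · rw [H4.homFun_apply, map_one]; rfl
  · intro n; rw [H4.homFun_apply, hμ]
  · rw [H4.orderOf_homFun, hμo, hord]
  · rintro μ' ⟨h1, h2⟩ h3 h4
    obtain ⟨m', rfl⟩ := H4.exists_hom_of_degree_one h1 h2
    have hm' : orderOf (fun g : G => (m' g : ℂ)) = orderOf m' := H4.orderOf_homFun m'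
    rw [hm'] at h4
    have h5 := H4.linear_extension_unique hN μ m' (fun n => by
      apply Units.ext
      rw [hμ]; exact (h3 n).symm) (by rw [hμo]; exact hcop) h4
    rw [h5]; rfl

end Cfsg.Agent.S0865
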