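import Cfsg.Statements.S0866
import Cfsg.Agent.H4.ExtLin

set_option autoImplicit false
open Cfsg

namespace Cfsg.Agent.S0866

/-- Let N be a normal subgroup of the finite group G and ϑ an irreducible character of N, invariant under conjugation by G, of degree d coprime to the index of N. Then ϑ is the restriction of an irreducible character of G if and only if the determinantal character of ϑ is the restriction of a character of G of degree 1. -/
theorem result {G : Type*} [Group G] [Finite G] (N : Subgroup G) [hN : N.Normal] (ϑ : N → ℂ) (hϑ : Cfsg.IsIrrCharacter N ϑ) (hinv : ∀ (g : G) (n : N), ϑ ⟨g * n * g⁻¹, hN.conj_mem (n : G) n.2 g⟩ = ϑ n) (d : ℕ) (hd : ϑ 1 = d) (hcop : Nat.Coprime N.index d) : (∃ χ : G → ℂ, Cfsg.IsIrrCharacter G χ ∧ (∀ n : N, χ n = ϑ n)) ↔ ∃ μ : G → ℂ, Cfsg.IsCharacter G μ ∧ μ 1 = 1 ∧ ∀ n : N, μ n = Cfsg.detChar ϑ n := by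
  constructor
  · rintro ⟨χ, hχ, hχN⟩
    obtain ⟨lam, hlam⟩ := H4.detChar_hom (H4.IsIrr.isCharacter hχ)
    refine ⟨detChar χ, ?_, ?_, ?_⟩
    · rw [hlam]; exact H4.homFun_isCharacter lam
    · rw [hlam, H4.homFun_apply, map_one]; rfl
    · intro n
      have h2 : (fun n : N => χ n) = ϑ := by funext n; exact hχN n
      rw [← H4.detChar_restrict (H4.IsIrr.isCharacter hχ), h2]
  · rintro ⟨μ, hμ, hμ1, hμN⟩
    refine H4.extends_of_local hN ϑ hϑ hinv (fun p hp => ?_)
    by_cases h : p ∣ N.index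
    · right; left
      refine ⟨μ, d, hd, ?_, hμ, hμ1, hμN⟩
      intro h2
      exact hp.ne_one (Nat.Coprime.eq_one_of_dvd (hcop.coprime_dvd_left h) h2)
    · left
      exact ⟨N, le_refl _, ϑ, (Nat.coprime_comm.1 ((hp.coprime_iff_not_dvd).2 h)), H4.IsIrr.isCharacter hϑ, fun n => rfl⟩

end Cfsg.Agent.S0866
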