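import Cfsg.Statements.S0868
import Cfsg.Agent.H4.Misc1

set_option autoImplicit false
open scoped ComplexConjugate
open Cfsg

namespace Cfsg.Agent.S0868

/-- Let N be a normal subgroup of the finite group G, χ an irreducible character of G whose restriction ϑ to N is irreducible, and ψ an irreducible character of G. Define η on G by η g = (1 / order of N) * Σ over n in N of ψ (n * g) * conj (χ (n * g)). Then: if the restriction of ψ to N has nonzero inner product with ϑ, η is an irreducible character of G; if that inner product is zero, η vanishes identically; and if ψ = χ then η is identically 1. -/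
theorem result {G : Type*} [Group G] [Fintype G] (N : Subgroup G) [N.Normal] [Fintype N] (χ : G → ℂ) (hχ : Cfsg.IsIrrCharacter G χ) (hχN : Cfsg.IsIrrCharacter N (fun n : N => χ n)) (ψ : G → ℂ) (hψ : Cfsg.IsIrrCharacter G ψ) (η : G → ℂ) (hη : η = fun g => (Nat.card N : ℂ)⁻¹ * ∑ n : N, ψ ((n : G) * g) * conj (χ ((n : G) * g))) : (Cfsg.classInner (fun n : N => ψ n) (fun n : N => χ n) ≠ 0 → Cfsg.IsIrrCharacter G η) ∧ (Cfsg.classInner (fun n : N => ψ n) (fun n : N => χ n) = 0 → η = 0) ∧ (ψ = χ → η = fun _ => 1) := by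
  classical
  have hNn : N.Normal := inferInstance
  have hself : classInner (fun n : N => χ n) (fun n : N => χ n) = 1 := H5.classInner_irr_self ⟨_, hχN⟩
  have hform : ∀ ψ' : G → ℂ, IsIrrCharacter G ψ' → ∀ β₀ : G → ℂ, IsIrrCharacter G β₀ → (∀ n : N, β₀ n = β₀ 1) → ψ' = β₀ * χ →
      (fun g => (Nat.card N : ℂ)⁻¹ * ∑ n : N, ψ' ((n : G) * g) * conj (χ ((n : G) * g))) = β₀ := by
    intro ψ' hψ' β₀ hβ₀ hβ₀N heq
    funext g
    rw [H4.eta_formula hNn χ hχ ψ' hψ' g, Finset.sum_eq_single (⟨β₀, hβ₀⟩ : IrrCharacter G)]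
    · rw [if_pos hβ₀N]
      have h1 := H4.kernel_char_data hNn _ hχN χ hχ (fun _ => rfl) β₀ β₀ hβ₀ hβ₀ hβ₀N hβ₀N
      rw [if_pos rfl] at h1
      rw [heq]
      show classInner (β₀ * χ) (β₀ * χ) * β₀ g = β₀ g
      rw [h1, one_mul]
    · intro β _ hβ
      split_ifs with hβN
      · have h1 := H4.kernel_char_data hNn _ hχN χ hχ (fun _ => rfl) β₀ β hβ₀ β.2 hβ₀N hβN
        rw [if_neg (fun h => hβ (Subtype.ext h.symm))] at h1
        rw [heq, h1, zero_mul]
      · rfl
    · intro h; exact absurd (Finset.mem_univ _) h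
  refine ⟨fun h => ?_, fun h => ?_, fun h => ?_⟩
  · obtain ⟨β₀, hβ₀, hβ₀N, heq⟩ := H4.gallagher hNn _ hχN χ hχ (fun _ => rfl) ψ hψ h
    rw [hη, hform ψ hψ β₀ hβ₀ hβ₀N heq]; exact hβ₀
  · rw [hη]
    funext g
    rw [H4.eta_formula hNn χ hχ ψ hψ g]
    show _ = (0 : ℂ)
    apply Finset.sum_eq_zero
    intro β _
    split_ifs with hβN
    · have h1 := H4.kernel_char_data hNn _ hχN χ hχ (fun _ => rfl) β β β.2 β.2 hβN hβN
      rw [if_pos rfl] at h1
      have hβχ : IsIrrCharacter G ((β : G → ℂ) * χ) :=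
        H5.isIrrCharacter_iff_inner.2 ⟨H4.IsChar.mul (H4.IsIrr.isCharacter β.2) (H4.IsIrr.isCharacter hχ), h1⟩
      have h2 := H4.inner_irr_eq hψ hβχ
      by_cases h3 : ψ = (β : G → ℂ) * χ
      · exfalso
        have h4 : (fun n : N => ψ n) = (β : G → ℂ) 1 • (fun n : N => χ n) := by
          funext n; rw [h3, Pi.mul_apply, hβN]; rfl
        rw [h4, H5.classInner_smul_left, hself, mul_one] at h
        exact H4.IsIrr.degree_ne_zero β.2 h
      · rw [h2, if_neg h3, zero_mul]
    · rfl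
  · rw [hη]
    exact hform ψ hψ (fun _ => 1) H5.isIrrCharacter_trivial (fun _ => rfl) (by rw [h]; funext g; simp)

end Cfsg.Agent.S0868
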