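import Cfsg.Statements.S0875
import Cfsg.Agent.H4.BrauerApp2

set_option autoImplicit false
open Cfsg

namespace Cfsg.Agent.S0875

/-- Let G be a finite group of order m * n with m and n coprime, and g an element whose order is coprime to m. Every x in G factors uniquely as x = u * v with u, v commuting, the order of u coprime to n and the order of v coprime to m; let ϑ be the function on G equal to n at those x whose factor v is conjugate to g and equal to 0 elsewhere. Then ϑ is a linear combination of the irreducible characters of G with algebraic-integer coefficients. -/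
theorem result {G : Type*} [Group G] [Fintype G] (m n : ℕ) (hmn : Nat.card G = m * n) (hcop : Nat.Coprime m n) (g : G) (hg : Nat.Coprime (orderOf g) m) (ϑ : G → ℂ) (hϑ1 : ∀ x : G, (∃ v : G, IsConj v g ∧ (∃ u : G, x = u * v ∧ Commute u v ∧ Nat.Coprime (orderOf u) n ∧ Nat.Coprime (orderOf v) m)) → ϑ x = n) (hϑ0 : ∀ x : G, (¬ ∃ v : G, IsConj v g ∧ (∃ u : G, x = u * v ∧ Commute u v ∧ Nat.Coprime (orderOf u) n ∧ Nat.Coprime (orderOf v) m)) → ϑ x = 0) : ∃ c : Cfsg.IrrCharacter G → ℂ, (∀ χ, c χ ∈ Cfsg.AlgInt) ∧ ϑ = ∑ᶠ χ : Cfsg.IrrCharacter G, c χ • (χ : G → ℂ) := by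
  classical
  have hm0 : m ≠ 0 := by rintro rfl; rw [zero_mul] at hmn; exact Nat.card_pos.ne' hmn
  have hn0 : n ≠ 0 := by rintro rfl; rw [mul_zero] at hmn; exact Nat.card_pos.ne' hmn
  have hord : ∀ x : G, orderOf x ∣ m * n := fun x => hmn ▸ orderOf_dvd_natCard x
  have hϑ : ∀ u v : G, Commute u v → orderOf u ∣ m → orderOf v ∣ n →
      (IsConj v g → ϑ (u * v) = (n : ℂ)) ∧ (¬ IsConj v g → ϑ (u * v) = 0) := by
    intro u v huv hu hv
    refine ⟨fun hc => hϑ1 _ ⟨v, hc, u, rfl, huv, hcop.coprime_dvd_left hu, hcop.symm.coprime_dvd_left hv⟩, fun hc => ?_⟩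
    apply hϑ0
    rintro ⟨v', hv', u', heq, huv', hu', hv''⟩
    have h1 : orderOf u' ∣ m := hu'.dvd_of_dvd_mul_right (hord u')
    have h2 : orderOf v' ∣ n := hv''.dvd_of_dvd_mul_left (hord v')
    have h3 := H4.parts_unique hcop huv huv' hu hv h1 h2 heq
    rw [h3.2] at hc
    exact hc hv'
  refine ⟨fun χ => classInner ϑ (χ : G → ℂ), ?_, ?_⟩
  · intro χ
    exact H4.part_indicator m n hmn hcop g ϑ hϑ χ (H4.IsIrr.isCharacter χ.2)
  · rw [finsum_eq_sum_of_fintype]
    exact H5.classFun_expansion (H4.part_indicator_classFun m n hmn hcop g ϑ hϑ)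

end Cfsg.Agent.S0875
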