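import Cfsg.Statements.S0878
import Cfsg.Agent.H4.TI

set_option autoImplicit false
open Cfsg

namespace Cfsg.Agent.S0878

/-- Let G be a Zassenhaus group on the finite set Ω, a a point, and let H be the subgroup of the stabilizer of a consisting of the identity and the elements fixing no point other than a (given here as a subgroup of the stabilizer of order one less than the number of points whose non-identity elements fix only a; it is the Frobenius kernel of the stabilizer). Then an element outside the stabilizer of a conjugates no non-identity element of H into H, and the normalizer of H is exactly the stabilizer of a. -/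
theorem result {G Ω : Type*} [Group G] [Finite G] [MulAction G Ω] [Fintype Ω] (hZ : Cfsg.IsZassenhausGroup G Ω) (a : Ω) (H : Subgroup G) (hHa : H ≤ MulAction.stabilizer G a) (hHcard : Nat.card H + 1 = Fintype.card Ω) (hHfix : ∀ u ∈ H, u ≠ 1 → ∀ c : Ω, u • c = c → c = a) : (∀ g : G, g ∉ MulAction.stabilizer G a → ∀ u ∈ H, g * u * g⁻¹ ∈ H → u = 1) ∧ Subgroup.normalizer (H : Set G) = MulAction.stabilizer G a := by
  classical
  haveI : FaithfulSMul G Ω := hZ.1
  letI : Fintype G := Fintype.ofFinite G
  have h3 := hZ.2.2.1
  obtain ⟨g₀, hg₀, a₀, b₀, hab₀, hga₀, hgb₀⟩ := hZ.2.2.2.1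
  have hTI : ∀ g : G, g ∉ MulAction.stabilizer G a → ∀ u ∈ H, g * u * g⁻¹ ∈ H → u = 1 := by
    intro g hg u hu hgu
    by_contra hu1
    apply hg
    have h4 : g * u * g⁻¹ ≠ 1 := by
      intro h; apply hu1
      have : u = g⁻¹ * (g * u * g⁻¹) * g := by group
      rw [this, h]; group
    apply hHfix _ hgu h4 (g • a)
    have h5 : u • a = a := hHa hu
    rw [mul_smul, mul_smul, inv_smul_smul, h5]
  refine ⟨hTI, ?_⟩
  have hΩ3 : 3 ≤ Fintype.card Ω := by
    by_contra hlt
    apply hg₀
    apply FaithfulSMul.eq_of_smul_eq_smul (α := Ω)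
    intro c
    rw [one_smul]
    by_cases hca : c = a₀
    · rw [hca, hga₀]
    by_cases hcb : c = b₀
    · rw [hcb, hgb₀]
    exfalso
    apply hlt
    have : ({a₀, b₀, c} : Finset Ω).card = 3 := by
      rw [Finset.card_insert_of_notMem, Finset.card_insert_of_notMem, Finset.card_singleton]
      · simpa using Ne.symm hcb
      · simp only [Finset.mem_insert, Finset.mem_singleton, not_or]
        exact ⟨hab₀, Ne.symm hca⟩
    rw [← this]
    exact Finset.card_le_univ _
  apply le_antisymm
  · intro g hg
    by_contra hcon
    have hH1 : 1 < Nat.card H := by omega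
    haveI : Nontrivial H := Finite.one_lt_card_iff_nontrivial.mp hH1
    obtain ⟨u, hu⟩ := exists_ne (1 : H)
    apply hu
    apply Subtype.ext
    exact hTI g hcon u u.2 ((Subgroup.mem_normalizer_iff.mp hg u).mp u.2)
  · -- every element of G_a fixing only a lies in H
    have key : ∀ g : G, g • a = a → g ∉ H → ∃ c : Ω, c ≠ a ∧ g • c = c := by
      -- counting
      set S : Subgroup G := MulAction.stabilizer G a with hS
      set X := {c : Ω // c ≠ a} with hX
      have hXcard : Nat.card X = Nat.card H := by
        have h1 : Fintype.card X = Fintype.card Ω - 1 := by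
          have h2 : Fintype.card {c : Ω // ¬ (c = a)} = Fintype.card Ω - Fintype.card {c : Ω // c = a} := Fintype.card_subtype_compl _
          rw [Fintype.card_subtype_eq] at h2
          exact h2
        rw [Nat.card_eq_fintype_card, h1]; omega
      letI : MulAction S X :=
        { smul := fun s c => ⟨(s : G) • (c : Ω), fun h => c.2 (by
            have h5 : (s : G) • a = a := s.2
            have h6 : (c : Ω) = (s : G)⁻¹ • ((s : G) • (c : Ω)) := by rw [inv_smul_smul]
            rw [h6, h]
            rw [inv_smul_eq_iff, h5])⟩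
          one_smul := fun c => by apply Subtype.ext; exact one_smul G (c : Ω)
          mul_smul := fun s t c => by apply Subtype.ext; exact mul_smul (s : G) (t : G) (c : Ω) }
      have hsm : ∀ (s : S) (c : X), ((s • c : X) : Ω) = (s : G) • (c : Ω) := fun s c => rfl
      -- H is transitive on X
      have htr : ∀ c d : X, ∃ u ∈ H, u • (c : Ω) = d := by
        intro c
        have hinj : Function.Injective (fun u : H => ((⟨(u : G), hHa u.2⟩ : S) • c : X)) := by
          intro u v huv
          have h5 : (u : G) • (c : Ω) = (v : G) • (c : Ω) := congrArg Subtype.val huv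
          by_contra hne
          have h6 : (v : G)⁻¹ * u ≠ 1 := by
            intro h; apply hne; apply Subtype.ext
            exact (inv_mul_eq_one.mp h).symm
          have h7 := hHfix _ (H.mul_mem (H.inv_mem v.2) u.2) h6 c (by rw [mul_smul, h5, inv_smul_smul])
          exact c.2 h7
        have hsurj := (Function.Injective.bijective_of_nat_card_le hinj hXcard.le).2
        intro d
        obtain ⟨u, hu⟩ := hsurj d
        exact ⟨u, u.2, congrArg Subtype.val hu⟩
      haveI : MulAction.IsPretransitive S X := ⟨fun c d => by
        obtain ⟨u, hu, h⟩ := htr c d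
        exact ⟨⟨u, hHa hu⟩, Subtype.ext h⟩⟩
      -- the bad set
      let F : (Σ c : X, {s : MulAction.stabilizer S c // s ≠ 1}) → {s : S // (s : G) ∉ H} := fun w =>
        ⟨w.2.1, fun hmem => by
          have h5 : ((w.2.1 : S) : G) ≠ 1 := fun h => w.2.2 (Subtype.ext (Subtype.ext h))
          have h6 : ((w.2.1 : S) : G) • (w.1 : Ω) = w.1 := congrArg Subtype.val w.2.1.2
          exact w.1.2 (hHfix _ hmem h5 _ h6)⟩
      have hF : Function.Injective F := by
        rintro ⟨c, s⟩ ⟨d, t⟩ hst
        have h5 : (s.1 : S) = (t.1 : S) := congrArg Subtype.val hst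
        have h6 : ((s.1 : S) : G) • (c : Ω) = c := congrArg Subtype.val s.1.2
        have h7 : ((t.1 : S) : G) • (d : Ω) = d := congrArg Subtype.val t.1.2
        have h8 : ((s.1 : S) : G) • a = a := (s.1 : S).2
        have hcd : c = d := by
          by_contra hne
          have h9 : (c : Ω) ≠ d := fun h => hne (Subtype.ext h)
          rw [← h5] at h7
          have h10 := h3 ((s.1 : S) : G) a c d (Ne.symm c.2) h9 (Ne.symm d.2) h8 h6 h7
          exact s.2 (Subtype.ext (Subtype.ext h10))
        subst hcd
        congr 1
        exact Subtype.ext (Subtype.ext h5)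
      have hcardS : ∀ c : X, Nat.card S = Nat.card H * Nat.card (MulAction.stabilizer S c) := by
        intro c
        have h5 := (MulAction.stabilizer S c).card_mul_index
        rw [MulAction.index_stabilizer_of_transitive, hXcard, mul_comm] at h5
        exact h5.symm
      have hcard1 : Nat.card {s : S // (s : G) ∉ H} = Nat.card S - Nat.card H := by
        have h5 : Nat.card {s : S // (s : G) ∈ H} = Nat.card H := by
          apply Nat.card_congr
          exact ⟨fun s => ⟨s.1, s.2⟩, fun h => ⟨⟨h, hHa h.2⟩, h.2⟩, fun _ => rfl, fun _ => rfl⟩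
        have h6 : Fintype.card {s : S // ¬ ((s : G) ∈ H)} = Fintype.card S - Fintype.card {s : S // (s : G) ∈ H} := Fintype.card_subtype_compl _
        rw [← Nat.card_eq_fintype_card, ← Nat.card_eq_fintype_card, ← Nat.card_eq_fintype_card, h5] at h6
        exact h6
      have hcard2 : Nat.card (Σ c : X, {s : MulAction.stabilizer S c // s ≠ 1}) = Nat.card S - Nat.card H := by
        rw [Nat.card_sigma]
        have h5 : ∀ c : X, Nat.card {s : MulAction.stabilizer S c // s ≠ 1} = Nat.card S / Nat.card H - 1 := by
          intro c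
          have h6 : Fintype.card {s : MulAction.stabilizer S c // ¬ (s = 1)} = Fintype.card (MulAction.stabilizer S c) - Fintype.card {s : MulAction.stabilizer S c // s = 1} := Fintype.card_subtype_compl _
          rw [← Nat.card_eq_fintype_card, ← Nat.card_eq_fintype_card, Fintype.card_subtype_eq] at h6
          rw [h6, hcardS c, Nat.mul_div_cancel_left _ Nat.card_pos]
        simp only [h5, Finset.sum_const, Finset.card_univ, smul_eq_mul]
        rw [← Nat.card_eq_fintype_card, hXcard, Nat.mul_sub, mul_one]
        congr 1
        have hX0 : 0 < Nat.card X := by rw [hXcard]; exact Nat.card_pos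
        obtain ⟨⟨c⟩, -⟩ := Nat.card_pos_iff.mp hX0
        rw [hcardS c, Nat.mul_div_cancel_left _ Nat.card_pos]
      have hbij := Function.Injective.bijective_of_nat_card_le hF (by rw [hcard1, hcard2])
      intro g hga hgH
      obtain ⟨⟨c, s⟩, hs⟩ := hbij.2 ⟨⟨g, hga⟩, hgH⟩
      have h5 : ((s.1 : S) : G) = g := congrArg (fun z : {s : S // (s : G) ∉ H} => ((z : S) : G)) hs
      exact ⟨c, c.2, by rw [← h5]; exact congrArg Subtype.val s.1.2⟩
    intro g hg
    have hsub : ∀ g : G, g • a = a → ∀ u ∈ H, g * u * g⁻¹ ∈ H := by
      intro g hg u hu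
      by_contra hcon
      have h5 : u • a = a := hHa hu
      have h6 : g⁻¹ • a = a := by rw [inv_smul_eq_iff, hg]
      obtain ⟨c, hca, hc⟩ := key (g * u * g⁻¹) (by rw [mul_smul, mul_smul, h6, h5, hg]) hcon
      have hu1 : u ≠ 1 := by
        rintro rfl; apply hcon; simp
      have h7 := hHfix u hu hu1 (g⁻¹ • c) (by
        rw [mul_smul, mul_smul] at hc
        rw [eq_inv_smul_iff]; exact hc)
      apply hca
      rw [inv_smul_eq_iff, hg] at h7
      exact h7
    rw [Subgroup.mem_normalizer_iff]
    intro u
    constructor
    · exact hsub g hg u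
    · intro hu
      have h6 : g⁻¹ • a = a := by rw [inv_smul_eq_iff]; exact hg.symm
      have := hsub g⁻¹ h6 _ hu
      have h7 : g⁻¹ * (g * u * g⁻¹) * g⁻¹⁻¹ = u := by group
      rwa [h7] at this

end Cfsg.Agent.S0878
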