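import Cfsg.Statements.S0879
import Mathlib

set_option autoImplicit false
open Cfsg

namespace Cfsg.Agent.S0879

/-- Let G be a Zassenhaus group on the finite set Ω and E the stabilizer of two distinct points a, b. Then an element outside the normalizer of E conjugates no non-identity element of E into E, and E has index 2 in its normalizer. -/
theorem result {G Ω : Type*} [Group G] [Finite G] [MulAction G Ω] [Fintype Ω] (hZ : Cfsg.IsZassenhausGroup G Ω) {a b : Ω} (hab : a ≠ b) : (∀ g : G, g ∉ Subgroup.normalizer ((MulAction.stabilizer G a ⊓ MulAction.stabilizer G b : Subgroup G) : Set G) → ∀ x ∈ (MulAction.stabilizer G a ⊓ MulAction.stabilizer G b : Subgroup G), g * x * g⁻¹ ∈ (MulAction.stabilizer G a ⊓ MulAction.stabilizer G b : Subgroup G) → x = 1) ∧ ((MulAction.stabilizer G a ⊓ MulAction.stabilizer G b : Subgroup G).subgroupOf (Subgroup.normalizer ((MulAction.stabilizer G a ⊓ MulAction.stabilizer G b : Subgroup G) : Set G))).index = 2 := by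
  classical
  haveI : FaithfulSMul G Ω := hZ.1
  have h3 := hZ.2.2.1
  have h2t : ∀ {a b c d : Ω}, a ≠ b → c ≠ d → ∃ g : G, g • a = c ∧ g • b = d := MulAction.is_two_pretransitive_iff.mp hZ.2.1
  obtain ⟨g₀, hg₀, a₀, b₀, hab₀, hga₀, hgb₀⟩ := hZ.2.2.2.1
  set D : Subgroup G := MulAction.stabilizer G a ⊓ MulAction.stabilizer G b with hD
  have hmD : ∀ x : G, x ∈ D ↔ x • a = a ∧ x • b = b := fun x => Iff.rfl
  -- a set-wise criterion
  have hset : ∀ g : G, ((g • a = a ∧ g • b = b) ∨ (g • a = b ∧ g • b = a)) → g ∈ Subgroup.normalizer (D : Set G) := by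
    intro g hg
    rw [Subgroup.mem_normalizer_iff]
    intro x
    have hc : ∀ c : Ω, (g * x * g⁻¹) • (g • c) = g • c ↔ x • c = c := by
      intro c
      rw [mul_smul, mul_smul, inv_smul_smul, smul_left_cancel_iff]
    rw [hmD, hmD]
    rcases hg with ⟨h1, h2⟩ | ⟨h1, h2⟩
    · have ha := hc a
      have hb := hc b
      rw [h1] at ha; rw [h2] at hb
      rw [ha, hb]
    · have ha := hc a
      have hb := hc b
      rw [h1] at ha; rw [h2] at hb
      rw [ha, hb, and_comm]
  have hfix : ∀ g x : G, x ∈ D → x ≠ 1 → g * x * g⁻¹ ∈ D → ((g • a = a ∧ g • b = b) ∨ (g • a = b ∧ g • b = a)) := by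
    intro g x hx hx1 hgx
    have hy1 : g * x * g⁻¹ ≠ 1 := by
      intro h; apply hx1
      have : x = g⁻¹ * (g * x * g⁻¹) * g := by group
      rw [this, h]; group
    have hga : (g * x * g⁻¹) • (g • a) = g • a := by
      rw [mul_smul, mul_smul, inv_smul_smul, hx.1]
    have hgb : (g * x * g⁻¹) • (g • b) = g • b := by
      rw [mul_smul, mul_smul, inv_smul_smul, hx.2]
    have hmem : ∀ c : Ω, (g * x * g⁻¹) • c = c → c = a ∨ c = b := by
      intro c hc
      by_contra hcon
      push Not at hcon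
      exact hy1 (h3 _ a b c hab (Ne.symm hcon.2) (Ne.symm hcon.1) hgx.1 hgx.2 hc)
    have hne : g • a ≠ g • b := fun h => hab (smul_left_cancel g h)
    rcases hmem _ hga with h1 | h1 <;> rcases hmem _ hgb with h2 | h2
    · exact absurd (h1.trans h2.symm) hne
    · exact Or.inl ⟨h1, h2⟩
    · exact Or.inr ⟨h1, h2⟩
    · exact absurd (h1.trans h2.symm) hne
  refine ⟨?_, ?_⟩
  · intro g hg x hx hgx
    by_contra hx1
    exact hg (hset g (hfix g x hx hx1 hgx))
  · -- nontrivial element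
    obtain ⟨h, hha, hhb⟩ := h2t hab₀ hab
    have hx : h * g₀ * h⁻¹ ∈ D := by
      rw [hmD]
      constructor
      · rw [mul_smul, mul_smul, ← hha, inv_smul_smul, hga₀]
      · rw [mul_smul, mul_smul, ← hhb, inv_smul_smul, hgb₀]
    have hx1 : h * g₀ * h⁻¹ ≠ 1 := by
      intro h'; apply hg₀
      have : g₀ = h⁻¹ * (h * g₀ * h⁻¹) * h := by group
      rw [this, h']; group
    have hN : ∀ n ∈ Subgroup.normalizer (D : Set G), ((n • a = a ∧ n • b = b) ∨ (n • a = b ∧ n • b = a)) := by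
      intro n hn
      exact hfix n _ hx hx1 ((Subgroup.mem_normalizer_iff.mp hn _).mp hx)
    obtain ⟨t, hta, htb⟩ := h2t hab (Ne.symm hab)
    have htN := hset t (Or.inr ⟨hta, htb⟩)
    rw [Subgroup.index_eq_two_iff]
    refine ⟨⟨t, htN⟩, ?_⟩
    intro n
    have hm1 : n ∈ D.subgroupOf (Subgroup.normalizer (D : Set G)) ↔ (n : G) • a = a ∧ (n : G) • b = b := by
      rw [Subgroup.mem_subgroupOf, hmD]
    have hm2 : n * ⟨t, htN⟩ ∈ D.subgroupOf (Subgroup.normalizer (D : Set G)) ↔ (n : G) • b = a ∧ (n : G) • a = b := by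
      rw [Subgroup.mem_subgroupOf, hmD]
      show ((n : G) * t) • a = a ∧ ((n : G) * t) • b = b ↔ _
      rw [mul_smul, mul_smul, hta, htb]
    rw [hm1, hm2]
    rcases hN n n.2 with ⟨h1, h2⟩ | ⟨h1, h2⟩
    · right
      exact ⟨⟨h1, h2⟩, fun h' => hab (h1.symm.trans h'.2)⟩
    · left
      exact ⟨⟨h2, h1⟩, fun h' => hab (h'.1.symm.trans h1)⟩

end Cfsg.Agent.S0879
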