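import Cfsg.Statements.S0902
import Cfsg.Agent.H5.Block15

set_option autoImplicit false
open Cfsg

namespace Cfsg.Agent.S0902

/-- If two irreducible characters of a finite group lie in the same block relative to one maximal ideal M of the algebraic integers containing the prime p, then at every element the difference of their central characters is an algebraic integer lying in every maximal ideal containing p; in particular they lie in the same block relative to any such ideal. -/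
theorem result {G : Type*} [Group G] [Finite G] (p : ℕ) [Fact p.Prime] (M : Ideal Cfsg.AlgInt) (hM : Cfsg.IsPModular p M) (χ ψ : Cfsg.IrrCharacter G) (h : Cfsg.SameBlock M (χ : G → ℂ) (ψ : G → ℂ)) (M' : Ideal Cfsg.AlgInt) (hM' : Cfsg.IsPModular p M') (g : G) : ∃ r : Cfsg.AlgInt, r ∈ M' ∧ (r : ℂ) = Cfsg.centralChar (χ : G → ℂ) g - Cfsg.centralChar (ψ : G → ℂ) g := by
  have := Fintype.ofFinite G
  have hprime := Cfsg.Agent.H5.isPrime_of_isPModular hM
  have hprime' := Cfsg.Agent.H5.isPrime_of_isPModular hM'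
  have hB : Cfsg.IsPBlock M (Cfsg.blockOf M (χ : G → ℂ)) := ⟨χ, rfl⟩
  have hχ := Cfsg.Agent.H5.mem_blockOf_self (M := M) χ
  obtain ⟨ξ, hξ, h0⟩ := Cfsg.Agent.H5.exists_height_zero hM hB
  have key : ∀ η ∈ Cfsg.blockOf M (χ : G → ℂ), Cfsg.SameBlock M' (η : G → ℂ) (ξ : G → ℂ) := by
    intro η hη
    by_contra hn
    have h1 := Cfsg.Agent.H5.rin_ne hM' hn
    apply Cfsg.Agent.H5.cm_ne_zero hM hB hη hξ h0
    have h2 := Cfsg.Agent.H5.cm_spec hM hη ξ
    rw [h1, mul_zero] at h2
    exact_mod_cast h2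
  have h1 : Cfsg.SameBlock M' (χ : G → ℂ) (ψ : G → ℂ) :=
    Cfsg.Agent.H5.sameBlock_trans (key χ hχ) (Cfsg.Agent.H5.sameBlock_symm (key ψ h))
  have h2 := h1 g
  have h3 : IsIntegral ℤ (Cfsg.centralChar (χ : G → ℂ) g - Cfsg.centralChar (ψ : G → ℂ) g) :=
    (Cfsg.Agent.H5.centralChar_isIntegral χ.2 g).sub (Cfsg.Agent.H5.centralChar_isIntegral ψ.2 g)
  refine ⟨⟨_, h3⟩, ?_, rfl⟩
  rw [← Cfsg.Agent.H5.memLocI_algInt_iff]
  exact h2

end Cfsg.Agent.S0902
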