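import Cfsg.Statements.S0903


set_option autoImplicit false
open Cfsg

namespace Cfsg.Agent.S0903

/-- Let P be a p-subgroup of the finite group G, let c centralize P and let g, h ∈ G. The number of pairs (x, y) with x conjugate to g, y conjugate to h and x * y = c is congruent modulo p to the number of such pairs in which x and y both centralize P. (This is why the Brauer map on class sums is multiplicative.) -/
theorem result {G : Type*} [Group G] [Finite G] (p : ℕ) [Fact p.Prime] (P : Subgroup G) (hP : IsPGroup p P) (c : G) (hc : c ∈ Subgroup.centralizer (P : Set G)) (g h : G) : Nat.card {xy : G × G // IsConj g xy.1 ∧ IsConj h xy.2 ∧ xy.1 * xy.2 = c} ≡ Nat.card {xy : G × G // IsConj g xy.1 ∧ IsConj h xy.2 ∧ xy.1 * xy.2 = c ∧ xy.1 ∈ Subgroup.centralizer (P : Set G) ∧ xy.2 ∈ Subgroup.centralizer (P : Set G)} [MOD p] := by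
  classical
  let Ω := {xy : G × G // IsConj g xy.1 ∧ IsConj h xy.2 ∧ xy.1 * xy.2 = c}
  letI : MulAction P Ω := {
    smul := fun u ω => ⟨((u : G) * ω.1.1 * (u : G)⁻¹, (u : G) * ω.1.2 * (u : G)⁻¹),
      ω.2.1.trans (isConj_iff.mpr ⟨u, rfl⟩), ω.2.2.1.trans (isConj_iff.mpr ⟨u, rfl⟩), by
        have h1 : (u : G) * c = c * u := Subgroup.mem_centralizer_iff.mp hc u u.2
        calc (u : G) * ω.1.1 * (u : G)⁻¹ * ((u : G) * ω.1.2 * (u : G)⁻¹) = (u : G) * (ω.1.1 * ω.1.2) * (u : G)⁻¹ := by group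
          _ = c := by rw [ω.2.2.2, h1, mul_inv_cancel_right]⟩
    one_smul := fun ω => by
      apply Subtype.ext
      apply Prod.ext
      · change ((1 : P) : G) * ω.1.1 * ((1 : P) : G)⁻¹ = ω.1.1; simp
      · change ((1 : P) : G) * ω.1.2 * ((1 : P) : G)⁻¹ = ω.1.2; simp
    mul_smul := fun u v ω => by
      apply Subtype.ext
      apply Prod.ext
      · change ((u * v : P) : G) * ω.1.1 * ((u * v : P) : G)⁻¹ = (u : G) * ((v : G) * ω.1.1 * (v : G)⁻¹) * (u : G)⁻¹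
        simp [mul_assoc]
      · change ((u * v : P) : G) * ω.1.2 * ((u * v : P) : G)⁻¹ = (u : G) * ((v : G) * ω.1.2 * (v : G)⁻¹) * (u : G)⁻¹
        simp [mul_assoc] }
  have h1 := hP.card_modEq_card_fixedPoints Ω
  refine h1.trans ?_
  rw [Nat.card_congr (β := {xy : G × G // IsConj g xy.1 ∧ IsConj h xy.2 ∧ xy.1 * xy.2 = c ∧ xy.1 ∈ Subgroup.centralizer (P : Set G) ∧ xy.2 ∈ Subgroup.centralizer (P : Set G)}) ?_]
  refine {
    toFun := fun ω => ⟨ω.1.1, ω.1.2.1, ω.1.2.2.1, ω.1.2.2.2, ?_, ?_⟩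
    invFun := fun ω => ⟨⟨ω.1, ω.2.1, ω.2.2.1, ω.2.2.2.1⟩, ?_⟩
    left_inv := fun ω => rfl
    right_inv := fun ω => rfl }
  · rw [Subgroup.mem_centralizer_iff]
    intro u hu
    have h2 := congrArg (fun ω : Ω => ω.1.1) (ω.2 ⟨u, hu⟩)
    have h3 : u * ω.1.1.1 * u⁻¹ = ω.1.1.1 := h2
    rw [mul_inv_eq_iff_eq_mul] at h3
    exact h3
  · rw [Subgroup.mem_centralizer_iff]
    intro u hu
    have h2 := congrArg (fun ω : Ω => ω.1.2) (ω.2 ⟨u, hu⟩)
    have h3 : u * ω.1.1.2 * u⁻¹ = ω.1.1.2 := h2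
    rw [mul_inv_eq_iff_eq_mul] at h3
    exact h3
  · intro u
    apply Subtype.ext
    apply Prod.ext
    · change (u : G) * ω.1.1 * (u : G)⁻¹ = ω.1.1
      rw [mul_inv_eq_iff_eq_mul]
      exact Subgroup.mem_centralizer_iff.mp ω.2.2.2.2.1 u u.2
    · change (u : G) * ω.1.2 * (u : G)⁻¹ = ω.1.2
      rw [mul_inv_eq_iff_eq_mul]
      exact Subgroup.mem_centralizer_iff.mp ω.2.2.2.2.2 u u.2

end Cfsg.Agent.S0903
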