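import Cfsg.Statements.S0910
import Cfsg.Agent.H5.Prin3

set_option autoImplicit false
open Cfsg

namespace Cfsg.Agent.S0910

/-- Let G be a non-abelian finite simple group and p a prime. If an irreducible character χ lies in the principal block (relative to a maximal ideal of the algebraic integers containing p) and χ 1 is a power of p, then χ is the principal character. -/
theorem result {G : Type*} [Group G] [Finite G] (p : ℕ) [Fact p.Prime] (M : Ideal Cfsg.AlgInt) (hM : Cfsg.IsPModular p M) [IsSimpleGroup G] (hna : ∃ a b : G, a * b ≠ b * a) (χ : Cfsg.IrrCharacter G) (hχ : χ ∈ Cfsg.principalBlock M G) (k : ℕ) (hdeg : (χ : G → ℂ) 1 = (p : ℂ) ^ k) : (χ : G → ℂ) = fun _ => 1 := by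
  have hprime := Cfsg.Agent.H5.isPrime_of_isPModular hM
  have := Fintype.ofFinite G
  haveI : Fact p.Prime := ⟨hM.1⟩
  by_contra hne
  obtain ⟨n, ρ, hρ, hχρ⟩ := χ.2
  have hchar : ρ.character ≠ fun _ => 1 := by rw [hχρ]; exact hne
  have hinj := Cfsg.Agent.H4.injective_of_simple ρ hρ hchar
  have hdeg' : charDegree (χ : G → ℂ) = p ^ k := by
    have h := Cfsg.Agent.H5.IsCharacter.one_eq_charDegree (Cfsg.Agent.H5.irr_isCharacter χ)
    rw [hdeg] at h
    exact_mod_cast h.symm
  have hfin : Module.finrank ℂ (Fin n → ℂ) = p ^ k := by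
    rw [← Cfsg.Agent.H4.charDegree_character ρ, hχρ, hdeg']
  obtain ⟨P⟩ : Nonempty (Sylow p G) := inferInstance
  -- key : if an element commutes up to scalars
  have hscalar : ∀ z : G, z ≠ 1 → ¬ ∃ ω : ℂ, ρ z = ω • (LinearMap.id : (Fin n → ℂ) →ₗ[ℂ] (Fin n → ℂ)) := by
    rintro z hz ⟨ω, hω⟩
    have hcen : z ∈ Subgroup.center G := by
      rw [Subgroup.mem_center_iff]
      intro g
      apply hinj
      rw [map_mul, map_mul, hω]
      ext v; simp
    have hcenter : Subgroup.center G = ⊤ := by
      rcases (inferInstance : (Subgroup.center G).Normal).eq_bot_or_eq_top with h | h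
      · exact absurd (by rw [h, Subgroup.mem_bot] at hcen; exact hcen) hz
      · exact h
    obtain ⟨a, b, hab⟩ := hna
    apply hab
    have : b ∈ Subgroup.center G := by rw [hcenter]; trivial
    exact (Subgroup.mem_center_iff.mp this a)
  have hk : k ≠ 0 := by
    rintro rfl
    rw [pow_zero] at hfin
    obtain ⟨a, b, hab⟩ := hna
    have ha1 : a ≠ 1 := by rintro rfl; simp at hab
    apply hscalar a ha1
    obtain ⟨v, hv, hspan⟩ := finrank_eq_one_iff'.mp hfin
    obtain ⟨c, hc⟩ := hspan (ρ a v)
    refine ⟨c, LinearMap.ext fun w => ?_⟩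
    obtain ⟨d, rfl⟩ := hspan w
    rw [map_smul, ← hc, LinearMap.smul_apply, LinearMap.id_apply, smul_comm]
  have hpG : p ∣ Nat.card G := by
    have h1 := Cfsg.Agent.H5.charDegree_dvd_card χ.2
    rw [hdeg'] at h1
    exact (dvd_pow_self p hk).trans h1
  have hPnt : Nontrivial (P : Subgroup G) := by
    rw [← Finite.one_lt_card_iff_nontrivial]
    exact Nat.lt_of_lt_of_le hM.1.one_lt (Nat.le_of_dvd Nat.card_pos (P.dvd_card_of_dvd_card hpG))
  haveI := P.2.center_nontrivial
  obtain ⟨z, hz1⟩ := exists_ne (1 : Subgroup.center (P : Subgroup G))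
  have hzG : ((z : (P : Subgroup G)) : G) ≠ 1 := by
    intro h
    apply hz1
    ext
    simpa using h
  have hind : ¬ p ∣ (Subgroup.centralizer ({((z : (P : Subgroup G)) : G)} : Set G)).index := by
    intro h
    apply P.not_dvd_index
    have hle : (P : Subgroup G) ≤ Subgroup.centralizer ({((z : (P : Subgroup G)) : G)} : Set G) := by
      intro x hx
      rw [Subgroup.mem_centralizer_singleton_iff]
      have := Subgroup.mem_center_iff.mp z.2 ⟨x, hx⟩
      exact congrArg Subtype.val this
    exact h.trans (Subgroup.index_dvd_of_le hle)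
  have hval : (χ : G → ℂ) ((z : (P : Subgroup G)) : G) = 0 := by
    rcases Cfsg.Agent.H4.char_eq_zero_or_norm_eq ρ hρ ((z : (P : Subgroup G)) : G) (by
      rw [hfin]; exact Nat.Coprime.pow_left k ((Nat.Prime.coprime_iff_not_dvd hM.1).mpr hind)) with h | h
    · rw [← hχρ]; exact h
    · exfalso
      exact hscalar _ hzG ((Cfsg.Agent.H4.norm_char_eq_iff ρ _).mp h)
  have hblk := Cfsg.Agent.H5.IsPBlock.sameBlock (M := M) Cfsg.Agent.H5.principal_isPBlock Cfsg.Agent.H5.one_mem_principal hχ ((z : (P : Subgroup G)) : G)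
  change MemLocalIdeal M (centralChar (fun _ : G => (1 : ℂ)) _ - centralChar (χ : G → ℂ) _) at hblk
  unfold centralChar at hblk
  rw [hval, mul_zero, zero_div, sub_zero, mul_one, div_one, Cfsg.Agent.H5.memLocI_natCast_iff hM] at hblk
  exact hind hblk

end Cfsg.Agent.S0910
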