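import Cfsg.Statements.S0911
import Cfsg.Agent.H5.Block2

set_option autoImplicit false
open Cfsg

namespace Cfsg.Agent.S0911

/-- The min–max Theorem for defect classes. Let B be a block of the finite group G relative to a maximal ideal M of the algebraic integers containing the prime p, let g represent a defect class of B and let D be a Sylow p-subgroup of the centralizer of g (viewed in G). For any h: (a) if the idempotent coefficient of B at h is a local integer outside the local ideal, then some conjugate of D contains a Sylow p-subgroup of the centralizer of h; (b) if the central character of some member of B at h is outside the local ideal, then some conjugate of D is contained in a Sylow p-subgroup of the centralizer of h. -/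
theorem result {G : Type*} [Group G] [Finite G] (p : ℕ) [Fact p.Prime] (M : Ideal Cfsg.AlgInt) (hM : Cfsg.IsPModular p M) (B : Set (Cfsg.IrrCharacter G)) (hB : Cfsg.IsPBlock M B) (g : G) (hg : Cfsg.IsDefectClass M B g) (D : Sylow p (Subgroup.centralizer ({g} : Set G))) (h : G) : (Cfsg.MemLocalRing M (Cfsg.blockCoeff B h) → ¬ Cfsg.MemLocalIdeal M (Cfsg.blockCoeff B h) → ∃ (x : G) (Q : Sylow p (Subgroup.centralizer ({h} : Set G))), (Q : Subgroup (Subgroup.centralizer ({h} : Set G))).map (Subgroup.centralizer ({h} : Set G)).subtype ≤ ((D : Subgroup (Subgroup.centralizer ({g} : Set G))).map (Subgroup.centralizer ({g} : Set G)).subtype).map (MulAut.conj x).toMonoidHom) ∧ ((∃ χ ∈ B, ¬ Cfsg.MemLocalIdeal M (Cfsg.centralChar (χ : G → ℂ) h)) → ∃ (x : G) (Q : Sylow p (Subgroup.centralizer ({h} : Set G))), ((D : Subgroup (Subgroup.centralizer ({g} : Set G))).map (Subgroup.centralizer ({g} : Set G)).subtype).map (MulAut.conj x).toMonoidHom ≤ (Q : Subgroup (Subgroup.centralizer ({h} : Set G))).map (Subgroup.centralizer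 ({h} : Set G)).subtype) := by
  have := Fintype.ofFinite G
  have := Cfsg.Agent.H5.isPrime_of_isPModular hM
  obtain ⟨χ, hχ⟩ := Cfsg.Agent.H5.IsPBlock.nonempty' hB
  constructor
  · intro _ hh
    obtain ⟨x, Q, ⟨S, rfl⟩, hQ⟩ := Cfsg.Agent.H5.minmax hM hB hχ (hg.2.2 χ hχ) ⟨D, rfl⟩ hh
    exact ⟨x, S, hQ⟩
  · rintro ⟨ψ, hψ, hh⟩
    obtain ⟨R, hR⟩ := Cfsg.Agent.H5.exists_sylC (p := p) h
    obtain ⟨x, Q, hQ, hQR⟩ := Cfsg.Agent.H5.minmax hM hB hψ hh hR hg.2.1
    obtain ⟨c, _, hc⟩ := hQ.conjugate (Q' := (D : Subgroup (Subgroup.centralizer ({g} : Set G))).map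
      (Subgroup.centralizer ({g} : Set G)).subtype) ⟨D, rfl⟩
    obtain ⟨S, hS⟩ := hR
    refine ⟨(c * x)⁻¹, S, ?_⟩
    rw [← hS]
    have h1 : (D : Subgroup (Subgroup.centralizer ({g} : Set G))).map
      (Subgroup.centralizer ({g} : Set G)).subtype ≤ Cfsg.Agent.H5.cj (c * x) R := by
      rw [hc, ← Cfsg.Agent.H5.cj_cj]
      exact Cfsg.Agent.H5.cj_mono c hQR
    exact Cfsg.Agent.H5.cj_le_iff.mpr (by rwa [inv_inv])

end Cfsg.Agent.S0911
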