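import Cfsg.Statements.S0940
import Cfsg.Agent.H5.W34
import Cfsg.Agent.H5.Block14
import Cfsg.Agent.H5.Block17

set_option autoImplicit false
open Cfsg

namespace Cfsg.Agent.S0940

/-- Let G be a finite group and M a maximal ideal of the algebraic integers containing the prime p. For every p-regular g, the idempotent coefficient of the principal block at g (the inverse of the group order times the sum over χ in the principal block of χ 1 * conj (χ g)) is congruent modulo the local ideal at M to N / R, where N is the number of pairs (x, y) with x of p-power order, y of order prime to p and x * y = g, and R is the number of elements of G of order prime to p. -/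
theorem result {G : Type*} [Group G] [Finite G] (p : ℕ) [Fact p.Prime] (M : Ideal Cfsg.AlgInt) (hM : Cfsg.IsPModular p M) (g : G) (hg : ¬ p ∣ orderOf g) : Cfsg.MemLocalIdeal M (Cfsg.blockCoeff (Cfsg.principalBlock M G) g - (Nat.card {xy : G × G // (∃ k : ℕ, orderOf xy.1 = p ^ k) ∧ ¬ p ∣ orderOf xy.2 ∧ xy.1 * xy.2 = g} : ℂ) / (Nat.card {y : G // ¬ p ∣ orderOf y} : ℂ)) := by
  open Cfsg.Agent.H5 ComplexConjugate in
  classical
  have hprime := isPrime_of_isPModular hM
  have hfact : Fact p.Prime := ⟨hM.1⟩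
  have hfG : Fintype G := Fintype.ofFinite G
  have hchar := charP_KK hM
  obtain ⟨e₀, he₀⟩ : ∃ e₀, e₀ = blk M (Cfsg.principalBlock M G) := ⟨_, rfl⟩
  have hPB : Cfsg.IsPBlock M (Cfsg.principalBlock M G) := principal_isPBlock
  have hBU := IsPBlock.isBU hPB
  have hfix₀ : e₀ ∈ KFix (KK M) (⊤ : Subgroup G) := by rw [he₀]; exact blk_mem_fix _
  have hid₀ : e₀ * e₀ = e₀ := by rw [he₀]; exact blk_mul_self hBU
  let pe : G → Prop := fun x => ∃ k : ℕ, orderOf x = p ^ k
  let φ : MonoidAlgebra (KK M) G → KK M := fun a => ∑ x : G, if pe x then a.coeff x else 0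
  -- p-elements
  have hpe : ∀ n : ℕ, (Nat.card G).factorization p ≤ n → ∀ x : G, x ^ p ^ n = 1 ↔ pe x := by
    intro n hn x
    constructor
    · intro h
      obtain ⟨j, -, hj⟩ := (Nat.dvd_prime_pow hM.1).mp (orderOf_dvd_of_pow_eq_one h)
      exact ⟨j, hj⟩
    · rintro ⟨j, hj⟩
      apply orderOf_dvd_iff_pow_eq_one.mp
      rw [hj]
      apply pow_dvd_pow
      have h1 : p ^ j ∣ Nat.card G := by rw [← hj]; exact orderOf_dvd_natCard x
      exact ((hM.1.pow_dvd_iff_le_factorization Nat.card_pos.ne').mp h1).trans hn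
  have hkey : ∀ n : ℕ, n ≠ 0 → (Nat.card G).factorization p ≤ n → ∀ a : MonoidAlgebra (KK M) G, (a ^ p ^ n).coeff 1 = (φ a) ^ p ^ n := by
    intro n hn0 hn a
    rw [kpow_coeff_one (p := p) a hn0]
    simp only [φ]
    rw [sum_pow_char_pow]
    refine Finset.sum_congr rfl fun x _ => ?_
    by_cases h : pe x
    · rw [if_pos h, if_pos ((hpe n hn x).mpr h)]
    · rw [if_neg h, if_neg (fun h' => h ((hpe n hn x).mp h')), zero_pow (pow_ne_zero n hM.1.ne_zero)]
  -- nilpotent central elements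
  have hnil : ∀ (x : G) (z : MonoidAlgebra (KK M) G), z ∈ KFix (KK M) (⊤ : Subgroup G) → (∃ N : ℕ, z ^ N = 0) → φ (kof (KK M) x * z) = 0 := by
    intro x z hz ⟨N, hN⟩
    obtain ⟨n, hn⟩ : ∃ n, n = N + (Nat.card G).factorization p + 1 := ⟨_, rfl⟩
    have h1 := hkey n (by omega) (by omega) (kof (KK M) x * z)
    have hcomm : Commute (kof (KK M) x) z := by
      exact KFix_comm hz (Subgroup.mem_top x)
    have h2 : N ≤ p ^ n := by
      have := (Nat.lt_pow_self hM.1.one_lt : n < p ^ n)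
      omega
    rw [hcomm.mul_pow, pow_eq_zero_of_le h2 hN, mul_zero] at h1
    exact pow_eq_zero_iff (pow_ne_zero n hM.1.ne_zero) |>.mp h1.symm
  -- sum of regular elements
  obtain ⟨rf, hrf⟩ : ∃ rf : G → ℂ, rf = fun y => if p ∣ orderOf y then 0 else 1 := ⟨_, rfl⟩
  have hrfc : Cfsg.IsClassFunction G rf := by
    intro a x
    rw [hrf]
    simp only
    have : orderOf (x * a * x⁻¹) = orderOf a := (MulAut.conj x).orderOf_eq a
    rw [this]
  have hrfR : ∀ y, Cfsg.MemLocalRing M (rf y) := by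
    intro y; rw [hrf]; simp only; split_ifs
    · exact memLocR_zero
    · exact memLocR_one
  obtain ⟨R, hR⟩ : ∃ R : ℕ, R = Nat.card {y : G // ¬ p ∣ orderOf y} := ⟨_, rfl⟩
  have hRsum : ∑ y : G, rf y = (R : ℂ) := by
    rw [hR, hrf, Nat.card_eq_fintype_card, Fintype.card_subtype, ← Finset.sum_boole]
    refine Finset.sum_congr rfl fun y _ => ?_
    show (if p ∣ orderOf y then (0:ℂ) else 1) = (if ¬ p ∣ orderOf y then (1:ℂ) else 0)
    by_cases h : p ∣ orderOf y
    · rw [if_pos h, if_neg (not_not_intro h)]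
    · rw [if_neg h, if_pos h]
  have hbc := blockCoeff_classFun (Cfsg.principalBlock M G)
  have hbR : ∀ y, Cfsg.MemLocalRing M (Cfsg.blockCoeff (Cfsg.principalBlock M G) y) := fun y => blockCoeff_memLocR hPB y
  obtain ⟨zf, hzf⟩ : ∃ zf : G → ℂ, zf = fun y => rf y - (R : ℂ) * Cfsg.blockCoeff (Cfsg.principalBlock M G) y := ⟨_, rfl⟩
  have hzc : Cfsg.IsClassFunction G zf := by
    intro a x; rw [hzf]; simp only; rw [hrfc a x, hbc a x]
  have hzR : ∀ y, Cfsg.MemLocalRing M (zf y) := by
    intro y; rw [hzf]; exact memLocR_sub (hrfR y) (memLocR_mul (memLocR_natCast _) (hbR y))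
  have hzom : ∀ χ : Cfsg.IrrCharacter G, om M χ (rG M zf) = 0 := by
    intro χ
    rw [om_rG χ hzc hzR, red_eq_zero_iff (omega_memLocR χ hzc hzR)]
    have e1 : omega (χ : G → ℂ) zf = omega (χ : G → ℂ) rf - (R : ℂ) * ind1 (Cfsg.principalBlock M G) χ := by
      have e2 : omega (χ : G → ℂ) (Cfsg.blockCoeff (Cfsg.principalBlock M G)) = ind1 (Cfsg.principalBlock M G) χ := by
        rw [← omega_cen (ind1 (Cfsg.principalBlock M G)) χ]
        congr 1
        funext y; exact blockCoeff_eq_cen _ y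
      rw [← e2, hzf]
      unfold omega
      rw [← mul_div_assoc, ← sub_div, Finset.mul_sum, ← Finset.sum_sub_distrib]
      congr 1
      refine Finset.sum_congr rfl fun y _ => ?_
      ring
    rw [e1]
    have e3 : omega (fun _ : G => (1 : ℂ)) rf = (R : ℂ) := by
      unfold omega
      rw [div_one, ← hRsum]
      exact Finset.sum_congr rfl fun y _ => mul_one _
    obtain ⟨tr, htr⟩ : ∃ tr : Cfsg.IrrCharacter G, (tr : G → ℂ) = fun _ => (1:ℂ) := ⟨⟨_, isIrrCharacter_trivial⟩, rfl⟩
    have hmemiff : ∀ ψ : Cfsg.IrrCharacter G, ψ ∈ Cfsg.principalBlock M G ↔ Cfsg.SameBlock M (tr : G → ℂ) (ψ : G → ℂ) := by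
      intro ψ; rw [htr]; exact Iff.rfl
    by_cases hχ : χ ∈ Cfsg.principalBlock M G
    · rw [ind1_mem hχ, mul_one, ← e3, memLocI_sub_comm, ← htr]
      exact omega_congr hrfc hrfR ((hmemiff χ).mp hχ)
    · rw [ind1_not_mem hχ, mul_zero, sub_zero]
      have h1 : rin p (χ : G → ℂ) (tr : G → ℂ) = 0 := by
        apply rin_ne hM
        intro h
        apply hχ
        rw [hmemiff]
        intro y
        rw [memLocI_sub_comm]
        exact h y
      rw [rin_def, mul_eq_zero] at h1
      rcases h1 with h1 | h1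
      · exact absurd h1 (inv_ne_zero (Nat.cast_ne_zero.mpr Nat.card_pos.ne'))
      · have e4 : omega (χ : G → ℂ) rf = 0 := by
          unfold omega
          rw [div_eq_zero_iff]
          left
          rw [← h1]
          refine Finset.sum_congr rfl fun y _ => ?_
          rw [hrf, htr]
          simp only [map_one, mul_one]
          by_cases h : p ∣ orderOf y
          · rw [if_pos h, pRegularPart_sing h, zero_mul]
          · rw [if_neg h, pRegularPart_reg h, one_mul]
        rw [e4]; exact memLocI_zero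
  have hzfix : rG M zf ∈ KFix (KK M) (⊤ : Subgroup G) := rG_class_mem hzc
  have hznil := nilpotent_of_om hzfix hzom
  -- consequence
  have hcons : ∀ x : G, ((Nat.card {y : G // pe y ∧ ¬ p ∣ orderOf (x⁻¹ * y)} : ℕ) : KK M) = (R : KK M) * φ (kof (KK M) x * e₀) := by
    intro x
    have h1 := hnil x (rG M zf) hzfix hznil
    have h2 : φ (kof (KK M) x * rG M zf) = ((Nat.card {y : G // pe y ∧ ¬ p ∣ orderOf (x⁻¹ * y)} : ℕ) : KK M) - (R : KK M) * φ (kof (KK M) x * e₀) := by
      simp only [φ]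
      rw [Nat.card_eq_fintype_card, Fintype.card_subtype, ← Finset.sum_boole, Finset.mul_sum, ← Finset.sum_sub_distrib]
      refine Finset.sum_congr rfl fun y _ => ?_
      have e1 : ∀ a : MonoidAlgebra (KK M) G, (kof (KK M) x * a).coeff y = a.coeff (x⁻¹ * y) := by
        intro a
        rw [kcoeff_single_mul, one_mul]
      by_cases h : pe y
      · rw [if_pos h, if_pos h, e1, e1, he₀]
        have e2 : (rG M zf).coeff (x⁻¹ * y) = red M (zf (x⁻¹ * y)) := rfl
        have e3 : (blk M (Cfsg.principalBlock M G)).coeff (x⁻¹ * y) = red M (Cfsg.blockCoeff (Cfsg.principalBlock M G) (x⁻¹ * y)) := rfl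
        rw [e2, e3, hzf]
        simp only
        rw [red_sub (hrfR _) (memLocR_mul (memLocR_natCast _) (hbR _)), red_mul (memLocR_natCast _) (hbR _), red_natCast]
        congr 1
        rw [hrf]
        simp only
        by_cases h' : p ∣ orderOf (x⁻¹ * y)
        · rw [if_pos h', if_neg (fun h'' => h''.2 h'), red_zero]
        · rw [if_neg h', if_pos ⟨h, h'⟩, red_one]
      · rw [if_neg h, if_neg h, if_neg (fun h' => h h'.1)]; ring
    rw [h2] at h1
    exact sub_eq_zero.mp h1
  have hR0 : (R : KK M) ≠ 0 := by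
    intro h0
    have h1 := hcons 1
    rw [h0, zero_mul] at h1
    have h2 : Nat.card {y : G // pe y ∧ ¬ p ∣ orderOf ((1 : G)⁻¹ * y)} = 1 := by
      rw [Nat.card_eq_one_iff_unique]
      refine ⟨⟨?_⟩, ⟨⟨1, ⟨0, by rw [orderOf_one, pow_zero]⟩, by rw [inv_one, one_mul, orderOf_one]; exact fun h => hM.1.one_lt.ne' (Nat.dvd_one.mp h)⟩⟩⟩
      have key : ∀ y : G, pe y → ¬ p ∣ orderOf ((1 : G)⁻¹ * y) → y = 1 := by
        rintro y ⟨k, hk⟩ hy
        rw [inv_one, one_mul, hk] at hy
        have : k = 0 := by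
          by_contra hk0
          exact hy (dvd_pow_self p hk0)
        rw [this, pow_zero, orderOf_eq_one_iff] at hk
        exact hk
      rintro ⟨a, ha1, ha2⟩ ⟨c, hc1, hc2⟩
      exact Subtype.ext ((key a ha1 ha2).trans (key c hc1 hc2).symm)
    rw [h2, Nat.cast_one] at h1
    exact one_ne_zero h1
  -- the regular element
  obtain ⟨n, hn0, hn1, hn2⟩ : ∃ n : ℕ, n ≠ 0 ∧ (Nat.card G).factorization p ≤ n ∧ g⁻¹ ^ p ^ n = g⁻¹ := by
    have hcop : p.Coprime (orderOf g⁻¹) := by
      rw [orderOf_inv]; exact (Nat.Prime.coprime_iff_not_dvd hM.1).mpr hg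
    have htp : 0 < (orderOf g⁻¹).totient := Nat.totient_pos.mpr (orderOf_pos _)
    refine ⟨(orderOf g⁻¹).totient * ((Nat.card G).factorization p + 1), by positivity, ?_, ?_⟩
    · calc (Nat.card G).factorization p ≤ 1 * ((Nat.card G).factorization p + 1) := by omega
        _ ≤ _ := Nat.mul_le_mul_right _ htp
    · have h1 : p ^ ((orderOf g⁻¹).totient * ((Nat.card G).factorization p + 1)) ≡ 1 [MOD orderOf g⁻¹] := by
        rw [pow_mul]
        have := (Nat.ModEq.pow_totient hcop).pow ((Nat.card G).factorization p + 1)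
        rwa [one_pow] at this
      conv_rhs => rw [← pow_one g⁻¹]
      rw [pow_eq_pow_iff_modEq]
      exact h1
  have hval : e₀.coeff g = (φ (kof (KK M) g⁻¹ * e₀)) ^ p ^ n := by
    rw [← hkey n hn0 hn1]
    have hcomm : Commute (kof (KK M) g⁻¹) e₀ := KFix_comm hfix₀ (Subgroup.mem_top _)
    have e1 : ∀ m : ℕ, (kof (KK M) g⁻¹) ^ m = kof (KK M) (g⁻¹ ^ m) := by
      intro m
      induction m with
      | zero => rw [pow_zero, pow_zero, kof_one]
      | succ m ih => rw [pow_succ, pow_succ, ih, kof_mul]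
    have e2 : ∀ m : ℕ, e₀ ^ (m + 1) = e₀ := by
      intro m
      induction m with
      | zero => rw [zero_add, pow_one]
      | succ m ih => rw [pow_succ, ih, hid₀]
    obtain ⟨m, hm⟩ : ∃ m, p ^ n = m + 1 := ⟨p ^ n - 1, by have := pow_pos hM.1.pos n; omega⟩
    rw [hcomm.mul_pow, e1, hn2, hm, e2, kcoeff_single_mul, one_mul, mul_one, inv_inv]
  have hfin : e₀.coeff g = ((Nat.card {y : G // pe y ∧ ¬ p ∣ orderOf (g * y)} : ℕ) : KK M) * (R : KK M)⁻¹ := by
    have h1 := hcons g⁻¹
    rw [inv_inv] at h1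
    have h2 : φ (kof (KK M) g⁻¹ * e₀) = ((Nat.card {y : G // pe y ∧ ¬ p ∣ orderOf (g * y)} : ℕ) : KK M) * (R : KK M)⁻¹ := by
      rw [h1]; field_simp
    rw [hval, h2, mul_pow, inv_pow]
    have e1 : ∀ m : ℕ, ((m : ℕ) : KK M) ^ p ^ n = m := by
      intro m
      have := map_natCast (iterateFrobenius (KK M) p n) m
      rwa [iterateFrobenius_def] at this
    rw [e1, e1]
  have hcnt : Nat.card {xy : G × G // (∃ k : ℕ, orderOf xy.1 = p ^ k) ∧ ¬ p ∣ orderOf xy.2 ∧ xy.1 * xy.2 = g} = Nat.card {y : G // pe y ∧ ¬ p ∣ orderOf (g * y)} := by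
    have hconj : ∀ x : G, orderOf (x⁻¹ * g) = orderOf (g * x⁻¹) := by
      intro x
      have : g * x⁻¹ = x * (x⁻¹ * g) * x⁻¹ := by group
      rw [this]
      exact ((MulAut.conj x).orderOf_eq _).symm
    apply Nat.card_congr
    refine ⟨fun xy => ⟨xy.1.1⁻¹, ?_, ?_⟩, fun y => ⟨(y.1⁻¹, y.1 * g), ?_, ?_, ?_⟩, ?_, ?_⟩
    · show ∃ k, orderOf xy.1.1⁻¹ = p ^ k
      rw [orderOf_inv]; exact xy.2.1
    · have h1 : xy.1.2 = xy.1.1⁻¹ * g := by
        rw [eq_inv_mul_iff_mul_eq]; exact xy.2.2.2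
      rw [← hconj, ← h1]; exact xy.2.2.1
    · show ∃ k, orderOf y.1⁻¹ = p ^ k
      rw [orderOf_inv]; exact y.2.1
    · have h1 := hconj y.1⁻¹
      rw [inv_inv] at h1
      simp only
      rw [h1]; exact y.2.2
    · simp only; group
    · intro xy
      apply Subtype.ext
      apply Prod.ext
      · simp only [inv_inv]
      · show xy.1.1⁻¹ * g = xy.1.2
        rw [inv_mul_eq_iff_eq_mul]; exact xy.2.2.2.symm
    · intro y
      apply Subtype.ext
      simp only [inv_inv]
  rw [← hR, hcnt]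
  have hpR : ¬ p ∣ R := by
    intro h
    apply hR0
    rw [← red_natCast, red_eq_zero_iff (memLocR_natCast _), memLocI_natCast_iff hM]
    exact h
  rw [div_eq_mul_inv, ← red_eq_iff (hbR g) (memLocR_mul (memLocR_natCast _) (memLocR_inv_natCast hM hpR)), red_mul (memLocR_natCast _) (memLocR_inv_natCast hM hpR),
    red_natCast, red_inv_natCast hM hpR, ← hfin, he₀]
  rfl

end Cfsg.Agent.S0940
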