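import Cfsg.Statements.S0942
import Cfsg.Agent.H5.Prin2

set_option autoImplicit false
open Cfsg

namespace Cfsg.Agent.S0942

/-- Let u be a p-element of the finite group G, let v lie in the largest normal subgroup of C_G(u) of order prime to p, and let χ belong to the principal block (relative to a maximal ideal M of the algebraic integers containing p). Then χ (u * v) = χ u. -/
theorem result {G : Type*} [Group G] [Finite G] (p : ℕ) [Fact p.Prime] (M : Ideal Cfsg.AlgInt) (hM : Cfsg.IsPModular p M) (u : G) (hu : ∃ k : ℕ, orderOf u = p ^ k) (v : G) (hv : v ∈ Cfsg.centralizerPPrimeCore p u) (χ : Cfsg.IrrCharacter G) (hχ : χ ∈ Cfsg.principalBlock M G) : (χ : G → ℂ) (u * v) = (χ : G → ℂ) u := by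
  have hprime := Cfsg.Agent.H5.isPrime_of_isPModular hM
  have := Fintype.ofFinite G
  have := Fintype.ofFinite (Subgroup.centralizer ({u} : Set G))
  haveI := Cfsg.Agent.H5.normal_pPrimeCore p (Subgroup.centralizer ({u} : Set G))
  obtain ⟨w, hw, rfl⟩ := hv
  have hN := Cfsg.Agent.H5.not_dvd_pPrimeCore hM (Subgroup.centralizer ({u} : Set G))
  have h := Cfsg.Agent.H5.principal_section_value hM hu rfl hN hχ hw 1
    (by rw [orderOf_one]; exact hM.1.one_lt.not_ge ∘ Nat.le_of_dvd one_pos)
    (by rw [mul_one]; exact Cfsg.Agent.H5.not_dvd_orderOf_of_mem hN hw)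
  simpa using h

end Cfsg.Agent.S0942
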