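import Cfsg.Statements.S0944
import Cfsg.Agent.H5.Prin3
import Cfsg.Agent.H5.SRing

set_option autoImplicit false
open Cfsg

namespace Cfsg.Agent.S0944

/-- Let χ be an irreducible character of the finite group G and u an involution. Then χ u is a rational integer n with n ≡ χ 1 (mod 2). -/
theorem result {G : Type*} [Group G] [Finite G] (χ : Cfsg.IrrCharacter G) (u : G) (hu : orderOf u = 2) : ∃ n : ℤ, (χ : G → ℂ) u = (n : ℂ) ∧ (2 : ℤ) ∣ (Cfsg.charDegree (χ : G → ℂ) : ℤ) - n := by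
  have := Fintype.ofFinite G
  have hprime2 : (2 : ℕ).Prime := Nat.prime_two
  obtain ⟨M, hM⟩ := Cfsg.Agent.H5.exists_isPModular hprime2
  have hprime := Cfsg.Agent.H5.isPrime_of_isPModular hM
  obtain ⟨l, hl⟩ := Cfsg.Agent.H5.IsCharacter.cyclic_list (Cfsg.Agent.H5.irr_isCharacter χ) u
  have hu2 : (⟨u, Subgroup.mem_zpowers u⟩ : Subgroup.zpowers u) ^ 2 = 1 := by
    ext; simp [← hu, pow_orderOf_eq_one]
  have h1 := hl ⟨u, Subgroup.mem_zpowers u⟩
  have h2 : ∀ lam : Subgroup.zpowers u →* ℂˣ, ((lam ⟨u, Subgroup.mem_zpowers u⟩ : ℂˣ) : ℂ) ∈ (Int.castRingHom ℂ).range := by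
    intro lam
    have h3 : ((lam ⟨u, Subgroup.mem_zpowers u⟩ : ℂˣ) : ℂ) ^ 2 = 1 := by
      rw [← Units.val_pow_eq_pow_val, ← map_pow, hu2, map_one, Units.val_one]
    rw [pow_two] at h3
    rcases mul_self_eq_one_iff.mp h3 with h | h
    · exact ⟨1, by rw [h]; simp⟩
    · exact ⟨-1, by rw [h]; simp⟩
  have h3 : (χ : G → ℂ) u ∈ (Int.castRingHom ℂ).range := by
    change (χ : G → ℂ) u = _ at h1
    rw [h1]
    apply list_sum_mem
    intro x hx
    obtain ⟨lam, -, rfl⟩ := List.mem_map.mp hx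
    exact h2 lam
  obtain ⟨n, hn⟩ := h3
  refine ⟨n, by rw [← hn]; simp, ?_⟩
  have h4 := Cfsg.Agent.H5.char_congr hM (Cfsg.Agent.H5.irr_isCharacter χ) (g := u) (x := u) (y := 1) (mul_one u) (Commute.one_right u)
    ⟨1, by rw [hu]; rfl⟩ (by rw [orderOf_one]; norm_num)
  rw [← hn, Cfsg.Agent.H5.IsCharacter.one_eq_charDegree (Cfsg.Agent.H5.irr_isCharacter χ)] at h4
  have h5 : MemLocalIdeal M (((n - (charDegree (χ : G → ℂ) : ℤ) : ℤ)) : ℂ) := by
    simpa using h4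
  rw [Cfsg.Agent.H5.memLocI_intCast_iff hM] at h5
  have := (dvd_neg (α := ℤ)).mpr h5
  rwa [neg_sub] at this

end Cfsg.Agent.S0944
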