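import Cfsg.Statements.S0948
import Cfsg.Agent.H5.Klein3

set_option autoImplicit false
open Cfsg

namespace Cfsg.Agent.S0948

/-- Let the finite group G have a Sylow 2-subgroup P that is a Klein four-group, suppose all involutions of G are conjugate, and fix a maximal ideal M of the algebraic integers containing 2. Then the principal block consists of exactly four irreducible characters, the principal character and ζ₂, ζ₃, ζ₄, and there is a sign ε such that for every involution z: ζ₂ z = 1, ζ₃ z = ε, ζ₄ z = -1; moreover ζ₂ 1 ≡ 1, ζ₃ 1 ≡ ε, ζ₄ 1 ≡ -1 (mod 4), and 1 + ζ₂ y + ε ζ₃ y - ζ₄ y = 0 for every y of odd order. -/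
theorem result {G : Type*} [Group G] [Finite G] (M : Ideal Cfsg.AlgInt) (hM : Cfsg.IsPModular 2 M) (P : Sylow 2 G) (hP : IsKleinFour (P : Subgroup G)) (hone : ∀ s t : G, orderOf s = 2 → orderOf t = 2 → IsConj s t) : ∃ ζ₂ ζ₃ ζ₄ : Cfsg.IrrCharacter G, ∃ ε : ℤ, (ε = 1 ∨ ε = -1) ∧ (ζ₂ : G → ℂ) ≠ (fun _ => 1) ∧ (ζ₃ : G → ℂ) ≠ (fun _ => 1) ∧ ζ₂ ≠ ζ₃ ∧ ζ₂ ≠ ζ₄ ∧ ζ₃ ≠ ζ₄ ∧ Cfsg.principalBlock M G = {χ : Cfsg.IrrCharacter G | (χ : G → ℂ) = (fun _ => 1) ∨ χ = ζ₂ ∨ χ = ζ₃ ∨ χ = ζ₄} ∧ (∀ z : G, orderOf z = 2 → (ζ₂ : G → ℂ) z = 1 ∧ (ζ₃ : G → ℂ) z = (ε : ℂ) ∧ (ζ₄ : G → ℂ) z = -1) ∧ (4 : ℤ) ∣ (Cfsg.charDegree (ζ₂ : G → ℂ) : ℤ) - 1 ∧ (4 : ℤ) ∣ (Cfsg.charDegree (ζ₃ : G → ℂ) : ℤ) - ε ∧ (4 : ℤ) ∣ (Cfsg.charDegree (ζ₄ : G → ℂ) : ℤ) + 1 ∧ ∀ y : G, Odd (orderOf y) → 1 + (ζ₂ : G → ℂ) y + (ε : ℂ) * (ζ₃ : G → ℂ) y - (ζ₄ : G → ℂ) y = 0 := by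
  have hprime := Cfsg.Agent.H5.isPrime_of_isPModular hM
  have := Fintype.ofFinite G
  have hPc : Nat.card P = 4 := hP.card_four
  have hexp : ∀ q ∈ (P : Subgroup G), q * q = 1 := by
    intro q hq
    have h1 := Monoid.pow_exponent_eq_one (⟨q, hq⟩ : (P : Subgroup G))
    rw [hP.exponent_two, pow_two] at h1
    exact congrArg Subtype.val h1
  -- an involution
  obtain ⟨x, hxP, hx⟩ : ∃ x ∈ (P : Subgroup G), orderOf x = 2 := by
    have h3 := Cfsg.Agent.H5.card_invS_klein hPc hexp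
    have hpos : 0 < Nat.card (Cfsg.Agent.H5.InvS (P : Subgroup G)) := by rw [h3]; norm_num
    obtain ⟨⟨a, ha⟩⟩ := (Nat.card_pos_iff.mp hpos).1
    exact ⟨a, ha.1, ha.2⟩
  have hone' : ∀ s : G, orderOf s = 2 → IsConj x s := fun s hs => hone x s hx hs
  have hsec := Cfsg.Agent.H5.hsec_of P hexp hone'
  obtain ⟨C, hC⟩ : ∃ C, C = Subgroup.centralizer ({x} : Set G) := ⟨_, rfl⟩
  have := Fintype.ofFinite C
  obtain ⟨N, Q, hNn, hN, hidx, hQ, hQe, hNQ, hsyl⟩ := Cfsg.Agent.H5.klein_setup P hPc hexp hxP hx hC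
  obtain ⟨hcard, hvals⟩ := Cfsg.Agent.H5.klein_main hM hx hC hN hidx hsec
  classical
  have hmem : (⟨_, Cfsg.Agent.H5.isIrrCharacter_trivial⟩ : IrrCharacter G) ∈ Cfsg.Agent.H5.bF (principalBlock M G) :=
    Cfsg.Agent.H5.mem_bF.mpr Cfsg.Agent.H5.one_mem_principal
  have herase : ((Cfsg.Agent.H5.bF (principalBlock M G)).erase (⟨_, Cfsg.Agent.H5.isIrrCharacter_trivial⟩ : IrrCharacter G)).card = 3 := by
    rw [Finset.card_erase_of_mem hmem, hcard]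
  obtain ⟨a, b, c, hab, hac, hbc, habc⟩ := Finset.card_eq_three.mp herase
  have hB : Cfsg.Agent.H5.bF (principalBlock M G) = {⟨_, Cfsg.Agent.H5.isIrrCharacter_trivial⟩, a, b, c} := by
    rw [← Finset.insert_erase hmem, habc]
  have hne : ∀ d ∈ ({a, b, c} : Finset (IrrCharacter G)), d ≠ ⟨_, Cfsg.Agent.H5.isIrrCharacter_trivial⟩ := by
    intro d hd
    rw [← habc] at hd
    exact Finset.ne_of_mem_erase hd
  have ha1 := hne a (by simp)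
  have hb1 := hne b (by simp)
  have hc1 := hne c (by simp)
  have key : ∀ (ζ₂ ζ₃ ζ₄ : IrrCharacter G) (ε : ℤ), (ε = 1 ∨ ε = -1) → Cfsg.Agent.H5.bF (principalBlock M G) = {⟨_, Cfsg.Agent.H5.isIrrCharacter_trivial⟩, ζ₂, ζ₃, ζ₄} →
      ζ₂ ≠ ⟨_, Cfsg.Agent.H5.isIrrCharacter_trivial⟩ → ζ₃ ≠ ⟨_, Cfsg.Agent.H5.isIrrCharacter_trivial⟩ → ζ₄ ≠ ⟨_, Cfsg.Agent.H5.isIrrCharacter_trivial⟩ →
      ζ₂ ≠ ζ₃ → ζ₂ ≠ ζ₄ → ζ₃ ≠ ζ₄ → (ζ₂ : G → ℂ) x = 1 → (ζ₃ : G → ℂ) x = ε → (ζ₄ : G → ℂ) x = -1 →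
      ∃ ζ₂ ζ₃ ζ₄ : IrrCharacter G, ∃ ε : ℤ, (ε = 1 ∨ ε = -1) ∧ (ζ₂ : G → ℂ) ≠ (fun _ => 1) ∧ (ζ₃ : G → ℂ) ≠ (fun _ => 1) ∧ ζ₂ ≠ ζ₃ ∧ ζ₂ ≠ ζ₄ ∧ ζ₃ ≠ ζ₄ ∧ principalBlock M G = {χ : IrrCharacter G | (χ : G → ℂ) = (fun _ => 1) ∨ χ = ζ₂ ∨ χ = ζ₃ ∨ χ = ζ₄} ∧ (∀ z : G, orderOf z = 2 → (ζ₂ : G → ℂ) z = 1 ∧ (ζ₃ : G → ℂ) z = (ε : ℂ) ∧ (ζ₄ : G → ℂ) z = -1) ∧ (4 : ℤ) ∣ (charDegree (ζ₂ : G → ℂ) : ℤ) - 1 ∧ (4 : ℤ) ∣ (charDegree (ζ₃ : G → ℂ) : ℤ) - ε ∧ (4 : ℤ) ∣ (charDegree (ζ₄ : G → ℂ) : ℤ) + 1 ∧ ∀ y : G, Odd (orderOf y) → 1 + (ζ₂ : G → ℂ) y + (ε : ℂ) * (ζ₃ : G → ℂ) y - (ζ₄ : G → ℂ) y = 0 := by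
    intro ζ₂ ζ₃ ζ₄ ε hε hBF h21 h31 h41 h23 h24 h34 hv2 hv3 hv4
    have hz : ∀ (χ : IrrCharacter G) (v : ℂ), (χ : G → ℂ) x = v → ∀ z : G, orderOf z = 2 → (χ : G → ℂ) z = v := by
      intro χ v hv z hz
      rw [← hv]
      exact (Cfsg.Agent.H5.IsClassFunction.eq_of_isConj (Cfsg.Agent.H5.irr_classFun χ) (hone' z hz)).symm
    refine ⟨ζ₂, ζ₃, ζ₄, ε, hε, fun h => h21 (Subtype.ext h), fun h => h31 (Subtype.ext h), h23, h24, h34, ?_, ?_, ?_, ?_, ?_, ?_⟩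
    · ext χ
      rw [← Cfsg.Agent.H5.mem_bF, hBF]
      simp only [Finset.mem_insert, Finset.mem_singleton, Set.mem_ofPred_eq]
      constructor
      · rintro (h | h)
        · left; rw [h]
        · right; exact h
      · rintro (h | h)
        · left; exact Subtype.ext h
        · right; exact h
    · intro z hzz
      exact ⟨hz ζ₂ _ hv2 z hzz, hz ζ₃ _ hv3 z hzz, hz ζ₄ _ hv4 z hzz⟩
    · exact Cfsg.Agent.H5.klein_deg_mod hPc hexp (ε := 1) (fun s hs => by rw [hz ζ₂ _ hv2 s hs]; simp)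
    · exact Cfsg.Agent.H5.klein_deg_mod hPc hexp (ε := ε) (fun s hs => hz ζ₃ _ hv3 s hs)
    · have := Cfsg.Agent.H5.klein_deg_mod hPc hexp (ε := -1) (χ := ζ₄) (fun s hs => by rw [hz ζ₄ _ hv4 s hs]; simp)
      rwa [sub_neg_eq_add] at this
    · intro y hy
      have hy2 : ¬ 2 ∣ orderOf y := by
        intro h; exact (Nat.not_even_iff_odd.mpr hy) (even_iff_two_dvd.mpr h)
      have h5 := Cfsg.Agent.H5.klein_rel hM hx hy2
      rw [hBF, Finset.sum_insert, Finset.sum_insert, Finset.sum_insert, Finset.sum_singleton, hv2, hv3, hv4] at h5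
      · change (1 : ℂ) * 1 + _ = 0 at h5
        rw [← h5]; ring
      · simp [h34]
      · simp [h23, h24]
      · simp [Ne.symm h21, Ne.symm h31, Ne.symm h41]
  have hrel := Cfsg.Agent.H5.klein_rel hM hx (y := 1) Cfsg.Agent.H5.not_dvd_one
  have hvmem : ∀ d ∈ ({a, b, c} : Finset (IrrCharacter G)), (d : G → ℂ) x = 1 ∨ (d : G → ℂ) x = -1 := by
    intro d hd
    apply hvals
    rw [hB]
    exact Finset.mem_insert_of_mem hd
  have hrel' : (1 : ℂ) + (a : G → ℂ) x * charDegree (a : G → ℂ) + (b : G → ℂ) x * charDegree (b : G → ℂ) + (c : G → ℂ) x * charDegree (c : G → ℂ) = 0 := by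
    rw [hB, Finset.sum_insert, Finset.sum_insert, Finset.sum_insert, Finset.sum_singleton] at hrel
    · rw [Cfsg.Agent.H5.IsCharacter.one_eq_charDegree (Cfsg.Agent.H5.irr_isCharacter a), Cfsg.Agent.H5.IsCharacter.one_eq_charDegree (Cfsg.Agent.H5.irr_isCharacter b), Cfsg.Agent.H5.IsCharacter.one_eq_charDegree (Cfsg.Agent.H5.irr_isCharacter c)] at hrel
      change (1 : ℂ) * 1 + _ = 0 at hrel
      rw [← hrel]; ring
    · simp [hbc]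
    · simp [hab, hac]
    · simp [Ne.symm ha1, Ne.symm hb1, Ne.symm hc1]
  have hpa := Cfsg.Agent.H5.charDegree_pos a.2
  have hpb := Cfsg.Agent.H5.charDegree_pos b.2
  have hpc := Cfsg.Agent.H5.charDegree_pos c.2
  rcases hvmem a (by simp) with va | va <;> rcases hvmem b (by simp) with vb | vb <;> rcases hvmem c (by simp) with vc | vc
  · exfalso
    rw [va, vb, vc] at hrel'
    have : (1 + charDegree (a : G → ℂ) + charDegree (b : G → ℂ) + charDegree (c : G → ℂ) : ℤ) = 0 := by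
      have : ((1 + charDegree (a : G → ℂ) + charDegree (b : G → ℂ) + charDegree (c : G → ℂ) : ℤ) : ℂ) = 0 := by
        rw [← hrel']; push_cast; ring
      exact_mod_cast this
    omega
  · exact key a b c 1 (Or.inl rfl) hB ha1 hb1 hc1 hab hac hbc va (by rw [vb]; simp) vc
  · exact key a c b 1 (Or.inl rfl) (by rw [hB]; congr 2; exact Finset.pair_comm b c) ha1 hc1 hb1 hac hab hbc.symm va (by rw [vc]; simp) vb
  · exact key a b c (-1) (Or.inr rfl) hB ha1 hb1 hc1 hab hac hbc va (by rw [vb]; simp) vc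
  · exact key b c a 1 (Or.inl rfl) (by rw [hB]; ext χ; simp only [Finset.mem_insert, Finset.mem_singleton]; tauto) hb1 hc1 ha1 hbc hab.symm hac.symm vb (by rw [vc]; simp) va
  · exact key b a c (-1) (Or.inr rfl) (by rw [hB]; ext χ; simp only [Finset.mem_insert, Finset.mem_singleton]; tauto) hb1 ha1 hc1 hab.symm hbc hac vb (by rw [va]; simp) vc
  · exact key c b a (-1) (Or.inr rfl) (by rw [hB]; ext χ; simp only [Finset.mem_insert, Finset.mem_singleton]; tauto) hc1 hb1 ha1 hbc.symm hac.symm hab.symm vc (by rw [vb]; simp) va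
  · exfalso
    rw [va, vb, vc] at hrel'
    have : (1 - charDegree (a : G → ℂ) - charDegree (b : G → ℂ) - charDegree (c : G → ℂ) : ℤ) = 0 := by
      have : ((1 - charDegree (a : G → ℂ) - charDegree (b : G → ℂ) - charDegree (c : G → ℂ) : ℤ) : ℂ) = 0 := by
        rw [← hrel']; push_cast; ring
      exact_mod_cast this
    omega

end Cfsg.Agent.S0948
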