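import Cfsg.Statements.S0950
import Cfsg.Agent.H3.Basic
import Cfsg.Agent.S0071

set_option autoImplicit false
open Cfsg

namespace Cfsg.Agent.S0950

theorem d1 : ∀ x y t : QuaternionGroup 2, x * x ≠ 1 → y * y ≠ 1 → y ≠ x → y ≠ x⁻¹ →
      t = 1 ∨ t = x * x ∨ t = x ∨ t = x⁻¹ ∨ t = y ∨ t = y⁻¹ ∨ t = x * y ∨ t = (x * y)⁻¹ := by decide +kernel

theorem d2 : ∀ x y : QuaternionGroup 2, x * x = 1 → x ≠ 1 → y * y = 1 → y ≠ 1 → x = y := by decide +kernel

set_option synthInstance.maxHeartbeats 0 in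
set_option synthInstance.maxSize 100000 in
set_option maxHeartbeats 0 in
theorem d3 : ∀ x y w : QuaternionGroup 2, x * x ≠ 1 → y * y ≠ 1 → w * w ≠ 1 → y ≠ x → y ≠ x⁻¹ → w ≠ x → w ≠ x⁻¹ → w ≠ y → w ≠ y⁻¹ →
      ∀ b, b * b ≠ 1 → b = x ∨ b = x⁻¹ ∨ b = y ∨ b = y⁻¹ ∨ b = w ∨ b = w⁻¹ := by decide +kernel

theorem d4 : ∀ x : QuaternionGroup 2, x * x * (x * x) = 1 := by decide +kernel

theorem d5 : ∀ a x : QuaternionGroup 2, a * a ≠ 1 → x * x ≠ 1 → x ≠ a → x ≠ a⁻¹ → (a * x)⁻¹ = a⁻¹ * x := by decide +kernel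

/-- Let S be a Sylow 2-subgroup of the finite group G that is isomorphic to the quaternion group of order 8, and suppose S has no normal complement in G. Then any two subgroups of order 4 of S are conjugate by an element of the normalizer of S. -/
theorem result {G : Type*} [Group G] [Finite G] (S : Sylow 2 G) (e : (S : Subgroup G) ≃* QuaternionGroup 2) (hnc : ∀ N : Subgroup G, N.Normal → ¬ Subgroup.IsComplement' N (S : Subgroup G)) (A B : Subgroup G) (hA : A ≤ S) (hB : B ≤ S) (hA4 : Nat.card A = 4) (hB4 : Nat.card B = 4) : ∃ n ∈ Subgroup.normalizer ((S : Subgroup G) : Set G), B = A.map (MulAut.conj n).toMonoidHom := by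
  classical
  haveI : Fact (Nat.Prime 2) := ⟨Nat.prime_two⟩
  have inj' : ∀ p q : (S : Subgroup G), e p = (e q)⁻¹ → p = q⁻¹ := fun p q h => e.injective (by rw [map_inv]; exact h)
  have hSm : ∀ g ∈ Subgroup.normalizer ((S : Subgroup G) : Set G), ∀ x ∈ (S : Subgroup G), g * x * g⁻¹ ∈ (S : Subgroup G) :=
    fun g hg x hx => (Subgroup.mem_normalizer_iff.1 hg x).1 hx
  have key : ∃ Q : Subgroup G, Q ≤ (S : Subgroup G) ∧ ∃ g ∈ Subgroup.normalizer (Q : Set G), Nat.Coprime (orderOf g) 2 ∧ g ∉ Subgroup.centralizer (Q : Set G) := by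
    by_contra hcon
    push Not at hcon
    obtain ⟨N, hN, hNc⟩ := (Cfsg.Agent.S0071.result (p := 2) S).2 (fun Q hQ g hg hc => hcon Q hQ g hg hc)
    exact hnc N hN hNc
  obtain ⟨Q, hQS, g, hgN, hgo, hgC⟩ := key
  have hgm : Odd (orderOf g) := by
    rcases Nat.even_or_odd (orderOf g) with h | h
    · exfalso
      have := Nat.Coprime.eq_one_of_dvd (hgo.symm) h.two_dvd
      omega
    · exact h
  have hgen : ∀ h : G, h ^ orderOf g = 1 → ∀ x, Commute (h ^ 2) x → Commute h x := by
    intro h hh x hx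
    obtain ⟨k, hk⟩ := hgm
    have h1 : h = (h ^ 2) ^ (k + 1) := by
      rw [← pow_mul]
      calc h = h ^ (orderOf g) * h := by rw [hh, one_mul]
        _ = h ^ (2 * (k + 1)) := by rw [← pow_succ, hk]; congr 1
    rw [h1]
    exact hx.pow_left _
  have hg2 : ∀ x, Commute (g ^ 2) x → Commute g x := hgen g (pow_orderOf_eq_one g)
  have hg4 : ∀ x, Commute ((g ^ 2) ^ 2) x → Commute g x := fun x hx =>
    hg2 x (hgen (g ^ 2) (by rw [← pow_mul, mul_comm, pow_mul, pow_orderOf_eq_one, one_pow]) x hx)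
  have hinv : ∀ x : G, g * x * g⁻¹ = x ∨ g * x * g⁻¹ = x⁻¹ → Commute g x := by
    intro x hx
    rcases hx with h | h
    · exact mul_inv_eq_iff_eq_mul.1 h
    · apply hg2
      have h2 : g * (g * x * g⁻¹) * g⁻¹ = x := by
        rw [h]
        calc g * x⁻¹ * g⁻¹ = (g * x * g⁻¹)⁻¹ := by group
          _ = x := by rw [h, inv_inv]
      have h3 : g ^ 2 * x = x * g ^ 2 := by
        calc g ^ 2 * x = (g * (g * x * g⁻¹) * g⁻¹) * g ^ 2 := by rw [pow_two]; group
          _ = _ := by rw [h2]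
      exact h3
  -- transfer of facts
  have tr1 : ∀ x : (S : Subgroup G), e x * e x ≠ 1 ↔ x * x ≠ 1 := fun x => by rw [← map_mul, Ne, Ne, EmbeddingLike.map_eq_one_iff]
  have f1 : ∀ x y t : (S : Subgroup G), x * x ≠ 1 → y * y ≠ 1 → y ≠ x → y ≠ x⁻¹ →
      t = 1 ∨ t = x * x ∨ t = x ∨ t = x⁻¹ ∨ t = y ∨ t = y⁻¹ ∨ t = x * y ∨ t = (x * y)⁻¹ := by
    intro x y t h1 h2 h3 h4
    have := d1 (e x) (e y) (e t) ((tr1 x).2 h1) ((tr1 y).2 h2) (fun h => h3 (e.injective h)) (fun h => h4 (e.injective (by rw [map_inv]; exact h)))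
    rcases this with h | h | h | h | h | h | h | h
    · exact Or.inl (e.injective (by rw [h, map_one]))
    · exact Or.inr (Or.inl (e.injective (by rw [h, map_mul])))
    · exact Or.inr (Or.inr (Or.inl (e.injective h)))
    · exact Or.inr (Or.inr (Or.inr (Or.inl (e.injective (by rw [h, map_inv])))))
    · exact Or.inr (Or.inr (Or.inr (Or.inr (Or.inl (e.injective h)))))
    · exact Or.inr (Or.inr (Or.inr (Or.inr (Or.inr (Or.inl (e.injective (by rw [h, map_inv])))))))
    · exact Or.inr (Or.inr (Or.inr (Or.inr (Or.inr (Or.inr (Or.inl (e.injective (by rw [h, map_mul]))))))))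
    · exact Or.inr (Or.inr (Or.inr (Or.inr (Or.inr (Or.inr (Or.inr (e.injective (by rw [h, map_inv, map_mul]))))))))
  have f2 : ∀ x y : (S : Subgroup G), x * x = 1 → x ≠ 1 → y * y = 1 → y ≠ 1 → x = y := by
    intro x y h1 h2 h3 h4
    apply e.injective
    exact d2 (e x) (e y) (by rw [← map_mul, h1, map_one]) (fun h => h2 (e.injective (by rw [h, map_one]))) (by rw [← map_mul, h3, map_one]) (fun h => h4 (e.injective (by rw [h, map_one])))
  -- involutions commute with g whenever they stay in S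
  have hinvol : ∀ x ∈ (S : Subgroup G), g * x * g⁻¹ ∈ (S : Subgroup G) → x * x = 1 → Commute g x := by
    intro x hx hgx h
    by_cases hx1 : x = 1
    · rw [hx1]; exact Commute.one_right g
    apply hinv
    left
    have := f2 ⟨g * x * g⁻¹, hgx⟩ ⟨x, hx⟩ (Subtype.ext (by change g * x * g⁻¹ * (g * x * g⁻¹) = 1; calc g * x * g⁻¹ * (g * x * g⁻¹) = g * (x * x) * g⁻¹ := by group
                                                                                                 _ = 1 := by rw [h]; group))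
      (fun h' => hx1 (by
        have h3 : g * x * g⁻¹ = 1 := congrArg Subtype.val h'
        have h4 : x = g⁻¹ * (g * x * g⁻¹) * g := by group
        rw [h4, h3]; group))
      (Subtype.ext h) (fun h' => hx1 (congrArg Subtype.val h'))
    exact congrArg Subtype.val this
  have hex : ∃ x ∈ Q, ¬ Commute g x := by
    by_contra hcon
    push Not at hcon
    apply hgC
    rw [Subgroup.mem_centralizer_iff]
    intro x hx
    exact (hcon x hx).eq.symm
  obtain ⟨x, hxQ, hxg⟩ := hex
  have hxS := hQS hxQ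
  have hgxQ : g * x * g⁻¹ ∈ Q := (Subgroup.mem_normalizer_iff.1 hgN x).1 hxQ
  have hxx : x * x ≠ 1 := fun h => hxg (hinvol x hxS (hQS hgxQ) h)
  set y := g * x * g⁻¹ with hy
  have hyS : y ∈ (S : Subgroup G) := hQS hgxQ
  have hyy : y * y ≠ 1 := by
    intro h
    apply hxx
    have h4 : x * x = g⁻¹ * (y * y) * g := by rw [hy]; group
    rw [h4, h]; group
  have hyx : y ≠ x := fun h => hxg (hinv x (Or.inl h))
  have hyx' : y ≠ x⁻¹ := fun h => hxg (hinv x (Or.inr h))
  have hQeq : Q = (S : Subgroup G) := by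
    apply le_antisymm hQS
    intro t ht
    have := f1 ⟨x, hxS⟩ ⟨y, hyS⟩ ⟨t, ht⟩ (fun h => hxx (congrArg Subtype.val h)) (fun h => hyy (congrArg Subtype.val h))
      (fun h => hyx (congrArg Subtype.val h)) (fun h => hyx' (congrArg Subtype.val h))
    rcases this with h | h | h | h | h | h | h | h <;> have h' : t = _ := congrArg Subtype.val h <;> rw [h']
    · exact one_mem Q
    · exact mul_mem hxQ hxQ
    · exact hxQ
    · exact inv_mem hxQ
    · exact hgxQ
    · exact inv_mem hgxQ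
    · exact mul_mem hxQ hgxQ
    · exact inv_mem (mul_mem hxQ hgxQ)
  rw [hQeq] at hgN
  -- g moves every element of order four away from its cyclic group
  have hmove : ∀ a ∈ (S : Subgroup G), a * a ≠ 1 → ¬ Commute g a := by
    intro a ha haa hga
    -- a, x noncommuting with g: a ∉ {x, x⁻¹}
    have hax : a ≠ x := fun h => hxg (h ▸ hga)
    have hax' : a ≠ x⁻¹ := fun h => hxg (by
      have : Commute g x⁻¹ := h ▸ hga
      exact Commute.inv_right_iff.1 this)
    -- a = ± x y type; y = g x g⁻¹; then g a g⁻¹ = a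
    have hxa : x ≠ a := fun h => hax h.symm
    have hxa' : x ≠ a⁻¹ := fun h => hax' (by rw [h, inv_inv])
    have hbx : ∀ b : G, Commute g b → b * b * (b * b) = 1 → y = b * x → False := by
      intro b hgb hb4 hyb
      apply hxg
      apply hg4
      have e1 : g * x = b * x * g := mul_inv_eq_iff_eq_mul.1 hyb
      have hgb' : g * b = b * g := hgb
      have e2 : g ^ 2 * x = b * b * x * g ^ 2 := by
        calc g ^ 2 * x = g * (g * x) := by rw [pow_two, mul_assoc]
          _ = g * (b * x * g) := by rw [e1]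
          _ = (g * b) * x * g := by group
          _ = b * (g * x) * g := by rw [hgb']; group
          _ = b * (b * x * g) * g := by rw [e1]
          _ = b * b * x * g ^ 2 := by rw [pow_two]; group
      have e3 : g ^ 2 * (b * b) = b * b * g ^ 2 := ((hgb.mul_right hgb).pow_left 2)
      have e4 : (g ^ 2) ^ 2 * x = x * (g ^ 2) ^ 2 := by
        calc (g ^ 2) ^ 2 * x = g ^ 2 * (g ^ 2 * x) := by rw [pow_two (g ^ 2), mul_assoc]
          _ = g ^ 2 * (b * b * x * g ^ 2) := by rw [e2]
          _ = (g ^ 2 * (b * b)) * x * g ^ 2 := by group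
          _ = b * b * (g ^ 2 * x) * g ^ 2 := by rw [e3]; group
          _ = b * b * (b * b * x * g ^ 2) * g ^ 2 := by rw [e2]
          _ = (b * b * (b * b)) * x * (g ^ 2) ^ 2 := by rw [pow_two (g ^ 2)]; group
          _ = x * (g ^ 2) ^ 2 := by rw [hb4, one_mul]
      exact e4
    have f4 : ∀ b : (S : Subgroup G), b * b * (b * b) = 1 := fun b => e.injective (by rw [map_mul, map_mul, map_one]; exact d4 _)
    have hz := f1 ⟨a, ha⟩ ⟨x, hxS⟩ ⟨y, hyS⟩ (fun h => haa (congrArg Subtype.val h)) (fun h => hxx (congrArg Subtype.val h))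
      (fun h => hxa (congrArg Subtype.val h)) (fun h => hxa' (congrArg Subtype.val h))
    have hback : x = g⁻¹ * y * g := by rw [hy]; group
    have hga' : g * a = a * g := hga
    rcases hz with h | h | h | h | h | h | h | h
    · have h' : y = 1 := congrArg Subtype.val h
      exact hyy (by rw [h', one_mul])
    · have h' : y = a * a := congrArg Subtype.val h
      exact hyy (by rw [h']; exact congrArg Subtype.val (f4 ⟨a, ha⟩))
    · have h' : y = a := congrArg Subtype.val h
      apply hxa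
      rw [hback, h', mul_assoc, ← hga', inv_mul_cancel_left]
    · have h' : y = a⁻¹ := congrArg Subtype.val h
      apply hxa'
      have h2 : g * a⁻¹ = a⁻¹ * g := hga.inv_right
      rw [hback, h', mul_assoc, ← h2, inv_mul_cancel_left]
    · exact hyx (congrArg Subtype.val h)
    · exact hyx' (congrArg Subtype.val h)
    · exact hbx a hga (congrArg Subtype.val (f4 ⟨a, ha⟩)) (congrArg Subtype.val h)
    · have h5 : ((⟨a, ha⟩ : (S : Subgroup G)) * ⟨x, hxS⟩)⁻¹ = (⟨a, ha⟩ : (S : Subgroup G))⁻¹ * ⟨x, hxS⟩ := by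
        apply e.injective
        rw [map_inv, map_mul, map_mul, map_inv]
        exact d5 _ _ ((tr1 _).2 (fun h => haa (congrArg Subtype.val h))) ((tr1 _).2 (fun h => hxx (congrArg Subtype.val h)))
          (fun h => hxa (congrArg Subtype.val (e.injective h))) (fun h => hxa' (congrArg Subtype.val (inj' _ _ h)))
      rw [h5] at h
      exact hbx a⁻¹ hga.inv_right (congrArg Subtype.val (f4 ⟨a, ha⟩⁻¹)) (congrArg Subtype.val h)
  -- generators
  have hgenr : ∀ A : Subgroup G, A ≤ (S : Subgroup G) → Nat.card A = 4 → ∃ a ∈ (S : Subgroup G), a * a ≠ 1 ∧ A = Subgroup.zpowers a := by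
    intro A hA hA4
    obtain ⟨a, haA, haa⟩ : ∃ a ∈ A, a * a ≠ 1 := by
      by_contra hcon
      push Not at hcon
      have h1 : Nat.card A ≤ 2 := by
        have hinj : Function.Injective (fun a : A => decide (a = 1)) := by
          intro a b hab
          change decide (a = 1) = decide (b = 1) at hab
          by_cases ha : a = 1
          · rw [decide_eq_true ha, eq_comm, decide_eq_true_iff] at hab
            rw [ha, hab]
          · rw [decide_eq_false ha, eq_comm, decide_eq_false_iff_not] at hab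
            have := f2 ⟨a.1, hA a.2⟩ ⟨b.1, hA b.2⟩ (Subtype.ext (hcon a.1 a.2)) (fun h => ha (Subtype.ext (show a.1 = 1 from congrArg Subtype.val h)))
              (Subtype.ext (hcon b.1 b.2)) (fun h => hab (Subtype.ext (show b.1 = 1 from congrArg Subtype.val h)))
            have h9 := Subtype.ext_iff.1 this
            exact Subtype.ext h9
        have := Nat.card_le_card_of_injective _ hinj
        rwa [Nat.card_eq_fintype_card (α := Bool), Fintype.card_bool] at this
      omega
    refine ⟨a, hA haA, haa, ?_⟩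
    symm
    apply Subgroup.eq_of_le_of_card_ge (by rw [Subgroup.zpowers_le]; exact haA)
    rw [hA4, Nat.card_zpowers]
    have h1 : orderOf a ∣ 2 ^ 2 := by
      have := Subgroup.orderOf_dvd_natCard _ haA
      rwa [hA4] at this
    obtain ⟨j, hj, hj'⟩ := (Nat.dvd_prime_pow Nat.prime_two).1 h1
    have h2 : j = 2 := by
      by_contra hj2
      apply haa
      have h3 : orderOf a ∣ 2 := by
        rw [hj']
        exact (pow_dvd_pow 2 (by omega : j ≤ 1)).trans (by norm_num)
      rw [← pow_two]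
      exact orderOf_dvd_iff_pow_eq_one.1 h3
    rw [hj', h2]
    norm_num
  obtain ⟨a, haS, haa, rfl⟩ := hgenr A hA hA4
  obtain ⟨b, hbS, hbb, rfl⟩ := hgenr B hB hB4
  have hsqc : ∀ (n c : G), c * c ≠ 1 → (n * c * n⁻¹) * (n * c * n⁻¹) ≠ 1 := by
    intro n c hc h
    apply hc
    have h4 : c * c = n⁻¹ * ((n * c * n⁻¹) * (n * c * n⁻¹)) * n := by group
    rw [h4, h]; group
  have h1S := hSm g hgN a haS
  have h2S := hSm g hgN _ h1S
  have n1 := hmove a haS haa
  have n2 := hmove _ h1S (hsqc g a haa)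
  have hw2 : g * (g * a * g⁻¹) * g⁻¹ = g ^ 2 * a * (g ^ 2)⁻¹ := by rw [pow_two]; group
  have n3 : g * (g * a * g⁻¹) * g⁻¹ ≠ a := by
    intro h
    rw [hw2] at h
    exact n1 (hg2 a (mul_inv_eq_iff_eq_mul.1 h))
  have n4 : g * (g * a * g⁻¹) * g⁻¹ ≠ a⁻¹ := by
    intro h
    rw [hw2] at h
    apply n1
    apply hg4
    have h5 : g ^ 2 * (g ^ 2 * a * (g ^ 2)⁻¹) * (g ^ 2)⁻¹ = a := by
      rw [h]
      calc g ^ 2 * a⁻¹ * (g ^ 2)⁻¹ = (g ^ 2 * a * (g ^ 2)⁻¹)⁻¹ := by group
        _ = a := by rw [h, inv_inv]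
    have h6 : (g ^ 2) ^ 2 * a * ((g ^ 2) ^ 2)⁻¹ = a := by
      calc (g ^ 2) ^ 2 * a * ((g ^ 2) ^ 2)⁻¹ = g ^ 2 * (g ^ 2 * a * (g ^ 2)⁻¹) * (g ^ 2)⁻¹ := by rw [pow_two (g ^ 2)]; group
        _ = a := h5
    exact mul_inv_eq_iff_eq_mul.1 h6
  have hfin := d3 (e ⟨a, haS⟩) (e ⟨_, h1S⟩) (e ⟨_, h2S⟩) ((tr1 _).2 (fun h => haa (congrArg Subtype.val h)))
    ((tr1 _).2 (fun h => hsqc g a haa (congrArg Subtype.val h))) ((tr1 _).2 (fun h => hsqc g _ (hsqc g a haa) (congrArg Subtype.val h)))
    (fun h => n1 (hinv a (Or.inl (congrArg Subtype.val (e.injective h)))))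
    (fun h => n1 (hinv a (Or.inr (congrArg Subtype.val (inj' _ _ h)))))
    (fun h => n3 (congrArg Subtype.val (e.injective h)))
    (fun h => n4 (congrArg Subtype.val (inj' _ _ h)))
    (fun h => n2 (hinv _ (Or.inl (congrArg Subtype.val (e.injective h)))))
    (fun h => n2 (hinv _ (Or.inr (congrArg Subtype.val (inj' _ _ h)))))
    (e ⟨b, hbS⟩) ((tr1 _).2 (fun h => hbb (congrArg Subtype.val h)))
  have hmap : ∀ n : G, (Subgroup.zpowers a).map (MulAut.conj n).toMonoidHom = Subgroup.zpowers (n * a * n⁻¹) := by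
    intro n
    rw [MonoidHom.map_zpowers]
    rfl
  rcases hfin with h | h | h | h | h | h
  · have h' : b = a := congrArg Subtype.val (e.injective h)
    exact ⟨1, one_mem _, by rw [hmap, h']; simp⟩
  · have h' : b = a⁻¹ := congrArg Subtype.val (inj' _ _ h)
    exact ⟨1, one_mem _, by rw [hmap, h', Subgroup.zpowers_inv]; simp⟩
  · have h' : b = g * a * g⁻¹ := congrArg Subtype.val (e.injective h)
    exact ⟨g, hgN, by rw [hmap, h']⟩
  · have h' : b = (g * a * g⁻¹)⁻¹ := congrArg Subtype.val (inj' _ _ h)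
    exact ⟨g, hgN, by rw [hmap, h', Subgroup.zpowers_inv]⟩
  · have h' : b = g * (g * a * g⁻¹) * g⁻¹ := congrArg Subtype.val (e.injective h)
    exact ⟨g ^ 2, pow_mem hgN 2, by rw [hmap, h', hw2]⟩
  · have h' : b = (g * (g * a * g⁻¹) * g⁻¹)⁻¹ := congrArg Subtype.val (inj' _ _ h)
    exact ⟨g ^ 2, pow_mem hgN 2, by rw [hmap, h', Subgroup.zpowers_inv, hw2]⟩

end Cfsg.Agent.S0950
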