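import Cfsg.Statements.S0954
import Cfsg.Agent.H5.V3

set_option autoImplicit false
open Cfsg

namespace Cfsg.Agent.S0954

/-- Let N be a normal subgroup of the finite group G of order prime to p and of p-power index (a normal p-complement), and fix a maximal ideal M of the algebraic integers containing p. Then two irreducible characters χ, ψ of G lie in the same block if and only if some irreducible character of N has nonzero inner product with both the restriction of χ and the restriction of ψ. -/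
theorem result {G : Type*} [Group G] [Fintype G] (p : ℕ) [Fact p.Prime] (M : Ideal Cfsg.AlgInt) (hM : Cfsg.IsPModular p M) (N : Subgroup G) [N.Normal] [Fintype N] (hN : ¬ p ∣ Nat.card N) (hidx : ∃ k : ℕ, N.index = p ^ k) (χ ψ : Cfsg.IrrCharacter G) : Cfsg.SameBlock M (χ : G → ℂ) (ψ : G → ℂ) ↔ ∃ θ : Cfsg.IrrCharacter N, Cfsg.classInner (fun n : N => (χ : G → ℂ) n) (θ : N → ℂ) ≠ 0 ∧ Cfsg.classInner (fun n : N => (ψ : G → ℂ) n) (θ : N → ℂ) ≠ 0 := by
  have hprime := Cfsg.Agent.H5.isPrime_of_isPModular hM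
  constructor
  · intro h
    obtain ⟨θ, hθ⟩ := Cfsg.Agent.H5.exists_under (N := N) χ
    exact ⟨θ, hθ, Cfsg.Agent.H5.under_iff_of_preg hM hN h hθ⟩
  · rintro ⟨θ, h1, h2⟩
    have hb := Cfsg.Agent.H5.isPBlock_blockOf (M := M) θ
    obtain ⟨B, -, huniq⟩ := Cfsg.Agent.H5.exists_unique_cov hM hidx hb
    have e1 := huniq _ ⟨Cfsg.Agent.H5.isPBlock_blockOf (M := M) χ,
      Cfsg.Agent.H5.cov_of (Cfsg.Agent.H5.mem_blockOf_self χ) (Cfsg.Agent.H5.mem_blockOf_self θ) h1⟩
    have e2 := huniq _ ⟨Cfsg.Agent.H5.isPBlock_blockOf (M := M) ψ,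
      Cfsg.Agent.H5.cov_of (Cfsg.Agent.H5.mem_blockOf_self ψ) (Cfsg.Agent.H5.mem_blockOf_self θ) h2⟩
    have h3 : ψ ∈ Cfsg.blockOf M (χ : G → ℂ) := by
      rw [e1, ← e2]; exact Cfsg.Agent.H5.mem_blockOf_self ψ
    exact h3

end Cfsg.Agent.S0954
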