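import Cfsg.Statements.S0955
import Cfsg.Agent.H5.Block8

set_option autoImplicit false
open Cfsg

namespace Cfsg.Agent.S0955

/-- Let D be a defect group of a block of the finite group G relative to a maximal ideal M of the algebraic integers containing the prime p. Then D is the largest normal p-subgroup of its own normalizer: O_p(N_G(D)) = D. -/
theorem result {G : Type*} [Group G] [Finite G] (p : ℕ) [Fact p.Prime] (M : Ideal Cfsg.AlgInt) (hM : Cfsg.IsPModular p M) (B : Set (Cfsg.IrrCharacter G)) (hB : Cfsg.IsPBlock M B) (D : Subgroup G) (hD : Cfsg.IsDefectGroup p M B D) : (Cfsg.pCore p (Subgroup.normalizer (D : Set G))).map (Subgroup.normalizer (D : Set G)).subtype = D := by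
  have := Fintype.ofFinite G
  have := Fintype.ofFinite (Subgroup.normalizer (D : Set G))
  obtain ⟨b, hb, hbD, hbB⟩ := Cfsg.Agent.H5.first_main_exists hM hB hD
  have h1 := Cfsg.Agent.L0.pCore_characteristic p (Subgroup.normalizer (D : Set G))
  have h2 := Cfsg.Agent.H5.normal_p_le_defect hM
    (Cfsg.Agent.L0.pCore_isPGroup p (Subgroup.normalizer (D : Set G))) hb hbD
  have hDN : D ≤ Subgroup.normalizer (D : Set G) := Subgroup.le_normalizer
  have h3 := Cfsg.Agent.H5.subgroupOf_normal_normalizer D
  have h4 : IsPGroup p (D.subgroupOf (Subgroup.normalizer (D : Set G))) :=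
    (Cfsg.Agent.H5.isDefectGroup_isPGroup hD).comap_of_injective _ (Subgroup.subtype_injective _)
  have h5 := Cfsg.Agent.L0.le_pCore h4
  rw [le_antisymm h2 h5, Subgroup.subgroupOf_map_subtype, inf_eq_left.mpr hDN]

end Cfsg.Agent.S0955
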