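import Cfsg.Statements.S0957
import Cfsg.Agent.H5.Syl2

set_option autoImplicit false
open Cfsg

namespace Cfsg.Agent.S0957

/-- Let P be a Sylow p-subgroup of the finite group G, let g, h ∈ G and let p ^ d be the order of a Sylow p-subgroup of the centralizer of g. Then the number of pairs (y, z) with y conjugate to g, z conjugate to h and z * y⁻¹ ∈ P is divisible by the order of P divided by p ^ d. -/
theorem result {G : Type*} [Group G] [Finite G] (p : ℕ) [Fact p.Prime] (P : Sylow p G) (g h : G) (S : Sylow p (Subgroup.centralizer ({g} : Set G))) : Nat.card P / Nat.card S ∣ Nat.card {yz : G × G // IsConj g yz.1 ∧ IsConj h yz.2 ∧ yz.2 * yz.1⁻¹ ∈ (P : Subgroup G)} := by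
  classical
  let Ω := {yz : G × G // IsConj g yz.1 ∧ IsConj h yz.2 ∧ yz.2 * yz.1⁻¹ ∈ (P : Subgroup G)}
  letI : MulAction (P : Subgroup G) Ω := {
    smul := fun u ω => ⟨((u : G) * ω.1.1 * (u : G)⁻¹, (u : G) * ω.1.2 * (u : G)⁻¹),
      ω.2.1.trans (isConj_iff.mpr ⟨u, rfl⟩), ω.2.2.1.trans (isConj_iff.mpr ⟨u, rfl⟩), by
        have e : (u : G) * ω.1.2 * (u : G)⁻¹ * ((u : G) * ω.1.1 * (u : G)⁻¹)⁻¹ = (u : G) * (ω.1.2 * ω.1.1⁻¹) * (u : G)⁻¹ := by group
        rw [e]
        exact (P : Subgroup G).mul_mem ((P : Subgroup G).mul_mem u.2 ω.2.2.2) ((P : Subgroup G).inv_mem u.2)⟩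
    one_smul := fun ω => by
      apply Subtype.ext
      apply Prod.ext
      · change ((1 : (P : Subgroup G)) : G) * ω.1.1 * ((1 : (P : Subgroup G)) : G)⁻¹ = ω.1.1; simp
      · change ((1 : (P : Subgroup G)) : G) * ω.1.2 * ((1 : (P : Subgroup G)) : G)⁻¹ = ω.1.2; simp
    mul_smul := fun u v ω => by
      apply Subtype.ext
      apply Prod.ext
      · change ((u * v : (P : Subgroup G)) : G) * ω.1.1 * ((u * v : (P : Subgroup G)) : G)⁻¹ = (u : G) * ((v : G) * ω.1.1 * (v : G)⁻¹) * (u : G)⁻¹
        simp [mul_assoc]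
      · change ((u * v : (P : Subgroup G)) : G) * ω.1.2 * ((u * v : (P : Subgroup G)) : G)⁻¹ = (u : G) * ((v : G) * ω.1.2 * (v : G)⁻¹) * (u : G)⁻¹
        simp [mul_assoc] }
  have hkey : ∀ ω : Ω, Nat.card P / Nat.card S ∣ Nat.card (MulAction.orbit (P : Subgroup G) ω) := by
    intro ω
    have h1 : Nat.card (MulAction.orbit (P : Subgroup G) ω) * Nat.card (MulAction.stabilizer (P : Subgroup G) ω) = Nat.card P := by
      have h1 := MulAction.index_stabilizer (P : Subgroup G) ω
      have h2 : Nat.card (MulAction.orbit (P : Subgroup G) ω) = (MulAction.stabilizer (P : Subgroup G) ω).index := h1.symm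
      rw [h2, mul_comm]
      exact (MulAction.stabilizer (P : Subgroup G) ω).card_mul_index
    have hS : Nat.card S = p ^ (Nat.card (Subgroup.centralizer ({g} : Set G))).factorization p := S.card_eq_multiplicity
    have hstab : Nat.card (MulAction.stabilizer (P : Subgroup G) ω) ∣ Nat.card S := by
      have hpg : IsPGroup p (MulAction.stabilizer (P : Subgroup G) ω) := P.2.to_subgroup _
      obtain ⟨k, hk⟩ := IsPGroup.iff_card.mp hpg
      have h2 : Nat.card (MulAction.stabilizer (P : Subgroup G) ω) ∣ Nat.card (Subgroup.centralizer ({ω.1.1} : Set G)) := by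
        have hle : ((MulAction.stabilizer (P : Subgroup G) ω).map (P : Subgroup G).subtype) ≤ Subgroup.centralizer ({ω.1.1} : Set G) := by
          rintro _ ⟨u, hu, rfl⟩
          rw [Subgroup.mem_centralizer_singleton_iff]
          have h3 := congrArg (fun ω : Ω => ω.1.1) hu
          have h4 : (u : G) * ω.1.1 * (u : G)⁻¹ = ω.1.1 := h3
          rw [mul_inv_eq_iff_eq_mul] at h4
          exact h4
        rw [← Cfsg.Agent.H5.card_map_subtype]
        exact Subgroup.card_dvd_of_le hle
      have h5 : Nat.card (Subgroup.centralizer ({ω.1.1} : Set G)) = Nat.card (Subgroup.centralizer ({g} : Set G)) :=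
        Cfsg.Agent.H5.card_centralizer_eq_of_isConj ω.2.1
      rw [h5, hk] at h2
      rw [hk, hS]
      exact pow_dvd_pow _ ((Nat.Prime.pow_dvd_iff_le_factorization Fact.out Nat.card_pos.ne').mp h2)
    obtain ⟨m, hm⟩ := hstab
    have hle2 : Nat.card S ∣ Nat.card P := by
      rw [hS, P.card_eq_multiplicity]
      apply pow_dvd_pow
      exact (Nat.factorization_le_iff_dvd Nat.card_pos.ne' Nat.card_pos.ne').mpr (Subgroup.card_subgroup_dvd_card _) p
    refine ⟨m, ?_⟩
    obtain ⟨n, hn⟩ := hle2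
    have hSpos : 0 < Nat.card S := Nat.card_pos
    have hstpos : 0 < Nat.card (MulAction.stabilizer (P : Subgroup G) ω) := Nat.card_pos
    rw [hn, Nat.mul_div_cancel_left _ hSpos]
    have h6 : Nat.card (MulAction.orbit (P : Subgroup G) ω) * Nat.card (MulAction.stabilizer (P : Subgroup G) ω) = (n * m) * Nat.card (MulAction.stabilizer (P : Subgroup G) ω) := by
      rw [h1, hn, hm]; ring
    exact Nat.eq_of_mul_eq_mul_right hstpos h6
  change _ ∣ Nat.card Ω
  have := Fintype.ofFinite Ω
  have h2 := Nat.card_congr (MulAction.selfEquivSigmaOrbits (P : Subgroup G) Ω)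
  rw [h2, Nat.card_sigma]
  apply Finset.dvd_sum
  intro q _
  exact hkey _

end Cfsg.Agent.S0957
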