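import Cfsg.Statements.S0958
import Cfsg.Agent.H5.Block8

set_option autoImplicit false
open Cfsg

namespace Cfsg.Agent.S0958

/-- Let P be a p-subgroup of the finite group G and H a subgroup with P ⊔ C_G(P) ≤ H ≤ N_G(P); fix a maximal ideal M of the algebraic integers containing p. Then a block B of G is induced by some block of H if and only if some conjugate of P is contained in a defect group of B. -/
theorem result {G : Type*} [Group G] [Finite G] (p : ℕ) [Fact p.Prime] (M : Ideal Cfsg.AlgInt) (hM : Cfsg.IsPModular p M) (P H : Subgroup G) (hP : IsPGroup p P) (hPH : P ⊔ Subgroup.centralizer (P : Set G) ≤ H) (hHN : H ≤ Subgroup.normalizer (P : Set G)) (B : Set (Cfsg.IrrCharacter G)) (hB : Cfsg.IsPBlock M B) : (∃ b : Set (Cfsg.IrrCharacter H), Cfsg.IsInducedBlock M H b B) ↔ ∃ D : Subgroup G, Cfsg.IsDefectGroup p M B D ∧ ∃ x : G, P.map (MulAut.conj x).toMonoidHom ≤ D := by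
  have := Fintype.ofFinite G
  have := Fintype.ofFinite H
  have hprime := Cfsg.Agent.H5.isPrime_of_isPModular hM
  have hPH' : P ≤ H := le_sup_left.trans hPH
  have hCH : Subgroup.centralizer (P : Set G) ≤ H := le_sup_right.trans hPH
  constructor
  · rintro ⟨b, hb⟩
    obtain ⟨Q, hQ⟩ := Cfsg.Agent.H5.exists_defectGroup (p := p) hM hb.1
    obtain ⟨E, hE, hQE⟩ := Cfsg.Agent.H5.defect_le_of_induced hM hb hQ
    refine ⟨E, hE, 1, ?_⟩
    have h1 : (P.subgroupOf H).Normal :=
      (Subgroup.normal_subgroupOf_iff_le_normalizer hPH').mpr hHN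
    have h2 := Cfsg.Agent.H5.normal_p_le_defect hM (P := P.subgroupOf H)
      (hP.comap_of_injective _ (Subgroup.subtype_injective _)) hb.1 hQ
    have h3 := Cfsg.Agent.H5.cj_one P
    refine h3.le.trans (le_trans ?_ hQE)
    have h4 := Subgroup.map_mono (f := H.subtype) h2
    rwa [Subgroup.subgroupOf_map_subtype, inf_eq_left.mpr hPH'] at h4
  · rintro ⟨D, hD, x, hx⟩
    obtain ⟨k, hk, hk'⟩ := Cfsg.Agent.H5.exists_blockCoeff_of_le hM hB hD hx
    exact Cfsg.Agent.H5.exists_block_inducing hM hP hPH' hCH hHN hB hk hk'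

end Cfsg.Agent.S0958
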