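import Cfsg.Statements.S0959
import Cfsg.Agent.H5.Block8

set_option autoImplicit false
open Cfsg

namespace Cfsg.Agent.S0959

/-- Let B be a block of the finite group G with defect group D (relative to a maximal ideal M of the algebraic integers containing the prime p), and let P be a p-subgroup. Then there is an element g whose idempotent coefficient for B is a local integer outside the local ideal at M and which has a conjugate centralizing P, if and only if some conjugate of P is contained in D. -/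
theorem result {G : Type*} [Group G] [Finite G] (p : ℕ) [Fact p.Prime] (M : Ideal Cfsg.AlgInt) (hM : Cfsg.IsPModular p M) (B : Set (Cfsg.IrrCharacter G)) (hB : Cfsg.IsPBlock M B) (D : Subgroup G) (hD : Cfsg.IsDefectGroup p M B D) (P : Subgroup G) (hP : IsPGroup p P) : (∃ g : G, Cfsg.MemLocalRing M (Cfsg.blockCoeff B g) ∧ ¬ Cfsg.MemLocalIdeal M (Cfsg.blockCoeff B g) ∧ ∃ c : G, IsConj g c ∧ c ∈ Subgroup.centralizer (P : Set G)) ↔ ∃ x : G, P.map (MulAut.conj x).toMonoidHom ≤ D := by
  have := Fintype.ofFinite G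
  have hprime := Cfsg.Agent.H5.isPrime_of_isPModular hM
  constructor
  · rintro ⟨g, _, hg, c, hc, hcP⟩
    obtain ⟨χ, hχ⟩ := Cfsg.Agent.H5.IsPBlock.nonempty' hB
    obtain ⟨g0, hg0, hg0D⟩ := hD
    have hc' : ¬ MemLocalIdeal M (blockCoeff B c) := by
      obtain ⟨t, rfl⟩ := isConj_iff.mp hc
      rw [Cfsg.Agent.H5.blockCoeff_classFun B g t]
      exact hg
    have h1 := Cfsg.Agent.H5.minmax hM hB hχ (hg0.2.2 χ hχ) hg0D hc'
    obtain ⟨x, hx⟩ := Cfsg.Agent.H5.defLE_of_centralizing h1 hP hcP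
    exact ⟨x⁻¹, Cfsg.Agent.H5.cj_le_iff.mpr (by rwa [inv_inv])⟩
  · rintro ⟨x, hx⟩
    obtain ⟨k, hk, hk'⟩ := Cfsg.Agent.H5.exists_blockCoeff_of_le hM hB hD hx
    exact ⟨k, Cfsg.Agent.H5.blockCoeff_memLocR hB k, hk', k, IsConj.refl k, hk⟩

end Cfsg.Agent.S0959
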