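import Cfsg.Statements.S0961
import Cfsg.Agent.H5.Prin3

set_option autoImplicit false
open Cfsg

namespace Cfsg.Agent.S0961

/-- Let χ be an irreducible character of the finite group G and let p ^ a be the largest power of the prime p dividing the order of G. Then the function equal to p ^ a * χ x at elements x of order prime to p and to 0 elsewhere is a generalized character (a difference of characters). -/
theorem result {G : Type*} [Group G] [Finite G] (p : ℕ) [Fact p.Prime] (χ : Cfsg.IrrCharacter G) : Cfsg.IsGeneralizedCharacter G (fun x : G => if p ∣ orderOf x then 0 else ((p ^ (Nat.card G).factorization p : ℕ) : ℂ) * (χ : G → ℂ) x) := by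
  have := Fintype.ofFinite G
  have hp : p.Prime := Fact.out
  obtain ⟨M, hM⟩ := Cfsg.Agent.H5.exists_isPModular hp
  have hprime := Cfsg.Agent.H5.isPrime_of_isPModular hM
  have hf : (fun x : G => if p ∣ orderOf x then (0 : ℂ) else ((p ^ (Nat.card G).factorization p : ℕ) : ℂ) * (χ : G → ℂ) x) =
      ((p ^ (Nat.card G).factorization p : ℕ) : ℂ) • pRegularPart p (χ : G → ℂ) := by
    funext x
    by_cases h : p ∣ orderOf x
    · rw [if_pos h, Pi.smul_apply, Cfsg.Agent.H5.pRegularPart_sing h, smul_zero]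
    · rw [if_neg h, Pi.smul_apply, Cfsg.Agent.H5.pRegularPart_reg h, smul_eq_mul]
  rw [hf, Cfsg.Agent.H5.isGeneralizedCharacter_iff_inner]
  refine ⟨Cfsg.Agent.H5.IsClassFunction.smul' _ (Cfsg.Agent.H5.pRegularPart_classFun (Cfsg.Agent.H5.irr_classFun χ)), ?_⟩
  intro ψ
  rw [Cfsg.Agent.H5.classInner_smul_left]
  have hB := Cfsg.Agent.H5.isPBlock_blockOf (M := M) χ
  have hχ := Cfsg.Agent.H5.mem_blockOf_self (M := M) χ
  obtain ⟨n, hn⟩ := Cfsg.Agent.H5.rin_int hM hχ ψ
  have h2 : blockDefect p (blockOf M (χ : G → ℂ)) ≤ (Nat.card G).factorization p := Nat.sub_le _ _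
  refine ⟨((p ^ ((Nat.card G).factorization p - blockDefect p (blockOf M (χ : G → ℂ))) : ℕ) : ℤ) * n, ?_⟩
  rw [Int.cast_mul, ← hn]
  change ((p ^ (Nat.card G).factorization p : ℕ) : ℂ) * Cfsg.Agent.H5.rin p (χ : G → ℂ) (ψ : G → ℂ) = _
  rw [← mul_assoc]
  congr 1
  push_cast
  rw [← pow_add]
  congr 1
  omega

end Cfsg.Agent.S0961
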