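import Cfsg.Statements.S0967
import Cfsg.Agent.H5.V5

set_option autoImplicit false
open Cfsg

namespace Cfsg.Agent.S0967

/-- Let N be a normal subgroup of the finite group G of order prime to p and fix a maximal ideal M of the algebraic integers containing p. If χ is an irreducible character of G ⧸ N and ψ lies in the block of its inflation χ ∘ (quotient map), then ψ is itself inflated from an irreducible character ψ' of G ⧸ N lying in the block of χ. (Over a normal p'-subgroup, blocks of the quotient are whole blocks of G.) -/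
theorem result {G : Type*} [Group G] [Finite G] (p : ℕ) [Fact p.Prime] (M : Ideal Cfsg.AlgInt) (hM : Cfsg.IsPModular p M) (N : Subgroup G) [N.Normal] (hN : ¬ p ∣ Nat.card N) (χ : Cfsg.IrrCharacter (G ⧸ N)) (ψ : Cfsg.IrrCharacter G) (hψ : ψ ∈ Cfsg.blockOf M ((χ : G ⧸ N → ℂ) ∘ QuotientGroup.mk)) : ∃ ψ' : Cfsg.IrrCharacter (G ⧸ N), (ψ : G → ℂ) = (ψ' : G ⧸ N → ℂ) ∘ QuotientGroup.mk ∧ Cfsg.SameBlock M (χ : G ⧸ N → ℂ) (ψ' : G ⧸ N → ℂ) := by
  have := Fintype.ofFinite G
  have hprime := Cfsg.Agent.H5.isPrime_of_isPModular hM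
  have h1 := Cfsg.Agent.H5.mem_ker_of_over_one hM hN (χ := ⟨_, Cfsg.Agent.H5.irr_inflate χ⟩) (ψ := ψ) (by
    intro n hn
    show (χ : G ⧸ N → ℂ) (QuotientGroup.mk n) = (χ : G ⧸ N → ℂ) (QuotientGroup.mk 1)
    have e : (QuotientGroup.mk n : G ⧸ N) = QuotientGroup.mk 1 := by
      rw [eq_comm, QuotientGroup.eq]
      simpa using hn
    rw [e]) hψ
  obtain ⟨ψ', hψ'⟩ := Cfsg.Agent.H5.irr_deflate ψ.2 h1
  refine ⟨ψ', hψ', ?_⟩
  apply Cfsg.Agent.H5.sameBlock_deflate hM hN
  rw [← hψ']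
  exact hψ

end Cfsg.Agent.S0967
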