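import Cfsg.Statements.S0971
import Cfsg.Agent.H5.V5

set_option autoImplicit false
open Cfsg

namespace Cfsg.Agent.S0971

/-- Let Q be a normal p-subgroup of the finite group G, let N = Q ⊔ C_G(Q) (a normal subgroup) and let b be a block of N relative to a maximal ideal M of the algebraic integers containing p. Then b induces some block of G, and every block B of G containing a character whose restriction to N has a constituent in b is induced by b. -/
theorem result {G : Type*} [Group G] [Fintype G] (p : ℕ) [Fact p.Prime] (M : Ideal Cfsg.AlgInt) (hM : Cfsg.IsPModular p M) (Q : Subgroup G) [Q.Normal] (hQ : IsPGroup p Q) [Fintype ↥(Q ⊔ Subgroup.centralizer (Q : Set G))] (b : Set (Cfsg.IrrCharacter ↥(Q ⊔ Subgroup.centralizer (Q : Set G)))) (hb : Cfsg.IsPBlock M b) : Cfsg.InducedBlockDefined M (Q ⊔ Subgroup.centralizer (Q : Set G)) b ∧ ∀ B : Set (Cfsg.IrrCharacter G), Cfsg.IsPBlock M B → (∃ χ ∈ B, ∃ θ ∈ b, Cfsg.classInner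 (fun n : ↥(Q ⊔ Subgroup.centralizer (Q : Set G)) => (χ : G → ℂ) n) (θ : ↥(Q ⊔ Subgroup.centralizer (Q : Set G)) → ℂ) ≠ 0) → Cfsg.IsInducedBlock M (Q ⊔ Subgroup.centralizer (Q : Set G)) b B := by
  have hprime := Cfsg.Agent.H5.isPrime_of_isPModular hM
  have hCH : Subgroup.centralizer (Q : Set G) ≤ Q ⊔ Subgroup.centralizer (Q : Set G) := le_sup_right
  have hPH : Q ≤ Q ⊔ Subgroup.centralizer (Q : Set G) := le_sup_left
  have hN : (⊤ : Subgroup G) ≤ Subgroup.normalizer (Q : Set G) := Cfsg.Agent.H5.normalizer_normal Q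
  have hHN : Q ⊔ Subgroup.centralizer (Q : Set G) ≤ Subgroup.normalizer (Q : Set G) := le_trans le_top hN
  have hnorm : (Q ⊔ Subgroup.centralizer (Q : Set G)).Normal := inferInstance
  have key : ∀ B : Set (Cfsg.IrrCharacter G), Cfsg.IsPBlock M B → Cfsg.Agent.H5.Cov (Q ⊔ Subgroup.centralizer (Q : Set G)) B b →
      Cfsg.IsInducedBlock M (Q ⊔ Subgroup.centralizer (Q : Set G)) b B := by
    intro B hB hc
    rw [Cfsg.Agent.H5.isInduced_iff hM hQ hPH hCH hHN hb hB]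
    rw [Cfsg.Agent.H5.cov_iff' hB hb] at hc
    have h1 := Cfsg.Agent.H5.idem_ktr_normal hM hQ (Cfsg.Agent.H5.blk_mem_fix (M := M) B) (Cfsg.Agent.H5.blk_mul_self (Cfsg.Agent.H5.IsPBlock.isBU hB))
    rw [h1]
    have hbl := Cfsg.Agent.H5.isBl_be (M := M) hb
    rcases hbl.prim (Cfsg.Agent.H5.blk M B) (by rw [← h1]; exact Cfsg.Agent.H5.KSup_mono hCH (Cfsg.Agent.H5.ktr_mem_KSup _ _))
      (Cfsg.Agent.H5.KFix_mono le_top (Cfsg.Agent.H5.blk_mem_fix (M := M) B)) (Cfsg.Agent.H5.blk_mul_self (Cfsg.Agent.H5.IsPBlock.isBU hB)) with h2 | h2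
    · exact h2
    · exfalso
      apply hc
      rw [← Cfsg.Agent.H5.commute_of_fix_sup (Cfsg.Agent.H5.blk_mem_fix (M := M) B) (Cfsg.Agent.H5.KSup_top _)]
      exact h2
  constructor
  · obtain ⟨θ, hθ⟩ := Cfsg.Agent.H5.IsPBlock.nonempty' hb
    obtain ⟨χ, hχ⟩ := Cfsg.Agent.H5.exists_over_irr θ
    exact ⟨Cfsg.blockOf M (χ : G → ℂ), key _ (Cfsg.Agent.H5.isPBlock_blockOf χ) (Cfsg.Agent.H5.cov_of (Cfsg.Agent.H5.mem_blockOf_self χ) hθ hχ)⟩
  · intro B hB hc
    exact key B hB (Cfsg.Agent.H5.cov_def.mpr hc)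

end Cfsg.Agent.S0971
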