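import Cfsg.Statements.S0972
import Cfsg.Agent.H5.W30

set_option autoImplicit false
open Cfsg

namespace Cfsg.Agent.S0972

/-- Let B be a block of the finite group G (relative to a maximal ideal M of the algebraic integers containing the prime p) with a defect group P that is normal in G. Then P is commutative if and only if every member of B has height zero. -/
theorem result {G : Type*} [Group G] [Finite G] (p : ℕ) [Fact p.Prime] (M : Ideal Cfsg.AlgInt) (hM : Cfsg.IsPModular p M) (B : Set (Cfsg.IrrCharacter G)) (hB : Cfsg.IsPBlock M B) (P : Subgroup G) [P.Normal] (hP : Cfsg.IsDefectGroup p M B P) : (∀ a ∈ P, ∀ c ∈ P, a * c = c * a) ↔ ∀ χ ∈ B, Cfsg.blockHeight p B (χ : G → ℂ) = 0 := by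
  open Cfsg.Agent.H5 ComplexConjugate in
  classical
  have hprime := isPrime_of_isPModular hM
  have hfG : Fintype G := Fintype.ofFinite G
  have hfact : Fact p.Prime := ⟨hM.1⟩
  have hfP : Fintype P := Fintype.ofFinite P
  have hPn : P.Normal := inferInstance
  have hd0 : ∀ χ : Cfsg.IrrCharacter G, Cfsg.charDegree (χ : G → ℂ) ≠ 0 := by
    intro χ h0
    have := IsCharacter.one_eq_charDegree (irr_isCharacter χ)
    rw [h0, Nat.cast_zero] at this
    exact IsIrr.one_ne_zero χ.2 this
  constructor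
  · intro hab χ hχ
    obtain ⟨θ, hθ⟩ := exists_under (N := P) χ
    obtain ⟨e, he, hedvd⟩ := Cfsg.Agent.H4.ratio_dvd_index hPn (χ : G → ℂ) χ.2 (θ : P → ℂ) θ.2 hθ
    obtain ⟨lam, hlam⟩ := irr_of_comm (G := P) (fun a b => Subtype.ext (hab a a.2 b b.2)) θ.2
    have h1 : (θ : P → ℂ) 1 = 1 := by rw [hlam]; simp
    rw [h1, mul_one, IsCharacter.one_eq_charDegree (irr_isCharacter χ)] at he
    have h2 : Cfsg.charDegree (χ : G → ℂ) = e := by exact_mod_cast he
    rw [blockHeight_eq, Nat.sub_eq_zero_iff_le, h2]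
    have h3 : e.factorization p ≤ P.index.factorization p :=
      (Nat.factorization_le_iff_dvd (h2 ▸ hd0 χ) Subgroup.index_ne_zero_of_finite).mpr hedvd p
    have h4 := card_defectGroup hM hB hP
    have h5 : (Nat.card P).factorization p = Cfsg.blockDefect p B := by
      rw [h4, Nat.Prime.factorization_pow hM.1]; simp
    have h6 : (Nat.card G).factorization p = (Nat.card P).factorization p + P.index.factorization p := by
      rw [← Subgroup.card_mul_index P, Nat.factorization_mul Nat.card_pos.ne' Subgroup.index_ne_zero_of_finite]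
      rfl
    have h7 : minExp p B ≤ (Nat.card G).factorization p := by
      refine (minExp_le hχ).trans ?_
      exact (Nat.factorization_le_iff_dvd (hd0 χ) Nat.card_pos.ne').mpr (charDegree_dvd_card χ.2) p
    rw [blockDefect_eq] at h5
    omega
  · intro hall a ha c hc
    -- every character of B is trivial on the commutator
    have hker : ∀ χ ∈ B, (χ : G → ℂ) (a * c * a⁻¹ * c⁻¹) = (χ : G → ℂ) 1 := by
      intro χ hχ
      obtain ⟨μ, hμ, hμ1⟩ := linear_under hM hB hP hχ (hall χ hχ)
      have hexp := classFun_expansion_apply (IsCharacter.classFun (isCharacter_restrict P (irr_isCharacter χ)))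
      have e1 := hexp (⟨a, ha⟩ * ⟨c, hc⟩ * (⟨a, ha⟩ : P)⁻¹ * (⟨c, hc⟩ : P)⁻¹)
      have e2 := hexp 1
      simp only [Subgroup.coe_mul, Subgroup.coe_inv, Subgroup.coe_one] at e1 e2
      rw [e1, e2]
      refine Finset.sum_congr rfl fun ξ _ => ?_
      by_cases h : classInner (fun d : P => (χ : G → ℂ) d) (ξ : P → ℂ) = 0
      · rw [h, zero_mul, zero_mul]
      · congr 1
        obtain ⟨g, hg⟩ := Cfsg.Agent.H4.clifford_conj hPn (χ : G → ℂ) χ.2 (μ : P → ℂ) (ξ : P → ℂ) μ.2 ξ.2 hμ h
        have h1 : (ξ : P → ℂ) 1 = 1 := by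
          rw [hg, Cfsg.Agent.H4.conjBy_apply, map_one, hμ1]
        obtain ⟨lam, hlam⟩ := Cfsg.Agent.H4.exists_hom_of_degree_one (irr_isCharacter ξ) h1
        rw [hlam]
        simp only [map_mul, map_inv, map_one]
        congr 1
        rw [mul_comm (lam _) (lam _), mul_inv_cancel_right, mul_inv_cancel]
    by_contra hne
    obtain ⟨x, hx⟩ : ∃ x : G, x = a * c * a⁻¹ * c⁻¹ := ⟨_, rfl⟩
    have hxP : x ∈ P := by rw [hx]; exact mul_mem (mul_mem (mul_mem ha hc) (inv_mem ha)) (inv_mem hc)
    have hx1 : x ≠ 1 := by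
      intro h
      apply hne
      rw [h] at hx
      have : a * c = (a * c * a⁻¹ * c⁻¹) * (c * a) := by group
      rw [this, ← hx, one_mul]
    obtain ⟨k, hk⟩ := exists_orderOf_pow hM.1 (isDefectGroup_isPGroup hP) hxP
    have hk0 : k ≠ 0 := by
      rintro rfl
      rw [pow_zero, orderOf_eq_one_iff] at hk
      exact hx1 hk
    have hBc : Cfsg.blockCoeff B x = 0 := by
      by_contra h
      exact regular_of_blockCoeff hM (fun g => blockCoeff_memLocR hB g) h (hk ▸ dvd_pow_self p hk0)
    unfold Cfsg.blockCoeff at hBc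
    rw [mul_eq_zero] at hBc
    rcases hBc with h | h
    · exact (inv_ne_zero (Nat.cast_ne_zero.mpr Nat.card_pos.ne')) h
    · rw [finsum_mem_bF] at h
      have h1 : ∀ χ ∈ bF B, (χ : G → ℂ) 1 * conj ((χ : G → ℂ) x) = ((Cfsg.charDegree (χ : G → ℂ) ^ 2 : ℕ) : ℂ) := by
        intro χ hχ
        rw [hx, hker χ (mem_bF.mp hχ), IsCharacter.one_eq_charDegree (irr_isCharacter χ)]
        simp only [map_natCast]
        push_cast; ring
      rw [Finset.sum_congr rfl h1, ← Nat.cast_sum, Nat.cast_eq_zero, Finset.sum_eq_zero_iff] at h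
      obtain ⟨χ, hχ⟩ := IsPBlock.nonempty' hB
      exact hd0 χ (pow_eq_zero_iff (two_ne_zero) |>.mp (h χ (mem_bF.mpr hχ)))

end Cfsg.Agent.S0972
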