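import Cfsg.Statements.S0973
import Cfsg.Agent.H5.W26
import Cfsg.Agent.H5.W3

set_option autoImplicit false
open Cfsg

namespace Cfsg.Agent.S0973

open Cfsg.Agent.H5 in
theorem part1 {G : Type*} [Group G] [Finite G] {p : ℕ} (M : Ideal Cfsg.AlgInt) (hM : Cfsg.IsPModular p M)
    {B : Set (Cfsg.IrrCharacter G)} (hB : Cfsg.IsPBlock M B) {P : Subgroup G} (hP : Cfsg.IsDefectGroup p M B P) {H : Subgroup G}
    (hH : H = P ⊔ Subgroup.centralizer (P : Set G)) :
    ∃ b : Set (Cfsg.IrrCharacter H), Cfsg.IsDefectGroup p M b (P.subgroupOf H) ∧ Cfsg.IsInducedBlock M H b B := by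
  have hprime := isPrime_of_isPModular hM
  have hfG : Fintype G := Fintype.ofFinite G
  have hdf := df_of_isDefectGroup hM hB hP
  have hPp := hdf.1
  have hb := isBl_top (M := M) hB
  have h1 : P ≤ H := by rw [hH]; exact le_sup_left
  have h2 : Subgroup.centralizer (P : Set G) ≤ H := by rw [hH]; exact le_sup_right
  have h3 : H ≤ Subgroup.normalizer (P : Set G) := by
    rw [hH]; exact sup_le Subgroup.le_normalizer (centralizer_le_normalizer P)
  obtain ⟨hN1, hN2⟩ := fm1 hM hb hdf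
  obtain ⟨e, he, hbe⟩ := exists_Bl_of_idem (H := Subgroup.centralizer (P : Set G))
    (ktr_mem_KSup (Subgroup.centralizer (P : Set G)) (blk M B)) (KFix_mono (centralizer_le_normalizer P) hN1.fix) hN1.idem hN1.ne
  have hbp : BP p M (blk M B) (P, e) := ⟨hPp, he, hbe⟩
  have heH : e ∈ KFix (KK M) H := by
    rw [hH]
    exact KFix_sup (KSup_centralizer_fix he.sup) he.fix
  have hblH := isBl_of_stable hM hPp h1 h2 h3 he heH
  obtain ⟨b, hbl, hbe'⟩ := exists_be hblH
  -- maximality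
  have hmax : MaxP p M (blk M B) (P, e) := by
    refine ⟨hbp, ?_⟩
    intro c hc hle
    obtain ⟨d, hd, hcd⟩ := exists_maxP hM hc
    obtain ⟨x, -, hx⟩ := hdf.conj_eq (MaxP.df hM hb hd)
    have h4 : P ≤ c.1 := hle.le
    have h5 : c.1 ≤ d.1 := hcd.le
    have h6 : Nat.card d.1 = Nat.card P := by rw [hx, card_cj]
    have h7 : Nat.card c.1 ≤ Nat.card P := by rw [← h6]; exact Subgroup.card_le_of_le h5
    exact (Subgroup.eq_of_le_of_card_ge h4 h7).symm
  have hst := MaxP.df_stb hM hb hmax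
  have hHst : H ≤ stb P e := by
    intro x hx
    rw [mem_stb]
    exact ⟨h3 hx, mem_KFix.mp heH x hx⟩
  have hdfH : Df p M H e P := by
    refine ⟨hPp, h1, hst.2.2.1, ?_⟩
    intro Q hQ hQH hne
    obtain ⟨x, hx, hQx⟩ := hst.2.2.2 Q hQ (le_trans hQH hHst) hne
    refine ⟨1, H.one_mem, ?_⟩
    rw [cj_one]
    rwa [cj_of_normalizer (stb_le P e hx)] at hQx
  refine ⟨b, ?_, ?_⟩
  · rw [isDefectGroup_subgroupOf_iff hM hbl h1, hbe']
    exact hdfH
  · rw [isInduced_iff hM hPp h1 h2 h3 hbl hB, hbe']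
    exact hbe

open Cfsg.Agent.H5 in
theorem part2 {G : Type*} [Group G] [Finite G] {p : ℕ} (M : Ideal Cfsg.AlgInt) (hM : Cfsg.IsPModular p M)
    {B : Set (Cfsg.IrrCharacter G)} (hB : Cfsg.IsPBlock M B) {P : Subgroup G} (hP : Cfsg.IsDefectGroup p M B P) {H : Subgroup G}
    (hH : H = P ⊔ Subgroup.centralizer (P : Set G)) (b b' : Set (Cfsg.IrrCharacter H)) (hb : Cfsg.IsInducedBlock M H b B)
    (hb' : Cfsg.IsInducedBlock M H b' B) :
    ∃ n ∈ Subgroup.normalizer (P : Set G), ∀ θ ∈ b, ∃ θ' ∈ b', ∀ x : H, ∀ hx : n * (x : G) * n⁻¹ ∈ H,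
      (θ' : H → ℂ) x = (θ : H → ℂ) ⟨n * (x : G) * n⁻¹, hx⟩ := by
  have hprime := isPrime_of_isPModular hM
  have hfG : Fintype G := Fintype.ofFinite G
  have hdf := df_of_isDefectGroup hM hB hP
  have hPp := hdf.1
  have hbl := isBl_top (M := M) hB
  have h1 : P ≤ H := by rw [hH]; exact le_sup_left
  have h2 : Subgroup.centralizer (P : Set G) ≤ H := by rw [hH]; exact le_sup_right
  have h3 : H ≤ Subgroup.normalizer (P : Set G) := by
    rw [hH]; exact sup_le Subgroup.le_normalizer (centralizer_le_normalizer P)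
  have hC := isBl_centralizer_of_sup2 hM hPp hH (isBl_be (M := M) hb.1)
  have hC' := isBl_centralizer_of_sup2 hM hPp hH (isBl_be (M := M) hb'.1)
  have hBP : BP p M (blk M B) (P, be M H b) := ⟨hPp, hC, (isInduced_iff hM hPp h1 h2 h3 hb.1 hB).mp hb⟩
  have hBP' : BP p M (blk M B) (P, be M H b') := ⟨hPp, hC', (isInduced_iff hM hPp h1 h2 h3 hb'.1 hB).mp hb'⟩
  obtain ⟨x, hx, hxe⟩ := pairs_conj hM hbl hdf hBP hBP'
  have hHx : H = H.map (MulAut.conj x).toMonoidHom := by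
    have h4 : x ∈ Subgroup.normalizer (H : Set G) := by rw [hH]; exact normalizer_sup_centralizer P hx
    exact (cj_of_normalizer h4).symm
  have h5 : be M H (cjB x b : Set (Cfsg.IrrCharacter H)) = be M H b' := by
    rw [be_cjB hHx, hxe]
  have h6 := be_injective ((isPBlock_cjB hHx b).mpr hb.1) hb'.1 h5
  refine ⟨x⁻¹, Subgroup.inv_mem _ hx, ?_⟩
  intro θ hθ
  refine ⟨irrE (cjE hHx) θ, ?_, ?_⟩
  · rw [← h6, cjB_eq hHx]
    exact ⟨θ, hθ, rfl⟩
  · intro z hz
    rw [irrE_apply]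
    have h8 : (cjE hHx).symm z = ⟨x⁻¹ * (z : G) * x⁻¹⁻¹, hz⟩ := by
      apply (cjE hHx).injective
      rw [MulEquiv.apply_symm_apply]
      apply Subtype.ext
      rw [cjE_coe]
      show (z : G) = x * (x⁻¹ * (z : G) * x⁻¹⁻¹) * x⁻¹
      group
    rw [h8]

/-- Let B be a block of the finite group G with defect group P (relative to a maximal ideal M of the algebraic integers containing p), and let L = P ⊔ C_G(P). Then (i) some block b of L with defect group P (viewed in L) induces B, and (ii) if b and b' are blocks of L both inducing B, there is n ∈ N_G(P) carrying b to b': for every θ ∈ b there is θ' ∈ b' with θ' x = θ (n x n⁻¹) for all x ∈ L. -/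
theorem result {G : Type*} [Group G] [Finite G] (p : ℕ) [Fact p.Prime] (M : Ideal Cfsg.AlgInt) (hM : Cfsg.IsPModular p M) (B : Set (Cfsg.IrrCharacter G)) (hB : Cfsg.IsPBlock M B) (P : Subgroup G) (hP : Cfsg.IsDefectGroup p M B P) : (∃ b : Set (Cfsg.IrrCharacter ↥(P ⊔ Subgroup.centralizer (P : Set G))), Cfsg.IsDefectGroup p M b (P.subgroupOf (P ⊔ Subgroup.centralizer (P : Set G))) ∧ Cfsg.IsInducedBlock M (P ⊔ Subgroup.centralizer (P : Set G)) b B) ∧ ∀ b b' : Set (Cfsg.IrrCharacter ↥(P ⊔ Subgroup.centralizer (P : Set G))), Cfsg.IsInducedBlock M (P ⊔ Subgroup.centralizer (P : Set G)) b B → Cfsg.IsInducedBlock M (P ⊔ Subgroup.centralizer (P : Set G)) b' B → ∃ n ∈ Subgroup.normalizer (P : Set G), ∀ θ ∈ b, ∃ θ' ∈ b', ∀ x : ↥(P ⊔ Subgroup.centralizer (P : Set G)), ∀ hx : n * (x : G) * n⁻¹ ∈ P ⊔ Subgroup.centralizer (P : Set G), (θ' : ↥(P ⊔ Subgroup.centralizer (P : Set G)) → ℂ) x = (θ : ↥(P ⊔ Subgroup.centralizer (P : Set G)) → ℂ)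 ⟨n * (x : G) * n⁻¹, hx⟩ := by
  exact ⟨part1 M hM hB hP rfl, part2 M hM hB hP rfl⟩

end Cfsg.Agent.S0973
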