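import Cfsg.Statements.S0985
import Mathlib.Tactic.Group
import Mathlib.GroupTheory.Sylow

set_option autoImplicit false
open Cfsg

namespace Cfsg.Agent.S0985

/-- If the number of Sylow p-subgroups of a finite group is not congruent to 1 modulo p^k, then there are two distinct Sylow p-subgroups P and R such that the index of P ∩ R in P is at most p^(k-1). -/
theorem result {G : Type*} [Group G] [Finite G] (p k : ℕ) [Fact p.Prime] (h : ¬ Nat.card (Sylow p G) ≡ 1 [MOD p ^ k]) : ∃ P R : Sylow p G, P ≠ R ∧ ((R : Subgroup G).subgroupOf (P : Subgroup G)).index ≤ p ^ (k - 1) := by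
  classical
  haveI : Fintype (Sylow p G) := Fintype.ofFinite _
  by_contra hcon
  push Not at hcon
  apply h
  obtain ⟨P⟩ := (inferInstance : Nonempty (Sylow p G))
  haveI : Fintype (MulAction.orbitRel.Quotient P (Sylow p G)) := Fintype.ofFinite _
  have hp : p.Prime := Fact.out
  rcases Nat.eq_zero_or_pos k with hk | hk
  · rw [hk, pow_zero]
    exact Nat.modEq_one
  have horb : ∀ R : Sylow p G, P ≠ R → p ^ k ∣ Nat.card (MulAction.orbit P R) := by
    intro R hR
    have h1 : Nat.card (MulAction.orbit P R) = ((R : Subgroup G).subgroupOf (P : Subgroup G)).index := by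
      have h2 := MulAction.index_stabilizer P R
      have h3 : MulAction.stabilizer P R = (R : Subgroup G).subgroupOf (P : Subgroup G) := by
        ext x
        rw [MulAction.mem_stabilizer_iff, Subgroup.mem_subgroupOf]
        change (x.1 • R = R) ↔ _
        rw [Sylow.smul_eq_iff_mem_normalizer]
        constructor
        · intro hx
          have h4 : x.1 ∈ (P : Subgroup G) ⊓ Subgroup.normalizer (R : Set G) := ⟨x.2, hx⟩
          rw [P.isPGroup'.inf_normalizer_sylow R] at h4
          exact h4.2
        · intro hx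
          exact Subgroup.le_normalizer hx
      rw [← h3, h2, Set.ncard_def]
      rfl
    rw [h1]
    obtain ⟨n, hn⟩ := P.isPGroup'.index ((R : Subgroup G).subgroupOf (P : Subgroup G))
    have h2 := hcon P R hR
    rw [hn] at h2 ⊢
    have h3 : k - 1 < n := (Nat.pow_lt_pow_iff_right hp.one_lt).1 h2
    exact pow_dvd_pow p (by omega)
  have hfixP : Nat.card (MulAction.orbit P P) = 1 := by
    have h1 : MulAction.orbit P P = {P} := by
      ext R
      rw [Set.mem_singleton_iff]
      constructor
      · rintro ⟨x, rfl⟩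
        change x.1 • P = P
        rw [Sylow.smul_eq_iff_mem_normalizer]
        exact Subgroup.le_normalizer x.2
      · rintro rfl
        exact MulAction.mem_orbit_self _
    rw [h1, Nat.card_unique]
  have hsum : Nat.card (Sylow p G) = ∑ ω : MulAction.orbitRel.Quotient P (Sylow p G), Nat.card ω.orbit := by
    rw [Nat.card_congr (MulAction.selfEquivSigmaOrbits' P (Sylow p G)), Nat.card_sigma]
  let ω₀ : MulAction.orbitRel.Quotient P (Sylow p G) := Quotient.mk'' P
  rw [hsum, ← Finset.add_sum_erase _ _ (Finset.mem_univ ω₀)]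
  have h1 : Nat.card ω₀.orbit = 1 := by
    rw [← hfixP]
    rfl
  rw [h1]
  have h2 : p ^ k ∣ ∑ ω ∈ Finset.univ.erase ω₀, Nat.card ω.orbit := by
    apply Finset.dvd_sum
    intro ω hω
    have h3 := Finset.ne_of_mem_erase hω
    induction ω using Quotient.inductionOn'
    rename_i R
    have h4 : P ≠ R := by
      rintro rfl
      exact h3 rfl
    exact horb R h4
  have h3 : (1 + ∑ ω ∈ Finset.univ.erase ω₀, Nat.card ω.orbit) ≡ 1 + 0 [MOD p ^ k] :=
    Nat.ModEq.add_left 1 ((Nat.modEq_zero_iff_dvd).2 h2)
  exact h3

end Cfsg.Agent.S0985
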