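import Cfsg.Statements.S0986
import Cfsg.Agent.H3.Basic

set_option autoImplicit false
open Cfsg

namespace Cfsg.Agent.S0986

/-- Let P and Q be distinct Sylow p-subgroups of a finite group G chosen so that the order of P ∩ Q is as large as possible among intersections of two distinct Sylow p-subgroups, and let N be the normalizer of P ∩ Q. Then N has more than one Sylow p-subgroup, any two distinct Sylow p-subgroups of N intersect exactly in P ∩ Q, and each Sylow p-subgroup of N lies in exactly one Sylow p-subgroup of G. -/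
theorem result {G : Type*} [Group G] [Finite G] (p : ℕ) [Fact p.Prime] (P Q : Sylow p G) (hPQ : P ≠ Q) (hmax : ∀ P' Q' : Sylow p G, P' ≠ Q' → Nat.card ↥((P' : Subgroup G) ⊓ (Q' : Subgroup G)) ≤ Nat.card ↥((P : Subgroup G) ⊓ (Q : Subgroup G))) : 1 < Nat.card (Sylow p ↥(Subgroup.normalizer (((P : Subgroup G) ⊓ (Q : Subgroup G) : Subgroup G) : Set G))) ∧ (∀ S T : Sylow p ↥(Subgroup.normalizer (((P : Subgroup G) ⊓ (Q : Subgroup G) : Subgroup G) : Set G)), S ≠ T → (S : Subgroup _) ⊓ (T : Subgroup _) = ((P : Subgroup G) ⊓ (Q : Subgroup G)).subgroupOf (Subgroup.normalizer (((P : Subgroup G) ⊓ (Q : Subgroup G) : Subgroup G) : Set G))) ∧ ∀ S : Sylow p ↥(Subgroup.normalizer (((P : Subgroup G) ⊓ (Q : Subgroup G) : Subgroup G) : Set G)), ∃! T : Sylow p G, (S : Subgroup _).map (Subgroup.normalizer (((P : Subgroup G) ⊓ (Q : Subgroup G) : Subgroup G) : Set G)).subtype ≤ (T : Subgroup G) := by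
  classical
  set D : Subgroup G := (P : Subgroup G) ⊓ (Q : Subgroup G) with hD
  set N : Subgroup G := Subgroup.normalizer (D : Set G) with hN
  have hDN : D ≤ N := Subgroup.le_normalizer
  have hDp : IsPGroup p D := P.2.to_le inf_le_left
  have hlt : ∀ R : Sylow p G, D ≤ R → D ≠ R → Nat.card D < Nat.card ↥((R : Subgroup G) ⊓ N) := by
    intro R hDR hne
    have hnil : Group.IsNilpotent (R : Subgroup G) := R.2.isNilpotent
    have h0 : D.subgroupOf (R : Subgroup G) < ⊤ := by
      rw [lt_top_iff_ne_top]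
      intro h
      rw [Subgroup.subgroupOf_eq_top] at h
      exact hne (le_antisymm hDR h)
    have h1 := Group.normalizerCondition_of_isNilpotent (G := (R : Subgroup G)) (D.subgroupOf (R : Subgroup G)) h0
    obtain ⟨x, hx1, hx2⟩ := SetLike.exists_of_lt h1
    have hxN : x.1 ∈ N := by
      rw [hN, Subgroup.mem_normalizer_iff]
      intro n
      rw [Subgroup.mem_normalizer_iff] at hx1
      constructor
      · intro hn
        have h2 := (hx1 ⟨n, hDR hn⟩).1 (Subgroup.mem_subgroupOf.2 hn)
        exact Subgroup.mem_subgroupOf.1 h2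
      · intro hn
        have h3 : n ∈ (R : Subgroup G) := by
          have h4 : x.1 * n * x.1⁻¹ ∈ (R : Subgroup G) := hDR hn
          have h5 := mul_mem (mul_mem (inv_mem x.2) h4) x.2
          have h6 : x.1⁻¹ * (x.1 * n * x.1⁻¹) * x.1 = n := by group
          rwa [h6] at h5
        have h2 := (hx1 ⟨n, h3⟩).2 (Subgroup.mem_subgroupOf.2 hn)
        exact Subgroup.mem_subgroupOf.1 h2
    have h2 : D < (R : Subgroup G) ⊓ N := by
      refine lt_of_le_of_ne (le_inf hDR hDN) ?_
      intro h
      apply hx2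
      rw [Subgroup.mem_subgroupOf, h]
      exact ⟨x.2, hxN⟩
    by_contra hcon
    exact h2.ne (Subgroup.eq_of_le_of_card_ge h2.le (not_lt.1 hcon))
  have hDP : D ≠ P := by
    intro h
    apply hPQ
    apply Sylow.ext
    have h1 : (P : Subgroup G) ≤ Q := by rw [← h]; exact inf_le_right
    exact Subgroup.eq_of_le_of_card_ge h1 (by rw [P.card_eq_multiplicity, Q.card_eq_multiplicity])
  have hDQ : D ≠ Q := by
    intro h
    apply hPQ
    apply Sylow.ext
    have h1 : (Q : Subgroup G) ≤ P := by rw [← h]; exact inf_le_left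
    exact (Subgroup.eq_of_le_of_card_ge h1 (by rw [P.card_eq_multiplicity, Q.card_eq_multiplicity])).symm
  have hSmap : ∀ S : Sylow p N, Nat.card ((S : Subgroup N).map N.subtype) = Nat.card S := fun S =>
    Subgroup.card_map_of_injective N.subtype_injective
  have hScard : ∀ S : Sylow p N, Nat.card D < Nat.card S := by
    intro S
    have h1 : IsPGroup p (((P : Subgroup G) ⊓ N).subgroupOf N) := (P.2.to_le inf_le_left).comap_subtype
    obtain ⟨S', hS'⟩ := h1.exists_le_sylow
    have h2 : Nat.card (((P : Subgroup G) ⊓ N).subgroupOf N) = Nat.card ↥((P : Subgroup G) ⊓ N) :=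
      Nat.card_congr (Subgroup.subgroupOfEquivOfLe inf_le_right).toEquiv
    calc Nat.card D < Nat.card ↥((P : Subgroup G) ⊓ N) := hlt P inf_le_left hDP
      _ = Nat.card (((P : Subgroup G) ⊓ N).subgroupOf N) := h2.symm
      _ ≤ Nat.card S' := Subgroup.card_le_of_le hS'
      _ = Nat.card S := by rw [S.card_eq_multiplicity, S'.card_eq_multiplicity]
  have hDS : ∀ S : Sylow p N, D.subgroupOf N ≤ S := by
    intro S
    haveI : (D.subgroupOf N).Normal := Subgroup.normal_in_normalizer
    have h1 : IsPGroup p ((S : Subgroup N) ⊔ D.subgroupOf N : Subgroup N) := S.2.to_sup_of_normal_right hDp.comap_subtype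
    have h2 := S.3 h1 le_sup_left
    rw [← h2]
    exact le_sup_right
  have huniq : ∀ (S : Sylow p N) (T T' : Sylow p G), (S : Subgroup N).map N.subtype ≤ T → (S : Subgroup N).map N.subtype ≤ T' → T = T' := by
    intro S T T' h1 h2
    by_contra hne
    have h3 := hmax T T' hne
    have h4 : Nat.card S ≤ Nat.card ↥((T : Subgroup G) ⊓ (T' : Subgroup G)) := by
      rw [← hSmap S]
      exact Subgroup.card_le_of_le (le_inf h1 h2)
    have h5 := hScard S
    omega
  have hex : ∀ S : Sylow p N, ∃ T : Sylow p G, (S : Subgroup N).map N.subtype ≤ T := fun S => (S.2.map N.subtype).exists_le_sylow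
  refine ⟨?_, ?_, ?_⟩
  · by_contra hcon
    have hsub : ∀ S S' : Sylow p N, S = S' := by
      intro S S'
      have h1 : Nat.card (Sylow p N) ≤ 1 := not_lt.1 hcon
      haveI := (Finite.card_le_one_iff_subsingleton).1 h1
      exact Subsingleton.elim _ _
    obtain ⟨S⟩ := (inferInstance : Nonempty (Sylow p N))
    obtain ⟨T, hT⟩ := hex S
    have key : ∀ R : Sylow p G, D ≤ R → D ≠ R → R = T := by
      intro R hDR hne
      have h1 : IsPGroup p (((R : Subgroup G) ⊓ N).subgroupOf N) := (R.2.to_le inf_le_left).comap_subtype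
      obtain ⟨S', hS'⟩ := h1.exists_le_sylow
      rw [hsub S' S] at hS'
      have h2 : (R : Subgroup G) ⊓ N ≤ T := by
        intro x hx
        exact hT ⟨⟨x, hx.2⟩, hS' (Subgroup.mem_subgroupOf.2 hx), rfl⟩
      by_contra hne'
      have h3 := hmax R T hne'
      have h4 : Nat.card ↥((R : Subgroup G) ⊓ N) ≤ Nat.card ↥((R : Subgroup G) ⊓ (T : Subgroup G)) :=
        Subgroup.card_le_of_le (le_inf inf_le_left h2)
      have h5 := hlt R hDR hne
      omega
    exact hPQ ((key P inf_le_left hDP).trans (key Q inf_le_right hDQ).symm)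
  · intro S T hST
    obtain ⟨S', hS'⟩ := hex S
    obtain ⟨T', hT'⟩ := hex T
    have hne : S' ≠ T' := by
      intro h
      apply hST
      rw [← h] at hT'
      have h1 : IsPGroup p ((S' : Subgroup G).subgroupOf N) := S'.2.comap_subtype
      have h2 := S.3 h1 (Subgroup.map_le_iff_le_comap.1 hS')
      have h3 := T.3 h1 (Subgroup.map_le_iff_le_comap.1 hT')
      exact Sylow.ext (h2.symm.trans h3)
    symm
    refine Subgroup.eq_of_le_of_card_ge (le_inf (hDS S) (hDS T)) ?_
    have h1 : Nat.card (D.subgroupOf N) = Nat.card D := Nat.card_congr (Subgroup.subgroupOfEquivOfLe hDN).toEquiv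
    rw [h1]
    have h2 : Nat.card ↥(((S : Subgroup N) ⊓ (T : Subgroup N)).map N.subtype) = Nat.card ↥((S : Subgroup N) ⊓ (T : Subgroup N)) :=
      Subgroup.card_map_of_injective N.subtype_injective
    rw [← h2]
    refine le_trans (Subgroup.card_le_of_le ?_) (hmax S' T' hne)
    exact le_inf ((Subgroup.map_mono inf_le_left).trans hS') ((Subgroup.map_mono inf_le_right).trans hT')
  · intro S
    obtain ⟨T, hT⟩ := hex S
    exact ⟨T, hT, fun T' hT' => huniq S T' T hT' hT⟩

end Cfsg.Agent.S0986
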