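import Cfsg.Statements.S0987
import Cfsg.Agent.H3.Basic
import Cfsg.Agent.H2.SylCount
import Cfsg.Agent.H1.Transfer

set_option autoImplicit false
open Cfsg

namespace Cfsg.Agent.S0987

/-- If a finite group has order pqr for primes p < q < r, then its Sylow r-subgroups are normal. -/
theorem result {G : Type*} [Group G] [Finite G] (p q r : ℕ) (hp : p.Prime) (hq : q.Prime) [Fact r.Prime] (hpq : p < q) (hqr : q < r) (hG : Nat.card G = p * q * r) (R : Sylow r G) : (R : Subgroup G).Normal := by
  classical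
  haveI : Fact p.Prime := ⟨hp⟩
  haveI : Fact q.Prime := ⟨hq⟩
  have hr : r.Prime := Fact.out
  have hp0 := hp.pos
  have hq0 := hq.pos
  have hr0 := hr.pos
  have hpr : p < r := hpq.trans hqr
  have hRc : Nat.card (R : Subgroup G) = r := by
    refine Cfsg.Agent.H2.card_sylow_prime R (by rw [hG]; exact dvd_mul_left _ _) ?_
    rw [hG, pow_two]
    intro h
    have h1 : r ∣ p * q := Nat.dvd_of_mul_dvd_mul_right hr0 h
    rcases (Nat.Prime.dvd_mul hr).1 h1 with h2 | h2
    · exact absurd (Nat.le_of_dvd hp0 h2) (not_le.2 hpr)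
    · exact absurd (Nat.le_of_dvd hq0 h2) (not_le.2 hqr)
  have hidx : Nat.card (Sylow r G) = (Subgroup.normalizer ((R : Subgroup G) : Set G)).index := R.card_eq_index_normalizer
  have hn1 := card_sylow_modEq_one r G
  have hn2 : Nat.card (Sylow r G) ∣ p * q := by
    have h3 := R.card_dvd_index
    have h4 := (R : Subgroup G).card_mul_index
    rw [hRc, hG, mul_comm (p * q) r] at h4
    have h5 : (R : Subgroup G).index = p * q := Nat.eq_of_mul_eq_mul_left hr0 h4
    rwa [h5] at h3
  by_cases hn : Nat.card (Sylow r G) = 1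
  · haveI : Subsingleton (Sylow r G) := (Nat.card_eq_one_iff_unique.1 hn).1
    exact Sylow.normal_of_subsingleton R
  exfalso
  have hlarge : r < Nat.card (Sylow r G) := by
    by_contra hcon
    have h3 : Nat.card (Sylow r G) ≤ r := not_lt.1 hcon
    rcases h3.lt_or_eq with h4 | h4
    · unfold Nat.ModEq at hn1
      rw [Nat.mod_eq_of_lt h4, Nat.mod_eq_of_lt hr.one_lt] at hn1
      exact hn hn1
    · rw [h4] at hn2
      rcases (Nat.Prime.dvd_mul hr).1 hn2 with h2 | h2
      · exact absurd (Nat.le_of_dvd hp0 h2) (not_le.2 hpr)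
      · exact absurd (Nat.le_of_dvd hq0 h2) (not_le.2 hqr)
  have hn3 : Nat.card (Sylow r G) = p * q := by
    obtain ⟨c, hc⟩ := hn2
    -- c divides p * q, c * n = p q with n > r > q > p
    have hcd : c ∣ p * q := ⟨_, by rw [hc, mul_comm]⟩
    by_contra hne
    have hc1 : c ≠ 1 := by
      rintro rfl
      exact hne (by rw [hc, mul_one])
    obtain ⟨l, hl, hlc⟩ := Nat.exists_prime_and_dvd hc1
    have h5 : l = p ∨ l = q := by
      rcases (Nat.Prime.dvd_mul hl).1 (hlc.trans hcd) with h6 | h6
      · exact Or.inl ((Nat.prime_dvd_prime_iff_eq hl hp).1 h6)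
      · exact Or.inr ((Nat.prime_dvd_prime_iff_eq hl hq).1 h6)
    have hcpos : 0 < c := Nat.pos_of_ne_zero (by rintro rfl; rw [mul_zero] at hc; exact absurd hc (Nat.mul_pos hp0 hq0).ne')
    have h6 : p ≤ c := by
      rcases h5 with rfl | rfl
      · exact Nat.le_of_dvd hcpos hlc
      · exact hpq.le.trans (Nat.le_of_dvd hcpos hlc)
    have h7 : p * q < c * r := by
      calc p * q < p * r := Nat.mul_lt_mul_of_pos_left hqr hp0
        _ ≤ c * r := Nat.mul_le_mul_right r h6
    have h8 : c * r < c * Nat.card (Sylow r G) := Nat.mul_lt_mul_of_pos_left hlarge hcpos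
    rw [mul_comm c (Nat.card (Sylow r G)), ← hc] at h8
    omega
  have hNc : Nat.card (Subgroup.normalizer ((R : Subgroup G) : Set G)) = r := by
    have h5 := (Subgroup.normalizer ((R : Subgroup G) : Set G)).card_mul_index
    rw [← hidx, hn3, hG, mul_comm (p * q) r] at h5
    exact Nat.eq_of_mul_eq_mul_right (Nat.mul_pos hp0 hq0) h5
  have hNR : (R : Subgroup G) = Subgroup.normalizer ((R : Subgroup G) : Set G) :=
    Subgroup.eq_of_le_of_card_ge Subgroup.le_normalizer (by rw [hNc, hRc])
  haveI hRcyc : IsCyclic (R : Subgroup G) := isCyclic_of_prime_card hRc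
  have hRcomm : ∀ a b : (R : Subgroup G), a * b = b * a := fun a b => (IsCyclic.isMulCommutative (α := (R : Subgroup G))).is_comm.comm a b
  have hNC : Subgroup.normalizer ((R : Subgroup G) : Set G) ≤ Subgroup.centralizer ((R : Subgroup G) : Set G) := by
    rw [← hNR]
    intro x hx
    rw [Subgroup.mem_centralizer_iff]
    intro y hy
    exact congrArg Subtype.val (hRcomm ⟨y, hy⟩ ⟨x, hx⟩)
  obtain ⟨S, K, hK, hSK⟩ := Cfsg.Agent.H1.hasNormalPComplement_of_normalizer_le_centralizer R hNC
  have hKc : Nat.card K = p * q := by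
    have hSc : Nat.card (S : Subgroup G) = Nat.card (R : Subgroup G) := Cfsg.Agent.H3.sylow_card_eq S R
    have h4 : Nat.card K * Nat.card (S : Subgroup G) = Nat.card G := hSK.card_mul
    rw [hSc, hRc, hG] at h4
    exact Nat.eq_of_mul_eq_mul_right hr0 h4
  obtain ⟨Q⟩ := (inferInstance : Nonempty (Sylow q K))
  have hQc : Nat.card (Q : Subgroup K) = q := by
    refine Cfsg.Agent.H2.card_sylow_prime Q (by rw [hKc]; exact dvd_mul_left _ _) ?_
    rw [hKc, pow_two]
    intro h
    have h1 : q ∣ p := Nat.dvd_of_mul_dvd_mul_right hq0 h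
    exact absurd (Nat.le_of_dvd hp0 h1) (not_le.2 hpq)
  have hQn : (Q : Subgroup K).Normal := by
    have h1 := card_sylow_modEq_one q K
    have h2 : Nat.card (Sylow q K) ∣ p := by
      have h3 := Q.card_dvd_index
      have h4 := (Q : Subgroup K).card_mul_index
      rw [hQc, hKc, mul_comm p q] at h4
      have h5 : (Q : Subgroup K).index = p := Nat.eq_of_mul_eq_mul_left hq0 h4
      rwa [h5] at h3
    have h3 : Nat.card (Sylow q K) < q := (Nat.le_of_dvd hp0 h2).trans_lt hpq
    unfold Nat.ModEq at h1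
    rw [Nat.mod_eq_of_lt h3, Nat.mod_eq_of_lt hq.one_lt] at h1
    haveI : Subsingleton (Sylow q K) := (Nat.card_eq_one_iff_unique.1 h1).1
    exact Sylow.normal_of_subsingleton Q
  haveI : (Q : Subgroup K).Characteristic := Sylow.characteristic_of_normal Q hQn
  haveI := hK
  haveI hQG : ((Q : Subgroup K).map K.subtype).Normal := ConjAct.normal_of_characteristic_of_normal
  have hQGc : Nat.card ((Q : Subgroup K).map K.subtype) = q := by
    rw [Subgroup.card_map_of_injective K.subtype_injective, hQc]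
  obtain ⟨x, hx⟩ := exists_prime_orderOf_dvd_card' (G := (R : Subgroup G)) r (by rw [hRc])
  have hx' : orderOf x.1 = r := by rw [Subgroup.orderOf_coe]; exact hx
  have hxc : x.1 ∈ Subgroup.centralizer (((Q : Subgroup K).map K.subtype : Subgroup G) : Set G) := by
    refine Cfsg.Agent.H2.centralizes_of_card_prime hq hQGc ?_ ?_
    · rw [Subgroup.normalizer_eq_top]
      trivial
    · rw [hx']
      rw [Nat.Prime.coprime_iff_not_dvd hr]
      intro h
      have h2 := Nat.le_of_dvd (by have := hq.two_le; omega) h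
      omega
  have hxR : Subgroup.zpowers x.1 = (R : Subgroup G) :=
    Subgroup.eq_of_le_of_card_ge (by rw [Subgroup.zpowers_le]; exact x.2) (by rw [hRc, Nat.card_zpowers, hx'])
  have hle : (Q : Subgroup K).map K.subtype ≤ (R : Subgroup G) := by
    rw [hNR]
    intro y hy
    apply Subgroup.centralizer_le_normalizer
    rw [← hxR, Subgroup.mem_centralizer_iff]
    intro h hh
    obtain ⟨k, rfl⟩ := Subgroup.mem_zpowers_iff.1 hh
    have : Commute y x.1 := (Subgroup.mem_centralizer_iff.1 hxc) y hy
    exact (this.zpow_right k).eq.symm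
  have h1 := Subgroup.card_dvd_of_le hle
  rw [hQGc, hRc] at h1
  have h2 := (Nat.prime_dvd_prime_iff_eq hq hr).1 h1
  omega

end Cfsg.Agent.S0987
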