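import Cfsg.Statements.S0989
import Cfsg.Agent.H3.Basic
import Cfsg.Agent.H2.SylCount

set_option autoImplicit false
open Cfsg

namespace Cfsg.Agent.S0989

/-- In the symmetric group on p or p + 1 letters, p a prime, the normalizer of a Sylow p-subgroup has order p * (p - 1). -/
theorem result {α : Type*} [Fintype α] [DecidableEq α] (p : ℕ) [Fact p.Prime] (hα : Fintype.card α = p ∨ Fintype.card α = p + 1) (P : Sylow p (Equiv.Perm α)) : Nat.card ↥(Subgroup.normalizer ((P : Subgroup (Equiv.Perm α)) : Set (Equiv.Perm α))) = p * (p - 1) := by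
  classical
  have hp := Fact.out (p := p.Prime)
  have hp2 := hp.two_le
  have hcG : Nat.card (Equiv.Perm α) = (Fintype.card α).factorial := by rw [Nat.card_perm, Nat.card_eq_fintype_card]
  have hPc : Nat.card (P : Subgroup (Equiv.Perm α)) = p := by
    have h1 : p ∣ (Fintype.card α).factorial := (Nat.Prime.dvd_factorial hp).2 (by omega)
    refine Cfsg.Agent.H2.card_sylow_prime P (by rw [hcG]; exact h1) ?_
    rw [hcG]
    have hpf : ¬ p ∣ (p - 1).factorial := by
      rw [Nat.Prime.dvd_factorial hp]
      omega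
    have hfac : p.factorial = p * (p - 1).factorial := (Nat.mul_factorial_pred hp.ne_zero).symm
    have h2 : ¬ p ^ 2 ∣ p.factorial := by
      rw [hfac, pow_two]
      intro h
      exact hpf (Nat.dvd_of_mul_dvd_mul_left hp.pos h)
    rcases hα with h3 | h3
    · rw [h3]; exact h2
    · rw [h3, Nat.factorial_succ]
      intro h
      have h4 : Nat.Coprime (p ^ 2) (p + 1) := by
        apply Nat.Coprime.pow_left
        exact Nat.coprime_self_add_right.2 (Nat.coprime_one_right p) 
      exact h2 (h4.dvd_of_dvd_mul_left h)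
  have hct : ∀ x : Equiv.Perm α, orderOf x = p → x.cycleType = {p} := by
    intro x hx
    obtain ⟨n, hn⟩ := Equiv.Perm.cycleType_prime_order (σ := x) (by rw [hx]; exact hp)
    have h1 := Equiv.Perm.sum_cycleType_le x
    rw [hn, hx, Multiset.sum_replicate, smul_eq_mul] at h1
    have h2 : n = 0 := by
      rcases Nat.eq_zero_or_pos n with h3 | h3
      · exact h3
      · exfalso
        have : 2 * p ≤ (n + 1) * p := Nat.mul_le_mul_right p (by omega)
        omega
    rw [hn, h2, hx]
    rfl
  obtain ⟨c', hc'⟩ := exists_prime_orderOf_dvd_card' (G := (P : Subgroup (Equiv.Perm α))) p (by rw [hPc])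
  obtain ⟨c, hcP⟩ := c'
  have hc : orderOf c = p := by rw [← hc', ← Subgroup.orderOf_coe]
  have hzP : Subgroup.zpowers c = (P : Subgroup (Equiv.Perm α)) :=
    Subgroup.eq_of_le_of_card_ge (by rw [Subgroup.zpowers_le]; exact hcP) (by rw [hPc, Nat.card_zpowers, hc])
  have hcent : Nat.card (Subgroup.centralizer ((P : Subgroup (Equiv.Perm α)) : Set (Equiv.Perm α))) = p := by
    have h1 : Subgroup.centralizer ((P : Subgroup (Equiv.Perm α)) : Set (Equiv.Perm α)) = Subgroup.centralizer {c} := by
      apply le_antisymm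
      · exact Subgroup.centralizer_le (Set.singleton_subset_iff.2 hcP)
      · intro x hx
        rw [Subgroup.mem_centralizer_iff]
        intro y hy
        rw [SetLike.mem_coe, ← hzP, Subgroup.mem_zpowers_iff] at hy
        obtain ⟨k, rfl⟩ := hy
        have h3 : Commute c x := (Subgroup.mem_centralizer_iff.1 hx) c rfl
        exact (h3.zpow_left k).eq
    rw [h1, Equiv.Perm.nat_card_centralizer, hct c hc]
    have h2 : (Fintype.card α - ({p} : Multiset ℕ).sum).factorial = 1 := by
      rw [Multiset.sum_singleton]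
      rcases hα with h3 | h3
      · rw [h3, Nat.sub_self]; rfl
      · rw [h3, Nat.add_sub_cancel_left]; rfl
    rw [h2, Multiset.prod_singleton, Multiset.toFinset_singleton, Finset.prod_singleton, Multiset.count_singleton_self]
    simp
  set N := Subgroup.normalizer ((P : Subgroup (Equiv.Perm α)) : Set (Equiv.Perm α)) with hN
  set C := Subgroup.centralizer ((P : Subgroup (Equiv.Perm α)) : Set (Equiv.Perm α)) with hC
  have hcyc : IsCyclic (P : Subgroup (Equiv.Perm α)) := isCyclic_of_prime_card hPc
  let φ : N →* MulAut (P : Subgroup (Equiv.Perm α)) := (P : Subgroup (Equiv.Perm α)).normalizerMonoidHom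
  have hsurj : Function.Surjective φ := by
    intro σ
    have h1 : orderOf (σ ⟨c, hcP⟩).1 = p := by
      rw [Subgroup.orderOf_coe, MulEquiv.orderOf_eq, hc']
    have h2 : IsConj c (σ ⟨c, hcP⟩).1 := by
      rw [Equiv.Perm.isConj_iff_cycleType_eq, hct c hc, hct _ h1]
    obtain ⟨g, hg⟩ := isConj_iff.1 h2
    have hgN : g ∈ N := by
      rw [hN, Subgroup.mem_normalizer_iff]
      have hz2 : Subgroup.zpowers (g * c * g⁻¹) = (P : Subgroup (Equiv.Perm α)) :=
        Subgroup.eq_of_le_of_card_ge (by rw [Subgroup.zpowers_le, hg]; exact (σ ⟨c, hcP⟩).2) (by rw [hPc, Nat.card_zpowers, hg, h1])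
      intro n
      constructor
      · intro hn
        rw [← hzP, Subgroup.mem_zpowers_iff] at hn
        obtain ⟨k, rfl⟩ := hn
        rw [← hz2, ← conj_zpow]
        exact Subgroup.zpow_mem_zpowers _ k
      · intro hn
        rw [← hz2, Subgroup.mem_zpowers_iff] at hn
        obtain ⟨k, hk⟩ := hn
        rw [conj_zpow, mul_left_inj, mul_right_inj] at hk
        rw [← hk, ← hzP]
        exact Subgroup.zpow_mem_zpowers _ k
    refine ⟨⟨g, hgN⟩, ?_⟩
    apply MulEquiv.ext
    intro x
    obtain ⟨k, hk⟩ : ∃ k : ℤ, (⟨c, hcP⟩ : (P : Subgroup (Equiv.Perm α))) ^ k = x := by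
      have h3 : x.1 ∈ Subgroup.zpowers c := by rw [hzP]; exact x.2
      obtain ⟨k, hk⟩ := Subgroup.mem_zpowers_iff.1 h3
      exact ⟨k, Subtype.ext (by rw [SubgroupClass.coe_zpow]; exact hk)⟩
    rw [← hk, map_zpow, map_zpow]
    congr 1
    apply Subtype.ext
    exact hg
  have hker : φ.ker = C.subgroupOf N := Subgroup.normalizerMonoidHom_ker _
  have hcard : Nat.card N = Nat.card φ.ker * Nat.card (MulAut (P : Subgroup (Equiv.Perm α))) := by
    rw [← φ.ker.card_mul_index, Subgroup.index_ker, MonoidHom.range_eq_top.2 hsurj, Subgroup.card_top]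
  have hCN : C ≤ N := Subgroup.centralizer_le_normalizer _
  rw [hcard, hker, hcyc.card_mulAut, hPc, Nat.totient_prime hp, Nat.card_congr (Subgroup.subgroupOfEquivOfLe hCN).toEquiv, hcent]

end Cfsg.Agent.S0989
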