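import Cfsg.Statements.S0990
import Cfsg.Agent.H3.Basic

set_option autoImplicit false
open Cfsg

namespace Cfsg.Agent.S0990

/-- Let p be an odd prime and P a Sylow p-subgroup of the symmetric group on a finite set with at least two elements. Then P is contained in the alternating group, and twice the order of the normalizer of P inside the alternating group equals the order of the normalizer of P in the symmetric group. -/
theorem result {α : Type*} [Fintype α] [DecidableEq α] (hα : 2 ≤ Fintype.card α) (p : ℕ) [Fact p.Prime] (hp : p ≠ 2) (P : Sylow p (Equiv.Perm α)) : (P : Subgroup (Equiv.Perm α)) ≤ alternatingGroup α ∧ 2 * Nat.card ↥(Subgroup.normalizer ((((P : Subgroup (Equiv.Perm α)).subgroupOf (alternatingGroup α) : Subgroup ↥(alternatingGroup α)) : Set ↥(alternatingGroup α)))) = Nat.card ↥(Subgroup.normalizer ((P : Subgroup (Equiv.Perm α)) : Set (Equiv.Perm α))) := by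
  classical
  haveI : Nontrivial α := Fintype.one_lt_card_iff_nontrivial.1 hα
  have hPA : (P : Subgroup (Equiv.Perm α)) ≤ alternatingGroup α := by
    intro x hx
    rw [Equiv.Perm.mem_alternatingGroup]
    obtain ⟨k, hk⟩ := P.2 ⟨x, hx⟩
    have hk' : x ^ p ^ k = 1 := congrArg Subtype.val hk
    have h1 : (Equiv.Perm.sign x) ^ p ^ k = 1 := by rw [← map_pow, hk', map_one]
    have hodd : Odd (p ^ k) := ((Fact.out (p := p.Prime)).odd_of_ne_two hp).pow
    rcases Int.units_eq_one_or (Equiv.Perm.sign x) with h2 | h2
    · exact h2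
    · rw [h2, hodd.neg_one_pow] at h1
      exact absurd h1 (by decide)
  refine ⟨hPA, ?_⟩
  rw [← Subgroup.subgroupOf_normalizer_eq hPA]
  set N := Subgroup.normalizer ((P : Subgroup (Equiv.Perm α)) : Set (Equiv.Perm α)) with hN
  set A := alternatingGroup α with hA
  have h1 : N ⊔ A = ⊤ := Sylow.normalizer_sup_eq_top' P hPA
  have h2 : A.relIndex N = 2 := by
    have h3 : A.relIndex (N ⊔ A) = A.relIndex N := Subgroup.relIndex_sup_right N A
    rw [h1, Subgroup.relIndex_top_right] at h3
    rw [← h3, hA, alternatingGroup.index_eq_two]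
  have h3 : Nat.card (A.subgroupOf N) * (A.subgroupOf N).index = Nat.card N := Subgroup.card_mul_index _
  have h4 : (A.subgroupOf N).index = 2 := h2
  have h5 : Nat.card (A.subgroupOf N) = Nat.card (N.subgroupOf A) := by
    have e1 : Nat.card (A.subgroupOf N) = Nat.card ↥(A ⊓ N) := by
      rw [← Subgroup.inf_subgroupOf_right]
      exact Nat.card_congr (Subgroup.subgroupOfEquivOfLe inf_le_right).toEquiv
    have e2 : Nat.card (N.subgroupOf A) = Nat.card ↥(N ⊓ A) := by
      rw [← Subgroup.inf_subgroupOf_right]
      exact Nat.card_congr (Subgroup.subgroupOfEquivOfLe inf_le_right).toEquiv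
    rw [e1, e2, inf_comm]
  rw [← h3, h4, h5, mul_comm]

end Cfsg.Agent.S0990
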