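import Cfsg.Statements.S0991

set_option autoImplicit false
open Cfsg

namespace Cfsg.Agent.S0991

/-- Embedding Theorem: if a non-abelian finite simple group has a proper subgroup of index n, then it is isomorphic to a subgroup of the alternating group of degree n. -/
theorem result {G : Type*} [Group G] [Finite G] [IsSimpleGroup G] (hG : ¬ IsMulCommutative G) (H : Subgroup G) (hH : H ≠ ⊤) : ∃ f : G →* ↥(alternatingGroup (Fin H.index)), Function.Injective f := by
  classical
  haveI : Finite (G ⧸ H) := Quotient.finite _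
  haveI : Fintype (G ⧸ H) := Fintype.ofFinite _
  have hc : Nat.card (G ⧸ H) = H.index := rfl
  let e : (G ⧸ H) ≃ Fin H.index := (Finite.equivFin (G ⧸ H)).trans (finCongr hc)
  let φ : G →* Equiv.Perm (Fin H.index) := e.permCongrHom.toMonoidHom.comp (MulAction.toPermHom G (G ⧸ H))
  have hφ : Function.Injective φ := by
    rw [← MonoidHom.ker_eq_bot_iff]
    rcases (inferInstance : φ.ker.Normal).eq_bot_or_eq_top with h | h
    · exact h
    · exfalso
      apply hH
      rw [eq_top_iff]
      intro g _
      have h1 : g ∈ φ.ker := by rw [h]; trivial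
      rw [MonoidHom.mem_ker] at h1
      have h2 : MulAction.toPermHom G (G ⧸ H) g = 1 := by
        apply e.permCongrHom.injective
        rw [map_one]
        exact h1
      have h3 : g • ((1 : G) : G ⧸ H) = ((1 : G) : G ⧸ H) := congrArg (fun σ : Equiv.Perm (G ⧸ H) => σ ((1 : G) : G ⧸ H)) h2
      have h4 : ((g * 1 : G) : G ⧸ H) = ((1 : G) : G ⧸ H) := h3
      rw [mul_one, QuotientGroup.eq, mul_one] at h4
      exact (inv_mem_iff).1 h4
  have hs : ∀ g, Equiv.Perm.sign (φ g) = 1 := by
    rcases (inferInstance : (Equiv.Perm.sign.comp φ).ker.Normal).eq_bot_or_eq_top with h | h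
    · exfalso
      rw [MonoidHom.ker_eq_bot_iff] at h
      apply hG
      refine ⟨⟨fun a b => h ?_⟩⟩
      rw [map_mul, map_mul, mul_comm]
    · intro g
      have h1 : g ∈ (Equiv.Perm.sign.comp φ).ker := by rw [h]; trivial
      exact h1
  refine ⟨φ.codRestrict _ (fun g => Equiv.Perm.mem_alternatingGroup.2 (hs g)), ?_⟩
  intro a b h
  exact hφ (congrArg Subtype.val h)

end Cfsg.Agent.S0991
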