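import Cfsg.Statements.S0992
import Cfsg.Agent.H3.Basic
import Cfsg.Agent.H2.SylCount
import Cfsg.Agent.H1.Transfer

set_option autoImplicit false
open Cfsg

namespace Cfsg.Agent.S0992

/-- Let G be a non-abelian finite simple group of even order not divisible by 8, and T a Sylow 2-subgroup. Then T is a Klein four-group and the centralizer of T has index 3 in the normalizer of T. -/
theorem result {G : Type*} [Group G] [Finite G] [IsSimpleGroup G] (hG : ¬ IsMulCommutative G) (h2 : Even (Nat.card G)) (h8 : ¬ 8 ∣ Nat.card G) (T : Sylow 2 G) : IsKleinFour ↥(T : Subgroup G) ∧ (Subgroup.centralizer ((T : Subgroup G) : Set G)).relIndex (Subgroup.normalizer ((T : Subgroup G) : Set G)) = 3 := by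
  classical
  haveI : Fact (Nat.Prime 2) := ⟨Nat.prime_two⟩
  set C := Subgroup.centralizer ((T : Subgroup G) : Set G) with hC
  set N := Subgroup.normalizer ((T : Subgroup G) : Set G) with hN
  have hTc : Nat.card (T : Subgroup G) = 2 ∨ Nat.card (T : Subgroup G) = 4 := by
    obtain ⟨k, hk⟩ := IsPGroup.iff_card.1 T.isPGroup'
    have hk' : Nat.card (T : Subgroup G) = 2 ^ k := hk
    have h3 : 2 ^ k ∣ Nat.card G := hk' ▸ Subgroup.card_subgroup_dvd_card _
    have h4 : k < 3 := by
      by_contra hcon
      exact h8 (dvd_trans (pow_dvd_pow 2 (not_lt.1 hcon)) h3)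
    have h5 : 2 ^ 1 ∣ Nat.card T := T.pow_dvd_card_of_pow_dvd_card (by rw [pow_one]; exact h2.two_dvd)
    have h6 : k ≠ 0 := by
      rintro rfl
      rw [hk, pow_zero, pow_one] at h5
      omega
    have h7 : k = 1 ∨ k = 2 := by omega
    rcases h7 with rfl | rfl
    · left; rw [hk', pow_one]
    · right; rw [hk']; norm_num
  have hTcomm : ∀ a b : (T : Subgroup G), a * b = b * a := by
    rcases hTc with h | h
    · haveI : IsCyclic (T : Subgroup G) := isCyclic_of_prime_card h
      exact fun a b => (IsCyclic.isMulCommutative (α := (T : Subgroup G))).is_comm.comm a b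
    · exact fun a b => IsPGroup.commutative_of_card_eq_prime_sq (p := 2) (G := (T : Subgroup G)) (by rw [h]; norm_num) a b
  have hTC : (T : Subgroup G) ≤ C := by
    intro x hx
    rw [hC, Subgroup.mem_centralizer_iff]
    intro y hy
    exact congrArg Subtype.val (hTcomm ⟨y, hy⟩ ⟨x, hx⟩)
  have hr1 : C.relIndex N ≠ 1 := by
    intro h
    rw [Subgroup.relIndex_eq_one] at h
    obtain ⟨S, K, hK, hSK⟩ := Cfsg.Agent.H1.hasNormalPComplement_of_normalizer_le_centralizer T h
    have hSc : Nat.card (S : Subgroup G) = Nat.card (T : Subgroup G) := Cfsg.Agent.H3.sylow_card_eq S T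
    have h4 : Nat.card K * Nat.card (S : Subgroup G) = Nat.card G := hSK.card_mul
    rcases IsSimpleGroup.eq_bot_or_eq_top_of_normal K hK with h5 | h5
    · rw [h5, Subgroup.card_bot, one_mul, hSc] at h4
      apply hG
      have h6 : (T : Subgroup G) = ⊤ := Subgroup.eq_top_of_card_eq _ h4
      refine ⟨⟨fun a b => ?_⟩⟩
      have ha : a ∈ (T : Subgroup G) := by rw [h6]; trivial
      have hb : b ∈ (T : Subgroup G) := by rw [h6]; trivial
      exact congrArg Subtype.val (hTcomm ⟨a, ha⟩ ⟨b, hb⟩)
    · rw [h5, Subgroup.card_top, hSc] at h4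
      have : 0 < Nat.card G := Nat.card_pos
      rcases hTc with h7 | h7 <;> rw [h7] at h4 <;> omega
  have hodd : ¬ 2 ∣ C.relIndex N := by
    intro h
    have h1 : C.relIndex N ∣ (T : Subgroup G).relIndex N := Subgroup.relIndex_dvd_of_le_left N hTC
    have h3 : (T : Subgroup G).relIndex N ∣ (T : Subgroup G).index := Subgroup.relIndex_dvd_index_of_le Subgroup.le_normalizer
    exact T.not_dvd_index ((h.trans h1).trans h3)
  have hdvd : C.relIndex N ∣ Nat.card (MulAut (T : Subgroup G)) := by
    have key := Subgroup.card_dvd_of_injective _ (QuotientGroup.kerLift_injective (T : Subgroup G).normalizerMonoidHom)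
    rw [Subgroup.normalizerMonoidHom_ker] at key
    exact key
  have hnc : ¬ IsCyclic (T : Subgroup G) := by
    intro hcyc
    rw [hcyc.card_mulAut] at hdvd
    have h1 : C.relIndex N ∣ 2 := by
      rcases hTc with h | h
      · rw [h] at hdvd
        exact hdvd.trans (by decide)
      · rw [h] at hdvd
        exact hdvd.trans (by decide)
    rcases (Nat.dvd_prime Nat.prime_two).1 h1 with h3 | h3
    · exact hr1 h3
    · exact hodd (by rw [h3])
  have hT4 : Nat.card (T : Subgroup G) = 4 := by
    rcases hTc with h | h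
    · exact absurd (isCyclic_of_prime_card h) hnc
    · exact h
  refine ⟨⟨hT4, ?_⟩, ?_⟩
  · have h1 : Monoid.exponent (T : Subgroup G) ∣ 2 := by
      apply Monoid.exponent_dvd_of_forall_pow_eq_one
      intro x
      have h3 : orderOf x ∣ 2 ^ 2 := by
        rw [show 2 ^ 2 = 4 by norm_num, ← hT4]
        exact orderOf_dvd_natCard x
      obtain ⟨j, hj, hj'⟩ := (Nat.dvd_prime_pow Nat.prime_two).1 h3
      have h5 : j ≠ 2 := by
        rintro rfl
        exact hnc (isCyclic_of_orderOf_eq_card x (by rw [hj', hT4]; norm_num))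
      have h6 : orderOf x ∣ 2 := by
        rw [hj']
        exact (pow_dvd_pow 2 (by omega : j ≤ 1)).trans (by norm_num)
      exact orderOf_dvd_iff_pow_eq_one.1 h6
    rcases (Nat.dvd_prime Nat.prime_two).1 h1 with h3 | h3
    · exfalso
      rw [Monoid.exp_eq_one_iff] at h3
      have := Finite.card_le_one_iff_subsingleton.2 h3
      omega
    · exact h3
  · have h1 : Nat.card (MulAut (T : Subgroup G)) ∣ Nat.card (Equiv.Perm (T : Subgroup G)) := by
      let f : MulAut (T : Subgroup G) →* Equiv.Perm (T : Subgroup G) :=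
        { toFun := fun e => e.toEquiv, map_one' := rfl, map_mul' := fun _ _ => rfl }
      apply Subgroup.card_dvd_of_injective f
      intro a b hab
      apply MulEquiv.ext
      intro x
      exact congrArg (fun σ : Equiv.Perm (T : Subgroup G) => σ x) hab
    rw [Nat.card_perm, hT4] at h1
    have h3 : C.relIndex N ∣ 24 := hdvd.trans h1
    have h4 : C.relIndex N ≤ 24 := Nat.le_of_dvd (by norm_num) h3
    generalize C.relIndex N = n at h3 h4 hodd hr1
    interval_cases n <;> simp_all

end Cfsg.Agent.S0992
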