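import Cfsg.Statements.S0995
import Cfsg.Agent.H3.Basic
import Cfsg.Agent.H7.Ord168b

set_option autoImplicit false
open Cfsg

namespace Cfsg.Agent.S0995

/-- Let G be a finite perfect group containing an element z of prime order p whose centralizer is the cyclic group it generates. Let t be the number of conjugacy classes of elements of order p. Then t divides p - 1, the number of Sylow p-subgroups has the form 1 + n * p, and |G| * t = (p - 1) * p * (1 + n * p). -/
theorem result {G : Type*} [Group G] [Finite G] (hperf : commutator G = ⊤) (p : ℕ) [Fact p.Prime] (z : G) (hz : orderOf z = p) (hC : Subgroup.centralizer ({z} : Set G) = Subgroup.zpowers z) : ∃ n t : ℕ, t = Nat.card {c : ConjClasses G // ∃ g : G, ConjClasses.mk g = c ∧ orderOf g = p} ∧ t ∣ p - 1 ∧ Nat.card (Sylow p G) = 1 + n * p ∧ Nat.card G * t = (p - 1) * p * (1 + n * p) := by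
  classical
  have hp := Fact.out (p := p.Prime)
  have hzP : IsPGroup p (Subgroup.zpowers z) := IsPGroup.of_card (n := 1) (by rw [Nat.card_zpowers, hz, pow_one])
  obtain ⟨P, hP⟩ := hzP.exists_le_sylow
  have hzmem : z ∈ (P : Subgroup G) := hP (Subgroup.mem_zpowers z)
  have hz1 : z ≠ 1 := by
    rintro rfl
    rw [orderOf_one] at hz
    exact hp.one_lt.ne hz
  have hPeq : (P : Subgroup G) = Subgroup.zpowers z := by
    haveI : Nontrivial (P : Subgroup G) := ⟨⟨z, hzmem⟩, 1, fun h => hz1 (congrArg Subtype.val h)⟩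
    haveI := P.2.center_nontrivial
    obtain ⟨⟨⟨w, hwP⟩, hwc⟩, hw1⟩ := exists_ne (1 : Subgroup.center (P : Subgroup G))
    have hwz : w ∈ Subgroup.zpowers z := by
      rw [← hC, Subgroup.mem_centralizer_iff]
      intro b hb
      rw [Set.mem_singleton_iff.1 hb]
      exact congrArg Subtype.val ((Subgroup.mem_center_iff.1 hwc) ⟨_, hzmem⟩)
    have hw1' : w ≠ 1 := fun h => hw1 (Subtype.ext (Subtype.ext h))
    have hwo : orderOf w = p := by
      have h1 : orderOf w ∣ p := by
        have := Subgroup.orderOf_dvd_natCard _ hwz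
        rwa [Nat.card_zpowers, hz] at this
      rcases (Nat.dvd_prime hp).1 h1 with h2 | h2
      · exact absurd (orderOf_eq_one_iff.1 h2) hw1'
      · exact h2
    have h1 : Subgroup.zpowers w = Subgroup.zpowers z :=
      Subgroup.eq_of_le_of_card_ge (by rw [Subgroup.zpowers_le]; exact hwz) (by rw [Nat.card_zpowers, Nat.card_zpowers, hz, hwo])
    apply le_antisymm _ hP
    intro x hx
    rw [← hC, Subgroup.mem_centralizer_iff]
    intro b hb
    rw [Set.mem_singleton_iff.1 hb]
    have h2 : z ∈ Subgroup.zpowers w := by rw [h1]; exact Subgroup.mem_zpowers z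
    obtain ⟨k, hk⟩ := Subgroup.mem_zpowers_iff.1 h2
    have h3 : Commute x w := congrArg Subtype.val ((Subgroup.mem_center_iff.1 hwc) ⟨x, hx⟩)
    rw [← hk]
    exact (h3.zpow_right k).eq.symm
  have hPc : Nat.card (P : Subgroup G) = p := by rw [hPeq, Nat.card_zpowers, hz]
  have hc : ∀ Q : Sylow p G, Nat.card (Q : Subgroup G) = p := fun Q => by rw [Cfsg.Agent.H3.sylow_card_eq Q P, hPc]
  have hcl : ∀ y : G, orderOf y = p → Nat.card {g : G // IsConj y g} * p = Nat.card G := by
    intro y hy
    rw [Cfsg.Agent.H3.card_isConj]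
    have h1 : IsPGroup p (Subgroup.zpowers y) := IsPGroup.of_card (n := 1) (by rw [Nat.card_zpowers, hy, pow_one])
    obtain ⟨Q, hQ⟩ := h1.exists_le_sylow
    have h2 : Subgroup.zpowers y = (Q : Subgroup G) := Subgroup.eq_of_le_of_card_ge hQ (by rw [hc, Nat.card_zpowers, hy])
    obtain ⟨g, hg⟩ := MulAction.exists_smul_eq G P Q
    have h3 : ∀ x, x ∈ (Q : Subgroup G) ↔ g⁻¹ * x * g ∈ (P : Subgroup G) := fun x => by
      rw [← hg]; exact Cfsg.Agent.H3.mem_smul_sylow_iff P g x
    have h4 : Subgroup.centralizer ({y} : Set G) = (Q : Subgroup G) := by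
      apply le_antisymm
      · intro x hx
        have hxy : Commute y x := (Subgroup.mem_centralizer_iff.1 hx) y rfl
        rw [h3, hPeq, ← hC, Subgroup.mem_centralizer_iff]
        intro b hb
        rw [Set.mem_singleton_iff.1 hb]
        have h5 : g * z * g⁻¹ ∈ (Q : Subgroup G) := by
          rw [h3]
          have : g⁻¹ * (g * z * g⁻¹) * g = z := by group
          rw [this]; exact hzmem
        rw [← h2] at h5
        obtain ⟨k, hk⟩ := Subgroup.mem_zpowers_iff.1 h5
        have h6 : Commute (g * z * g⁻¹) x := by rw [← hk]; exact hxy.zpow_left k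
        have h7 : (g * z * g⁻¹) * x = x * (g * z * g⁻¹) := h6
        calc z * (g⁻¹ * x * g) = g⁻¹ * ((g * z * g⁻¹) * x) * g := by group
          _ = g⁻¹ * (x * (g * z * g⁻¹)) * g := by rw [h7]
          _ = g⁻¹ * x * g * z := by group
      · rw [← h2, Subgroup.zpowers_le, Subgroup.mem_centralizer_iff]
        rintro _ rfl
        rfl
    have h5 := (Subgroup.centralizer ({y} : Set G)).card_mul_index
    rw [h4, hc] at h5
    rw [h4, mul_comm, h5]
  -- counting
  have hcount : Nat.card {g : G // orderOf g = p} = Nat.card (Sylow p G) * (p - 1) := by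
    apply le_antisymm
    · have h1 := Cfsg.Agent.H7.Ord168.cnt p P
      rw [hPc] at h1
      refine le_trans ?_ h1
      refine Nat.card_le_card_of_injective (fun g => ⟨g.1, ?_, ?_⟩) ?_
      · intro h
        have := g.2
        rw [h, orderOf_one] at this
        exact hp.one_lt.ne this
      · exact IsPGroup.of_card (n := 1) (by rw [Nat.card_zpowers, g.2, pow_one])
      · intro a b hab
        exact Subtype.ext (congrArg (fun w : {g : G // g ≠ 1 ∧ IsPGroup p (Subgroup.zpowers g)} => w.1) hab)
    · exact Cfsg.Agent.H7.Ord168.cnt_ge p hc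
  let Cl := {c : ConjClasses G // ∃ g : G, ConjClasses.mk g = c ∧ orderOf g = p}
  haveI : Fintype Cl := Fintype.ofFinite Cl
  have hfib : ∀ c : Cl, Nat.card {g : {g : G // orderOf g = p} // ConjClasses.mk g.1 = c.1} * p = Nat.card G := by
    rintro ⟨c, y, hy, hyo⟩
    subst hy
    rw [← hcl y hyo]
    congr 1
    apply Nat.card_congr
    refine ⟨fun g => ⟨g.1.1, (ConjClasses.mk_eq_mk_iff_isConj.1 g.2).symm⟩, fun g => ⟨⟨g.1, ?_⟩, ConjClasses.mk_eq_mk_iff_isConj.2 g.2.symm⟩, fun g => rfl, fun g => rfl⟩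
    obtain ⟨d, hd⟩ := isConj_iff.1 g.2
    rw [← hd, ← hyo]
    exact MulEquiv.orderOf_eq (MulAut.conj d) y
  have hsig : Nat.card {g : G // orderOf g = p} * p = Nat.card Cl * Nat.card G := by
    let F : {g : G // orderOf g = p} → Cl := fun g => ⟨ConjClasses.mk g.1, g.1, rfl, g.2⟩
    have h1 : Nat.card {g : G // orderOf g = p} = ∑ c : Cl, Nat.card {g : {g : G // orderOf g = p} // F g = c} := by
      rw [← Nat.card_sigma]
      exact Nat.card_congr (Equiv.sigmaFiberEquiv F).symm
    have h2 : ∀ c : Cl, Nat.card {g : {g : G // orderOf g = p} // F g = c} = Nat.card {g : {g : G // orderOf g = p} // ConjClasses.mk g.1 = c.1} := by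
      intro c
      apply Nat.card_congr
      exact Equiv.subtypeEquivRight (fun g => ⟨fun h => congrArg Subtype.val h, fun h => Subtype.ext h⟩)
    rw [h1, Finset.sum_mul, Finset.sum_congr rfl (fun c _ => by rw [h2 c, hfib c]), Finset.sum_const, Finset.card_univ, smul_eq_mul, Nat.card_eq_fintype_card (α := Cl)]
  have hmod := card_sylow_modEq_one p G
  have hnpos : 0 < Nat.card (Sylow p G) := Nat.card_pos
  obtain ⟨n, hn⟩ : ∃ n, Nat.card (Sylow p G) = 1 + n * p := by
    have h1 := (Nat.modEq_iff_dvd' hnpos).1 hmod.symm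
    obtain ⟨n, hn⟩ := h1
    exact ⟨n, by rw [mul_comm n p, ← hn]; omega⟩
  refine ⟨n, Nat.card Cl, rfl, ?_, hn, ?_⟩
  · have hidx : Nat.card (Sylow p G) = (Subgroup.normalizer ((P : Subgroup G) : Set G)).index := P.card_eq_index_normalizer
    have h5 := (Subgroup.normalizer ((P : Subgroup G) : Set G)).card_mul_index
    rw [← hidx] at h5
    obtain ⟨d, hd⟩ : p ∣ Nat.card (Subgroup.normalizer ((P : Subgroup G) : Set G)) := by
      have := Subgroup.card_dvd_of_le (Subgroup.le_normalizer (H := (P : Subgroup G)))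
      rwa [hPc] at this
    rw [hcount, ← h5, hd] at hsig
    have h6 : (Nat.card (Sylow p G) * p) * (p - 1) = (Nat.card (Sylow p G) * p) * (Nat.card Cl * d) := by
      calc (Nat.card (Sylow p G) * p) * (p - 1) = Nat.card (Sylow p G) * (p - 1) * p := by ring
        _ = _ := by rw [hsig]; ring
    have h7 := Nat.eq_of_mul_eq_mul_left (Nat.mul_pos hnpos hp.pos) h6
    exact ⟨d, h7⟩
  · rw [mul_comm (Nat.card G), ← hsig, hcount, hn]
    ring

end Cfsg.Agent.S0995
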