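import Cfsg.Statements.S1004
import Cfsg.Agent.H3.Basic
import Cfsg.Agent.H7.Ord168b
import Cfsg.Agent.S0206

set_option autoImplicit false
open Cfsg

namespace Cfsg.Agent.S1004

/-- Let G be a simple group of order 168 and T a Sylow 2-subgroup. Then T is dihedral of order 8, T is its own normalizer, and T is the centralizer of any non-identity element of T that commutes with every element of T. -/
theorem result {G : Type*} [Group G] [Finite G] [IsSimpleGroup G] (h : Nat.card G = 168) (T : Sylow 2 G) : Nonempty (↥(T : Subgroup G) ≃* DihedralGroup 4) ∧ Subgroup.normalizer ((T : Subgroup G) : Set G) = T ∧ ∀ z : G, z ∈ (T : Subgroup G) → z ≠ 1 → (∀ t ∈ (T : Subgroup G), t * z = z * t) → Subgroup.centralizer ({z} : Set G) = T := by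
  classical
  haveI : Fact (Nat.Prime 2) := ⟨Nat.prime_two⟩
  obtain ⟨hC3, hC7⟩ := Cfsg.Agent.H7.Ord168.main3 h
  obtain ⟨hall, e2, k2, _, _, e4, k4, _⟩ := Cfsg.Agent.H7.Ord168.main2 h hC3 hC7
  obtain ⟨⟨hn2, hn3, hn7⟩, hcases⟩ := Cfsg.Agent.H7.Ord168.main h
  have hc2 : ∀ S : Sylow 2 G, Nat.card (S : Subgroup G) = 8 := fun S => by
    have := Cfsg.Agent.H7.Tv.sylow_card_of (G := G) (p := 2) (q := 2) (a := 3) (m := 21) (f := 1) (by norm_num) (by rw [h]; norm_num) (by norm_num) S
    rw [this]; norm_num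
  have hcent2 : ∀ u : G, u ≠ 1 → orderOf u ∣ 8 → Nat.card (Subgroup.centralizer ({u} : Set G)) ∣ 8 := by
    intro u hu1 hu
    have h3 : ¬ 3 ∣ Nat.card (Subgroup.centralizer ({u} : Set G)) := by
      intro hd
      haveI : Fact (Nat.Prime 3) := ⟨by norm_num⟩
      obtain ⟨⟨y, hy⟩, hy'⟩ := exists_prime_orderOf_dvd_card' (G := Subgroup.centralizer ({u} : Set G)) 3 hd
      have hy3 : orderOf y = 3 := by rw [← hy', ← Subgroup.orderOf_coe]
      have h6 := hC3 u y hy3 ((Subgroup.mem_centralizer_iff.1 hy) u rfl)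
      have h7 := Nat.eq_one_of_dvd_coprimes (by norm_num : Nat.Coprime 3 8) h6 hu
      exact hu1 (orderOf_eq_one_iff.1 h7)
    have h7 : ¬ 7 ∣ Nat.card (Subgroup.centralizer ({u} : Set G)) := by
      intro hd
      haveI : Fact (Nat.Prime 7) := ⟨by norm_num⟩
      obtain ⟨⟨y, hy⟩, hy'⟩ := exists_prime_orderOf_dvd_card' (G := Subgroup.centralizer ({u} : Set G)) 7 hd
      have hy3 : orderOf y = 7 := by rw [← hy', ← Subgroup.orderOf_coe]
      have h6 := hC7 u y hy3 ((Subgroup.mem_centralizer_iff.1 hy) u rfl)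
      have h7 := Nat.eq_one_of_dvd_coprimes (by norm_num : Nat.Coprime 7 8) h6 hu
      exact hu1 (orderOf_eq_one_iff.1 h7)
    have h1 : Nat.card (Subgroup.centralizer ({u} : Set G)) ∣ 7 * 24 := by
      rw [show 7 * 24 = 168 by norm_num, ← h]; exact Subgroup.card_subgroup_dvd_card _
    have c7 : Nat.Coprime (Nat.card (Subgroup.centralizer ({u} : Set G))) 7 := ((Nat.Prime.coprime_iff_not_dvd (by norm_num : Nat.Prime 7)).2 h7).symm
    have c3 : Nat.Coprime (Nat.card (Subgroup.centralizer ({u} : Set G))) 3 := ((Nat.Prime.coprime_iff_not_dvd (by norm_num : Nat.Prime 3)).2 h3).symm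
    have h5 : Nat.card (Subgroup.centralizer ({u} : Set G)) ∣ 3 * 8 := c7.dvd_of_dvd_mul_left h1
    exact c3.dvd_of_dvd_mul_left h5
  have hordT : ∀ a ∈ (T : Subgroup G), orderOf a ∣ 8 := fun a ha => by
    rw [← hc2 T]; exact Subgroup.orderOf_dvd_natCard _ ha
  have hcz : ∀ z : G, z ∈ (T : Subgroup G) → z ≠ 1 → (∀ t ∈ (T : Subgroup G), t * z = z * t) → Subgroup.centralizer ({z} : Set G) = T := by
    intro z hz hz1 hzc
    symm
    apply Subgroup.eq_of_le_of_card_ge
    · intro x hx
      rw [Subgroup.mem_centralizer_iff]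
      rintro _ rfl
      exact (hzc x hx).symm
    · rw [hc2]
      exact Nat.le_of_dvd (by norm_num) (hcent2 z hz1 (hordT z hz))
  have hNT : Subgroup.normalizer ((T : Subgroup G) : Set G) = T := by
    have hidx : Nat.card (Sylow 2 G) = (Subgroup.normalizer ((T : Subgroup G) : Set G)).index := T.card_eq_index_normalizer
    have h5 := (Subgroup.normalizer ((T : Subgroup G) : Set G)).card_mul_index
    rw [← hidx, hn2, h] at h5
    exact (Subgroup.eq_of_le_of_card_ge Subgroup.le_normalizer (by rw [hc2]; omega)).symm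
  have hnab : ¬ ∀ a ∈ (T : Subgroup G), ∀ b ∈ (T : Subgroup G), a * b = b * a := by
    intro hab
    have hNC : Subgroup.normalizer ((T : Subgroup G) : Set G) ≤ Subgroup.centralizer ((T : Subgroup G) : Set G) := by
      rw [hNT]
      intro x hx
      rw [Subgroup.mem_centralizer_iff]
      exact fun y hy => hab y hy x hx
    obtain ⟨S', K, hK, hSK⟩ := Cfsg.Agent.H1.hasNormalPComplement_of_normalizer_le_centralizer T hNC
    have h4 : Nat.card K * Nat.card (S' : Subgroup G) = Nat.card G := hSK.card_mul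
    rcases IsSimpleGroup.eq_bot_or_eq_top_of_normal K hK with h5 | h5
    · rw [h5, Subgroup.card_bot, one_mul, hc2, h] at h4
      omega
    · rw [h5, Subgroup.card_top, hc2, h] at h4
      omega
  have hord : ∀ a ∈ (T : Subgroup G), orderOf a = 1 ∨ orderOf a = 2 ∨ orderOf a = 4 := by
    intro a ha
    have h1 := hordT a ha
    rcases hall a with h2 | h2 | h2 | h2 | h2
    · exact Or.inl h2
    · exact Or.inr (Or.inl h2)
    · rw [h2] at h1; norm_num at h1
    · exact Or.inr (Or.inr h2)
    · rw [h2] at h1; norm_num at h1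
  obtain ⟨u, huT, hu⟩ : ∃ u ∈ (T : Subgroup G), orderOf u = 4 := by
    by_contra hcon
    push Not at hcon
    apply hnab
    have hsq : ∀ a ∈ (T : Subgroup G), a⁻¹ = a := by
      intro a ha
      rw [inv_eq_iff_mul_eq_one, ← pow_two]
      rcases hord a ha with h2 | h2 | h2
      · rw [orderOf_eq_one_iff.1 h2, one_pow]
      · rw [← h2, pow_orderOf_eq_one]
      · exact absurd h2 (hcon a ha)
    intro a ha b hb
    rw [← hsq _ (mul_mem ha hb), mul_inv_rev, hsq a ha, hsq b hb]
  have hUT : Subgroup.zpowers u ≤ (T : Subgroup G) := by rw [Subgroup.zpowers_le]; exact huT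
  have hidx2 : ((Subgroup.zpowers u).subgroupOf (T : Subgroup G)).index = 2 := by
    have h7 := ((Subgroup.zpowers u).subgroupOf (T : Subgroup G)).card_mul_index
    rw [Nat.card_congr (Subgroup.subgroupOfEquivOfLe hUT).toEquiv, Nat.card_zpowers, hu, hc2] at h7
    omega
  have hnorm : ∀ g ∈ (T : Subgroup G), g * u * g⁻¹ ∈ Subgroup.zpowers u := by
    intro g hg
    have hn := Subgroup.normal_of_index_eq_two hidx2
    have h1 := hn.conj_mem ⟨u, huT⟩ (Subgroup.mem_subgroupOf.2 (Subgroup.mem_zpowers u)) ⟨g, hg⟩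
    exact Subgroup.mem_subgroupOf.1 h1
  have hu4 : u ^ 4 = 1 := by rw [← hu, pow_orderOf_eq_one]
  have hmemz : ∀ a ∈ Subgroup.zpowers u, a = 1 ∨ a = u ∨ a = u ^ 2 ∨ a = u ^ 3 := by
    intro a ha
    obtain ⟨i, hi, hi'⟩ := (mem_zpowers_iff_mem_range_orderOf (x := u) (y := a)).1 ha |> Finset.mem_image.1
    rw [hu, Finset.mem_range] at hi
    interval_cases i
    · left; rw [← hi', pow_zero]
    · right; left; rw [← hi', pow_one]
    · right; right; left; exact hi'.symm
    · right; right; right; exact hi'.symm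
  have hu2 : orderOf (u ^ 2) = 2 := by
    rw [orderOf_pow_of_dvd (by norm_num) (by rw [hu]; norm_num), hu]
  have hu3 : orderOf (u ^ 3) = 4 := by
    have h1 : u ^ 3 = u⁻¹ := by
      rw [eq_inv_iff_mul_eq_one, ← pow_succ]; exact hu4
    rw [h1, orderOf_inv, hu]
  obtain ⟨v, hvT, hv, hvu⟩ : ∃ v ∈ (T : Subgroup G), orderOf v = 2 ∧ v ∉ Subgroup.zpowers u := by
    by_contra hcon
    push Not at hcon
    have huniq : ∀ v ∈ (T : Subgroup G), orderOf v = 2 → v = u ^ 2 := by
      intro v hv hv2
      rcases hmemz v (hcon v hv hv2) with h1 | h1 | h1 | h1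
      · rw [h1, orderOf_one] at hv2; omega
      · rw [h1, hu] at hv2; omega
      · exact h1
      · rw [h1, hu3] at hv2; omega
    have hcen : Subgroup.centralizer ({u ^ 2} : Set G) = T := by
      apply hcz _ (pow_mem huT 2)
      · intro h1; rw [h1, orderOf_one] at hu2; omega
      · intro s hs
        have h1 : s * u ^ 2 * s⁻¹ = u ^ 2 := by
          apply huniq _ (mul_mem (mul_mem hs (pow_mem huT 2)) (inv_mem hs))
          have := MulEquiv.orderOf_eq (MulAut.conj s) (u ^ 2)
          rw [MulAut.conj_apply] at this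
          rw [this, hu2]
        rw [mul_inv_eq_iff_eq_mul] at h1
        exact h1
    obtain ⟨w, hwT, hwu⟩ : ∃ w ∈ (T : Subgroup G), w ∉ Subgroup.zpowers u := by
      by_contra hcon2
      push Not at hcon2
      have h1 : (T : Subgroup G) ≤ Subgroup.zpowers u := hcon2
      have h2 := Subgroup.card_le_of_le h1
      rw [hc2, Nat.card_zpowers, hu] at h2
      omega
    have hw4 : orderOf w = 4 := by
      rcases hord w hwT with h1 | h1 | h1
      · exact absurd (by rw [orderOf_eq_one_iff.1 h1]; exact one_mem _) hwu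
      · exact absurd (hcon w hwT h1) hwu
      · exact h1
    obtain ⟨g, hg⟩ := isConj_iff.1 (k4 u w hu hw4)
    have hw2 : w ^ 2 = u ^ 2 := by
      apply huniq _ (pow_mem hwT 2)
      rw [orderOf_pow_of_dvd (by norm_num) (by rw [hw4]; norm_num), hw4]
    have hgT : g ∈ (T : Subgroup G) := by
      rw [← hcen, Subgroup.mem_centralizer_iff]
      rintro _ rfl
      have h1 : g * u ^ 2 * g⁻¹ = u ^ 2 := by
        rw [← conj_pow, hg, hw2]
      rw [mul_inv_eq_iff_eq_mul] at h1
      exact h1.symm
    exact hwu (hg ▸ hnorm g hgT)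
  -- v inverts u
  have hvv : v * v = 1 := by rw [← pow_two, ← hv, pow_orderOf_eq_one]
  have hvi : v⁻¹ = v := by rw [inv_eq_iff_mul_eq_one]; exact hvv
  have hnc : v * u ≠ u * v := by
    intro hc
    apply hnab
    -- T = <u> ∪ v <u>
    have hT : ∀ a ∈ (T : Subgroup G), ∃ (i : ℤ) (e : Bool), a = (if e then v else 1) * u ^ i := by
      intro a ha
      by_cases haz : a ∈ Subgroup.zpowers u
      · obtain ⟨i, hi⟩ := Subgroup.mem_zpowers_iff.1 haz
        exact ⟨i, false, by rw [← hi]; simp⟩
      · have h9 := (Subgroup.mul_mem_iff_of_index_two hidx2 (a := (⟨v, hvT⟩ : (T : Subgroup G))) (b := ⟨a, ha⟩)).2 (by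
          rw [Subgroup.mem_subgroupOf, Subgroup.mem_subgroupOf]
          exact ⟨fun h => absurd h hvu, fun h => absurd h haz⟩)
        obtain ⟨i, hi⟩ := Subgroup.mem_zpowers_iff.1 (Subgroup.mem_subgroupOf.1 h9)
        refine ⟨i, true, ?_⟩
        rw [if_pos rfl, hi]
        change a = v * (v * a)
        rw [← mul_assoc, hvv, one_mul]
    have hcv : Commute v u := hc
    intro a ha b hb
    obtain ⟨i, e, rfl⟩ := hT a ha
    obtain ⟨j, f, rfl⟩ := hT b hb
    have key : ∀ (e : Bool) (i : ℤ), Commute (if e then v else 1) (u ^ i) := by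
      intro e i
      cases e
      · exact Commute.one_left _
      · exact hcv.zpow_right i
    have key2 : ∀ e f : Bool, Commute (if e then v else 1) (if f then v else 1) := by
      intro e f
      cases e <;> cases f
      · exact Commute.one_left _
      · exact Commute.one_left _
      · exact Commute.one_right _
      · exact Commute.refl v
    exact ((key2 e f).mul_right (key e j)).mul_left ((key f i).symm.mul_right ((Commute.refl u).zpow_zpow i j))
  have hvuv : v * u * v⁻¹ = u⁻¹ := by
    have hord4 : orderOf (v * u * v⁻¹) = 4 := by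
      have := MulEquiv.orderOf_eq (MulAut.conj v) u
      rw [MulAut.conj_apply] at this
      rw [this, hu]
    rcases hmemz _ (hnorm v hvT) with h1 | h1 | h1 | h1
    · rw [h1, orderOf_one] at hord4; omega
    · exfalso
      apply hnc
      rw [mul_inv_eq_iff_eq_mul] at h1
      exact h1
    · rw [h1, hu2] at hord4; omega
    · rw [h1, eq_inv_iff_mul_eq_one, ← pow_succ]; exact hu4
  have huv2 : (u * v) * (u * v) = 1 := by
    calc (u * v) * (u * v) = u * (v * u * v⁻¹) * (v * v) := by group
      _ = 1 := by rw [hvuv, hvv]; group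
  have huvT : u * v ∈ (T : Subgroup G) := mul_mem huT hvT
  have huv1 : u * v ≠ 1 := by
    intro h1
    apply hvu
    rw [eq_inv_of_mul_eq_one_right h1]
    exact inv_mem (Subgroup.mem_zpowers u)
  have hx : orderOf (u * v) = 2 := orderOf_eq_prime (by rw [pow_two]; exact huv2) huv1
  have hne : u * v ≠ v := by
    intro h1
    have : u = 1 := mul_eq_right.1 h1
    rw [this, orderOf_one] at hu
    omega
  have hprod : u * v * v = u := by rw [mul_assoc, hvv, mul_one]
  have hD := Cfsg.Agent.S0206.result (u * v) v hx hv hne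
  rw [hprod, hu] at hD
  have hcl : Subgroup.closure ({u * v, v} : Set G) = (T : Subgroup G) := by
    have h1 : Subgroup.closure ({u * v, v} : Set G) ≤ (T : Subgroup G) := by
      rw [Subgroup.closure_le]
      intro a ha
      rcases ha with rfl | ha
      · exact huvT
      · rw [Set.mem_singleton_iff.1 ha]; exact hvT
    apply Subgroup.eq_of_le_of_card_ge h1
    rw [hc2]
    obtain ⟨eD⟩ := hD
    rw [Nat.card_congr eD.toEquiv, DihedralGroup.nat_card]
  rw [hcl] at hD
  exact ⟨hD, hNT, hcz⟩

end Cfsg.Agent.S1004
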