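import Cfsg.Statements.S1005
import Cfsg.Agent.H3.Basic
import Cfsg.Agent.H7.Ord168b

set_option autoImplicit false
open Cfsg

namespace Cfsg.Agent.S1005

/-- In a simple group of order 168 every element has order 1, 2, 3, 4 or 7; there are exactly 21 elements of order 2, and any two of them are conjugate. -/
theorem result {G : Type*} [Group G] [Finite G] [IsSimpleGroup G] (h : Nat.card G = 168) : (∀ g : G, orderOf g = 1 ∨ orderOf g = 2 ∨ orderOf g = 3 ∨ orderOf g = 4 ∨ orderOf g = 7) ∧ Nat.card {g : G // orderOf g = 2} = 21 ∧ ∀ s t : G, orderOf s = 2 → orderOf t = 2 → IsConj s t := by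
  obtain ⟨h3, h7⟩ := Cfsg.Agent.H7.Ord168.main3 h
  obtain ⟨a, b, c, _⟩ := Cfsg.Agent.H7.Ord168.main2 h h3 h7
  exact ⟨a, b, c⟩

end Cfsg.Agent.S1005
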