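import Cfsg.Statements.S1006
import Cfsg.Agent.H3.Basic
import Cfsg.Agent.H7.Ord168b

set_option autoImplicit false
open Cfsg

namespace Cfsg.Agent.S1006

/-- In a simple group of order 168 there are 56 elements of order 3, all conjugate; 42 elements of order 4, all conjugate; and 48 elements of order 7 falling into two conjugacy classes of size 24, an element of order 7 not being conjugate to its inverse. -/
theorem result {G : Type*} [Group G] [Finite G] [IsSimpleGroup G] (h : Nat.card G = 168) : Nat.card {g : G // orderOf g = 3} = 56 ∧ (∀ s t : G, orderOf s = 3 → orderOf t = 3 → IsConj s t) ∧ Nat.card {g : G // orderOf g = 4} = 42 ∧ (∀ s t : G, orderOf s = 4 → orderOf t = 4 → IsConj s t) ∧ Nat.card {g : G // orderOf g = 7} = 48 ∧ ∀ x : G, orderOf x = 7 → Nat.card {g : G // IsConj x g} = 24 ∧ ¬ IsConj x x⁻¹ := by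
  classical
  obtain ⟨h3, h7⟩ := Cfsg.Agent.H7.Ord168.main3 h
  obtain ⟨a, b, c, d, e, f, g, k⟩ := Cfsg.Agent.H7.Ord168.main2 h h3 h7
  have hcx : ∀ x : G, orderOf x = 7 → Nat.card (Subgroup.centralizer ({x} : Set G)) = 7 := by
    intro x hx
    have hno : ∀ q : ℕ, q.Prime → q ≠ 7 → ¬ q ∣ Nat.card (Subgroup.centralizer ({x} : Set G)) := by
      intro q hq hq3 hd
      haveI : Fact q.Prime := ⟨hq⟩
      obtain ⟨⟨y, hy⟩, hy'⟩ := exists_prime_orderOf_dvd_card' (G := Subgroup.centralizer ({x} : Set G)) q hd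
      have hyq : orderOf y = q := by rw [← hy', ← Subgroup.orderOf_coe]
      have h6 := h7 y x hx ((Subgroup.mem_centralizer_iff.1 hy) x rfl).symm
      rw [hyq] at h6
      exact hq3 ((Nat.prime_dvd_prime_iff_eq hq (by norm_num)).1 h6)
    have h1 : Nat.card (Subgroup.centralizer ({x} : Set G)) ∣ 3 * 56 := by
      rw [show 3 * 56 = 168 by norm_num, ← h]; exact Subgroup.card_subgroup_dvd_card _
    have c3 : Nat.Coprime (Nat.card (Subgroup.centralizer ({x} : Set G))) 3 := ((Nat.Prime.coprime_iff_not_dvd (by norm_num : Nat.Prime 3)).2 (hno 3 (by norm_num) (by norm_num))).symm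
    have c2 : Nat.Coprime (Nat.card (Subgroup.centralizer ({x} : Set G))) 2 := ((Nat.Prime.coprime_iff_not_dvd (by norm_num : Nat.Prime 2)).2 (hno 2 (by norm_num) (by norm_num))).symm
    have h5 : Nat.card (Subgroup.centralizer ({x} : Set G)) ∣ 2 ^ 3 * 7 := c3.dvd_of_dvd_mul_left h1
    have h6 : Nat.card (Subgroup.centralizer ({x} : Set G)) ∣ 7 := (c2.pow_right 3).dvd_of_dvd_mul_left h5
    have h9 : x ∈ Subgroup.centralizer ({x} : Set G) := by
      rw [Subgroup.mem_centralizer_iff]
      rintro _ rfl
      rfl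
    have h8 := Subgroup.orderOf_dvd_natCard _ h9
    rw [hx] at h8
    exact Nat.dvd_antisymm h6 h8
  refine ⟨d, e, f, g, k, fun x hx => ⟨?_, ?_⟩⟩
  · rw [Cfsg.Agent.H3.card_isConj]
    have := (Subgroup.centralizer ({x} : Set G)).card_mul_index
    rw [hcx x hx, h] at this
    omega
  · intro hconj
    obtain ⟨y, hy⟩ := isConj_iff.1 hconj
    have hy2 : Commute (y ^ 2) x := by
      have e1 : y * (y * x * y⁻¹) * y⁻¹ = x := by
        rw [hy]
        calc y * x⁻¹ * y⁻¹ = (y * x * y⁻¹)⁻¹ := by group
          _ = x := by rw [hy, inv_inv]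
      have e2 : y ^ 2 * x = x * y ^ 2 := by
        calc y ^ 2 * x = (y * (y * x * y⁻¹) * y⁻¹) * y ^ 2 := by rw [pow_two]; group
          _ = _ := by rw [e1]
      exact e2
    have hd := h7 (y ^ 2) x hx hy2
    -- the order of y is 1, 2 or 7
    have hxx : x ≠ x⁻¹ := by
      intro h1
      have h2 : x ^ 2 = 1 := by
        rw [pow_two]
        nth_rewrite 2 [h1]
        exact mul_inv_cancel x
      have h3' := orderOf_dvd_of_pow_eq_one h2
      rw [hx] at h3'
      norm_num at h3'
    have hnc : ¬ Commute y x := by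
      intro hc
      apply hxx
      rw [← hy, hc.eq, mul_inv_cancel_right]
    have hy14 : y ^ 14 = 1 := by
      have h1 := orderOf_dvd_iff_pow_eq_one.1 hd
      rw [← pow_mul] at h1
      exact h1
    rcases a y with h1 | h1 | h1 | h1 | h1
    · rw [orderOf_eq_one_iff.1 h1] at hnc
      exact hnc (Commute.one_left x)
    · -- y is an involution inverting x; count the normaliser
      haveI : Fact (Nat.Prime 7) := ⟨by norm_num⟩
      obtain ⟨⟨hn2, hn3, hn7⟩, hcases⟩ := Cfsg.Agent.H7.Ord168.main h
      have hc7 : ∀ P : Sylow 7 G, Nat.card (P : Subgroup G) = 7 := fun P =>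
        Cfsg.Agent.H2.card_sylow_prime P (by rw [h]; norm_num) (by rw [h]; norm_num)
      have hxp : IsPGroup 7 (Subgroup.zpowers x) := IsPGroup.of_card (n := 1) (by rw [Nat.card_zpowers, hx, pow_one])
      obtain ⟨Q, hQ⟩ := hxp.exists_le_sylow
      have h2 : Subgroup.zpowers x = (Q : Subgroup G) := Subgroup.eq_of_le_of_card_ge hQ (by rw [hc7, Nat.card_zpowers, hx])
      have hyN : y ∈ Subgroup.normalizer ((Q : Subgroup G) : Set G) := by
        rw [← h2, Subgroup.mem_normalizer_iff]
        intro z
        constructor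
        · intro hz
          obtain ⟨i, rfl⟩ := Subgroup.mem_zpowers_iff.1 hz
          rw [← conj_zpow, hy]
          exact Subgroup.zpow_mem _ (inv_mem (Subgroup.mem_zpowers x)) i
        · intro hz
          obtain ⟨i, hi⟩ := Subgroup.mem_zpowers_iff.1 hz
          have h4 : z = (y⁻¹ * x * y) ^ i := by
            have h5 : y⁻¹ * x * y = y⁻¹ * x * (y⁻¹)⁻¹ := by rw [inv_inv]
            rw [h5, conj_zpow, hi]
            group
          have h5 : y⁻¹ * x * y = x⁻¹ := by
            have : x = y⁻¹ * x⁻¹ * y := by rw [← hy]; group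
            calc y⁻¹ * x * y = (y⁻¹ * x⁻¹ * y)⁻¹ := by group
              _ = x⁻¹ := by rw [← this]
          rw [h4, h5]
          exact Subgroup.zpow_mem _ (inv_mem (Subgroup.mem_zpowers x)) i
      have hidx : Nat.card (Sylow 7 G) = (Subgroup.normalizer ((Q : Subgroup G) : Set G)).index := Q.card_eq_index_normalizer
      have h5 := (Subgroup.normalizer ((Q : Subgroup G) : Set G)).card_mul_index
      rw [← hidx, h, hn7] at h5
      have h6 : Nat.card (Subgroup.normalizer ((Q : Subgroup G) : Set G)) = 21 := by omega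
      have h8 := Subgroup.orderOf_dvd_natCard _ hyN
      rw [h1, h6] at h8
      norm_num at h8
    · have := orderOf_dvd_of_pow_eq_one hy14
      rw [h1] at this
      norm_num at this
    · have := orderOf_dvd_of_pow_eq_one hy14
      rw [h1] at this
      norm_num at this
    · apply hnc
      have h2 : y = (y ^ 2) ^ 4 := by
        rw [← pow_mul]
        calc y = y ^ 7 * y := by rw [← h1, pow_orderOf_eq_one, one_mul]
          _ = y ^ (2 * 4) := by rw [← pow_succ]
      rw [h2]
      exact hy2.pow_left 4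

end Cfsg.Agent.S1006
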