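import Cfsg.Statements.S1009
import Cfsg.Agent.H3.Basic

set_option autoImplicit false
open Cfsg

namespace Cfsg.Agent.S1009

/-- Brodkey's Theorem: if a finite group has abelian Sylow p-subgroups, then there are two Sylow p-subgroups whose intersection equals the intersection of all Sylow p-subgroups. -/
theorem result {G : Type*} [Group G] [Finite G] (p : ℕ) [Fact p.Prime] (hab : ∀ P : Sylow p G, IsMulCommutative ↥(P : Subgroup G)) : ∃ P Q : Sylow p G, (P : Subgroup G) ⊓ (Q : Subgroup G) = ⨅ R : Sylow p G, (R : Subgroup G) := by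
  classical
  haveI : Nonempty (Sylow p G × Sylow p G) := inferInstance
  obtain ⟨⟨P, Q⟩, hmin⟩ := Finite.exists_min (fun t : Sylow p G × Sylow p G => Nat.card ((t.1 : Subgroup G) ⊓ (t.2 : Subgroup G) : Subgroup G))
  refine ⟨P, Q, le_antisymm ?_ (le_inf (iInf_le _ P) (iInf_le _ Q))⟩
  apply le_iInf
  intro R
  set D := (P : Subgroup G) ⊓ (Q : Subgroup G) with hD
  set C := Subgroup.centralizer (D : Set G) with hC
  have hcom : ∀ (S : Sylow p G) (x y : G), x ∈ S → y ∈ S → x * y = y * x := by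
    intro S x y hx hy
    exact congrArg Subtype.val ((hab S).is_comm.comm ⟨x, hx⟩ ⟨y, hy⟩)
  have hPC : (P : Subgroup G) ≤ C := by
    intro x hx
    rw [hC, Subgroup.mem_centralizer_iff]
    intro y hy
    exact hcom P y x hy.1 hx
  have hQC : (Q : Subgroup G) ≤ C := by
    intro x hx
    rw [hC, Subgroup.mem_centralizer_iff]
    intro y hy
    exact hcom Q y x hy.2 hx
  have hRC : IsPGroup p ((R : Subgroup G).subgroupOf C) :=
    R.isPGroup'.comap_of_injective C.subtype C.subtype_injective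
  obtain ⟨S, hS⟩ := hRC.exists_le_sylow
  obtain ⟨c, hc⟩ := MulAction.exists_smul_eq C (P.subtype hPC) S
  have hcc : ∀ y ∈ R, y ∈ C → c.1⁻¹ * y * c.1 ∈ P := by
    intro y hy hyC
    have h1 : (⟨y, hyC⟩ : C) ∈ (S : Subgroup C) := hS hy
    rw [← hc] at h1
    have h2 : (MulAut.conj c)⁻¹ • (⟨y, hyC⟩ : C) ∈ (P.subtype hPC : Subgroup C) := by
      rw [Sylow.coe_subgroup_smul, Subgroup.mem_pointwise_smul_iff_inv_smul_mem] at h1
      exact h1
    have h3 : (((MulAut.conj c)⁻¹ • (⟨y, hyC⟩ : C) : C) : G) = c.1⁻¹ * y * c.1 := by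
      rw [← map_inv, MulAut.smul_def, MulAut.conj_apply, inv_inv]
      rfl
    have h4 : (((MulAut.conj c)⁻¹ • (⟨y, hyC⟩ : C) : C) : G) ∈ P := h2
    rwa [h3] at h4
  have hQ' : ∀ y : G, y ∈ ((c.1 • Q : Sylow p G) : Subgroup G) → c.1⁻¹ * y * c.1 ∈ Q := by
    intro y hy
    rw [Sylow.coe_subgroup_smul, Subgroup.mem_pointwise_smul_iff_inv_smul_mem] at hy
    rw [← map_inv, MulAut.smul_def, MulAut.conj_apply, inv_inv] at hy
    exact hy
  have hle : (R : Subgroup G) ⊓ ((c.1 • Q : Sylow p G) : Subgroup G) ≤ D := by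
    rintro y ⟨hyR, hyQ⟩
    have h1 := hQ' y hyQ
    have h2 : y ∈ C := by
      have h3 := mul_mem (mul_mem c.2 (hQC h1)) (inv_mem c.2)
      have h4 : c.1 * (c.1⁻¹ * y * c.1) * c.1⁻¹ = y := by group
      rwa [h4] at h3
    have h3 := hcc y hyR h2
    have h5 : c.1⁻¹ * y * c.1 ∈ D := ⟨h3, h1⟩
    have h6 := Subgroup.mem_centralizer_iff.1 c.2 _ h5
    have h7 : y = c.1⁻¹ * y * c.1 := by
      calc y = c.1 * (c.1⁻¹ * y * c.1) * c.1⁻¹ := by group
        _ = (c.1⁻¹ * y * c.1) * c.1 * c.1⁻¹ := by rw [← h6]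
        _ = c.1⁻¹ * y * c.1 := by group
    rw [h7]
    exact h5
  have h1 := hmin (R, c.1 • Q)
  have h2 : (R : Subgroup G) ⊓ ((c.1 • Q : Sylow p G) : Subgroup G) = D := Subgroup.eq_of_le_of_card_ge hle h1
  rw [← h2]
  exact inf_le_left

end Cfsg.Agent.S1009
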