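import Cfsg.Statements.S1013
import Cfsg.Agent.H1.Transfer

set_option autoImplicit false
open Cfsg

namespace Cfsg.Agent.S1013

theorem burnside_normal {G : Type*} [Group G] [Finite G] {p : ℕ} [Fact p.Prime] (P : Sylow p G) (N : Subgroup G) [N.Normal] (hPN : (P : Subgroup G) ≤ N)
    (hab : ∀ x ∈ P, ∀ y ∈ P, x * y = y * x) (hNN : ∀ g ∈ N, g ∈ Subgroup.normalizer ((P : Subgroup G) : Set G) → g ∈ P) :
    ∃ K : Subgroup G, K.Normal ∧ ¬ p ∣ Nat.card K ∧ Nat.card K * Nat.card P = Nat.card N := by
  classical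
  let Q : Sylow p N := P.subtype hPN
  have hQ : ∀ x : N, x ∈ (Q : Subgroup N) ↔ x.1 ∈ P := fun x => Iff.rfl
  have hQN : Subgroup.normalizer ((Q : Subgroup N) : Set N) ≤ Subgroup.centralizer ((Q : Subgroup N) : Set N) := by
    intro g hg
    have h1 : g.1 ∈ Subgroup.normalizer ((P : Subgroup G) : Set G) := by
      rw [Subgroup.mem_normalizer_iff] at hg ⊢
      intro h
      constructor
      · intro hh
        exact (hg ⟨h, hPN hh⟩).1 hh
      · intro hh
        have h2 : h ∈ N := by
          have h3 := hPN hh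
          have h4 := (inferInstance : N.Normal).conj_mem _ h3 g.1⁻¹
          have h5 : g.1⁻¹ * (g.1 * h * g.1⁻¹) * g.1⁻¹⁻¹ = h := by group
          rwa [h5] at h4
        exact (hg ⟨h, h2⟩).2 hh
    have h2 := hNN g.1 g.2 h1
    rw [Subgroup.mem_centralizer_iff]
    intro x hx
    apply Subtype.ext
    exact hab x.1 hx g.1 h2
  let τ := MonoidHom.transferSylow Q hQN
  have hcomp := MonoidHom.ker_transferSylow_isComplement' Q hQN
  have hnd := MonoidHom.not_dvd_card_ker_transferSylow Q hQN
  have hcK : Nat.card (τ.ker.map N.subtype) = Nat.card τ.ker := Subgroup.card_map_of_injective N.subtype_injective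
  have hcQ : Nat.card (Q : Subgroup N) = Nat.card P := by
    change Nat.card ((P : Subgroup G).subgroupOf N) = Nat.card P
    rw [Nat.card_congr (Subgroup.subgroupOfEquivOfLe hPN).toEquiv]
  refine ⟨τ.ker.map N.subtype, ⟨?_⟩, ?_, ?_⟩
  · rintro _ ⟨x, hx, rfl⟩ g
    refine ⟨⟨g * x.1 * g⁻¹, (inferInstance : N.Normal).conj_mem _ x.2 g⟩, ?_, rfl⟩
    rw [SetLike.mem_coe, MonoidHom.mem_ker]
    apply Cfsg.Agent.H1.map_eq_one_of_coprime Q.isPGroup'
    rw [Subgroup.orderOf_mk]
    have h1 : orderOf (g * x.1 * g⁻¹) = orderOf x.1 := by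
      have := (MulAut.conj g).orderOf_eq x.1
      rwa [MulAut.conj_apply] at this
    rw [h1, Subgroup.orderOf_coe]
    have h2 : orderOf (⟨x, hx⟩ : τ.ker) ∣ Nat.card τ.ker := orderOf_dvd_natCard _
    rw [Subgroup.orderOf_mk] at h2
    exact (Nat.Coprime.coprime_dvd_left h2 ((Nat.Prime.coprime_iff_not_dvd Fact.out).2 hnd).symm)
  · rw [hcK]; exact hnd
  · rw [hcK, ← hcQ]
    exact hcomp.card_mul

/-- Let G be a transitive permutation group of prime degree p having more than one Sylow p-subgroup, and suppose a Sylow p-subgroup P has prime index in its normalizer. Then G is simple. -/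
theorem result {α : Type*} [Fintype α] [DecidableEq α] {p : ℕ} [Fact p.Prime] (hα : Fintype.card α = p) (G : Subgroup (Equiv.Perm α)) [MulAction.IsPretransitive ↥G α] (P : Sylow p ↥G) (hn : 1 < Nat.card (Sylow p ↥G)) (ht : (((P : Subgroup ↥G).subgroupOf (Subgroup.normalizer ((P : Subgroup ↥G) : Set ↥G))).index).Prime) : IsSimpleGroup ↥G := by
  classical
  have hp : p.Prime := Fact.out
  have hα' : Nat.card α = p := by rw [Nat.card_eq_fintype_card, hα]
  haveI : MulAction.IsPreprimitive G α := MulAction.IsPreprimitive.of_prime_card (by rw [hα']; exact hp)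
  haveI : Nonempty α := Fintype.card_pos_iff.1 (by rw [hα]; exact hp.pos)
  -- normal subgroups
  have htr : ∀ N : Subgroup G, N.Normal → N ≠ ⊥ → p ∣ Nat.card N := by
    intro N hN hN1
    obtain ⟨⟨⟨g, hg⟩, hgN⟩, hg1⟩ : ∃ x : N, x ≠ 1 := by
      by_contra hcon
      push Not at hcon
      apply hN1
      rw [eq_bot_iff]
      intro x hx
      rw [Subgroup.mem_bot]
      exact congrArg Subtype.val (hcon ⟨x, hx⟩)
    have hg1' : g ≠ 1 := by
      rintro rfl
      exact hg1 rfl
    have hfp : MulAction.fixedPoints N α ≠ Set.univ := by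
      intro h
      apply hg1'
      apply Equiv.ext
      intro x
      have hx : x ∈ MulAction.fixedPoints N α := by rw [h]; trivial
      exact hx ⟨⟨g, hg⟩, hgN⟩
    haveI := MulAction.IsQuasiPreprimitive.isPretransitive_of_normal (G := G) (X := α) hfp
    obtain ⟨a⟩ := (inferInstance : Nonempty α)
    have h1 := MulAction.index_stabilizer_of_transitive N a
    rw [hα'] at h1
    rw [← h1]
    exact Subgroup.index_dvd_card _
  have hpG : p ∣ Nat.card G := by
    obtain ⟨a⟩ := (inferInstance : Nonempty α)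
    have h1 := MulAction.index_stabilizer_of_transitive G a
    rw [hα'] at h1
    rw [← h1]
    exact Subgroup.index_dvd_card _
  have hpp : ¬ p ^ 2 ∣ Nat.card G := by
    intro h
    have h1 : Nat.card G ∣ p.factorial := by
      have := Subgroup.card_subgroup_dvd_card G
      rwa [Nat.card_eq_fintype_card (α := Equiv.Perm α), Fintype.card_perm, hα] at this
    have h2 := h.trans h1
    obtain ⟨k, hk⟩ : ∃ k, p = k + 1 := ⟨p - 1, by have := hp.pos; omega⟩
    have h3 : p.factorial = p * k.factorial := by rw [hk, Nat.factorial_succ]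
    rw [h3, pow_two] at h2
    have h4 := Nat.dvd_of_mul_dvd_mul_left hp.pos h2
    have h5 := (hp.dvd_factorial).1 h4
    omega
  have hPc : Nat.card P = p := by
    obtain ⟨k, hk⟩ := IsPGroup.iff_card.1 P.isPGroup'
    have h1 : p ∣ Nat.card P := P.dvd_card_of_dvd_card hpG
    have h2 : Nat.card P ∣ Nat.card G := Subgroup.card_subgroup_dvd_card _
    have h3 : k < 2 := by
      by_contra h
      apply hpp
      exact (pow_dvd_pow p (by omega : 2 ≤ k)).trans (hk ▸ h2)
    interval_cases k
    · rw [hk, pow_zero] at h1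
      exact absurd (Nat.dvd_one.1 h1) hp.one_lt.ne'
    · rw [hk, pow_one]
  have hab : ∀ x ∈ P, ∀ y ∈ P, x * y = y * x := by
    intro x hx y hy
    haveI : IsCyclic P := isCyclic_of_prime_card hPc
    exact congrArg Subtype.val (IsCyclic.commutative.is_comm.comm (⟨x, hx⟩ : P) ⟨y, hy⟩)
  haveI : Nontrivial G := by
    rw [← Finite.one_lt_card_iff_nontrivial]
    exact lt_of_lt_of_le hp.one_lt (Nat.le_of_dvd Nat.card_pos hpG)
  refine { exists_pair_ne := (inferInstance : Nontrivial G).exists_pair_ne, eq_bot_or_eq_top_of_normal := ?_ }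
  intro N hN
  by_cases hN1 : N = ⊥
  · exact Or.inl hN1
  right
  have hpN := htr N hN hN1
  -- the Sylow subgroup lies in N
  have hPN : (P : Subgroup G) ≤ N := by
    obtain ⟨⟨x, hxN⟩, hx⟩ := exists_prime_orderOf_dvd_card' (G := N) p hpN
    rw [Subgroup.orderOf_mk] at hx
    have h1 : IsPGroup p (Subgroup.zpowers x) := IsPGroup.of_card (n := 1) (by rw [Nat.card_zpowers, hx, pow_one])
    obtain ⟨Q, hQ⟩ := h1.exists_le_sylow
    have hQc : Nat.card Q = p := by rw [Q.card_eq_multiplicity, ← P.card_eq_multiplicity, hPc]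
    have h2 : Subgroup.zpowers x = Q := Subgroup.eq_of_le_of_card_ge hQ (by rw [Nat.card_zpowers, hx]; exact hQc.le)
    obtain ⟨g, hg⟩ := MulAction.exists_smul_eq G Q P
    rw [← hg]
    intro y hy
    rw [Sylow.coe_subgroup_smul, Subgroup.mem_pointwise_smul_iff_inv_smul_mem] at hy
    have h3 : (MulAut.conj g)⁻¹ • y ∈ N := by
      have h4 : (MulAut.conj g)⁻¹ • y ∈ (Q : Subgroup G) := hy
      rw [← h2] at h4
      exact (Subgroup.zpowers_le.2 hxN) h4
    have h4 : (MulAut.conj g)⁻¹ • y = g⁻¹ * y * g := by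
      rw [← map_inv, MulAut.smul_def, MulAut.conj_apply, inv_inv]
    rw [h4] at h3
    have h5 := hN.conj_mem _ h3 g
    have h6 : g * (g⁻¹ * y * g) * g⁻¹ = y := by group
    rwa [h6] at h5
  set M := Subgroup.normalizer ((P : Subgroup G) : Set G) with hM
  have hPM : (P : Subgroup G) ≤ M := Subgroup.le_normalizer
  have hle : (P : Subgroup G).subgroupOf M ≤ N.subgroupOf M := by
    intro x hx
    exact hPN hx
  have hfr := Sylow.normalizer_sup_eq_top' P hPN
  rcases (Nat.dvd_prime ht).1 (Subgroup.index_dvd_of_le hle) with h1 | h1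
  · have h2 : M ≤ N := by
      rw [Subgroup.index_eq_one, Subgroup.subgroupOf_eq_top] at h1
      exact h1
    have h3 : (M ⊔ N : Subgroup G) = ⊤ := hfr
    rw [sup_eq_right.2 h2] at h3
    exact h3
  · exfalso
    have h2 : (P : Subgroup G).subgroupOf M = N.subgroupOf M := by
      apply Subgroup.eq_of_le_of_card_ge hle
      have h3 := Subgroup.index_mul_card ((P : Subgroup G).subgroupOf M)
      have h4 := Subgroup.index_mul_card (N.subgroupOf M)
      rw [h1, ← h3] at h4
      exact (Nat.eq_of_mul_eq_mul_left (ht.pos) h4).le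
    obtain ⟨K, hK1, hK2, hK3⟩ := burnside_normal P N hPN hab (by
      intro g hg hgM
      have h3 : (⟨g, hgM⟩ : M) ∈ N.subgroupOf M := hg
      rw [← h2] at h3
      exact h3)
    have hK : K = ⊥ := by
      by_contra h
      exact hK2 (htr K hK1 h)
    rw [hK, Subgroup.card_bot, one_mul] at hK3
    have h3 : (P : Subgroup G) = N := Subgroup.eq_of_le_of_card_ge hPN hK3.ge
    haveI : (P : Subgroup G).Normal := by rw [h3]; exact hN
    have h4 : Subsingleton (Sylow p G) := by
      constructor
      intro Q R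
      obtain ⟨g, rfl⟩ := MulAction.exists_smul_eq G P Q
      obtain ⟨k, rfl⟩ := MulAction.exists_smul_eq G P R
      rw [Sylow.smul_eq_of_normal, Sylow.smul_eq_of_normal]
    have h5 : Nat.card (Sylow p G) = 1 := Nat.card_eq_one_iff_unique.2 ⟨h4, ⟨P⟩⟩
    omega

end Cfsg.Agent.S1013
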