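import Cfsg.Statements.S1014
import Cfsg.Agent.H3.Basic
import Cfsg.Agent.H2.SylCount
import Cfsg.Agent.H1.Transfer
import Cfsg.Agent.S1018

set_option autoImplicit false
open Cfsg

namespace Cfsg.Agent.S1014

/-- No finite simple group has order 1104 = 2^4 * 3 * 23. -/
theorem result {G : Type*} [Group G] [Finite G] [IsSimpleGroup G] : Nat.card G ≠ 1104 := by
  classical
  intro h
  haveI : Fact (Nat.Prime 23) := ⟨by norm_num⟩
  haveI : Fact (Nat.Prime 2) := ⟨Nat.prime_two⟩
  obtain ⟨P⟩ := (inferInstance : Nonempty (Sylow 23 G))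
  have hPc : Nat.card (P : Subgroup G) = 23 := Cfsg.Agent.H2.card_sylow_prime P (by rw [h]; norm_num) (by rw [h]; norm_num)
  set N := Subgroup.normalizer ((P : Subgroup G) : Set G) with hN
  have hidx : Nat.card (Sylow 23 G) = N.index := P.card_eq_index_normalizer
  have hn1 := card_sylow_modEq_one 23 G
  have hn2 : Nat.card (Sylow 23 G) ∣ 48 := by
    have h3 := P.card_dvd_index
    have h4 := (P : Subgroup G).card_mul_index
    rw [hPc, h] at h4
    have h5 : (P : Subgroup G).index = 48 := by omega
    rwa [h5] at h3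
  have hn3 : Nat.card (Sylow 23 G) = 24 := by
    unfold Nat.ModEq at hn1
    have h4 : Nat.card (Sylow 23 G) = 1 ∨ Nat.card (Sylow 23 G) = 24 := by
      generalize Nat.card (Sylow 23 G) = n at hn1 hn2
      have h4 : n ∈ Nat.divisors 48 := Nat.mem_divisors.2 ⟨hn2, by norm_num⟩
      have h5 : Nat.divisors 48 = {1, 2, 3, 4, 6, 8, 12, 16, 24, 48} := by decide +kernel
      rw [h5] at h4
      simp only [Finset.mem_insert, Finset.mem_singleton] at h4
      omega
    rcases h4 with h3 | h3
    · exfalso
      haveI : Subsingleton (Sylow 23 G) := (Nat.card_eq_one_iff_unique.1 h3).1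
      have hn := Sylow.normal_of_subsingleton P
      rcases IsSimpleGroup.eq_bot_or_eq_top_of_normal (P : Subgroup G) hn with h5 | h5
      · rw [h5, Subgroup.card_bot] at hPc
        omega
      · rw [h5, Subgroup.card_top, h] at hPc
        omega
    · exact h3
  have hNi : N.index = 24 := by rw [← hidx, hn3]
  have hNc : Nat.card N = 46 := by
    have h5 := N.card_mul_index
    rw [hNi, h] at h5
    omega
  haveI hPcyc : IsCyclic (P : Subgroup G) := isCyclic_of_prime_card hPc
  have hPC : (P : Subgroup G) ≤ Subgroup.centralizer ((P : Subgroup G) : Set G) := by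
    intro x hx
    rw [Subgroup.mem_centralizer_iff]
    intro y hy
    exact congrArg Subtype.val ((IsCyclic.isMulCommutative (α := (P : Subgroup G))).is_comm.comm ⟨y, hy⟩ ⟨x, hx⟩)
  have hnNC : ¬ N ≤ Subgroup.centralizer ((P : Subgroup G) : Set G) := by
    intro hNC
    obtain ⟨S, K, hK, hSK⟩ := Cfsg.Agent.H1.hasNormalPComplement_of_normalizer_le_centralizer P hNC
    have hSc : Nat.card (S : Subgroup G) = Nat.card (P : Subgroup G) := Cfsg.Agent.H3.sylow_card_eq S P
    have h4 : Nat.card K * Nat.card (S : Subgroup G) = Nat.card G := hSK.card_mul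
    rcases IsSimpleGroup.eq_bot_or_eq_top_of_normal K hK with h5 | h5
    · rw [h5, Subgroup.card_bot, one_mul, hSc, hPc, h] at h4
      omega
    · rw [h5, Subgroup.card_top, hSc, hPc, h] at h4
      omega
  obtain ⟨⟨t, htN⟩, ht'⟩ := exists_prime_orderOf_dvd_card' (G := N) 2 (by rw [hNc]; norm_num)
  have ht : orderOf t = 2 := by rw [← ht', ← Subgroup.orderOf_coe]
  have htC : t ∉ Subgroup.centralizer ((P : Subgroup G) : Set G) := by
    intro htC
    apply hnNC
    have h1 : Nat.card (Subgroup.centralizer ((P : Subgroup G) : Set G)) ∣ 46 := by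
      rw [← hNc]
      exact Subgroup.card_dvd_of_le (Subgroup.centralizer_le_normalizer _)
    have h2 : 2 ∣ Nat.card (Subgroup.centralizer ((P : Subgroup G) : Set G)) := by
      rw [← ht]; exact Subgroup.orderOf_dvd_natCard _ htC
    have h3 : 23 ∣ Nat.card (Subgroup.centralizer ((P : Subgroup G) : Set G)) := by
      have h4 := Subgroup.card_dvd_of_le hPC
      rwa [hPc] at h4
    have h4 : Nat.card N ≤ Nat.card (Subgroup.centralizer ((P : Subgroup G) : Set G)) := by
      rw [hNc]
      exact Nat.le_of_dvd Nat.card_pos (Nat.Coprime.mul_dvd_of_dvd_of_dvd (by norm_num : Nat.Coprime 2 23) h2 h3)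
    rw [Subgroup.eq_of_le_of_card_ge (Subgroup.centralizer_le_normalizer _) h4]
  obtain ⟨hfixp, hfixt⟩ := Cfsg.Agent.S1018.result 23 P hPc
  -- number of orbits of P on the cosets
  let X := G ⧸ N
  haveI : Fintype X := Fintype.ofFinite X
  have hXc : Nat.card X = 24 := hNi
  obtain ⟨⟨x, hxP⟩, hx'⟩ := exists_prime_orderOf_dvd_card' (G := (P : Subgroup G)) 23 (by rw [hPc])
  have hx : orderOf x = 23 := by rw [← hx', ← Subgroup.orderOf_coe]
  have hfx := hfixp x hx
  have hzP : Subgroup.zpowers x = (P : Subgroup G) :=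
    Subgroup.eq_of_le_of_card_ge (by rw [Subgroup.zpowers_le]; exact hxP) (by rw [hPc, Nat.card_zpowers, hx])
  let a0 : X := ((1 : G) : G ⧸ N)
  have ha0 : ∀ g ∈ N, g • a0 = a0 := by
    intro g hg
    change ((g * 1 : G) : G ⧸ N) = ((1 : G) : G ⧸ N)
    rw [mul_one, eq_comm, QuotientGroup.eq, inv_one, one_mul]
    exact hg
  have huniq : ∀ a : X, x • a = a → a = a0 := by
    intro a ha
    haveI := (Nat.card_eq_one_iff_unique.1 hfx).1
    have := Subsingleton.elim (⟨a, ha⟩ : MulAction.fixedBy X x) ⟨a0, ha0 x (Subgroup.le_normalizer hxP)⟩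
    exact congrArg Subtype.val this
  -- t fixes at most two points
  have ht2 : Nat.card (MulAction.fixedBy X t) ≤ 2 := by
    refine (hfixt t htN htC).trans ?_
    -- orbits
    have horb : ∀ a : X, a ≠ a0 → Nat.card (MulAction.orbit (P : Subgroup G) a) = 23 := by
      intro a ha
      have h4 : Nat.card (P : Subgroup G) = Nat.card (MulAction.orbit (P : Subgroup G) a) * Nat.card (MulAction.stabilizer (P : Subgroup G) a) := by
        rw [← Nat.card_prod]
        exact Nat.card_congr (MulAction.orbitProdStabilizerEquivGroup (P : Subgroup G) a).symm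
      have h5 : Nat.card (MulAction.orbit (P : Subgroup G) a) ∣ 23 := ⟨_, hPc.symm.trans h4⟩
      rcases (Nat.dvd_prime (by norm_num)).1 h5 with h6 | h6
      · exfalso
        apply ha
        apply huniq
        haveI := (Nat.card_eq_one_iff_unique.1 h6).1
        have h7 : (⟨x • a, ⟨⟨x, hxP⟩, rfl⟩⟩ : MulAction.orbit (P : Subgroup G) a) = ⟨a, MulAction.mem_orbit_self a⟩ := Subsingleton.elim _ _
        exact congrArg Subtype.val h7
      · exact h6
    have hone : ∀ a b : X, a ≠ a0 → b ≠ a0 → (Quotient.mk _ a : MulAction.orbitRel.Quotient ↥(P : Subgroup G) X) = Quotient.mk _ b := by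
      intro a b ha hb
      apply Quotient.sound
      change a ∈ MulAction.orbit (P : Subgroup G) b
      by_contra hab
      have h1 : (MulAction.orbit (P : Subgroup G) b).ncard = 23 := by rw [← Nat.card_coe_set_eq]; exact horb b hb
      have h2 : (MulAction.orbit (P : Subgroup G) a).ncard = 23 := by rw [← Nat.card_coe_set_eq]; exact horb a ha
      have h3 : Disjoint (MulAction.orbit (P : Subgroup G) a) (MulAction.orbit (P : Subgroup G) b) := by
        rw [Set.disjoint_left]
        intro y hy1 hy2
        apply hab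
        have e1 := MulAction.orbit_eq_iff.2 hy1
        have e2 := MulAction.orbit_eq_iff.2 hy2
        rw [← e2, e1]
        exact MulAction.mem_orbit_self a
      have h4 := Set.ncard_union_eq h3 (Set.toFinite _) (Set.toFinite _)
      have h5 := Set.ncard_le_ncard (Set.subset_univ (MulAction.orbit (P : Subgroup G) a ∪ MulAction.orbit (P : Subgroup G) b)) (Set.toFinite _)
      rw [Set.ncard_univ, hXc, h4, h1, h2] at h5
      omega
    have hinj : Function.Injective (fun q : MulAction.orbitRel.Quotient ↥(P : Subgroup G) X => decide (q = Quotient.mk _ a0)) := by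
      intro q r hqr
      change decide (q = Quotient.mk _ a0) = decide (r = Quotient.mk _ a0) at hqr
      induction q using Quotient.inductionOn with
      | h a =>
        induction r using Quotient.inductionOn with
        | h b =>
          by_cases h1 : (Quotient.mk _ a : MulAction.orbitRel.Quotient ↥(P : Subgroup G) X) = Quotient.mk _ a0
          · rw [decide_eq_true h1, eq_comm, decide_eq_true_iff] at hqr
            rw [h1, hqr]
          · rw [decide_eq_false h1, eq_comm, decide_eq_false_iff_not] at hqr
            exact hone a b (fun h => h1 (by rw [h])) (fun h => hqr (by rw [h]))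
    have := Nat.card_le_card_of_injective _ hinj
    rwa [Nat.card_eq_fintype_card (α := Bool), Fintype.card_bool] at this
  -- sign
  let φ : G →* Equiv.Perm X := MulAction.toPermHom G X
  have hφt : (φ t) ^ 2 = 1 := by
    rw [← map_pow]
    have := pow_orderOf_eq_one t
    rw [ht] at this
    rw [this, map_one]
  have hsupp : (φ t).support.card + Nat.card (MulAction.fixedBy X t) = 24 := by
    have h1 : Nat.card (MulAction.fixedBy X t) = ((φ t).support)ᶜ.card := by
      rw [← Set.ncard_coe_finset, ← Nat.card_coe_set_eq]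
      apply Nat.card_congr
      apply Equiv.setCongr
      ext a
      rw [Finset.mem_coe, Finset.mem_compl, Equiv.Perm.mem_support, not_not]
      rfl
    rw [h1, Finset.card_add_card_compl, ← Nat.card_eq_fintype_card, hXc]
  have hfpos : 1 ≤ Nat.card (MulAction.fixedBy X t) := by
    haveI : Nonempty (MulAction.fixedBy X t) := ⟨⟨a0, ha0 t htN⟩⟩
    exact Nat.card_pos
  have hne1 : φ t ≠ 1 := by
    intro h1
    rw [h1, Equiv.Perm.support_one, Finset.card_empty] at hsupp
    omega
  have hord : orderOf (φ t) = 2 := orderOf_eq_prime hφt hne1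
  obtain ⟨n, hn⟩ := Equiv.Perm.cycleType_prime_order (σ := φ t) (by rw [hord]; exact Nat.prime_two)
  have hsum := Equiv.Perm.sum_cycleType (φ t)
  rw [hn, hord, Multiset.sum_replicate, smul_eq_mul] at hsum
  have hn11 : n + 1 = 11 := by omega
  have hsign : Equiv.Perm.sign (φ t) = -1 := by
    rw [Equiv.Perm.sign_of_cycleType, hn, hn11, hord, Multiset.sum_replicate, Multiset.card_replicate]
    decide
  let ψ : G →* ℤˣ := (Equiv.Perm.sign).comp φ
  have hψ : ψ t = -1 := hsign
  rcases IsSimpleGroup.eq_bot_or_eq_top_of_normal ψ.ker inferInstance with h5 | h5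
  · have hinj : Function.Injective ψ := (MonoidHom.ker_eq_bot_iff ψ).1 h5
    have h6 := Nat.card_le_card_of_injective _ hinj
    rw [h, Nat.card_eq_fintype_card (α := ℤˣ), Fintype.card_units_int] at h6
    omega
  · have h6 : t ∈ ψ.ker := by rw [h5]; trivial
    rw [MonoidHom.mem_ker, hψ] at h6
    exact absurd h6 (by decide)

end Cfsg.Agent.S1014
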