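import Cfsg.Statements.S1019
import Cfsg.Agent.H3.Basic

set_option autoImplicit false
open Cfsg

namespace Cfsg.Agent.S1019

/-- Let H be a subgroup of a finite group G and x an element of H. In the action of G on the left cosets of H, the number of cosets fixed by x, multiplied by the size of the conjugacy class of x, equals the index of H multiplied by the number of conjugates of x that lie in H. -/
theorem result {G : Type*} [Group G] [Finite G] (H : Subgroup G) (x : G) (hx : x ∈ H) : Nat.card (MulAction.fixedBy (G ⧸ H) x) * Nat.card {g : G // IsConj x g} = H.index * Nat.card {g : G // IsConj x g ∧ g ∈ H} := by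
  classical
  haveI : Fintype G := Fintype.ofFinite G
  -- the set of elements conjugating x into H
  let T := {g : G // g⁻¹ * x * g ∈ H}
  have h1 : Nat.card T = Nat.card (MulAction.fixedBy (G ⧸ H) x) * Nat.card H := by
    rw [← Nat.card_prod]
    have hfix : ∀ g : G, (g : G ⧸ H) ∈ MulAction.fixedBy (G ⧸ H) x ↔ g⁻¹ * x * g ∈ H := by
      intro g
      rw [MulAction.mem_fixedBy]
      change ((x * g : G) : G ⧸ H) = (g : G ⧸ H) ↔ _
      rw [eq_comm, QuotientGroup.eq, mul_assoc]
    refine Nat.card_congr ⟨fun g => (⟨(g.1 : G ⧸ H), (hfix g.1).2 g.2⟩, ⟨((g.1 : G ⧸ H).out)⁻¹ * g.1, ?_⟩),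
      fun t => ⟨t.1.1.out * t.2.1, ?_⟩, ?_, ?_⟩
    · rw [← QuotientGroup.eq]
      exact QuotientGroup.out_eq' _
    · have h2 : (t.1.1.out : G)⁻¹ * x * t.1.1.out ∈ H := by
        rw [← hfix, QuotientGroup.out_eq']
        exact t.1.2
      have h3 : (t.1.1.out * t.2.1)⁻¹ * x * (t.1.1.out * t.2.1) = t.2.1⁻¹ * (t.1.1.out⁻¹ * x * t.1.1.out) * t.2.1 := by group
      rw [h3]
      exact mul_mem (mul_mem (inv_mem t.2.2) h2) t.2.2
    · intro g
      apply Subtype.ext
      change (g.1 : G ⧸ H).out * ((g.1 : G ⧸ H).out⁻¹ * g.1) = g.1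
      group
    · rintro ⟨⟨c, hc⟩, h⟩
      have h4 : ((c.out * h.1 : G) : G ⧸ H) = c := by
        have h5 : ((c.out * h.1 : G) : G ⧸ H) = (c.out : G ⧸ H) := by
          rw [eq_comm, QuotientGroup.eq, inv_mul_cancel_left]
          exact h.2
        rw [h5, QuotientGroup.out_eq']
      apply Prod.ext
      · exact Subtype.ext h4
      · apply Subtype.ext
        change ((c.out * h.1 : G) : G ⧸ H).out⁻¹ * (c.out * h.1) = h.1
        rw [h4, inv_mul_cancel_left]
  have h2 : Nat.card T = Nat.card {g : G // IsConj x g ∧ g ∈ H} * Nat.card (Subgroup.centralizer ({x} : Set G)) := by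
    rw [← Nat.card_prod]
    have hex : ∀ y : {g : G // IsConj x g ∧ g ∈ H}, ∃ g : G, g⁻¹ * x * g = y.1 := by
      intro y
      obtain ⟨c, hc⟩ := isConj_iff.1 y.2.1
      exact ⟨c⁻¹, by rw [inv_inv]; exact hc⟩
    choose f hf using hex
    have hc : ∀ c : G, c ∈ Subgroup.centralizer ({x} : Set G) ↔ c⁻¹ * x * c = x := by
      intro c
      rw [Subgroup.mem_centralizer_singleton_iff]
      constructor
      · intro h; rw [mul_assoc, ← h, inv_mul_cancel_left]
      · intro h
        rw [mul_assoc, inv_mul_eq_iff_eq_mul] at h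
        exact h.symm
    let y : T → {g : G // IsConj x g ∧ g ∈ H} := fun g => ⟨g.1⁻¹ * x * g.1, isConj_iff.2 ⟨g.1⁻¹, by rw [inv_inv]⟩, g.2⟩
    refine Nat.card_congr ⟨fun g => (y g, ⟨g.1 * (f (y g))⁻¹, ?_⟩),
      fun t => ⟨t.2.1 * f t.1, ?_⟩, ?_, ?_⟩
    · rw [hc]
      have h3 := hf (y g)
      change (f (y g))⁻¹ * x * f (y g) = g.1⁻¹ * x * g.1 at h3
      calc (g.1 * (f (y g))⁻¹)⁻¹ * x * (g.1 * (f (y g))⁻¹) = f (y g) * (g.1⁻¹ * x * g.1) * (f (y g))⁻¹ := by group
        _ = f (y g) * ((f (y g))⁻¹ * x * f (y g)) * (f (y g))⁻¹ := by rw [h3]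
        _ = x := by group
    · have h3 := (hc t.2.1).1 t.2.2
      have h4 : (t.2.1 * f t.1)⁻¹ * x * (t.2.1 * f t.1) = t.1.1 := by
        calc (t.2.1 * f t.1)⁻¹ * x * (t.2.1 * f t.1) = (f t.1)⁻¹ * (t.2.1⁻¹ * x * t.2.1) * f t.1 := by group
          _ = t.1.1 := by rw [h3, hf]
      rw [h4]
      exact t.1.2.2
    · intro g
      apply Subtype.ext
      change g.1 * (f (y g))⁻¹ * f (y g) = g.1
      group
    · rintro ⟨t, c⟩
      have h3 := (hc c.1).1 c.2
      have h4 : (c.1 * f t)⁻¹ * x * (c.1 * f t) = t.1 := by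
        calc (c.1 * f t)⁻¹ * x * (c.1 * f t) = (f t)⁻¹ * (c.1⁻¹ * x * c.1) * f t := by group
          _ = t.1 := by rw [h3, hf]
      have h5 : ∀ h, y ⟨c.1 * f t, h⟩ = t := fun h => Subtype.ext h4
      apply Prod.ext
      · exact h5 _
      · apply Subtype.ext
        change c.1 * f t * (f (y ⟨c.1 * f t, _⟩))⁻¹ = c.1
        rw [h5]
        group
  have h3 : Nat.card {g : G // IsConj x g} * Nat.card (Subgroup.centralizer ({x} : Set G)) = Nat.card G := by
    have h4 : Nat.card {g : G // IsConj x g} = (Subgroup.centralizer ({x} : Set G)).index := Cfsg.Agent.H3.card_isConj x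
    rw [h4, Subgroup.index_mul_card]
  have h4 := Subgroup.index_mul_card H
  have hH : 0 < Nat.card H := Nat.card_pos
  apply Nat.eq_of_mul_eq_mul_right hH
  calc Nat.card (MulAction.fixedBy (G ⧸ H) x) * Nat.card {g : G // IsConj x g} * Nat.card H = Nat.card T * Nat.card {g : G // IsConj x g} := by rw [h1]; ring
    _ = Nat.card {g : G // IsConj x g ∧ g ∈ H} * (Nat.card {g : G // IsConj x g} * Nat.card (Subgroup.centralizer ({x} : Set G))) := by rw [h2]; ring
    _ = Nat.card {g : G // IsConj x g ∧ g ∈ H} * (H.index * Nat.card H) := by rw [h3, h4]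
    _ = H.index * Nat.card {g : G // IsConj x g ∧ g ∈ H} * Nat.card H := by ring

end Cfsg.Agent.S1019
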