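import Cfsg.Statements.S1140
import Mathlib

set_option autoImplicit false
open Cfsg

namespace Cfsg.Agent.S1140

theorem key {F : Type*} [Field F] [Fintype F] [CharP F 2] :
    LinearIndependent F (fun σ : F ≃+* F => ((σ : F →+* F) : F → F)) := by
  have h := linearIndependent_monoidHom F F
  have hinj : Function.Injective (fun σ : F ≃+* F => ((σ : F →+* F) : F →* F)) := by
    intro a b hab
    ext x
    exact DFunLike.congr_fun hab x
  exact h.comp _ hinj

theorem main {F : Type*} [Field F] [Fintype F] [CharP F 2] :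
    ∃ c : (F →+ F) →+ ((F ≃+* F) → F), ∀ (f : F →+ F) (x : F), f x = ∑ᶠ σ : F ≃+* F, c f σ * σ x := by
  classical
  letI : Algebra (ZMod 2) F := ZMod.algebra F 2
  haveI : Fact (Nat.Prime 2) := ⟨Nat.prime_two⟩
  haveI : Finite (F ≃+* F) := Finite.of_injective (fun σ : F ≃+* F => (σ : F → F)) (fun a b h => by ext x; exact congrFun h x)
  haveI := Fintype.ofFinite (F ≃+* F)
  have hcard : Nat.card (F ≃ₐ[ZMod 2] F) = Module.finrank (ZMod 2) F := IsGalois.card_aut_eq_finrank _ _
  have hlin : ∀ (f : F →+ F) (r : ZMod 2) (x : F), f (r • x) = r • f x := fun f r x => (f.toZModLinearMap 2).map_smul r x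
  let lin : (F ≃+* F) → (F →ₗ[ZMod 2] F) := fun σ => ((σ : F →+* F) : F →+ F).toZModLinearMap 2
  have hli : LinearIndependent F lin := by
    refine LinearIndependent.of_comp (LinearMap.ltoFun (ZMod 2) F F F) ?_
    exact key
  let e : (F ≃+* F) ≃ (F ≃ₐ[ZMod 2] F) :=
    { toFun := fun σ => AlgEquiv.ofRingEquiv (f := σ) (fun r => by
        have : ((σ : F →+* F).comp (algebraMap (ZMod 2) F)) = algebraMap (ZMod 2) F := Subsingleton.elim _ _
        exact DFunLike.congr_fun this r)
      invFun := fun σ => σ.toRingEquiv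
      left_inv := fun σ => by ext x; rfl
      right_inv := fun σ => by ext x; rfl }
  have hc : Fintype.card (F ≃+* F) = Module.finrank F (F →ₗ[ZMod 2] F) := by
    rw [Module.finrank_linearMap_self, ← hcard, ← Nat.card_eq_fintype_card]
    exact Nat.card_congr e
  haveI : Nonempty (F ≃+* F) := ⟨RingEquiv.refl F⟩
  let b := basisOfLinearIndependentOfCardEqFinrank hli hc
  have hb : ∀ σ, b σ = lin σ := fun σ => by simp [b]
  refine ⟨⟨⟨fun f σ => b.repr (f.toZModLinearMap 2) σ, ?_⟩, ?_⟩, ?_⟩
  · funext σ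
    have : (0 : F →+ F).toZModLinearMap 2 = (0 : F →ₗ[ZMod 2] F) := rfl
    rw [this]; simp
  · intro f g
    funext σ
    have : (f + g).toZModLinearMap 2 = (f.toZModLinearMap 2 + g.toZModLinearMap 2 : F →ₗ[ZMod 2] F) := rfl
    simp only [this]
    simp
  · intro f x
    rw [finsum_eq_sum_of_fintype]
    have h := b.sum_repr (f.toZModLinearMap 2)
    have h2 := LinearMap.congr_fun h x
    rw [LinearMap.sum_apply] at h2
    simp only [LinearMap.smul_apply, hb] at h2
    exact h2.symm


/-- For a finite field `F` of characteristic 2, the automorphisms of `F`, viewed as additive maps `F → F`, are linearly independent over `F` (acting on values) every additive endomorphism of `F` is an `F`-linear combination of them, and every biadditive map `F → F → F` is an `F`-combination of the maps `(x, y) ↦ σ(x) τ(y)`. -/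
theorem result {F : Type*} [Field F] [Fintype F] [CharP F 2] :
    LinearIndependent F (fun σ : F ≃+* F => ((σ : F →+* F) : F → F)) ∧
      (∀ f : F →+ F, ∃ (s : Finset (F ≃+* F)) (c : (F ≃+* F) → F), ∀ x : F, f x = ∑ σ ∈ s, c σ * σ x) ∧
      ∀ B : F →+ F →+ F, ∃ (s : Finset ((F ≃+* F) × (F ≃+* F))) (c : (F ≃+* F) × (F ≃+* F) → F),
        ∀ x y : F, B x y = ∑ p ∈ s, c p * (p.1 x * p.2 y) := by
  classical
  haveI : Finite (F ≃+* F) := Finite.of_injective (fun σ : F ≃+* F => (σ : F → F)) (fun a b h => by ext x; exact congrFun h x)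
  haveI := Fintype.ofFinite (F ≃+* F)
  obtain ⟨c, hc⟩ := main (F := F)
  refine ⟨key, fun f => ⟨Finset.univ, c f, fun x => by rw [hc f x, finsum_eq_sum_of_fintype]⟩, fun B => ?_⟩
  let d : (F ≃+* F) → (F →+ F) := fun τ => (Pi.evalAddMonoidHom (fun _ => F) τ).comp (c.comp B)
  refine ⟨Finset.univ, fun p => c (d p.2) p.1, fun x y => ?_⟩
  rw [hc (B x) y, finsum_eq_sum_of_fintype]
  have h1 : ∀ τ, c (B x) τ = ∑ σ : F ≃+* F, c (d τ) σ * σ x := by
    intro τ
    have := hc (d τ) x
    rw [finsum_eq_sum_of_fintype] at this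
    exact this
  rw [← Finset.univ_product_univ, Finset.sum_product_right]
  refine Finset.sum_congr rfl fun τ _ => ?_
  rw [h1 τ, Finset.sum_mul]
  refine Finset.sum_congr rfl fun σ _ => ?_
  ring

end Cfsg.Agent.S1140
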