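import Cfsg.Statements.S1163
import Mathlib
import Cfsg.Agent.H8.SzH
open Cfsg.Agent.H8.Suz

set_option autoImplicit false
open Cfsg

namespace Cfsg.Agent.S1163



/-- For the Suzuki group Sz(q), q = 2^(2m+1) ≥ 8, realised as the elements g of Sp₄(F) with g* = g^θ (θ the 2^(m+1)-th power map, so that θ² is squaring): `|Sz(q)| = q² (q - 1) (q² + 1)`, and there is a Sylow 2-subgroup `S` whose normaliser `H` has order `q²(q-1)` and index `q² + 1`, the action of `Sz(q)` on the cosets of `H` is doubly transitive, and `S` acts regularly on the cosets other than `H` itself. -/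
theorem result {F : Type*} [Field F] [Fintype F] {m : ℕ} (hm : 1 ≤ m) (hF : Fintype.card F = 2 ^ (2 * m + 1)) :
    Nat.card ↥(Cfsg.Lie.Sz F (2 ^ (m + 1))) = (2 ^ (2 * m + 1)) ^ 2 * (2 ^ (2 * m + 1) - 1) * ((2 ^ (2 * m + 1)) ^ 2 + 1) ∧
    ∃ S : Sylow 2 ↥(Cfsg.Lie.Sz F (2 ^ (m + 1))),
      Nat.card (Subgroup.normalizer ((S : Subgroup ↥(Cfsg.Lie.Sz F (2 ^ (m + 1)))) : Set ↥(Cfsg.Lie.Sz F (2 ^ (m + 1))))) = (2 ^ (2 * m + 1)) ^ 2 * (2 ^ (2 * m + 1) - 1) ∧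
      (Subgroup.normalizer ((S : Subgroup ↥(Cfsg.Lie.Sz F (2 ^ (m + 1)))) : Set ↥(Cfsg.Lie.Sz F (2 ^ (m + 1))))).index = (2 ^ (2 * m + 1)) ^ 2 + 1 ∧
      MulAction.IsMultiplyPretransitive ↥(Cfsg.Lie.Sz F (2 ^ (m + 1))) (↥(Cfsg.Lie.Sz F (2 ^ (m + 1))) ⧸ Subgroup.normalizer ((S : Subgroup ↥(Cfsg.Lie.Sz F (2 ^ (m + 1)))) : Set ↥(Cfsg.Lie.Sz F (2 ^ (m + 1))))) 2 ∧
      ∀ x y : ↥(Cfsg.Lie.Sz F (2 ^ (m + 1))) ⧸ Subgroup.normalizer ((S : Subgroup ↥(Cfsg.Lie.Sz F (2 ^ (m + 1)))) : Set ↥(Cfsg.Lie.Sz F (2 ^ (m + 1)))),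
        x ≠ (QuotientGroup.mk 1) → y ≠ (QuotientGroup.mk 1) → ∃! s : ↥(S : Subgroup ↥(Cfsg.Lie.Sz F (2 ^ (m + 1)))), (s : ↥(Cfsg.Lie.Sz F (2 ^ (m + 1)))) • x = y := by
  haveI : Cfsg.Agent.H8.Suz.Hyp F m := ⟨hm, hF⟩
  haveI := Fact.mk Nat.prime_two
  let e := eLie (F := F) m
  let S' : Sylow 2 ↥(Cfsg.Lie.Sz F (2 ^ (m + 1))) := (QS F m).mapSurjective (f := e.toMonoidHom) e.surjective
  have hS' : ∀ g : ↥(Cfsg.Lie.Sz F (2 ^ (m + 1))), g ∈ (S' : Subgroup ↥(Cfsg.Lie.Sz F (2 ^ (m + 1)))) ↔ e.symm g ∈ Q F m := by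
    intro g
    constructor
    · rintro ⟨x, hx, rfl⟩
      show e.symm (e x) ∈ Q F m
      rw [e.symm_apply_apply]; exact hx
    · intro h
      exact ⟨e.symm g, h, e.apply_symm_apply g⟩
  have hN : ∀ g : ↥(Cfsg.Lie.Sz F (2 ^ (m + 1))), g ∈ Subgroup.normalizer ((S' : Subgroup ↥(Cfsg.Lie.Sz F (2 ^ (m + 1)))) : Set ↥(Cfsg.Lie.Sz F (2 ^ (m + 1)))) ↔ e.symm g ∈ B F m := by
    intro g
    rw [← normalizer_Q, Subgroup.mem_normalizer_iff, Subgroup.mem_normalizer_iff]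
    constructor
    · intro h x
      have h1 := h (e x)
      rw [hS', hS', map_mul, map_mul, map_inv, e.symm_apply_apply] at h1
      exact h1
    · intro h x
      rw [hS', hS', map_mul, map_mul, map_inv]
      exact h (e.symm x)
  have hNm : Subgroup.normalizer ((S' : Subgroup ↥(Cfsg.Lie.Sz F (2 ^ (m + 1)))) : Set ↥(Cfsg.Lie.Sz F (2 ^ (m + 1)))) = (B F m).map e.toMonoidHom := by
    ext g
    rw [hN]
    constructor
    · intro h
      exact ⟨e.symm g, h, e.apply_symm_apply g⟩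
    · rintro ⟨x, hx, rfl⟩
      show e.symm (e x) ∈ B F m
      rw [e.symm_apply_apply]; exact hx
  have hcG : Nat.card ↥(Cfsg.Lie.Sz F (2 ^ (m + 1))) = (2 ^ (2 * m + 1)) ^ 2 * (2 ^ (2 * m + 1) - 1) * ((2 ^ (2 * m + 1)) ^ 2 + 1) := by
    rw [← Nat.card_congr e.toEquiv, card_G]; ring
  have hcN : Nat.card (Subgroup.normalizer ((S' : Subgroup ↥(Cfsg.Lie.Sz F (2 ^ (m + 1)))) : Set ↥(Cfsg.Lie.Sz F (2 ^ (m + 1))))) = (2 ^ (2 * m + 1)) ^ 2 * (2 ^ (2 * m + 1) - 1) := by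
    rw [hNm, ← Nat.card_congr ((B F m).equivMapOfInjective e.toMonoidHom e.injective).toEquiv, card_B]
  refine ⟨hcG, S', hcN, ?_, ?_, ?_⟩
  · have h1 := (Subgroup.normalizer ((S' : Subgroup ↥(Cfsg.Lie.Sz F (2 ^ (m + 1)))) : Set ↥(Cfsg.Lie.Sz F (2 ^ (m + 1))))).card_mul_index
    rw [hcN, hcG] at h1
    apply Nat.eq_of_mul_eq_mul_left _ h1
    apply Nat.mul_pos (by positivity)
    have : 2 ^ 1 ≤ 2 ^ (2 * m + 1) := Nat.pow_le_pow_right (by norm_num) (by omega)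
    omega
  all_goals
    generalize hNN : Subgroup.normalizer ((S' : Subgroup ↥(Cfsg.Lie.Sz F (2 ^ (m + 1)))) : Set ↥(Cfsg.Lie.Sz F (2 ^ (m + 1)))) = N
    have hN' : ∀ g : ↥(Cfsg.Lie.Sz F (2 ^ (m + 1))), g ∈ N ↔ e.symm g ∈ B F m := by
      intro g; rw [← hNN]; exact hN g
    let f : ↥(Cfsg.Lie.Sz F (2 ^ (m + 1))) ⧸ N → Om F m := Quotient.lift (fun g => e.symm g • oi F m) (by
      intro a b h
      have h1 : a⁻¹ * b ∈ N := QuotientGroup.leftRel_apply.1 h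
      rw [hN', map_mul, map_inv, mem_B, mul_smul, inv_smul_eq_iff] at h1
      exact h1.symm)
    have hf : ∀ g : ↥(Cfsg.Lie.Sz F (2 ^ (m + 1))), f (QuotientGroup.mk g) = e.symm g • oi F m := fun g => rfl
    have hfe : ∀ (g : ↥(Cfsg.Lie.Sz F (2 ^ (m + 1)))) (x : ↥(Cfsg.Lie.Sz F (2 ^ (m + 1))) ⧸ N), f (g • x) = e.symm g • f x := by
      intro g x
      obtain ⟨x, rfl⟩ := QuotientGroup.mk_surjective x
      have : g • (QuotientGroup.mk x : ↥(Cfsg.Lie.Sz F (2 ^ (m + 1))) ⧸ N) = QuotientGroup.mk (g * x) := rfl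
      rw [this, hf, hf, map_mul, mul_smul]
    have hfi : Function.Injective f := by
      intro x y h
      obtain ⟨x, rfl⟩ := QuotientGroup.mk_surjective x
      obtain ⟨y, rfl⟩ := QuotientGroup.mk_surjective y
      rw [hf, hf] at h
      rw [QuotientGroup.eq, hN', map_mul, map_inv, mem_B, mul_smul, inv_smul_eq_iff]
      exact h.symm
  · rw [MulAction.is_two_pretransitive_iff]
    intro a b c d hab hcd
    obtain ⟨g, h1, h2⟩ := (MulAction.is_two_pretransitive_iff.1 (two_trans (F := F) m)) (fun h => hab (hfi h)) (fun h => hcd (hfi h))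
    refine ⟨e g, hfi ?_, hfi ?_⟩
    · rw [hfe, e.symm_apply_apply, h1]
    · rw [hfe, e.symm_apply_apply, h2]
  · intro x y hx hy
    have hx' : f x ≠ oi F m := by
      intro h
      apply hx
      apply hfi
      rw [h, hf, map_one, one_smul]
    have hy' : f y ≠ oi F m := by
      intro h
      apply hy
      apply hfi
      rw [h, hf, map_one, one_smul]
    obtain ⟨a, b, hab⟩ : ∃ a b, f x = op m a b := by
      rcases om_cases m (f x) with h | h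
      · exact absurd h hx'
      · exact h
    obtain ⟨c, d, hcd⟩ : ∃ a b, f y = op m a b := by
      rcases om_cases m (f y) with h | h
      · exact absurd h hy'
      · exact h
    have hmem : e (U m c d * (U m a b)⁻¹) ∈ (S' : Subgroup ↥(Cfsg.Lie.Sz F (2 ^ (m + 1)))) := by
      rw [hS', e.symm_apply_apply]
      exact (Q F m).mul_mem (U_mem_Q m _ _) ((Q F m).inv_mem (U_mem_Q m _ _))
    refine ⟨⟨e (U m c d * (U m a b)⁻¹), hmem⟩, ?_, ?_⟩
    · apply hfi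
      show f (e (U m c d * (U m a b)⁻¹) • x) = f y
      rw [hfe, e.symm_apply_apply, hab, hcd, mul_smul, ← U_op0, inv_smul_smul, U_op0]
    · rintro ⟨s, hs⟩ hsx
      apply Subtype.ext
      show s = e (U m c d * (U m a b)⁻¹)
      have h1 : f (s • x) = f y := congrArg f hsx
      rw [hfe, hab, hcd] at h1
      obtain ⟨u, v, huv⟩ := (hS' s).1 hs
      rw [huv, ← U_op0, ← U_op0, ← mul_smul, U_mul, U_op0, U_op0] at h1
      obtain ⟨h2, h3⟩ := op_inj m h1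
      rw [← e.apply_symm_apply s, huv]
      congr 1
      rw [eq_mul_inv_iff_mul_eq, U_mul, h2, h3]

end Cfsg.Agent.S1163
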