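import Cfsg.Statements.S1168
import Mathlib
import Cfsg.Agent.S1140

set_option autoImplicit false
open Cfsg

namespace Cfsg.Agent.S1168

/-- For a finite field `F` of characteristic 2: if `q : F → F` is quadratic over the prime field, i.e. `(x, y) ↦ q (x + y) + q x + q y` is additive in each variable, then `q x = Σ c_{σ,τ} σ(x) τ(x)` for some coefficients indexed by pairs of field automorphisms. -/
theorem result {F : Type*} [Field F] [Fintype F] [CharP F 2]
    (q : F → F)
    (hq : ∀ x y z : F, q (x + y + z) + q (x + y) + q (x + z) + q (y + z) + q x + q y + q z = 0) :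
    ∃ (s : Finset ((F ≃+* F) × (F ≃+* F))) (c : (F ≃+* F) × (F ≃+* F) → F),
      ∀ x : F, q x = ∑ p ∈ s, c p * (p.1 x * p.2 x) := by
  classical
  letI : Algebra (ZMod 2) F := ZMod.algebra F 2
  have h2 : ∀ x : F, x + x = 0 := fun x => CharTwo.add_self_eq_zero x
  have h0 : q 0 = 0 := by
    have := hq 0 0 0
    simp only [add_zero] at this
    have h3 := h2 (q 0)
    linear_combination this - 3 * h3
  have hc : ∀ c : ZMod 2, c = 0 ∨ c = 1 := by decide
  have hadd : ∀ x y z : F, q (x + y + z) + q (x + y) + q z = (q (x + z) + q x + q z) + (q (y + z) + q y + q z) := by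
    intro x y z
    have := hq x y z
    linear_combination this - h2 (q (x + z)) - h2 (q (y + z)) - h2 (q x) - h2 (q y) - h2 (q z)
  let β : LinearMap.BilinMap (ZMod 2) F F := LinearMap.mk₂ (ZMod 2) (fun x y => q (x + y) + q x + q y)
    (fun x y z => by
      exact hadd x y z)
    (fun c x y => by
      rcases hc c with rfl | rfl
      · simp only [zero_smul, zero_add, h0, add_zero]; exact h2 _
      · simp only [one_smul])
    (fun x y z => by
      have := hadd y z x
      rw [show x + (y + z) = y + z + x by ring, show x + y = y + x by ring, show x + z = z + x by ring]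
      linear_combination this)
    (fun c x y => by
      rcases hc c with rfl | rfl
      · simp only [zero_smul, add_zero, h0]; exact h2 _
      · simp only [one_smul])
  let Q : QuadraticMap (ZMod 2) F F :=
    { toFun := q
      toFun_smul := fun c x => by
        rcases hc c with rfl | rfl
        · simp [h0]
        · simp
      exists_companion' := ⟨β, fun x y => by
        show q (x + y) = q x + q y + (q (x + y) + q x + q y)
        linear_combination -h2 (q x) - h2 (q y)⟩ }
  obtain ⟨B, hB⟩ := LinearMap.BilinMap.toQuadraticMap_surjective Q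
  let B' : F →+ F →+ F := AddMonoidHom.mk' (fun x => (B x).toAddMonoidHom) (fun x y => by ext z; simp)
  obtain ⟨-, -, h3⟩ := Cfsg.Agent.S1140.result (F := F)
  obtain ⟨s, c, hs⟩ := h3 B'
  refine ⟨s, c, fun x => ?_⟩
  rw [← hs x x]
  have : Q x = B x x := by rw [← hB]; rfl
  exact this

end Cfsg.Agent.S1168
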