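import Cfsg.Statements.S1176
import Mathlib

set_option autoImplicit false
open Cfsg

namespace Cfsg.Agent.S1176

open Subgroup
open scoped commutatorElement

/-- Let x₀ be an involution of the finite group G and D its conjugacy class. Assume (a) for each x ∈ D the subgroup W(x) generated by the members of D commuting with x is a 2-group of nilpotency class at most 2, and (b) the product of two distinct commuting members of D again lies in D. Then for all x, y ∈ D, if xy has even order greater than 2, its order is 4. -/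
theorem result {G : Type*} [Group G] [Finite G] (x₀ : G) (hx₀ : orderOf x₀ = 2) (ha : ∀ x : G, IsConj x₀ x → IsPGroup 2 ↥(Subgroup.closure {y : G | IsConj x₀ y ∧ Commute y x}) ∧ ⁅⁅Subgroup.closure {y : G | IsConj x₀ y ∧ Commute y x}, Subgroup.closure {y : G | IsConj x₀ y ∧ Commute y x}⁆, Subgroup.closure {y : G | IsConj x₀ y ∧ Commute y x}⁆ = ⊥) (hb : ∀ x y : G, IsConj x₀ x → IsConj x₀ y → x ≠ y → Commute x y → IsConj x₀ (x * y)) (x y : G) (hx : IsConj x₀ x) (hy : IsConj x₀ y) (heven : Even (orderOf (x * y))) (hgt : 2 < orderOf (x * y)) : orderOf (x * y) = 4 := by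
  have hxx : x * x = 1 := by
    obtain ⟨c, rfl⟩ := isConj_iff.mp hx
    have : x₀ * x₀ = 1 := by rw [← pow_two, ← hx₀]; exact pow_orderOf_eq_one x₀
    calc _ = c * (x₀ * x₀) * c⁻¹ := by group
      _ = 1 := by rw [this]; group
  have hyy : y * y = 1 := by
    obtain ⟨c, rfl⟩ := isConj_iff.mp hy
    have : x₀ * x₀ = 1 := by rw [← pow_two, ← hx₀]; exact pow_orderOf_eq_one x₀
    calc _ = c * (x₀ * x₀) * c⁻¹ := by group
      _ = 1 := by rw [this]; group
  have hxi : x⁻¹ = x := inv_eq_of_mul_eq_one_left hxx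
  have hyi : y⁻¹ = y := inv_eq_of_mul_eq_one_left hyy
  obtain ⟨w, hw⟩ : ∃ w, w = x * y := ⟨_, rfl⟩
  rw [← hw] at heven hgt ⊢
  have hwinv : w⁻¹ = y * x := by rw [hw, mul_inv_rev, hxi, hyi]
  have hxw : x * w * x⁻¹ = w⁻¹ := by
    rw [hwinv, hxi, hw, ← mul_assoc, hxx, one_mul]
  have hyw : y * w * y⁻¹ = w⁻¹ := by
    rw [hwinv, hyi, hw, mul_assoc, mul_assoc, hyy, mul_one]
  have hxk : ∀ k : ℕ, x * w ^ k * x⁻¹ = (w ^ k)⁻¹ := fun k => by rw [← conj_pow, hxw, inv_pow]
  have hyk : ∀ k : ℕ, y * w ^ k * y⁻¹ = (w ^ k)⁻¹ := fun k => by rw [← conj_pow, hyw, inv_pow]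
  obtain ⟨m, hm⟩ := heven
  have hm2 : 2 ≤ m := by omega
  have hz1 : w ^ m ≠ 1 := by
    intro h
    have := Nat.le_of_dvd (by omega) (orderOf_dvd_of_pow_eq_one h)
    omega
  have hz2 : w ^ m * w ^ m = 1 := by rw [← pow_add, ← hm]; exact pow_orderOf_eq_one w
  have hzi : (w ^ m)⁻¹ = w ^ m := inv_eq_of_mul_eq_one_left hz2
  have hcx : Commute x (w ^ m) := by
    have h := hxk m
    rw [hzi, mul_inv_eq_iff_eq_mul] at h
    exact h
  have hcy : Commute y (w ^ m) := by
    have h := hyk m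
    rw [hzi, mul_inv_eq_iff_eq_mul] at h
    exact h
  have hxk' : ∀ k : ℕ, x * w ^ k = (w ^ k)⁻¹ * x := fun k => mul_inv_eq_iff_eq_mul.mp (hxk k)
  have hconj : IsConj x₀ (x * w ^ m) := by
    rcases Nat.even_or_odd' m with ⟨k, hk | hk⟩
    · refine hx.trans (isConj_iff.mpr ⟨(w ^ k)⁻¹, ?_⟩)
      rw [inv_inv, ← hxk' k, mul_assoc, ← pow_add, hk, two_mul]
    · refine hy.trans (isConj_iff.mpr ⟨(w ^ k)⁻¹, ?_⟩)
      have h1 : y = x * w := by rw [hw, ← mul_assoc, hxx, one_mul]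
      rw [inv_inv, h1, ← mul_assoc, ← hxk' k, mul_assoc, mul_assoc, ← pow_succ', ← pow_add, hk]
      congr 2
      ring
  have hcz : IsConj x₀ (w ^ m) := by
    have h := hb x (x * w ^ m) hx hconj (fun h => hz1 (by
      have : x * 1 = x * w ^ m := by rw [mul_one]; exact h
      exact (mul_left_cancel this).symm)) ((Commute.refl x).mul_right hcx)
    rwa [← mul_assoc, hxx, one_mul] at h
  obtain ⟨-, h3⟩ := ha (w ^ m) hcz
  have hxE : x ∈ Subgroup.closure {y : G | IsConj x₀ y ∧ Commute y (w ^ m)} := Subgroup.subset_closure ⟨hx, hcx⟩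
  have hyE : y ∈ Subgroup.closure {y : G | IsConj x₀ y ∧ Commute y (w ^ m)} := Subgroup.subset_closure ⟨hy, hcy⟩
  have h4 := Subgroup.commutator_mem_commutator (Subgroup.commutator_mem_commutator hxE hyE) hxE
  rw [h3, Subgroup.mem_bot] at h4
  have h5 : ⁅x, y⁆ = w ^ 2 := by
    rw [commutatorElement_def, hxi, hyi, hw, pow_two]; group
  rw [h5, commutatorElement_def] at h4
  have h6 : w ^ 4 = 1 := by
    have h7 : x * (w ^ 2)⁻¹ * x⁻¹ = w ^ 2 := by
      have := congrArg (·⁻¹) (hxk 2)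
      simp only [mul_inv_rev, inv_inv] at this
      rw [mul_assoc]; exact this
    calc w ^ 4 = w ^ 2 * w ^ 2 := by rw [← pow_add]
      _ = w ^ 2 * (x * (w ^ 2)⁻¹ * x⁻¹) := by rw [h7]
      _ = w ^ 2 * x * (w ^ 2)⁻¹ * x⁻¹ := by group
      _ = 1 := h4
  have h8 := orderOf_dvd_of_pow_eq_one h6
  have h9 := Nat.le_of_dvd (by norm_num) h8
  omega

end Cfsg.Agent.S1176
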