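import Cfsg.Statements.S1177
import Mathlib
import Cfsg.Agent.H1.Basic
import Cfsg.Agent.L0.Coprime

set_option autoImplicit false
open Cfsg

namespace Cfsg.Agent.S1177

open scoped commutatorElement Pointwise


/-- Let A be a nontrivial elementary abelian 2-subgroup of a finite group G which is a T.I. set (each conjugate of A meets A trivially or equals A) and which does not commute elementwise with any conjugate of A other than A itself. Then for every a ∈ A, a ≠ 1, every conjugate of A contained in C_G(a) is equal to A (A is weakly closed in C_G(a)). -/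
theorem result {G : Type*} [Group G] [Finite G] (A : Subgroup G) (hA : Cfsg.IsElementaryAbelian 2 A) (hA1 : A ≠ ⊥) (hTI : ∀ g : G, A.map (MulAut.conj g).toMonoidHom ⊓ A = ⊥ ∨ A.map (MulAut.conj g).toMonoidHom = A) (hb : ∀ g : G, (∀ a ∈ A, ∀ b ∈ A.map (MulAut.conj g).toMonoidHom, a * b = b * a) → A.map (MulAut.conj g).toMonoidHom = A) (a : G) (ha : a ∈ A) (ha1 : a ≠ 1) (g : G) (hg : A.map (MulAut.conj g).toMonoidHom ≤ Subgroup.centralizer ({a} : Set G)) : A.map (MulAut.conj g).toMonoidHom = A := by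
  classical
  have hAc : ∀ x ∈ A, ∀ y ∈ A, x * y = y * x := fun x hx y hy => congrArg Subtype.val (hA.1.1.1 ⟨x, hx⟩ ⟨y, hy⟩)
  have hAi : ∀ x ∈ A, x⁻¹ = x := by
    intro x hx
    apply inv_eq_of_mul_eq_one_right
    rw [← pow_two]; exact hA.2 x hx
  set B := A.map (MulAut.conj g).toMonoidHom with hB
  have hBmem : ∀ b ∈ B, ∃ x ∈ A, g * x * g⁻¹ = b := by rintro _ ⟨x, hx, rfl⟩; exact ⟨x, hx, rfl⟩
  have hmapmul : ∀ x y : G, (A.map (MulAut.conj x).toMonoidHom).map (MulAut.conj y).toMonoidHom = A.map (MulAut.conj (y * x)).toMonoidHom := by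
    intro x y
    rw [Subgroup.map_map]
    congr 1
    ext w
    simp [mul_assoc]
  have hTIB : ∀ y : G, (B.map (MulAut.conj y).toMonoidHom ⊓ B ≠ ⊥) → B.map (MulAut.conj y).toMonoidHom = B := by
    intro y hy
    rcases hTI (g⁻¹ * y * g) with h | h
    · exfalso
      apply hy
      rw [eq_bot_iff]
      intro w hw
      have h1 : g⁻¹ * w * g ∈ A.map (MulAut.conj (g⁻¹ * y * g)).toMonoidHom ⊓ A := by
        constructor
        · obtain ⟨u, hu, hu2⟩ := hw.1
          obtain ⟨v, hv, rfl⟩ := hBmem u hu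
          refine ⟨v, hv, ?_⟩
          change y * (g * v * g⁻¹) * y⁻¹ = w at hu2
          change (g⁻¹ * y * g) * v * (g⁻¹ * y * g)⁻¹ = g⁻¹ * w * g
          rw [← hu2]; group
        · obtain ⟨v, hv, rfl⟩ := hBmem w hw.2
          have : g⁻¹ * (g * v * g⁻¹) * g = v := by group
          rw [this]; exact hv
      rw [h, Subgroup.mem_bot] at h1
      rw [Subgroup.mem_bot]
      calc w = g * (g⁻¹ * w * g) * g⁻¹ := by group
        _ = 1 := by rw [h1]; group
    · rw [hB, hmapmul]
      have h2 := congrArg (Subgroup.map (MulAut.conj g).toMonoidHom) h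
      rw [hmapmul] at h2
      have e : g * (g⁻¹ * y * g) = y * g := by group
      rw [e] at h2
      exact h2
  -- every b ∈ B normalizes A
  have hBa : ∀ b ∈ B, b * a = a * b := fun b hb => Subgroup.mem_centralizer_singleton_iff.mp (hg hb)
  have hBn : ∀ b ∈ B, ∀ x ∈ A, b * x * b⁻¹ ∈ A := by
    intro b hb x hx
    rcases hTI b with h | h
    · exfalso
      apply ha1
      have h1 : a ∈ A.map (MulAut.conj b).toMonoidHom ⊓ A := by
        refine ⟨⟨a, ha, ?_⟩, ha⟩
        change b * a * b⁻¹ = a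
        rw [hBa b hb]; group
      rw [h, Subgroup.mem_bot] at h1; exact h1
    · have : b * x * b⁻¹ ∈ A.map (MulAut.conj b).toMonoidHom := ⟨x, hx, rfl⟩
      rw [h] at this; exact this
  by_contra hne
  have hAB : A ⊓ B = ⊥ := by
    rcases hTI g with h | h
    · rw [inf_comm]; exact h
    · exact absurd h hne
  have hBi : ∀ b ∈ B, b⁻¹ = b := by
    intro b hb
    obtain ⟨x, hx, rfl⟩ := hBmem b hb
    rw [mul_inv_rev, mul_inv_rev, hAi x hx]; group
  -- C_A(b) normalizes B hence centralizes it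
  have hCb : ∀ b ∈ B, b ≠ 1 → ∀ c ∈ A, c * b = b * c → ∀ b' ∈ B, c * b' = b' * c := by
    intro b hb hb1 c hc hcb b' hb'
    have h1 : B.map (MulAut.conj c).toMonoidHom = B := by
      apply hTIB
      intro h
      apply hb1
      have h2 : b ∈ B.map (MulAut.conj c).toMonoidHom ⊓ B := by
        refine ⟨⟨b, hb, ?_⟩, hb⟩
        change c * b * c⁻¹ = b
        rw [hcb]; group
      rw [h, Subgroup.mem_bot] at h2; exact h2
    have h3 : c * b' * c⁻¹ * b'⁻¹ ∈ A ⊓ B := by
      refine ⟨?_, ?_⟩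
      · have : c * b' * c⁻¹ * b'⁻¹ = c * (b' * c⁻¹ * b'⁻¹) := by group
        rw [this]; exact A.mul_mem hc (hBn b' hb' _ (A.inv_mem hc))
      · have h4 : c * b' * c⁻¹ ∈ B := by
          have : c * b' * c⁻¹ ∈ B.map (MulAut.conj c).toMonoidHom := ⟨b', hb', rfl⟩
          rw [h1] at this; exact this
        exact B.mul_mem h4 (B.inv_mem hb')
    rw [hAB, Subgroup.mem_bot] at h3
    calc c * b' = (c * b' * c⁻¹ * b'⁻¹) * (b' * c) := by group
      _ = b' * c := by rw [h3, one_mul]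
  -- [x,b] centralizes b
  have hcomm : ∀ x ∈ A, ∀ b ∈ B, x * (b * x * b⁻¹) ∈ A ∧ (x * (b * x * b⁻¹)) * b = b * (x * (b * x * b⁻¹)) := by
    intro x hx b hb
    refine ⟨A.mul_mem hx (hBn b hb x hx), ?_⟩
    have hbb : b * b = 1 := by
      have := hBi b hb
      calc b * b = b * b⁻¹ := by rw [this]
        _ = 1 := mul_inv_cancel b
    have h1 := hAc x hx _ (hBn b hb x hx)
    calc (x * (b * x * b⁻¹)) * b = ((b * x * b⁻¹) * x) * b := by rw [h1]
      _ = b * x * (b⁻¹ * x * b) := by group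
      _ = b * x * (b * x * b⁻¹) := by rw [hBi b hb]
      _ = _ := by group
  -- A normalizes B
  have hAn : ∀ x ∈ A, B.map (MulAut.conj x).toMonoidHom = B := by
    intro x hx
    -- B^x commutes elementwise with B
    have h1 : ∀ b' ∈ B, ∀ b ∈ B, b' * (x * b * x⁻¹) = (x * b * x⁻¹) * b' := by
      intro b' hb' b hb
      -- x b x⁻¹ = (x (b x⁻¹ b⁻¹)) b
      have h2 : x * b * x⁻¹ = (x * (b * x * b⁻¹)) * b := by
        calc x * b * x⁻¹ = x * (b * x⁻¹ * b⁻¹) * b := by group
          _ = _ := by rw [hAi x hx]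
      by_cases hb1 : b = 1
      · rw [hb1]; simp
      · obtain ⟨h3, h4⟩ := hcomm x hx b hb
        have h5 := hCb b hb hb1 _ h3 h4 b' hb'
        have h6 : b' * b = b * b' := by
          obtain ⟨u, hu, rfl⟩ := hBmem b hb
          obtain ⟨v, hv, rfl⟩ := hBmem b' hb'
          have := hAc v hv u hu
          calc g * v * g⁻¹ * (g * u * g⁻¹) = g * (v * u) * g⁻¹ := by group
            _ = g * (u * v) * g⁻¹ := by rw [this]
            _ = _ := by group
        rw [h2]
        calc b' * (x * (b * x * b⁻¹) * b) = (b' * (x * (b * x * b⁻¹))) * b := by group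
          _ = ((x * (b * x * b⁻¹)) * b') * b := by rw [h5]
          _ = (x * (b * x * b⁻¹)) * (b' * b) := by group
          _ = (x * (b * x * b⁻¹)) * (b * b') := by rw [h6]
          _ = _ := by group
    -- translate to hb
    have h7 := hb (g⁻¹ * x * g) (by
      rintro u hu _ ⟨v, hv, rfl⟩
      have h8 := h1 (g * u * g⁻¹) ⟨u, hu, rfl⟩ (g * v * g⁻¹) ⟨v, hv, rfl⟩
      change u * ((g⁻¹ * x * g) * v * (g⁻¹ * x * g)⁻¹) = ((g⁻¹ * x * g) * v * (g⁻¹ * x * g)⁻¹) * u
      calc u * ((g⁻¹ * x * g) * v * (g⁻¹ * x * g)⁻¹) = g⁻¹ * (g * u * g⁻¹ * (x * (g * v * g⁻¹) * x⁻¹)) * g := by group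
        _ = g⁻¹ * (x * (g * v * g⁻¹) * x⁻¹ * (g * u * g⁻¹)) * g := by rw [h8]
        _ = _ := by group)
    rw [hB, hmapmul]
    have h2 := congrArg (Subgroup.map (MulAut.conj g).toMonoidHom) h7
    rw [hmapmul] at h2
    have e : g * (g⁻¹ * x * g) = x * g := by group
    rw [e] at h2
    exact h2
  apply hne
  apply hb g
  intro x hx b hb'
  have h3 : x * b * x⁻¹ * b⁻¹ ∈ A ⊓ B := by
    refine ⟨?_, ?_⟩
    · have : x * b * x⁻¹ * b⁻¹ = x * (b * x⁻¹ * b⁻¹) := by group
      rw [this]; exact A.mul_mem hx (hBn b hb' _ (A.inv_mem hx))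
    · have h4 : x * b * x⁻¹ ∈ B := by
        have : x * b * x⁻¹ ∈ B.map (MulAut.conj x).toMonoidHom := ⟨b, hb', rfl⟩
        rw [hAn x hx] at this; exact this
      exact B.mul_mem h4 (B.inv_mem hb')
  rw [hAB, Subgroup.mem_bot] at h3
  calc x * b = (x * b * x⁻¹ * b⁻¹) * (b * x) := by group
    _ = b * x := by rw [h3, one_mul]

end Cfsg.Agent.S1177
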