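import Cfsg.Statements.S1178
import Mathlib
import Cfsg.Agent.H1.Basic
import Cfsg.Agent.L0.Coprime

set_option autoImplicit false
open Cfsg

namespace Cfsg.Agent.S1178

open scoped commutatorElement Pointwise


/-- Let A be a subgroup of a Sylow 2-subgroup S of the finite group G which is weakly closed in S. If a conjugate g A g⁻¹ commutes elementwise with A, then g A g⁻¹ = A. -/
theorem result {G : Type*} [Group G] [Finite G] (S : Sylow 2 G) (A : Subgroup G) (hW : Cfsg.IsWeaklyClosed A (S : Subgroup G)) (g : G) (hc : ∀ a ∈ A, ∀ b ∈ A.map (MulAut.conj g).toMonoidHom, a * b = b * a) : A.map (MulAut.conj g).toMonoidHom = A := by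
  classical
  have hmapmul : ∀ x y : G, (A.map (MulAut.conj x).toMonoidHom).map (MulAut.conj y).toMonoidHom = A.map (MulAut.conj (y * x)).toMonoidHom := by
    intro x y
    rw [Subgroup.map_map]
    congr 1
    ext w
    simp [mul_assoc]
  set B := A.map (MulAut.conj g).toMonoidHom with hB
  have hAp : IsPGroup 2 A := S.isPGroup'.to_le hW.1
  have hBp : IsPGroup 2 B := hAp.map _
  have hn : B ≤ Subgroup.normalizer (A : Set G) := by
    intro b hb
    apply Cfsg.Agent.H1.mem_normalizer_of_conj_mem
    intro a ha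
    rw [← hc a ha b hb, mul_assoc, mul_inv_cancel, mul_one]; exact ha
  have hsup : IsPGroup 2 ↥(A ⊔ B) := IsPGroup.to_sup_of_normal_left' hAp hBp hn
  obtain ⟨T, hT⟩ := hsup.exists_le_sylow
  obtain ⟨h, hh⟩ := MulAction.exists_smul_eq G T S
  have hmap : ∀ K : Subgroup G, K ≤ (T : Subgroup G) → K.map (MulAut.conj h).toMonoidHom ≤ (S : Subgroup G) := by
    intro K hK
    rw [← hh]; exact Subgroup.map_mono hK
  have h1 := hW.2 h (hmap A (le_sup_left.trans hT))
  have h2 := hmap B (le_sup_right.trans hT)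
  rw [hB, hmapmul] at h2
  have h3 := hW.2 _ h2
  have h4 := congrArg (Subgroup.map (MulAut.conj h⁻¹).toMonoidHom) (h3.trans h1.symm)
  rw [hmapmul, hmapmul, inv_mul_cancel, inv_mul_cancel_left] at h4
  rw [hB, h4, map_one]
  exact Subgroup.map_id A

end Cfsg.Agent.S1178
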