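import Cfsg.Statements.S1181
import Mathlib
import Cfsg.Agent.H1.Isolated

set_option autoImplicit false
open Cfsg

namespace Cfsg.Agent.S1181

open scoped commutatorElement Pointwise


/-- Let z be an isolated involution of the finite group G and N a normal subgroup with z ∉ N. Then the centralizer of zN in G/N is the image of C_G(z), and zN is an isolated involution of G/N. -/
theorem result {G : Type*} [Group G] [Finite G] (z : G) (hz : Cfsg.IsIsolatedInvolution z) (N : Subgroup G) [N.Normal] (hzN : z ∉ N) : Subgroup.centralizer ({(QuotientGroup.mk z : G ⧸ N)} : Set (G ⧸ N)) = (Subgroup.centralizer ({z} : Set G)).map (QuotientGroup.mk' N) ∧ Cfsg.IsIsolatedInvolution (QuotientGroup.mk z : G ⧸ N) := by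
  have hn2 : (QuotientGroup.mk z : G ⧸ N) ≠ 1 := fun h => hzN ((QuotientGroup.eq_one_iff z).mp h)
  have hzz : z * z = 1 := Cfsg.Agent.H1.inv_mul_self_of_two hz.1
  have hord : orderOf (QuotientGroup.mk z : G ⧸ N) = 2 := by
    apply Cfsg.Agent.H1.orderOf_eq_two_iff'.mpr
    exact ⟨hn2, by rw [← QuotientGroup.mk_mul, hzz]; rfl⟩
  have hC : Subgroup.centralizer ({(QuotientGroup.mk z : G ⧸ N)} : Set (G ⧸ N)) = (Subgroup.centralizer ({z} : Set G)).map (QuotientGroup.mk' N) := by
    apply le_antisymm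
    · intro x hx
      obtain ⟨g, rfl⟩ := QuotientGroup.mk'_surjective N x
      have h1 : QuotientGroup.mk' N g * QuotientGroup.mk' N z = QuotientGroup.mk' N z * QuotientGroup.mk' N g := Subgroup.mem_centralizer_singleton_iff.mp hx
      set H := N ⊔ Subgroup.zpowers z with hH
      have hzH : z ∈ H := (le_sup_right : Subgroup.zpowers z ≤ H) (Subgroup.mem_zpowers z)
      have h2 : g * z * g⁻¹ * z⁻¹ ∈ N := by
        apply (QuotientGroup.eq_one_iff (N := N) _).mp
        change QuotientGroup.mk' N (g * z * g⁻¹ * z⁻¹) = 1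
        rw [map_mul, map_mul, map_mul, h1, map_inv, map_inv]; group
      have h3 : g * z * g⁻¹ ∈ H := by
        have : g * z * g⁻¹ = (g * z * g⁻¹ * z⁻¹) * z := by group
        rw [this]
        exact H.mul_mem ((le_sup_left : N ≤ H) h2) hzH
      obtain ⟨h, hh, e⟩ := Cfsg.Agent.H1.iso_conj_in hz hzH h3
      obtain ⟨n, hn, y, hy, rfl⟩ := Subgroup.mem_sup_of_normal_left.mp hh
      obtain ⟨k, rfl⟩ := Subgroup.mem_zpowers_iff.mp hy
      have h4 : n * z * n⁻¹ = g * z * g⁻¹ := by
        rw [← e]; group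
      refine ⟨n⁻¹ * g, ?_, ?_⟩
      · apply Subgroup.mem_centralizer_singleton_iff.mpr
        calc n⁻¹ * g * z = n⁻¹ * (g * z * g⁻¹) * g := by group
          _ = n⁻¹ * (n * z * n⁻¹) * g := by rw [h4]
          _ = _ := by group
      · have hn1 : QuotientGroup.mk' N n = 1 := (QuotientGroup.eq_one_iff n).mpr hn
        rw [map_mul, map_inv, hn1, inv_one, one_mul]
    · rintro _ ⟨g, hg, rfl⟩
      have h1 : g * z = z * g := Subgroup.mem_centralizer_singleton_iff.mp hg
      apply Subgroup.mem_centralizer_singleton_iff.mpr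
      change QuotientGroup.mk' N g * QuotientGroup.mk' N z = QuotientGroup.mk' N z * QuotientGroup.mk' N g
      rw [← map_mul, h1, map_mul]
  refine ⟨hC, hord, ?_⟩
  intro x hx
  obtain ⟨g, rfl⟩ := QuotientGroup.mk'_surjective N x
  set H := (Subgroup.centralizer ({(QuotientGroup.mk z : G ⧸ N)} : Set (G ⧸ N))).comap (QuotientGroup.mk' N) with hH
  have hzH : z ∈ H := by
    rw [hH, Subgroup.mem_comap]
    exact Subgroup.mem_centralizer_singleton_iff.mpr rfl
  have hgH : g * z * g⁻¹ ∈ H := by
    rw [hH, Subgroup.mem_comap]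
    apply Subgroup.mem_centralizer_singleton_iff.mpr
    rw [map_mul, map_mul, map_inv]
    exact hx.symm
  obtain ⟨h, hh, e⟩ := Cfsg.Agent.H1.iso_conj_in hz hzH hgH
  rw [hH, Subgroup.mem_comap] at hh
  have h1 : QuotientGroup.mk' N h * QuotientGroup.mk' N z = QuotientGroup.mk' N z * QuotientGroup.mk' N h := Subgroup.mem_centralizer_singleton_iff.mp hh
  change QuotientGroup.mk' N g * QuotientGroup.mk' N z * (QuotientGroup.mk' N g)⁻¹ = QuotientGroup.mk' N z
  rw [← map_inv, ← map_mul, ← map_mul, ← e, map_mul, map_mul, h1, map_inv]; group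

end Cfsg.Agent.S1181
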