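import Cfsg.Statements.S1182
import Mathlib
import Cfsg.Agent.H1.ZS6

set_option autoImplicit false
open Cfsg

namespace Cfsg.Agent.S1182

open scoped commutatorElement Pointwise

/-- Let z be an isolated involution of the finite group G and H a subgroup normalized by z. If x, y ∈ H both commute with z and y = h x h⁻¹ for some h ∈ H, then y = c x c⁻¹ for some c ∈ H commuting with z. -/
theorem result {G : Type*} [Group G] [Finite G] (z : G) (hz : Cfsg.IsIsolatedInvolution z) (H : Subgroup G) (hzH : z ∈ Subgroup.normalizer (H : Set G)) (x y : G) (hx : x ∈ H) (hy : y ∈ H) (hxz : Commute x z) (hyz : Commute y z) (h : G) (hh : h ∈ H) (hconj : h * x * h⁻¹ = y) : ∃ c ∈ H, Commute c z ∧ c * x * c⁻¹ = y := by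
  have hle : Subgroup.zpowers z ≤ Subgroup.normalizer (H : Set G) := by rw [Subgroup.zpowers_le]; exact hzH
  set K := (H ⊔ Subgroup.zpowers z) ⊓ Subgroup.centralizer ({y} : Set G) with hK
  have hzK : z ∈ K := by
    refine Subgroup.mem_inf.mpr ⟨(le_sup_right : Subgroup.zpowers z ≤ _) (Subgroup.mem_zpowers z), ?_⟩
    rw [Subgroup.mem_centralizer_singleton_iff]
    exact hyz.eq.symm
  have hhK : h * z * h⁻¹ ∈ K := by
    refine Subgroup.mem_inf.mpr ⟨?_, ?_⟩
    · have h1 : h ∈ H ⊔ Subgroup.zpowers z := (le_sup_left : H ≤ _) hh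
      have h2 : z ∈ H ⊔ Subgroup.zpowers z := (le_sup_right : Subgroup.zpowers z ≤ _) (Subgroup.mem_zpowers z)
      exact mul_mem (mul_mem h1 h2) (inv_mem h1)
    · rw [Subgroup.mem_centralizer_singleton_iff, ← hconj]
      calc h * z * h⁻¹ * (h * x * h⁻¹) = h * (z * x) * h⁻¹ := by group
        _ = h * (x * z) * h⁻¹ := by rw [hxz.eq]
        _ = h * x * h⁻¹ * (h * z * h⁻¹) := by group
  obtain ⟨k, hk, hkz⟩ := Cfsg.Agent.H1.iso_conj_in hz hzK hhK
  have hky : k * y = y * k := Subgroup.mem_centralizer_singleton_iff.mp hk.2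
  have hmem : k⁻¹ * h ∈ H ⊔ Subgroup.zpowers z := mul_mem (inv_mem hk.1) ((le_sup_left : H ≤ _) hh)
  obtain ⟨a, ha, w, hw, haw⟩ := (Cfsg.Agent.L0.mem_sup_of_normalizes hle).mp hmem
  obtain ⟨i, rfl⟩ := Subgroup.mem_zpowers_iff.mp hw
  have hcz : Commute (k⁻¹ * h) z := by
    have : k⁻¹ * h * z = z * (k⁻¹ * h) := by
      calc k⁻¹ * h * z = k⁻¹ * (h * z * h⁻¹) * h := by group
        _ = k⁻¹ * (k * z * k⁻¹) * h := by rw [hkz]
        _ = z * (k⁻¹ * h) := by group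
    exact this
  have hae : a = (k⁻¹ * h) * (z ^ i)⁻¹ := by rw [← haw]; group
  have hzi : Commute ((z ^ i)⁻¹) z := ((Commute.refl z).zpow_left i).inv_left
  refine ⟨a, ha, ?_, ?_⟩
  · rw [hae]; exact hcz.mul_left hzi
  · have h1 : (z ^ i)⁻¹ * x * z ^ i = x := by
      have : Commute (z ^ i) x := (hxz.symm).zpow_left i
      calc (z ^ i)⁻¹ * x * z ^ i = (z ^ i)⁻¹ * (x * z ^ i) := by group
        _ = (z ^ i)⁻¹ * (z ^ i * x) := by rw [this.eq]
        _ = x := by group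
    rw [hae]
    calc (k⁻¹ * h) * (z ^ i)⁻¹ * x * ((k⁻¹ * h) * (z ^ i)⁻¹)⁻¹ = (k⁻¹ * h) * ((z ^ i)⁻¹ * x * z ^ i) * (k⁻¹ * h)⁻¹ := by group
      _ = k⁻¹ * (h * x * h⁻¹) * k := by rw [h1]; group
      _ = k⁻¹ * (y * k) := by rw [hconj]; group
      _ = k⁻¹ * (k * y) := by rw [hky]
      _ = y := by group

end Cfsg.Agent.S1182
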