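import Cfsg.Statements.S1183
import Mathlib
import Cfsg.Agent.H1.ZS6
import Cfsg.Agent.H1.Transfer

set_option autoImplicit false
open Cfsg

namespace Cfsg.Agent.S1183

open scoped commutatorElement Pointwise


/-- Let z be an isolated involution of the finite group G and C = C_G(z). Then the subgroup of G generated by its elements of odd order is all of G if and only if the subgroup of C generated by its elements of odd order is all of C. -/
theorem result {G : Type*} [Group G] [Finite G] (z : G) (hz : Cfsg.IsIsolatedInvolution z) : Cfsg.pResidual 2 G = ⊤ ↔ Cfsg.pResidual 2 ↥(Subgroup.centralizer ({z} : Set G)) = ⊤ := by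
  haveI : Fact (Nat.Prime 2) := ⟨Nat.prime_two⟩
  set C := Subgroup.centralizer ({z} : Set G) with hC
  constructor
  · intro hG
    set N := pResidual 2 C with hN
    have hNn : N.Normal := inferInstance
    have hCN : IsPGroup 2 (C ⧸ N) := Cfsg.Agent.H1.isPGroup_quotient_pResidual
    let φ : C →* G ⧸ oddCore G := (QuotientGroup.mk' (oddCore G)).comp C.subtype
    have hφ : Function.Surjective φ := by
      intro x
      obtain ⟨g, rfl⟩ := QuotientGroup.mk'_surjective (oddCore G) x
      obtain ⟨o, ho, c, hc, rfl⟩ := Cfsg.Agent.H1.iso_factor hz g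
      refine ⟨⟨c, hc⟩, ?_⟩
      change QuotientGroup.mk' (oddCore G) c = QuotientGroup.mk' (oddCore G) (o * c)
      rw [map_mul]
      have : QuotientGroup.mk' (oddCore G) o = 1 := (QuotientGroup.eq_one_iff _).mpr ho
      rw [this, one_mul]
    have hker : φ.ker ≤ (QuotientGroup.mk' N).ker := by
      intro c hc
      rw [QuotientGroup.ker_mk']
      have h1 : (c : G) ∈ oddCore G := (QuotientGroup.eq_one_iff _).mp (MonoidHom.mem_ker.mp hc)
      apply Subgroup.subset_closure
      have h2 := Cfsg.Agent.H1.odd_of_mem h1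
      rw [Subgroup.orderOf_coe] at h2
      exact Nat.coprime_two_right.mpr h2
    let ψ : G ⧸ oddCore G →* C ⧸ N := (MonoidHom.liftOfSurjective φ hφ) ⟨QuotientGroup.mk' N, hker⟩
    have hψ : ∀ c : C, ψ (φ c) = QuotientGroup.mk' N c := fun c => MonoidHom.liftOfRightInverse_comp_apply φ _ _ ⟨QuotientGroup.mk' N, hker⟩ c
    have h1 := Cfsg.Agent.H1.pResidual_le_ker hCN (ψ.comp (QuotientGroup.mk' (oddCore G)))
    rw [hG, top_le_iff] at h1
    rw [eq_top_iff]
    intro c _
    have h2 : (c : G) ∈ (ψ.comp (QuotientGroup.mk' (oddCore G))).ker := by rw [h1]; trivial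
    have h3 : ψ (φ c) = 1 := h2
    rw [hψ c] at h3
    exact (QuotientGroup.eq_one_iff _).mp h3
  · intro h
    rw [eq_top_iff]
    intro g _
    obtain ⟨o, ho, c, hc, rfl⟩ := Cfsg.Agent.H1.iso_factor hz g
    apply mul_mem
    · apply Subgroup.subset_closure
      exact Nat.coprime_two_right.mpr (Cfsg.Agent.H1.odd_of_mem ho)
    · have h1 : (pResidual 2 C).map C.subtype ≤ pResidual 2 G := by
        unfold pResidual
        rw [MonoidHom.map_closure, Subgroup.closure_le]
        rintro _ ⟨x, hx, rfl⟩
        apply Subgroup.subset_closure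
        change Nat.Coprime (orderOf (x : G)) 2
        rw [Subgroup.orderOf_coe]; exact hx
      apply h1
      rw [h]
      exact ⟨⟨c, hc⟩, trivial, rfl⟩

end Cfsg.Agent.S1183
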