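import Cfsg.Statements.S1184
import Mathlib
import Cfsg.Agent.H1.Isolated

set_option autoImplicit false
open Cfsg

namespace Cfsg.Agent.S1184

open scoped commutatorElement Pointwise


/-- Let z be an isolated involution of the finite group G. If s and t are distinct conjugates of z, then st does not commute with z. -/
theorem result {G : Type*} [Group G] [Finite G] (z : G) (hz : Cfsg.IsIsolatedInvolution z) (g h : G) (hne : g * z * g⁻¹ ≠ h * z * h⁻¹) : ¬ Commute (g * z * g⁻¹ * (h * z * h⁻¹)) z := by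
  intro hc
  set s := g * z * g⁻¹ with hs
  set t := h * z * h⁻¹ with ht
  have hzz : z * z = 1 := Cfsg.Agent.H1.inv_mul_self_of_two hz.1
  have hsz := Cfsg.Agent.H1.iso_conj hz g
  have htz := Cfsg.Agent.H1.iso_conj hz h
  rw [← hs] at hsz
  rw [← ht] at htz
  have hsi : s⁻¹ = s := Cfsg.Agent.H1.inv_eq_of_two hsz.1
  have hti : t⁻¹ = t := Cfsg.Agent.H1.inv_eq_of_two htz.1
  have hss : s * s = 1 := Cfsg.Agent.H1.inv_mul_self_of_two hsz.1
  have hst : s ≠ t := hne
  -- s inverts x = s t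
  have hinv : s * (s * t) * s⁻¹ = (s * t)⁻¹ := by
    have e1 : (s * t)⁻¹ = t⁻¹ * s⁻¹ := mul_inv_rev s t
    have e2 : s * (s * t) * s⁻¹ = (s * s) * t * s⁻¹ := by group
    rw [e1, hti, e2, hss, one_mul]
  set x := s * t with hx
  set E := Subgroup.normalizer ((Subgroup.zpowers x : Subgroup G) : Set G) with hE
  have hzE : z ∈ E := by
    apply Subgroup.centralizer_le_normalizer
    rw [Subgroup.mem_centralizer_iff]
    intro y hy
    obtain ⟨k, rfl⟩ := Subgroup.mem_zpowers_iff.mp hy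
    exact (hc.zpow_left k).eq
  have hsE : s ∈ E := by
    apply Cfsg.Agent.H1.mem_normalizer_of_conj_mem
    intro y hy
    obtain ⟨k, rfl⟩ := Subgroup.mem_zpowers_iff.mp hy
    rw [← conj_zpow, hinv, inv_zpow]
    exact Subgroup.inv_mem _ (Subgroup.zpow_mem _ (Subgroup.mem_zpowers x) k)
  obtain ⟨e, he, hes⟩ := Cfsg.Agent.H1.iso_conj_in hz hzE (g := g) hsE
  -- s centralizes x
  have hsx : s * x = x * s := by
    rw [hs, ← hes]
    have h1 : e⁻¹ * x * e ∈ Subgroup.zpowers x := by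
      have := (Subgroup.mem_normalizer_iff.mp (E.inv_mem he) x).mp (Subgroup.mem_zpowers x)
      rwa [inv_inv] at this
    obtain ⟨k, hk⟩ := Subgroup.mem_zpowers_iff.mp h1
    have h2 : z * (e⁻¹ * x * e) = (e⁻¹ * x * e) * z := by
      rw [← hk]; exact ((hc.zpow_left k).symm).eq
    calc e * z * e⁻¹ * x = e * (z * (e⁻¹ * x * e)) * e⁻¹ := by group
      _ = e * ((e⁻¹ * x * e) * z) * e⁻¹ := by rw [h2]
      _ = _ := by group
  have hstc : s * t = t * s := by
    rw [hx] at hsx
    have : s * (s * t) = s * (t * s) := by rw [hsx]; group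
    exact mul_left_cancel this
  -- so t = s
  apply hst
  have h3 : Commute s ((h * g⁻¹) * s * (h * g⁻¹)⁻¹) := by
    have : (h * g⁻¹) * s * (h * g⁻¹)⁻¹ = t := by rw [hs, ht]; group
    rw [this]; exact hstc
  have h4 := hsz.2 _ h3
  have h5 : (h * g⁻¹) * s * (h * g⁻¹)⁻¹ = t := by rw [hs, ht]; group
  rw [h5] at h4
  exact h4.symm

end Cfsg.Agent.S1184
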