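import Cfsg.Statements.S1185
import Mathlib
import Cfsg.Agent.H1.Isolated

set_option autoImplicit false
open Cfsg

namespace Cfsg.Agent.S1185

open scoped commutatorElement Pointwise


/-- Let z be an isolated involution of the finite group G with centralizer C. Then for every g ∈ G there is exactly one element k in the coset gC that has odd order and is inverted by z. -/
theorem result {G : Type*} [Group G] [Finite G] (z : G) (hz : Cfsg.IsIsolatedInvolution z) (g : G) : ∃! k : G, (Odd (orderOf k) ∧ z * k * z⁻¹ = k⁻¹) ∧ g⁻¹ * k ∈ Subgroup.centralizer ({z} : Set G) := by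
  set s := g * z * g⁻¹ with hs
  set y := z * s with hy
  have hsz := Cfsg.Agent.H1.iso_conj hz g
  have hzz : z * z = 1 := Cfsg.Agent.H1.inv_mul_self_of_two hz.1
  have hzi : z⁻¹ = z := Cfsg.Agent.H1.inv_eq_of_two hz.1
  have hsi : s⁻¹ = s := Cfsg.Agent.H1.inv_eq_of_two hsz.1
  have hodd : Odd (orderOf y) := Cfsg.Agent.H1.iso_odd hz g
  have hzy : z * y * z⁻¹ = y⁻¹ := by
    rw [hy, mul_inv_rev, hsi, hzi]
    calc z * (z * s) * z = (z * z) * s * z := by group
      _ = s * z := by rw [hzz, one_mul]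
  obtain ⟨m, hm⟩ := hodd
  -- k = y^m : k^2 = y^(2m) = y⁻¹
  have hkk : y ^ m * y ^ m = y⁻¹ := by
    rw [eq_inv_iff_mul_eq_one, ← pow_add, ← pow_succ]
    have : m + m + 1 = orderOf y := by omega
    rw [this, pow_orderOf_eq_one]
  have hzk : z * y ^ m * z⁻¹ = (y ^ m)⁻¹ := by rw [← conj_pow, hzy, inv_pow]
  have hconj : ∀ k : G, z * k * z⁻¹ = k⁻¹ → k * z * k⁻¹ = (k * k) * z := by
    intro k hk
    rw [← hk]
    calc k * z * (z * k * z⁻¹) = k * (z * z) * k * z⁻¹ := by group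
      _ = _ := by rw [hzz, hzi]; group
  refine ⟨y ^ m, ⟨⟨?_, hzk⟩, ?_⟩, ?_⟩
  · exact Odd.of_dvd_nat ⟨m, hm⟩ (orderOf_pow_dvd m)
  · apply Subgroup.mem_centralizer_singleton_iff.mpr
    have h1 := hconj _ hzk
    rw [hkk] at h1
    have h2 : y⁻¹ * z = s := by rw [hy, mul_inv_rev, hsi, hzi, mul_assoc, hzz, mul_one]
    rw [h2] at h1
    calc g⁻¹ * y ^ m * z = g⁻¹ * (y ^ m * z * (y ^ m)⁻¹) * y ^ m := by group
      _ = g⁻¹ * (g * z * g⁻¹) * y ^ m := by rw [h1]
      _ = _ := by group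
  · rintro k ⟨⟨hko, hki⟩, hkc⟩
    -- k z k⁻¹ = s
    have h1 : k * z * k⁻¹ = s := by
      have h2 := Subgroup.mem_centralizer_singleton_iff.mp hkc
      calc k * z * k⁻¹ = g * (g⁻¹ * k * z) * k⁻¹ := by group
        _ = g * (z * (g⁻¹ * k)) * k⁻¹ := by rw [h2]
        _ = s := by rw [hs]; group
    have h3 : k * k = y ^ m * y ^ m := by
      have h4 := hconj k hki
      rw [h1] at h4
      rw [hkk, hy, mul_inv_rev, hsi, hzi, h4, mul_assoc, hzz, mul_one]
    -- odd orders
    obtain ⟨a, ha⟩ := hko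
    have hym : Odd (orderOf (y ^ m)) := Odd.of_dvd_nat ⟨m, hm⟩ (orderOf_pow_dvd m)
    have hsq : ∀ u v : G, Odd (orderOf u) → Odd (orderOf v) → u * u = v * v → u = v := by
      intro u v hu hv huv
      set N := orderOf u * orderOf v with hN
      obtain ⟨b, hb⟩ : Odd N := hu.mul hv
      have h5 : ∀ w : G, w ^ N = 1 → w = (w * w) ^ (b + 1) := by
        intro w hw
        rw [← pow_two, ← pow_mul]
        have : 2 * (b + 1) = N + 1 := by omega
        rw [this, pow_succ, hw, one_mul]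
      rw [h5 u (by rw [hN, pow_mul, pow_orderOf_eq_one, one_pow]), h5 v (by rw [hN, mul_comm, pow_mul, pow_orderOf_eq_one, one_pow]), huv]
    exact hsq _ _ ⟨a, ha⟩ hym h3

end Cfsg.Agent.S1185
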