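import Cfsg.Statements.S1226
import Mathlib
import Cfsg.Agent.H1.Basic
import Cfsg.Agent.L0.Core

set_option autoImplicit false
open Cfsg

namespace Cfsg.Agent.S1226

open scoped commutatorElement Pointwise


/-- Let G be a finite group with a Sylow 2-subgroup T that is neither cyclic nor normal, such that the centralizer of every involution is an elementary abelian 2-group. Then N_G(T) is a strongly embedded subgroup of G. -/
theorem result {G : Type*} [Group G] [Finite G] (T : Sylow 2 G) (hnc : ¬ IsCyclic (T : Subgroup G)) (hnn : ¬ (T : Subgroup G).Normal) (hC : ∀ t : G, orderOf t = 2 → IsMulCommutative (Subgroup.centralizer ({t} : Set G)) ∧ ∀ c ∈ Subgroup.centralizer ({t} : Set G), c ^ 2 = 1) : Cfsg.IsStronglyEmbedded (Subgroup.normalizer ((T : Subgroup G) : Set G)) := by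
  classical
  have h2 : ∃ z ∈ (T : Subgroup G), z ≠ 1 ∧ ∀ t ∈ (T : Subgroup G), z * t = t * z := by
    have hTb : (T : Subgroup G) ≠ ⊥ := by
      intro h
      apply hnn
      rw [h]; infer_instance
    haveI : Nontrivial T := (Subgroup.nontrivial_iff_ne_bot _).mpr hTb
    haveI := T.isPGroup'.isNilpotent
    haveI : Nontrivial (Subgroup.center T) := T.isPGroup'.center_nontrivial
    obtain ⟨⟨z, hz⟩, hz1⟩ := exists_ne (1 : Subgroup.center T)
    refine ⟨z, z.2, fun h => hz1 (Subtype.ext (Subtype.ext h)), ?_⟩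
    intro t ht
    exact congrArg Subtype.val (Subgroup.mem_center_iff.mp hz ⟨t, ht⟩).symm
  obtain ⟨z, hzT, hz1, hzc⟩ := h2
  -- a power of z is an involution
  obtain ⟨w, hwT, hw2, hwc⟩ : ∃ w ∈ (T : Subgroup G), orderOf w = 2 ∧ ∀ t ∈ (T : Subgroup G), w * t = t * w := by
    obtain ⟨k, hk⟩ := IsPGroup.iff_orderOf.mp T.isPGroup' ⟨z, hzT⟩
    have hk' : orderOf z = 2 ^ k := by rw [← hk]; exact (Subgroup.orderOf_mk z hzT).symm
    have hk0 : k ≠ 0 := by
      rintro rfl
      rw [pow_zero, orderOf_eq_one_iff] at hk'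
      exact hz1 hk'
    refine ⟨z ^ (2 ^ (k - 1)), (T : Subgroup G).pow_mem hzT _, ?_, ?_⟩
    · rw [orderOf_pow' z (by positivity), hk']
      have : Nat.gcd (2 ^ k) (2 ^ (k - 1)) = 2 ^ (k - 1) := Nat.gcd_eq_right (pow_dvd_pow 2 (by omega))
      rw [this, Nat.pow_div (by omega) (by norm_num)]
      have : k - (k - 1) = 1 := by omega
      rw [this, pow_one]
    · intro t ht
      have : Commute z t := hzc t ht
      exact this.pow_left _
  have hTle : ∀ (S : Sylow 2 G) (w : G), orderOf w = 2 → (∀ t ∈ (S : Subgroup G), w * t = t * w) → Subgroup.centralizer ({w} : Set G) = S := by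
    intro S w hw hc
    have h1 := hC w hw
    have hp : IsPGroup 2 ↥(Subgroup.centralizer ({w} : Set G)) := by
      intro x
      exact ⟨1, by rw [pow_one]; exact Subtype.ext (h1.2 x x.2)⟩
    exact S.3 hp (fun t ht => Subgroup.mem_centralizer_singleton_iff.mpr (hc t ht).symm)
  have hCT := hTle T w hw2 hwc
  have hTc : ∀ x ∈ (T : Subgroup G), ∀ y ∈ (T : Subgroup G), x * y = y * x := by
    have h1 := (hC w hw2).1
    rw [hCT] at h1
    intro x hx y hy
    exact congrArg Subtype.val (h1.1.1 ⟨x, hx⟩ ⟨y, hy⟩)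
  -- every Sylow subgroup is abelian and equals centralizers of its involutions
  have hSyl : ∀ (S : Sylow 2 G) (t : G), t ∈ (S : Subgroup G) → orderOf t = 2 → Subgroup.centralizer ({t} : Set G) = S := by
    intro S t ht ht2
    apply hTle S t ht2
    obtain ⟨g, hg⟩ := MulAction.exists_smul_eq G S T
    intro y hy
    have h1 : g * t * g⁻¹ ∈ (T : Subgroup G) := by
      rw [← hg]; exact ⟨t, ht, rfl⟩
    have h2 : g * y * g⁻¹ ∈ (T : Subgroup G) := by
      rw [← hg]; exact ⟨y, hy, rfl⟩
    have h3 := hTc _ h1 _ h2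
    have h4 : g * (t * y) * g⁻¹ = g * (y * t) * g⁻¹ := by
      calc g * (t * y) * g⁻¹ = g * t * g⁻¹ * (g * y * g⁻¹) := by group
        _ = g * y * g⁻¹ * (g * t * g⁻¹) := h3
        _ = _ := by group
    exact mul_left_cancel (mul_right_cancel h4)
  refine ⟨fun h => hnn (Subgroup.normalizer_eq_top_iff.mp h), ?_, ?_⟩
  · have h1 : 2 ∣ Nat.card (T : Subgroup G) := by
      have h0 : orderOf (⟨w, hwT⟩ : (T : Subgroup G)) ∣ Nat.card (T : Subgroup G) := orderOf_dvd_natCard _
      have h00 : orderOf (⟨w, hwT⟩ : (T : Subgroup G)) = 2 := by rw [Subgroup.orderOf_mk]; exact hw2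
      rwa [h00] at h0
    exact even_iff_two_dvd.mpr (h1.trans (Subgroup.card_dvd_of_le Subgroup.le_normalizer))
  · intro g hg
    by_contra hodd
    rw [Nat.not_odd_iff_even, even_iff_two_dvd] at hodd
    haveI : Fact (Nat.Prime 2) := ⟨Nat.prime_two⟩
    obtain ⟨⟨s, hs⟩, hs2⟩ := exists_prime_orderOf_dvd_card' 2 hodd
    have hs2' : orderOf s = 2 := by rw [← hs2]; exact (Subgroup.orderOf_mk s hs).symm
    have key : ∀ (S : Sylow 2 G) (s : G), s ∈ Subgroup.normalizer ((S : Subgroup G) : Set G) → orderOf s = 2 → s ∈ (S : Subgroup G) := by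
      intro S s hs hs2
      have hzp : IsPGroup 2 (Subgroup.zpowers s) := by
        apply IsPGroup.of_card (n := 1)
        rw [Nat.card_zpowers, hs2, pow_one]
      have h1 : IsPGroup 2 ↥((S : Subgroup G) ⊔ Subgroup.zpowers s) :=
        IsPGroup.to_sup_of_normal_left' S.isPGroup' hzp (by rw [Subgroup.zpowers_le]; exact hs)
      have h2 := S.3 h1 le_sup_left
      rw [← h2]
      exact (le_sup_right : Subgroup.zpowers s ≤ _) (Subgroup.mem_zpowers s)
    have h1 : s ∈ (T : Subgroup G) := key T s hs.1 hs2'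
    have h3 : s ∈ ((g • T : Sylow 2 G) : Subgroup G) := by
      apply key _ _ _ hs2'
      obtain ⟨y, hy, hys⟩ := hs.2
      have h4 := (Subgroup.le_normalizer_map (H := (T : Subgroup G)) (MulAut.conj g).toMonoidHom) ⟨y, hy, rfl⟩
      rw [← hys]
      exact h4
    have h4 := hSyl T s h1 hs2'
    have h5 := hSyl (g • T) s h3 hs2'
    have h6 : g • T = T := by
      apply Sylow.ext
      rw [← h5, h4]
    apply hg
    exact Sylow.smul_eq_iff_mem_normalizer.mp h6

end Cfsg.Agent.S1226
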