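import Cfsg.Statements.S1231
import Mathlib
import Cfsg.Agent.H1.Basic
import Cfsg.Agent.L0.Core
import Cfsg.Agent.L0.Fus.Alperin

set_option autoImplicit false
open Cfsg

namespace Cfsg.Agent.S1231

open scoped commutatorElement Pointwise
open Subgroup

theorem rank_mono {G : Type*} [Group G] [Finite G] {p k : ℕ} {A B : Subgroup G} (h : A ≤ B) (hB : Cfsg.PRankLE p k B) : Cfsg.PRankLE p k A := by
  intro E hE hp
  have h1 : IsMulCommutative (E.map (Subgroup.inclusion h)) := by
    refine ⟨⟨?_⟩⟩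
    rintro ⟨_, x, hx, rfl⟩ ⟨_, y, hy, rfl⟩
    apply Subtype.ext
    change Subgroup.inclusion h x * Subgroup.inclusion h y = Subgroup.inclusion h y * Subgroup.inclusion h x
    rw [← map_mul, ← map_mul]
    congr 1
    exact congrArg Subtype.val (hE.is_comm.comm ⟨x, hx⟩ ⟨y, hy⟩)
  have h2 := hB (E.map (Subgroup.inclusion h)) h1 (by
    rintro _ ⟨x, hx, rfl⟩
    change (Subgroup.inclusion h x) ^ p = 1
    rw [← map_pow, hp x hx, map_one])
  rwa [Subgroup.card_map_of_injective (Subgroup.inclusion_injective h)] at h2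

theorem rank_conj {G : Type*} [Group G] [Finite G] {p k : ℕ} {A : Subgroup G} (g : G) (hB : Cfsg.PRankLE p k (A.map (MulAut.conj g).toMonoidHom)) : Cfsg.PRankLE p k A := by
  intro E hE hp
  let f := (A.equivMapOfInjective (MulAut.conj g).toMonoidHom (MulAut.conj g).injective)
  have h1 : IsMulCommutative (E.map f.toMonoidHom) := by
    refine ⟨⟨?_⟩⟩
    rintro ⟨_, x, hx, rfl⟩ ⟨_, y, hy, rfl⟩
    apply Subtype.ext
    change f x * f y = f y * f x
    rw [← map_mul, ← map_mul]
    congr 1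
    exact congrArg Subtype.val (hE.is_comm.comm ⟨x, hx⟩ ⟨y, hy⟩)
  have h2 := hB (E.map f.toMonoidHom) h1 (by
    rintro _ ⟨x, hx, rfl⟩
    change (f x) ^ p = 1
    rw [← map_pow, hp x hx, map_one])
  rwa [Subgroup.card_map_of_injective f.injective] at h2

/-- elementary abelian subgroup inside a Sylow subgroup -/
theorem rank_sylow {G : Type*} [Group G] [Finite G] {p k : ℕ} [Fact p.Prime] {A : Subgroup G} (hA : ¬ Cfsg.PRankLE p k A) :
    ∃ Q : Subgroup G, Q ≤ A ∧ IsPGroup p Q ∧ ¬ Cfsg.PRankLE p k Q := by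
  unfold Cfsg.PRankLE at hA
  push_neg at hA
  obtain ⟨E, hE, hp, hc⟩ := hA
  refine ⟨E.map A.subtype, Subgroup.map_subtype_le E, ?_, ?_⟩
  · apply IsPGroup.map
    intro e
    exact ⟨1, Subtype.ext (by simpa using hp e e.2)⟩
  · intro hr
    have h3 : IsMulCommutative (⊤ : Subgroup (E.map A.subtype)) := by
      refine ⟨⟨?_⟩⟩
      rintro ⟨⟨_, x, hx, rfl⟩, -⟩ ⟨⟨_, y, hy, rfl⟩, -⟩
      apply Subtype.ext
      apply Subtype.ext
      change (x : G) * y = y * x
      exact congrArg (fun z : E => (z : G)) (hE.is_comm.comm ⟨x, hx⟩ ⟨y, hy⟩)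
    have h4 := hr ⊤ h3 (by
      rintro ⟨_, x, hx, rfl⟩ -
      apply Subtype.ext
      change ((x : A) : G) ^ p = 1
      have := congrArg Subtype.val (hp x hx)
      exact this)
    rw [Subgroup.card_top, Subgroup.card_map_of_injective A.subtype_injective] at h4
    omega

/-- Let H be a subgroup of the finite group G, p a prime, k ≥ 1, and P a Sylow p-subgroup of H whose p-rank is at least k. Then N_G(X) ≤ H for every subgroup X of P of p-rank at least k if and only if H ∩ gHg⁻¹ has p-rank less than k for every g ∉ H. -/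
theorem result {G : Type*} [Group G] [Finite G] {p : ℕ} [Fact p.Prime] (k : ℕ) (hk : 1 ≤ k) (H : Subgroup G) (P : Sylow p ↥H) (hP : ¬ Cfsg.PRankLE p (k - 1) ↥(P : Subgroup ↥H)) : (∀ X : Subgroup G, X ≤ (P : Subgroup ↥H).map H.subtype → ¬ Cfsg.PRankLE p (k - 1) ↥X → Subgroup.normalizer (X : Set G) ≤ H) ↔ (∀ g : G, g ∉ H → Cfsg.PRankLE p (k - 1) ↥(H ⊓ H.map (MulAut.conj g).toMonoidHom)) := by
  constructor
  · intro hN
    -- transport by elements of `H`
    have hN' : ∀ X : Subgroup G, X ≤ H → IsPGroup p X → ¬ Cfsg.PRankLE p (k - 1) X → Subgroup.normalizer (X : Set G) ≤ H := by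
      intro X hXH hXp hXr
      have hX' : IsPGroup p (X.subgroupOf H) := hXp.comap_of_injective H.subtype H.subtype_injective
      obtain ⟨P', hP'⟩ := hX'.exists_le_sylow
      obtain ⟨h, hh⟩ := MulAction.exists_smul_eq H P' P
      have hle : X.map (MulAut.conj (h : G)).toMonoidHom ≤ (P : Subgroup H).map H.subtype := by
        rintro _ ⟨x, hx, rfl⟩
        refine ⟨h * ⟨x, hXH hx⟩ * h⁻¹, ?_, rfl⟩
        rw [← hh]
        exact ⟨⟨x, hXH hx⟩, hP' hx, rfl⟩
      have h1 := hN _ hle (fun hr => hXr (rank_conj _ hr))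
      intro g hg
      have h2 : (h : G) * g * (h : G)⁻¹ ∈ Subgroup.normalizer ((X.map (MulAut.conj (h : G)).toMonoidHom : Subgroup G) : Set G) := by
        rw [Subgroup.mem_normalizer_iff] at hg ⊢
        intro y
        constructor
        · rintro ⟨x, hx, rfl⟩
          refine ⟨g * x * g⁻¹, (hg x).mp hx, ?_⟩
          change (h : G) * (g * x * g⁻¹) * (h : G)⁻¹ = h * g * (h : G)⁻¹ * (h * x * (h : G)⁻¹) * (h * g * (h : G)⁻¹)⁻¹
          group
        · rintro ⟨x, hx, hxy⟩
          refine ⟨g⁻¹ * x * g, ?_, ?_⟩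
          · exact (hg _).mpr (by
              have : g * (g⁻¹ * x * g) * g⁻¹ = x := by group
              rw [this]; exact hx)
          · change (h : G) * (g⁻¹ * x * g) * (h : G)⁻¹ = y
            have hxy' : (h : G) * x * (h : G)⁻¹ = h * g * (h : G)⁻¹ * y * (h * g * (h : G)⁻¹)⁻¹ := hxy
            calc (h : G) * (g⁻¹ * x * g) * (h : G)⁻¹ = (h * g * (h : G)⁻¹)⁻¹ * (h * x * (h : G)⁻¹) * (h * g * (h : G)⁻¹) := by group
              _ = y := by rw [hxy']; group
      have h3 := h1 h2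
      have h4 := mul_mem (mul_mem (inv_mem h.2) h3) h.2
      have : (h : G)⁻¹ * (h * g * (h : G)⁻¹) * h = g := by group
      rwa [this] at h4
    intro g hg
    by_contra hr
    obtain ⟨Q₀, hQ₀, hQ₀p, hQ₀r⟩ := rank_sylow hr
    -- enlarge to a Sylow subgroup of the intersection
    have hQ' : IsPGroup p (Q₀.subgroupOf (H ⊓ H.map (MulAut.conj g).toMonoidHom)) :=
      hQ₀p.comap_of_injective _ (Subgroup.subtype_injective _)
    set I := H ⊓ H.map (MulAut.conj g).toMonoidHom with hI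
    obtain ⟨Q₁, hQ₁⟩ := hQ'.exists_le_sylow
    set Q : Subgroup G := (Q₁ : Subgroup I).map I.subtype with hQ
    have hQI : Q ≤ I := Subgroup.map_subtype_le _
    have hQp : IsPGroup p Q := Q₁.2.map _
    have hQr : ¬ Cfsg.PRankLE p (k - 1) Q := by
      intro h
      apply hQ₀r
      apply rank_mono _ h
      intro x hx
      exact ⟨⟨x, hQ₀ hx⟩, hQ₁ (mem_subgroupOf.mpr hx), rfl⟩
    have hmax : ∀ R : Subgroup G, IsPGroup p R → Q ≤ R → R ≤ I → R = Q := by
      intro R hR hQR hRI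
      have h1 : IsPGroup p (R.subgroupOf I) := hR.comap_of_injective _ (Subgroup.subtype_injective _)
      have h2 : (Q₁ : Subgroup I) ≤ R.subgroupOf I := by
        intro x hx
        exact hQR ⟨x, hx, rfl⟩
      have h3 := Q₁.3 h1 h2
      apply le_antisymm _ hQR
      intro x hx
      have : (⟨x, hRI hx⟩ : I) ∈ (Q₁ : Subgroup I) := by rw [← h3]; exact hx
      exact ⟨_, this, rfl⟩
    have hQH : Q ≤ H := hQI.trans inf_le_left
    have hNQ := hN' Q hQH hQp hQr
    -- any `p`-subgroup of the conjugate containing `Q` equals `Q`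
    have hRQ : ∀ R : Subgroup G, IsPGroup p R → Q ≤ R → R ≤ H.map (MulAut.conj g).toMonoidHom → R = Q := by
      intro R hRp hQR hRK
      by_contra hne
      have hlt : Q < R := lt_of_le_of_ne hQR (Ne.symm hne)
      obtain ⟨x, hxR, hxN, hxQ⟩ := Cfsg.Agent.L0.Fus.exists_mem_normalizer_of_lt hRp hlt
      have h1 : Q ⊔ zpowers x ≤ I := by
        refine sup_le hQI ?_
        rw [zpowers_le]
        exact Subgroup.mem_inf.mpr ⟨hNQ hxN, hRK hxR⟩
      have h2 : Q ⊔ zpowers x ≤ R := sup_le hQR (by rw [zpowers_le]; exact hxR)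
      have h3 := hmax (Q ⊔ zpowers x) (hRp.to_le h2) le_sup_left h1
      apply hxQ
      rw [← h3]
      exact (le_sup_right : zpowers x ≤ _) (mem_zpowers x)
    -- `g⁻¹ Q g` is a Sylow subgroup of `H`
    have hgQ : Q.map (MulAut.conj g⁻¹).toMonoidHom ≤ H := by
      rintro _ ⟨x, hx, rfl⟩
      obtain ⟨y, hy, hyx⟩ := (hQI.trans inf_le_right) hx
      have : g⁻¹ * x * g⁻¹⁻¹ = y := by
        have hyx' : g * y * g⁻¹ = x := hyx
        rw [← hyx']; group
      change g⁻¹ * x * g⁻¹⁻¹ ∈ H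
      rw [this]; exact hy
    obtain ⟨S₁, hS₁⟩ := ((hQp.map (MulAut.conj g⁻¹).toMonoidHom).comap_of_injective H.subtype H.subtype_injective :
      IsPGroup p ((Q.map (MulAut.conj g⁻¹).toMonoidHom).subgroupOf H)).exists_le_sylow
    obtain ⟨S₂, hS₂⟩ := (hQp.comap_of_injective H.subtype H.subtype_injective : IsPGroup p (Q.subgroupOf H)).exists_le_sylow
    have e1 : ((S₁ : Subgroup H).map H.subtype).map (MulAut.conj g).toMonoidHom = Q := by
      apply hRQ
      · exact (S₁.2.map _).map _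
      · intro x hx
        refine ⟨g⁻¹ * x * g⁻¹⁻¹, ⟨⟨g⁻¹ * x * g⁻¹⁻¹, hgQ ⟨x, hx, rfl⟩⟩, hS₁ (mem_subgroupOf.mpr ⟨x, hx, rfl⟩), rfl⟩, ?_⟩
        change g * (g⁻¹ * x * g⁻¹⁻¹) * g⁻¹ = x
        group
      · exact Subgroup.map_mono (Subgroup.map_subtype_le _)
    have hc1 : Nat.card Q = Nat.card S₁ := by
      rw [← e1, Subgroup.card_map_of_injective (MulAut.conj g).injective, Subgroup.card_map_of_injective H.subtype_injective]
    obtain ⟨h, hh⟩ := MulAction.exists_smul_eq H S₂ S₁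
    have hc2 : Nat.card S₁ = Nat.card S₂ := by
      rw [S₁.card_eq_multiplicity, S₂.card_eq_multiplicity]
    have e2 : (S₂ : Subgroup H).map H.subtype = Q := by
      symm
      apply Subgroup.eq_of_le_of_card_ge
      · intro x hx
        exact ⟨⟨x, hQH hx⟩, hS₂ (mem_subgroupOf.mpr hx), rfl⟩
      · rw [Subgroup.card_map_of_injective H.subtype_injective, hc1, hc2]
    have hnorm : g * h ∈ Subgroup.normalizer (Q : Set G) := by
      have hle : ∀ x ∈ Q, (g * h) * x * (g * h)⁻¹ ∈ Q := by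
        intro x hx
        rw [← e2] at hx
        obtain ⟨s, hs, rfl⟩ := hx
        rw [← e1]
        refine ⟨(h * s * h⁻¹ : H), ⟨h * s * h⁻¹, ?_, rfl⟩, ?_⟩
        · rw [← hh]
          exact ⟨s, hs, rfl⟩
        · change g * ((h * s * h⁻¹ : H) : G) * g⁻¹ = g * h * s * (g * h)⁻¹
          push_cast; group
      exact Cfsg.Agent.H1.mem_normalizer_of_conj_mem hle
    have h5 := hNQ hnorm
    exact hg ((Subgroup.mul_mem_cancel_right H h.2).mp h5)
  · intro h X hX hXr g hg
    by_contra hgH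
    apply hXr
    apply rank_mono _ (h g hgH)
    intro x hx
    refine Subgroup.mem_inf.mpr ⟨Subgroup.map_subtype_le _ (hX hx), ?_⟩
    have h1 : g⁻¹ * x * g ∈ X := by
      have := (Subgroup.mem_normalizer_iff.mp (inv_mem hg) x).mp hx
      rwa [inv_inv] at this
    refine ⟨g⁻¹ * x * g, Subgroup.map_subtype_le _ (hX h1), ?_⟩
    change g * (g⁻¹ * x * g) * g⁻¹ = x
    group

end Cfsg.Agent.S1231
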