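import Cfsg.Statements.S1241
import Mathlib
import Cfsg.Agent.H1.TrMod

set_option autoImplicit false
open Cfsg

namespace Cfsg.Agent.S1241

open scoped commutatorElement Pointwise
open Subgroup

/-- Let G be a finite group, p a prime, H a subgroup of index prime to p, K a subgroup of H normal in H with H/K commutative, and g ∈ H ∖ K an element of p-power order such that for all integers m and all a ∈ G with a g^m a⁻¹ ∈ H one has a g^m a⁻¹ ∈ g^m K. Then g ∉ G'. -/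
theorem result {G : Type*} [Group G] [Finite G] {p : ℕ} [Fact p.Prime] (H K : Subgroup G) (hHK : K ≤ H) (hKn : (K.subgroupOf H).Normal) (hab : ∀ x ∈ H, ∀ y ∈ H, x * y * x⁻¹ * y⁻¹ ∈ K) (hidx : Nat.Coprime p H.index) (g : G) (hgH : g ∈ H) (hgK : g ∉ K) (hgp : ∃ k : ℕ, orderOf g = p ^ k) (hctrl : ∀ (m : ℤ) (a : G), a * g ^ m * a⁻¹ ∈ H → (a * g ^ m * a⁻¹) * (g ^ m)⁻¹ ∈ K) : g ∉ commutator G := by
  haveI := hKn
  letI : CommGroup (H ⧸ K.subgroupOf H) :=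
    { (inferInstance : Group (H ⧸ K.subgroupOf H)) with
      mul_comm := by
        intro a b
        obtain ⟨x, rfl⟩ := QuotientGroup.mk'_surjective _ a
        obtain ⟨y, rfl⟩ := QuotientGroup.mk'_surjective _ b
        rw [← map_mul, ← map_mul]
        change QuotientGroup.mk _ = QuotientGroup.mk _
        rw [eq_comm, QuotientGroup.eq, mem_subgroupOf]
        have h1 := hab (x⁻¹ : H) (x⁻¹ : H).2 (y⁻¹ : H) (y⁻¹ : H).2
        have h2 := hab (y : H)⁻¹ (y⁻¹ : H).2 (x : H)⁻¹ (x⁻¹ : H).2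
        have e : (((y * x : H)⁻¹ * (x * y) : H) : G) = (x : G)⁻¹ * (y : G)⁻¹ * (x : G)⁻¹⁻¹ * (y : G)⁻¹⁻¹ := by
          push_cast; group
        rw [e]
        exact h1 }
  intro hgG
  apply hgK
  let ϕ : H →* H ⧸ K.subgroupOf H := QuotientGroup.mk' (K.subgroupOf H)
  have h1 : MonoidHom.transfer ϕ g = 1 := by
    have := Abelianization.commutator_subset_ker (MonoidHom.transfer ϕ) hgG
    exact this
  have h2 := Cfsg.Agent.H1.transfer_not_mem_commutator hidx ϕ g hgH hgp (by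
    intro k g₀ h
    have e : g₀⁻¹ * g ^ k * g₀ = g₀⁻¹ * g ^ (k : ℤ) * g₀⁻¹⁻¹ := by rw [inv_inv, zpow_natCast]
    have h3 := hctrl k g₀⁻¹ (by rw [← e]; exact h)
    rw [← map_pow]
    change QuotientGroup.mk _ = QuotientGroup.mk _
    rw [eq_comm, QuotientGroup.eq, mem_subgroupOf]
    have h4 : (g₀⁻¹ * g ^ (k : ℤ) * g₀⁻¹⁻¹) * (g ^ (k : ℤ))⁻¹ ∈ K := h3
    have h5 := (hKn.conj_mem ⟨_, hHK h4⟩ (mem_subgroupOf.mpr h4) (⟨g, hgH⟩ ^ k)⁻¹)
    rw [mem_subgroupOf] at h5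
    have e2 : ((((⟨g, hgH⟩ : H) ^ k)⁻¹ * ⟨g₀⁻¹ * g ^ k * g₀, h⟩ : H) : G) =
        ((((⟨g, hgH⟩ : H) ^ k)⁻¹ * ⟨_, hHK h4⟩ * (((⟨g, hgH⟩ : H) ^ k)⁻¹)⁻¹ : H) : G) := by
      push_cast
      rw [zpow_natCast]
      group
    rw [e2]
    exact h5) h1
  have h3 := (QuotientGroup.eq_one_iff (N := K.subgroupOf H) (⟨g, hgH⟩ : H)).mp h2
  exact h3

end Cfsg.Agent.S1241
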