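import Cfsg.Statements.S1242
import Mathlib
import Cfsg.Agent.H1.TrMod

set_option autoImplicit false
open Cfsg

namespace Cfsg.Agent.S1242

open scoped commutatorElement Pointwise
open Subgroup

/-- Let G be a finite group, p a prime and H a subgroup of index prime to p such that any two elements of H of p-power order that are conjugate in G are conjugate in H. Then (O^p(G)·G') ∩ H = O^p(H)·H', where O^p denotes the subgroup generated by the elements of order prime to p. -/
theorem result {G : Type*} [Group G] [Finite G] {p : ℕ} [Fact p.Prime] (H : Subgroup G) (hidx : Nat.Coprime p H.index) (hfus : ∀ g ∈ H, (∃ k : ℕ, orderOf g = p ^ k) → ∀ a : G, a * g * a⁻¹ ∈ H → ∃ h ∈ H, h * g * h⁻¹ = a * g * a⁻¹) : (Cfsg.pResidual p G ⊔ commutator G) ⊓ H = (Cfsg.pResidual p ↥H ⊔ commutator ↥H).map H.subtype := by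
  set K : Subgroup H := Cfsg.pResidual p ↥H ⊔ commutator ↥H with hK
  haveI : K.Normal := by rw [hK]; infer_instance
  letI : CommGroup (H ⧸ K) :=
    { (inferInstance : Group (H ⧸ K)) with
      mul_comm := by
        intro a b
        obtain ⟨x, rfl⟩ := QuotientGroup.mk'_surjective _ a
        obtain ⟨y, rfl⟩ := QuotientGroup.mk'_surjective _ b
        rw [← map_mul, ← map_mul]
        change QuotientGroup.mk _ = QuotientGroup.mk _
        rw [eq_comm, QuotientGroup.eq]
        have e : (y * x)⁻¹ * (x * y) = ⁅x⁻¹, y⁻¹⁆ := by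
          rw [commutatorElement_def]; group
        rw [e]
        exact (le_sup_right : commutator H ≤ K) (commutator_mem_commutator (mem_top _) (mem_top _)) }
  have hKp : IsPGroup p (H ⧸ K) := by
    have h1 : IsPGroup p (H ⧸ Cfsg.pResidual p ↥H) := Cfsg.Agent.H1.isPGroup_quotient_pResidual
    let f : (H ⧸ Cfsg.pResidual p ↥H) →* H ⧸ K := QuotientGroup.map _ _ (MonoidHom.id H) (by
      intro x hx
      exact (le_sup_left : Cfsg.pResidual p ↥H ≤ K) hx)
    apply h1.of_surjective f
    intro y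
    obtain ⟨x, rfl⟩ := QuotientGroup.mk'_surjective _ y
    exact ⟨QuotientGroup.mk x, rfl⟩
  let ϕ : H →* H ⧸ K := QuotientGroup.mk' K
  have hker : Cfsg.pResidual p G ⊔ commutator G ≤ (MonoidHom.transfer ϕ).ker :=
    sup_le (Cfsg.Agent.H1.pResidual_le_ker hKp _) (Abelianization.commutator_subset_ker _)
  apply le_antisymm
  · rintro x hx
    obtain ⟨hx1, hxH⟩ := Subgroup.mem_inf.mp hx
    obtain ⟨k, m, hm, hkm⟩ := Nat.exists_eq_pow_mul_and_not_dvd (orderOf_pos x).ne' p (Fact.out : p.Prime).ne_one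
    have hco : Nat.Coprime m (p ^ k) := (Nat.Coprime.pow_right k (((Fact.out : p.Prime).coprime_iff_not_dvd.mpr hm).symm))
    obtain ⟨u, v, huv⟩ : ∃ u v : ℤ, u * m + v * (p ^ k : ℕ) = 1 := by
      have := Nat.isCoprime_iff_coprime.mpr hco
      obtain ⟨u, v, h⟩ := this
      exact ⟨u, v, h⟩
    have hxe : x = x ^ (u * m) * x ^ (v * (p ^ k : ℕ)) := by
      rw [← zpow_add, huv, zpow_one]
    have hb : x ^ (v * (p ^ k : ℕ)) ∈ H := H.zpow_mem hxH _
    have ha : x ^ (u * m) ∈ H := H.zpow_mem hxH _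
    have hbo : orderOf (x ^ (v * (p ^ k : ℕ))) ∣ m := by
      apply orderOf_dvd_of_pow_eq_one
      rw [← zpow_natCast, ← zpow_mul]
      have : (v * (p ^ k : ℕ) * m : ℤ) = orderOf x * v := by rw [hkm]; push_cast; ring
      rw [this, zpow_mul, zpow_natCast, pow_orderOf_eq_one, one_zpow]
    have hao : orderOf (x ^ (u * m)) ∣ p ^ k := by
      apply orderOf_dvd_of_pow_eq_one
      rw [← zpow_natCast, ← zpow_mul]
      have : (u * m * (p ^ k : ℕ) : ℤ) = orderOf x * u := by rw [hkm]; push_cast; ring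
      rw [this, zpow_mul, zpow_natCast, pow_orderOf_eq_one, one_zpow]
    have hcop : Nat.Coprime (orderOf (x ^ (v * (p ^ k : ℕ)))) p :=
      Nat.Coprime.coprime_dvd_left hbo ((Fact.out : p.Prime).coprime_iff_not_dvd.mpr hm).symm
    have hbK : (⟨_, hb⟩ : H) ∈ K := by
      apply (le_sup_left : Cfsg.pResidual p ↥H ≤ K)
      apply Subgroup.subset_closure
      change Nat.Coprime (orderOf _) p
      rw [← Subgroup.orderOf_coe]
      exact hcop
    have hbG : x ^ (v * (p ^ k : ℕ)) ∈ Cfsg.pResidual p G := Subgroup.subset_closure hcop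
    have haG : x ^ (u * m) ∈ Cfsg.pResidual p G ⊔ commutator G := by
      have : x ^ (u * m) = x * (x ^ (v * (p ^ k : ℕ)))⁻¹ := eq_mul_inv_of_mul_eq hxe.symm
      rw [this]
      exact mul_mem hx1 (inv_mem ((le_sup_left : Cfsg.pResidual p G ≤ _) hbG))
    obtain ⟨r, -, hr⟩ := (Nat.dvd_prime_pow Fact.out).mp hao
    have haK : (⟨_, ha⟩ : H) ∈ K := by
      have h1 := Cfsg.Agent.H1.transfer_not_mem_commutator hidx ϕ _ ha ⟨r, hr⟩ (by
        intro j g₀ h
        set a := x ^ (u * m) with hadef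
        have hpj : ∃ k', orderOf (a ^ j) = p ^ k' := by
          have h1 : orderOf (a ^ j) ∣ p ^ r := by rw [← hr]; exact orderOf_pow_dvd j
          obtain ⟨q, -, hq⟩ := (Nat.dvd_prime_pow Fact.out).mp h1
          exact ⟨q, hq⟩
        obtain ⟨c, hc, hce⟩ := hfus (a ^ j) (H.pow_mem ha j) hpj g₀⁻¹ (by rw [inv_inv]; exact h)
        rw [inv_inv] at hce
        have e : (⟨g₀⁻¹ * a ^ j * g₀, h⟩ : H) = ⟨c, hc⟩ * (⟨a, ha⟩ : H) ^ j * (⟨c, hc⟩ : H)⁻¹ := by
          apply Subtype.ext
          push_cast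
          exact hce.symm
        rw [e, map_mul, map_mul, map_inv, map_pow, mul_comm (ϕ ⟨c, hc⟩), mul_assoc, mul_inv_cancel, mul_one]) (hker haG)
      exact (QuotientGroup.eq_one_iff (N := K) _).mp h1
    refine ⟨⟨_, ha⟩ * ⟨_, hb⟩, mul_mem haK hbK, ?_⟩
    exact hxe.symm
  · rintro _ ⟨x, hx, rfl⟩
    refine Subgroup.mem_inf.mpr ⟨?_, x.2⟩
    have h1 : K ≤ (Cfsg.pResidual p G ⊔ commutator G).comap H.subtype := by
      rw [hK]
      refine sup_le ?_ ?_
      · unfold Cfsg.pResidual
        rw [Subgroup.closure_le]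
        intro y hy
        apply (le_sup_left : Cfsg.pResidual p G ≤ _)
        apply Subgroup.subset_closure
        change Nat.Coprime (orderOf (y : G)) p
        rw [Subgroup.orderOf_coe]
        exact hy
      · rw [← Subgroup.map_le_iff_le_comap]
        have : (commutator H).map H.subtype ≤ commutator G := by
          rw [commutator_def, Subgroup.map_commutator]
          exact Subgroup.commutator_mono le_top le_top
        exact this.trans le_sup_right
    exact h1 hx

end Cfsg.Agent.S1242
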