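import Cfsg.Statements.S1243
import Mathlib
import Cfsg.Agent.H1.Basic
import Cfsg.Agent.L0.Coprime

set_option autoImplicit false
open Cfsg

namespace Cfsg.Agent.S1243

open scoped commutatorElement Pointwise


/-- Let T be a Sylow p-subgroup of the finite group G and W ≤ T a subgroup weakly closed in T. If d and g d g⁻¹ both centralize W, then g d g⁻¹ = h d h⁻¹ for some h ∈ N_G(W). -/
theorem result {G : Type*} [Group G] [Finite G] {p : ℕ} [Fact p.Prime] (T : Sylow p G) (W : Subgroup G) (hW : Cfsg.IsWeaklyClosed W (T : Subgroup G)) (d g : G) (hd : d ∈ Subgroup.centralizer (W : Set G)) (hgd : g * d * g⁻¹ ∈ Subgroup.centralizer (W : Set G)) : ∃ h ∈ Subgroup.normalizer (W : Set G), h * d * h⁻¹ = g * d * g⁻¹ := by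
  classical
  have hmapmul : ∀ x y : G, (W.map (MulAut.conj x).toMonoidHom).map (MulAut.conj y).toMonoidHom = W.map (MulAut.conj (y * x)).toMonoidHom := by
    intro x y
    rw [Subgroup.map_map]
    congr 1
    ext w
    simp [mul_assoc]
  have hWp : IsPGroup p W := T.isPGroup'.to_le hW.1
  set C := Subgroup.centralizer ({g * d * g⁻¹} : Set G) with hC
  have hWC : W ≤ C := by
    intro w hw
    apply Subgroup.mem_centralizer_singleton_iff.mpr
    exact Subgroup.mem_centralizer_iff.mp hgd w hw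
  have hgWC : W.map (MulAut.conj g).toMonoidHom ≤ C := by
    rintro _ ⟨w, hw, rfl⟩
    apply Subgroup.mem_centralizer_singleton_iff.mpr
    have h1 := Subgroup.mem_centralizer_iff.mp hd w hw
    change g * w * g⁻¹ * (g * d * g⁻¹) = g * d * g⁻¹ * (g * w * g⁻¹)
    calc g * w * g⁻¹ * (g * d * g⁻¹) = g * (w * d) * g⁻¹ := by group
      _ = g * (d * w) * g⁻¹ := by rw [h1]
      _ = _ := by group
  obtain ⟨P, hP⟩ := (Cfsg.Agent.L0.isPGroup_subgroupOf (H := C) hWp).exists_le_sylow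
  obtain ⟨Q, hQ⟩ := (Cfsg.Agent.L0.isPGroup_subgroupOf (H := C) (hWp.map (MulAut.conj g).toMonoidHom)).exists_le_sylow
  obtain ⟨c, hc⟩ := MulAction.exists_smul_eq C Q P
  -- P' = P in G
  obtain ⟨R, hR⟩ := (P.isPGroup'.map C.subtype).exists_le_sylow
  obtain ⟨x, hx⟩ := MulAction.exists_smul_eq G R T
  have hmap : ∀ K : Subgroup G, K ≤ (R : Subgroup G) → K.map (MulAut.conj x).toMonoidHom ≤ (T : Subgroup G) := by
    intro K hK
    rw [← hx]; exact Subgroup.map_mono hK
  have h1 : W ≤ (R : Subgroup G) := by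
    intro w hw
    exact hR ⟨⟨w, hWC hw⟩, hP hw, rfl⟩
  have h2 : W.map (MulAut.conj ((c : G) * g)).toMonoidHom ≤ (R : Subgroup G) := by
    rintro _ ⟨w, hw, rfl⟩
    apply hR
    have h3 : (⟨g * w * g⁻¹, hgWC ⟨w, hw, rfl⟩⟩ : C) ∈ Q := hQ (Subgroup.mem_subgroupOf.mpr ⟨w, hw, rfl⟩)
    refine ⟨c * ⟨g * w * g⁻¹, hgWC ⟨w, hw, rfl⟩⟩ * c⁻¹, ?_, ?_⟩
    · rw [← hc]
      exact ⟨_, h3, rfl⟩
    · change (c : G) * (g * w * g⁻¹) * (c : G)⁻¹ = ((c : G) * g) * w * ((c : G) * g)⁻¹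
      group
  have h3 := hW.2 x (hmap W h1)
  have h4 := hmap _ h2
  rw [hmapmul] at h4
  have h5 := hW.2 _ h4
  have h6 := congrArg (Subgroup.map (MulAut.conj x⁻¹).toMonoidHom) (h5.trans h3.symm)
  rw [hmapmul, hmapmul, inv_mul_cancel, inv_mul_cancel_left] at h6
  have h7 : W.map (MulAut.conj ((c : G) * g)).toMonoidHom = W := by
    rw [h6, map_one]; exact Subgroup.map_id W
  refine ⟨(c : G) * g, ?_, ?_⟩
  · rw [Subgroup.mem_normalizer_iff_conj_image_eq]
    have := congrArg (fun K : Subgroup G => (K : Set G)) h7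
    simp only [Subgroup.coe_map] at this
    exact this
  · have h8 : (c : G) * (g * d * g⁻¹) = g * d * g⁻¹ * c := Subgroup.mem_centralizer_singleton_iff.mp c.2
    calc (c : G) * g * d * ((c : G) * g)⁻¹ = ((c : G) * (g * d * g⁻¹)) * (c : G)⁻¹ := by group
      _ = (g * d * g⁻¹ * c) * (c : G)⁻¹ := by rw [h8]
      _ = _ := by group

end Cfsg.Agent.S1243
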