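import Cfsg.Statements.S1246
import Mathlib
import Cfsg.Agent.H1.CharP

set_option autoImplicit false
open Cfsg

namespace Cfsg.Agent.S1246

open scoped commutatorElement Pointwise
open Cfsg.Agent.H1 Subgroup

/-- Let V ≤ U be p-subgroups of the finite group G. If the generalized Fitting subgroup of C_G(V) is a p-group, then so is that of C_G(U). -/
theorem result {G : Type*} [Group G] [Finite G] {p : ℕ} [Fact p.Prime] (U V : Subgroup G) (hVU : V ≤ U) (hU : IsPGroup p U) (hV : IsPGroup p ↥(Cfsg.generalizedFittingSubgroup ↥(Subgroup.centralizer (V : Set G)))) : IsPGroup p ↥(Cfsg.generalizedFittingSubgroup ↥(Subgroup.centralizer (U : Set G))) := by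
  have key : ∀ n : ℕ, ∀ V : Subgroup G, V ≤ U → Nat.card U - Nat.card V ≤ n → CP p (centralizer (V : Set G)) → CP p (centralizer (U : Set G)) := by
    intro n
    induction n with
    | zero =>
      intro V hVU hn h
      have : V = U := Subgroup.eq_of_le_of_card_ge hVU (by omega)
      rwa [this] at h
    | succ n ih =>
      intro V hVU hn h
      by_cases hlt : V = U
      · rwa [hlt] at h
      have hlt' : V < U := lt_of_le_of_ne hVU hlt
      obtain ⟨x, hxU, hxN, hxV⟩ := Cfsg.Agent.L0.Fus.exists_mem_normalizer_of_lt hU hlt'
      set V' := U ⊓ normalizer (V : Set G) with hV'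
      have hVV' : V < V' := by
        refine lt_of_le_of_ne (le_inf hVU Subgroup.le_normalizer) ?_
        rintro e
        apply hxV
        rw [e]
        exact Subgroup.mem_inf.mpr ⟨hxU, hxN⟩
      have hcard : Nat.card V < Nat.card V' := by
        by_contra hle
        exact hVV'.ne (Subgroup.eq_of_le_of_card_ge hVV'.le (by omega))
      apply ih V' inf_le_left (by omega)
      -- `V'` normalizes the centralizer of `V`
      have hN : V' ≤ normalizer (centralizer (V : Set G) : Set G) := by
        intro g hg
        apply mem_normalizer_of_conj_mem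
        intro c hc
        rw [mem_centralizer_iff] at hc ⊢
        intro v hv
        have h1 : g⁻¹ * v * g ∈ V := by
          have := (mem_normalizer_iff.mp (inv_mem (Subgroup.mem_inf.mp hg).2) v).mp hv
          rwa [inv_inv] at this
        have h2 := hc _ h1
        calc v * (g * c * g⁻¹) = g * ((g⁻¹ * v * g) * c) * g⁻¹ := by group
          _ = g * c * g⁻¹ * v := by rw [h2]; group
      have hV'p : IsPGroup p V' := hU.to_le inf_le_left
      have h1 := CP_centralizer (CP_extend h hV'p hN) hV'p le_sup_right
      have h2 : (centralizer (V : Set G) ⊔ V') ⊓ centralizer (V' : Set G) = centralizer (V' : Set G) := by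
        apply inf_eq_right.mpr
        exact (Subgroup.centralizer_le (SetLike.coe_subset_coe.mpr hVV'.le)).trans le_sup_left
      rwa [h2] at h1
  exact CP_iff.mp (key _ V hVU le_rfl (CP_iff.mpr hV))

end Cfsg.Agent.S1246
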