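import Cfsg.Statements.S1253
import Mathlib
import Cfsg.Agent.H1.ZS6

set_option autoImplicit false
open Cfsg

namespace Cfsg.Agent.S1253

open scoped commutatorElement Pointwise


/-- Let z be an isolated involution of the finite group G with centralizer C, p an odd prime and P a Sylow p-subgroup of G normalized by z. Then P ∩ C has p-power-free index in C (it is a Sylow p-subgroup of C), and |P : C_P(z)| equals the number of elements x ∈ P with z x z⁻¹ = x⁻¹. -/
theorem result {G : Type*} [Group G] [Finite G] (z : G) (hz : Cfsg.IsIsolatedInvolution z) {p : ℕ} [Fact p.Prime] (hp : p ≠ 2) (P : Sylow p G) (hzP : z ∈ Subgroup.normalizer ((P : Subgroup G) : Set G)) : ¬ p ∣ ((P : Subgroup G) ⊓ Subgroup.centralizer ({z} : Set G)).relIndex (Subgroup.centralizer ({z} : Set G)) ∧ ((P : Subgroup G) ⊓ Subgroup.centralizer ({z} : Set G)).relIndex (P : Subgroup G) = Nat.card {x : G // x ∈ P ∧ z * x * z⁻¹ = x⁻¹} := by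
  set C := Subgroup.centralizer ({z} : Set G) with hC
  have hp0 : p.Prime := Fact.out
  constructor
  · -- a Sylow p-subgroup R of C
    let R : Sylow p C := default
    set R₀ := (R : Subgroup C).map C.subtype with hR₀
    have hR₀p : IsPGroup p R₀ := R.isPGroup'.map _
    have hR₀C : R₀ ≤ C := Subgroup.map_subtype_le _
    have hR₀z : z ∈ Subgroup.normalizer (R₀ : Set G) := by
      apply Subgroup.centralizer_le_normalizer
      rw [Subgroup.mem_centralizer_iff]
      intro r hr
      exact (Subgroup.mem_centralizer_singleton_iff.mp (hR₀C hr))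
    -- maximal z-invariant p-subgroup above
    obtain ⟨Q, ⟨⟨hQp, hQz, hRQ⟩, hQmax⟩⟩ : ∃ Q : Subgroup G, (IsPGroup p Q ∧ z ∈ Subgroup.normalizer (Q : Set G) ∧ R₀ ≤ Q) ∧
        ∀ T : Subgroup G, (IsPGroup p T ∧ z ∈ Subgroup.normalizer (T : Set G) ∧ R₀ ≤ T) → Q ≤ T → T = Q := by
      have hfin : (Set.univ : Set (Subgroup G)).Finite := Set.toFinite _
      obtain ⟨Q, hQ⟩ := Set.Finite.exists_maximal (s := {T : Subgroup G | IsPGroup p T ∧ z ∈ Subgroup.normalizer (T : Set G) ∧ R₀ ≤ T})
        (Set.toFinite _) ⟨R₀, hR₀p, hR₀z, le_refl _⟩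
      exact ⟨Q, hQ.1, fun T hT hQT => le_antisymm (hQ.2 hT hQT) hQT⟩
    obtain ⟨Q', hQ'⟩ := Cfsg.Agent.H1.iso_sylow_of_max hz hQp hQz (fun T h1 h2 h3 => hQmax T ⟨h1, h2, hRQ.trans h3⟩ h3)
    obtain ⟨g, hg⟩ := MulAction.exists_smul_eq G Q' P
    have hmem : ∀ q ∈ Q, g * q * g⁻¹ ∈ (P : Subgroup G) := by
      intro q hq
      rw [← hg]
      rw [← hQ'] at hq
      exact Subgroup.smul_mem_pointwise_smul _ (MulAut.conj g) _ hq
    have hcardQP : Nat.card Q = Nat.card (P : Subgroup G) := by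
      rw [← hQ']; exact Nat.card_congr (Q'.equiv P).toEquiv
    have hmapQ : Q.map (MulAut.conj g).toMonoidHom = (P : Subgroup G) := by
      apply Subgroup.eq_of_le_of_card_ge
      · rintro _ ⟨q, hq, rfl⟩
        exact hmem q hq
      · rw [Subgroup.card_map_of_injective (MulAut.conj g).injective, hcardQP]
    have hgz : g * z * g⁻¹ ∈ Subgroup.normalizer ((P : Subgroup G) : Set G) := by
      apply Cfsg.Agent.H1.mem_normalizer_of_conj_mem
      intro x hx
      rw [← hmapQ] at hx
      obtain ⟨q, hq, rfl⟩ := hx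
      have h1 : z * q * z⁻¹ ∈ Q := (Subgroup.mem_normalizer_iff.mp hQz q).mp hq
      have e : g * z * g⁻¹ * ((MulAut.conj g).toMonoidHom q) * (g * z * g⁻¹)⁻¹ = g * (z * q * z⁻¹) * g⁻¹ := by
        simp only [MulEquiv.toMonoidHom_eq_coe, MonoidHom.coe_coe, MulAut.conj_apply]
        group
      rw [e]; exact hmem _ h1
    obtain ⟨h, hh, hhz⟩ := Cfsg.Agent.H1.iso_conj_in hz hzP hgz
    have hcC : h⁻¹ * g ∈ C := by
      rw [hC, Subgroup.mem_centralizer_singleton_iff]
      calc h⁻¹ * g * z = h⁻¹ * (g * z * g⁻¹) * g := by group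
        _ = h⁻¹ * (h * z * h⁻¹) * g := by rw [hhz]
        _ = z * (h⁻¹ * g) := by group
    have hle : Nat.card R₀ ≤ Nat.card ((P : Subgroup G) ⊓ C : Subgroup G) := by
      have h1 : R₀.map (MulAut.conj (h⁻¹ * g)).toMonoidHom ≤ (P : Subgroup G) ⊓ C := by
        rintro _ ⟨r, hr, rfl⟩
        refine Subgroup.mem_inf.mpr ⟨?_, ?_⟩
        · have h2 := hmem r (hRQ hr)
          have h3 := (Subgroup.mem_normalizer_iff.mp (inv_mem hh) _).mp h2
          have e : (MulAut.conj (h⁻¹ * g)).toMonoidHom r = h⁻¹ * (g * r * g⁻¹) * h⁻¹⁻¹ := by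
            simp only [MulEquiv.toMonoidHom_eq_coe, MonoidHom.coe_coe, MulAut.conj_apply]
            group
          rw [e]; exact h3
        · exact mul_mem (mul_mem hcC (hR₀C hr)) (inv_mem hcC)
      rw [← Subgroup.card_map_of_injective (f := (MulAut.conj (h⁻¹ * g)).toMonoidHom) (MulAut.conj (h⁻¹ * g)).injective]
      exact Nat.card_le_card_of_injective _ (Subgroup.inclusion_injective h1)
    have hPC : IsPGroup p (((P : Subgroup G) ⊓ C).subgroupOf C) := by
      have h0 : IsPGroup p ((P : Subgroup G) ⊓ C : Subgroup G) := P.isPGroup'.to_le inf_le_left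
      exact h0.comap_of_injective C.subtype C.subtype_injective
    obtain ⟨T, hT⟩ := hPC.exists_le_sylow
    have hTe : ((P : Subgroup G) ⊓ C).subgroupOf C = (T : Subgroup C) := by
      apply Subgroup.eq_of_le_of_card_ge hT
      have h1 : Nat.card (((P : Subgroup G) ⊓ C).subgroupOf C) = Nat.card ((P : Subgroup G) ⊓ C : Subgroup G) :=
        Nat.card_congr (Subgroup.subgroupOfEquivOfLe inf_le_right).toEquiv
      have h2 : Nat.card R₀ = Nat.card (R : Subgroup C) := Subgroup.card_map_of_injective C.subtype_injective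
      have h3 : Nat.card (T : Subgroup C) = Nat.card (R : Subgroup C) := Nat.card_congr (T.equiv R).toEquiv
      omega
    rw [Subgroup.relIndex, hTe]
    exact T.not_dvd_index
  · rw [Cfsg.Agent.H1.card_inverted_sub hz hzP]
    apply Nat.card_congr
    refine Equiv.subtypeEquivRight (fun k => ⟨fun h => ⟨h.1, h.2.2⟩, fun h => ⟨h.1, ?_, h.2⟩⟩)
    obtain ⟨j, hj⟩ := IsPGroup.iff_orderOf.mp P.isPGroup' ⟨k, h.1⟩
    rw [← Subgroup.orderOf_coe] at hj
    have hj' : orderOf k = p ^ j := hj
    rw [hj']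
    exact (hp0.odd_of_ne_two hp).pow

end Cfsg.Agent.S1253
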