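import Cfsg.Statements.S1258
import Mathlib
import Cfsg.Agent.L0.GenFit

set_option autoImplicit false
open Cfsg

namespace Cfsg.Agent.S1258

open scoped commutatorElement Pointwise


/-- If the central quotient of a finite group X is non-abelian simple, then X = X' Z(X) and the commutator subgroup X' is quasisimple. -/
theorem result {X : Type*} [Group X] [Finite X] (hs : IsSimpleGroup (X ⧸ Subgroup.center X)) (hna : ¬ IsMulCommutative (X ⧸ Subgroup.center X)) : commutator X ⊔ Subgroup.center X = ⊤ ∧ Cfsg.IsQuasisimple ↥(commutator X) := by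
  classical
  set Z := Subgroup.center X with hZ
  set K := commutator X with hK
  have hcomm : commutator (X ⧸ Z) = ⊤ := by
    rcases (inferInstance : (commutator (X ⧸ Z)).Normal).eq_bot_or_eq_top with h | h
    · exfalso
      apply hna
      refine ⟨⟨fun a b => ?_⟩⟩
      have h1 : ⁅a, b⁆ ∈ commutator (X ⧸ Z) := by
        rw [commutator_def]
        exact Subgroup.commutator_mem_commutator (Subgroup.mem_top a) (Subgroup.mem_top b)
      rw [h, Subgroup.mem_bot, commutatorElement_eq_one_iff_mul_comm] at h1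
      exact h1
    · exact h
  have hmap : K.map (QuotientGroup.mk' Z) = ⊤ := by
    rw [hK, commutator_def, Subgroup.map_commutator, Subgroup.map_top_of_surjective _ (QuotientGroup.mk'_surjective Z),
      ← commutator_def, hcomm]
  have hsup : K ⊔ Z = ⊤ := by
    have h1 := congrArg (Subgroup.comap (QuotientGroup.mk' Z)) hmap
    rw [Subgroup.comap_map_eq, QuotientGroup.ker_mk', Subgroup.comap_top] at h1
    exact h1
  have hmem : ∀ x : X, ∃ k ∈ K, ∃ z ∈ Z, k * z = x := by
    intro x
    have : x ∈ K ⊔ Z := by rw [hsup]; exact Subgroup.mem_top x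
    obtain ⟨k, hk, z, hz, e⟩ := Subgroup.mem_sup_of_normal_right.mp this
    exact ⟨k, hk, z, hz, e⟩
  have hKK : ⁅K, K⁆ = K := by
    apply le_antisymm (Subgroup.commutator_le_left K K)
    conv_lhs => rw [hK, commutator_def]
    rw [Subgroup.commutator_le]
    intro x _ y _
    obtain ⟨k, hk, z, hz, rfl⟩ := hmem x
    obtain ⟨l, hl, w, hw, rfl⟩ := hmem y
    have hz' : ∀ g : X, z * g = g * z := fun g => (Subgroup.mem_center_iff.mp hz g).symm
    have hw' : ∀ g : X, w * g = g * w := fun g => (Subgroup.mem_center_iff.mp hw g).symm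
    have e : ⁅k * z, l * w⁆ = ⁅k, l⁆ := by
      rw [commutatorElement_def, commutatorElement_def]
      calc k * z * (l * w) * (k * z)⁻¹ * (l * w)⁻¹ = k * (z * l) * w * z⁻¹ * k⁻¹ * w⁻¹ * l⁻¹ := by group
        _ = k * (l * z) * w * z⁻¹ * k⁻¹ * w⁻¹ * l⁻¹ := by rw [hz' l]
        _ = k * l * (z * w) * z⁻¹ * k⁻¹ * w⁻¹ * l⁻¹ := by group
        _ = k * l * (w * z) * z⁻¹ * k⁻¹ * w⁻¹ * l⁻¹ := by rw [hz' w]
        _ = k * l * (w * k⁻¹) * w⁻¹ * l⁻¹ := by group
        _ = k * l * (k⁻¹ * w) * w⁻¹ * l⁻¹ := by rw [hw' k⁻¹]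
        _ = _ := by group
    rw [e]
    exact Subgroup.commutator_mem_commutator hk hl
  refine ⟨hsup, Subgroup.isPerfect_iff.mpr hKK, ?_⟩
  -- the quotient
  let f : K →* X ⧸ Z := (QuotientGroup.mk' Z).comp K.subtype
  have hf : Function.Surjective f := by
    intro y
    obtain ⟨x, rfl⟩ := QuotientGroup.mk'_surjective Z y
    obtain ⟨k, hk, z, hz, rfl⟩ := hmem x
    refine ⟨⟨k, hk⟩, ?_⟩
    change QuotientGroup.mk' Z k = QuotientGroup.mk' Z (k * z)
    have hz1 : QuotientGroup.mk' Z z = 1 := (QuotientGroup.eq_one_iff z).mpr hz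
    rw [map_mul, hz1, mul_one]
  have hker : f.ker = Subgroup.center K := by
    ext x
    rw [MonoidHom.mem_ker, Subgroup.mem_center_iff]
    constructor
    · intro h y
      have h1 : (x : X) ∈ Z := (QuotientGroup.eq_one_iff _).mp h
      exact Subtype.ext (Subgroup.mem_center_iff.mp h1 y)
    · intro h
      apply (QuotientGroup.eq_one_iff (N := Z) (x : X)).mpr
      rw [hZ, Subgroup.mem_center_iff]
      intro g
      obtain ⟨k, hk, z, hz, rfl⟩ := hmem g
      have h1 : k * (x : X) = x * k := congrArg Subtype.val (h ⟨k, hk⟩)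
      have h2 : (x : X) * z = z * x := Subgroup.mem_center_iff.mp hz x
      calc k * z * (x : X) = k * (z * x) := by group
        _ = k * (x * z) := by rw [h2]
        _ = (k * x) * z := by group
        _ = (x * k) * z := by rw [h1]
        _ = _ := by group
  let e : (K ⧸ Subgroup.center K) ≃* (X ⧸ Z) :=
    (QuotientGroup.quotientMulEquivOfEq hker.symm).trans (QuotientGroup.quotientKerEquivOfSurjective f hf)
  exact Cfsg.Agent.L0.isSimpleGroup_of_mulEquiv e.symm hs

end Cfsg.Agent.S1258
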