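import Cfsg.Statements.S1259
import Mathlib
import Cfsg.Agent.L0.GenFit

set_option autoImplicit false
open Cfsg

namespace Cfsg.Agent.S1259

open scoped commutatorElement Pointwise


/-- In a quasisimple group, every subnormal subgroup is either the whole group or central. -/
theorem result {X : Type*} [Group X] [Finite X] (hX : Cfsg.IsQuasisimple X) (H : Subgroup X) (hH : H.IsSubnormal) : H = ⊤ ∨ H ≤ Subgroup.center X := by
  induction hH with
  | top => left; rfl
  | step H K hHK hK hn ih =>
    rcases ih with h | h
    · subst h
      have hHn : H.Normal := by
        rw [← Subgroup.normalizer_eq_top_iff, ← top_le_iff]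
        exact (Subgroup.normal_subgroupOf_iff_le_normalizer le_top).mp hn
      exact Cfsg.Agent.L0.quasisimple_normal_cases hX H
    · right; exact hHK.trans h

end Cfsg.Agent.S1259
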