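import Cfsg.Statements.S1260
import Mathlib
import Cfsg.Agent.L0.GenFit

set_option autoImplicit false
open Cfsg

namespace Cfsg.Agent.S1260

open scoped commutatorElement Pointwise


/-- Let H be a subnormal subgroup of the finite group G and K a subgroup of H. Then K is a component of H if and only if K, viewed in G, is a component of G. -/
theorem result {G : Type*} [Group G] [Finite G] (H : Subgroup G) (hH : H.IsSubnormal) (K : Subgroup ↥H) : Cfsg.IsComponent K ↔ Cfsg.IsComponent (K.map H.subtype) := by
  constructor
  · exact fun h => Cfsg.Agent.L0.isComponent_map_subtype hH h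
  · intro h
    have h1 := Cfsg.Agent.L0.isComponent_subgroupOf h (Subgroup.map_subtype_le K)
    have h2 : (K.map H.subtype).subgroupOf H = K := Subgroup.comap_map_eq_self_of_injective H.subtype_injective K
    rwa [h2] at h1

end Cfsg.Agent.S1260
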