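import Cfsg.Statements.S1262
import Mathlib
import Cfsg.Agent.L0.GenFit
import Cfsg.Agent.L0.Coprime

set_option autoImplicit false
open Cfsg

namespace Cfsg.Agent.S1262

open scoped commutatorElement Pointwise


/-- Let L be a component of the finite group G and H a solvable subgroup normalized by L. Then ⁅L, H⁆ = 1. -/
theorem result {G : Type*} [Group G] [Finite G] (L H : Subgroup G) (hL : Cfsg.IsComponent L) (hsolv : Group.IsSolvable ↥H) (hinv : L ≤ Subgroup.normalizer (H : Set G)) : ⁅L, H⁆ = ⊥ := by
  set M := H ⊔ L with hM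
  have hLM : L ≤ M := le_sup_right
  have hHM : H ≤ M := le_sup_left
  have h1 := Cfsg.Agent.L0.isComponent_subgroupOf hL hLM
  haveI : (H.subgroupOf M).Normal := Cfsg.Agent.L0.subgroupOf_sup_normal hinv
  have h2 : Group.IsSolvable (H.subgroupOf M) := Cfsg.Agent.L0.isSolvable_subgroupOf hsolv
  have h3 := Cfsg.Agent.L0.component_commutator_solvable h1 h2
  have h4 := congrArg (Subgroup.map M.subtype) h3
  rwa [Subgroup.map_commutator, Subgroup.subgroupOf_map_subtype, Subgroup.subgroupOf_map_subtype,
    inf_eq_left.mpr hLM, inf_eq_left.mpr hHM, Subgroup.map_bot] at h4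

end Cfsg.Agent.S1262
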