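import Cfsg.Statements.S1264
import Mathlib
import Cfsg.Agent.L0.GenFit
import Cfsg.Agent.L0.Core

set_option autoImplicit false
open Cfsg

namespace Cfsg.Agent.S1264

open scoped commutatorElement Pointwise
theorem solvable_sup {G : Type*} [Group G] [Finite G] (A B : Subgroup G) [A.Normal] [B.Normal]
    (hA : Group.IsSolvable A) (hB : Group.IsSolvable B) : Group.IsSolvable ↥(A ⊔ B) := by
  rw [Group.isSolvable_iff_subgroup_quotient (A.subgroupOf (A ⊔ B))]
  constructor
  · exact Cfsg.Agent.L0.isSolvable_subgroupOf hA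
  · haveI := hB
    let f : B →* (↥(A ⊔ B) ⧸ A.subgroupOf (A ⊔ B)) := (QuotientGroup.mk' (A.subgroupOf (A ⊔ B))).comp (Subgroup.inclusion le_sup_right)
    refine Group.isSolvable_of_surjective (f := f) ?_
    intro y
    obtain ⟨⟨y, hy⟩, rfl⟩ := QuotientGroup.mk'_surjective _ y
    have hy' : y ∈ B ⊔ A := by rw [sup_comm]; exact hy
    obtain ⟨b, hb, a, ha, rfl⟩ := Subgroup.mem_sup_of_normal_left.mp hy'
    refine ⟨⟨b, hb⟩, ?_⟩
    change (QuotientGroup.mk' _) _ = (QuotientGroup.mk' _) _
    rw [QuotientGroup.mk'_eq_mk']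
    exact ⟨⟨a, (le_sup_left : A ≤ A ⊔ B) ha⟩, ha, rfl⟩

/-- Let G be finite, C = C_G(F(G)) the centralizer of the Fitting subgroup, and N a solvable subgroup of C normalized by C. Then N ≤ Z(F(G)). -/
theorem result {G : Type*} [Group G] [Finite G] (N : Subgroup G) (hN : N ≤ Subgroup.centralizer (Cfsg.fittingSubgroup G : Set G)) (hnorm : Subgroup.centralizer (Cfsg.fittingSubgroup G : Set G) ≤ Subgroup.normalizer (N : Set G)) (hsolv : Group.IsSolvable ↥N) : N ≤ (Subgroup.center ↥(Cfsg.fittingSubgroup G)).map (Cfsg.fittingSubgroup G).subtype := by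
  classical
  set F := Cfsg.fittingSubgroup G with hF
  set C := Subgroup.centralizer (F : Set G) with hC
  haveI hCn : C.Normal := Subgroup.normal_centralizer
  -- solvable radical of C
  set R : Subgroup C := sSup {K : Subgroup C | K.Normal ∧ Group.IsSolvable K} with hR
  have hRn : Group.IsSolvable R ∧ R.Normal := by
    refine Cfsg.Agent.L0.sSup_normal_induction (fun K : Subgroup C => Group.IsSolvable K) ?_ ?_ _ ?_
    · infer_instance
    · intro A B hA hB h1 h2
      exact solvable_sup A B h1 h2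
    · intro A hA; exact hA
  haveI hRc : R.Characteristic := by
    rw [Subgroup.characteristic_iff_map_eq]
    intro e
    apply Cfsg.Agent.L0.map_sSup_equiv e
    · rintro K ⟨h1, h2⟩
      refine ⟨h1.map _ e.surjective, ?_⟩
      haveI := h2
      exact Cfsg.Agent.L0.isSolvable_of_mulEquiv (K.equivMapOfInjective e.toMonoidHom e.injective) h2
    · rintro K ⟨h1, h2⟩
      refine ⟨h1.map _ e.symm.surjective, ?_⟩
      exact Cfsg.Agent.L0.isSolvable_of_mulEquiv (K.equivMapOfInjective e.symm.toMonoidHom e.symm.injective) h2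
  set M := R.map C.subtype with hM
  haveI hMn : M.Normal := Cfsg.Agent.L0.normal_map_subtype_of_characteristic R
  have hMs : Group.IsSolvable M := Cfsg.Agent.L0.isSolvable_of_mulEquiv (R.equivMapOfInjective C.subtype C.subtype_injective) hRn.1
  have hMC : M ≤ C := Subgroup.map_subtype_le R
  have hNM : N ≤ M := by
    have h1 : N.subgroupOf C ≤ R := by
      apply le_sSup
      exact ⟨(Subgroup.normal_subgroupOf_iff_le_normalizer hN).mpr hnorm, Cfsg.Agent.L0.isSolvable_subgroupOf hsolv⟩
    intro x hx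
    exact ⟨⟨x, hN hx⟩, h1 hx, rfl⟩
  have hMF : M ≤ F := by
    intro x hx
    have h1 := Cfsg.Agent.L0.centralizer_fitting_le_of_isSolvable (G := M) hMs
    have h2 : (⟨x, hx⟩ : M) ∈ Subgroup.centralizer (Cfsg.fittingSubgroup M : Set M) := by
      rw [Subgroup.mem_centralizer_iff]
      intro y hy
      have h3 : (y : G) ∈ F := Cfsg.Agent.L0.fitting_map_subtype_le ⟨y, hy, rfl⟩
      apply Subtype.ext
      exact Subgroup.mem_centralizer_iff.mp (hMC hx) y h3
    exact Cfsg.Agent.L0.fitting_map_subtype_le ⟨⟨x, hx⟩, h1 h2, rfl⟩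
  intro x hx
  have hxM := hNM hx
  refine ⟨⟨x, hMF hxM⟩, ?_, rfl⟩
  change (⟨x, hMF hxM⟩ : F) ∈ Subgroup.center F
  rw [Subgroup.mem_center_iff]
  intro y
  apply Subtype.ext
  exact Subgroup.mem_centralizer_iff.mp (hMC hxM) y y.2

end Cfsg.Agent.S1264
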