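import Cfsg.Statements.S1300
import Cfsg.Agent.L0.GenFit
import Cfsg.Agent.H6.CharP
import Mathlib

set_option autoImplicit false
open Cfsg

namespace Cfsg.Agent.S1300

open Cfsg.Agent.L0

theorem delta_zpowers {G : Type*} [Group G] {a : G} (ha : orderOf a = 2) :
    signalizerDelta 2 (Subgroup.zpowers a) = centralizerPPrimeCore 2 a := by
  have ha1 : a ≠ 1 := by rintro rfl; rw [orderOf_one] at ha; omega
  unfold signalizerDelta
  apply le_antisymm
  · exact iInf_le (fun b : {b : G // b ∈ Subgroup.zpowers a ∧ b ≠ 1} => centralizerPPrimeCore 2 (b : G)) ⟨a, Subgroup.mem_zpowers a, ha1⟩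
  · refine le_iInf fun b => ?_
    obtain ⟨b, hb, hb1⟩ := b
    have : b = a := by
      obtain ⟨k, rfl⟩ := Subgroup.mem_zpowers_iff.1 hb
      have h2 : a ^ (2 : ℤ) = 1 := by
        have := pow_orderOf_eq_one a
        rw [ha] at this
        exact_mod_cast this
      rcases Int.even_or_odd' k with ⟨m, hm | hm⟩
      · exfalso; apply hb1; rw [hm, zpow_mul, h2, one_zpow]
      · rw [hm, zpow_add, zpow_mul, h2, one_zpow, one_mul, zpow_one]
    show _ ≤ centralizerPPrimeCore 2 b
    rw [this]

/-- For a finite group G, balance in the sense of commuting involutions is the same as 1-balance for the prime 2. -/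
theorem result {G : Type*} [Group G] [Finite G] : Cfsg.IsBalanced G ↔ Cfsg.IsKBalanced 2 1 G := by
  constructor
  · intro h A hA hAc b hb hab
    -- A = zpowers a
    obtain ⟨a, ha⟩ : ∃ a ∈ A, orderOf a = 2 := by
      haveI : Fact (Nat.Prime 2) := ⟨Nat.prime_two⟩
      obtain ⟨x, hx⟩ := exists_prime_orderOf_dvd_card' (G := A) 2 (by rw [hAc]; norm_num)
      exact ⟨x, x.2, by rw [← hx, Subgroup.orderOf_coe]⟩
    have hAe : A = Subgroup.zpowers a := by
      refine (Subgroup.eq_of_le_of_card_ge ((Subgroup.zpowers_le).2 ha.1) ?_).symm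
      rw [hAc, Nat.card_zpowers, ha.2]; norm_num
    rw [hAe, delta_zpowers ha.2, h a b ha.2 hb (hab a ha.1)]
    exact inf_le_left
  · intro h x y hx hy hxy
    have key : ∀ x y : G, orderOf x = 2 → orderOf y = 2 → x * y = y * x →
        centralizerPPrimeCore 2 x ⊓ Subgroup.centralizer {y} ≤ centralizerPPrimeCore 2 y ⊓ Subgroup.centralizer {x} := by
      intro x y hx hy hxy
      refine le_inf ?_ (inf_le_left.trans (Subgroup.map_subtype_le _))
      rw [← delta_zpowers hx]
      have hx2 : x ^ 2 = 1 := by rw [← hx]; exact pow_orderOf_eq_one x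
      refine h (Subgroup.zpowers x) ⟨inferInstance, ?_⟩ (by rw [Nat.card_zpowers, hx]; norm_num) y hy ?_
      · rintro a ha
        obtain ⟨k, rfl⟩ := Subgroup.mem_zpowers_iff.1 ha
        rw [← zpow_natCast, ← zpow_mul, mul_comm, zpow_mul, zpow_natCast, hx2, one_zpow]
      · rintro a ha
        obtain ⟨k, rfl⟩ := Subgroup.mem_zpowers_iff.1 ha
        exact ((show Commute x y from hxy).zpow_left k).eq
    exact le_antisymm (key x y hx hy hxy) (key y x hy hx hxy.symm)

end Cfsg.Agent.S1300
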