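import Cfsg.Statements.S1304
import Mathlib

set_option autoImplicit false
open Cfsg

namespace Cfsg.Agent.S1304

open scoped commutatorElement Pointwise


/-- Let X be a perfect group and α an automorphism of X with α(x) x⁻¹ central for every x. Then α is the identity. -/
theorem result {X : Type*} [Group X] (hperf : commutator X = ⊤) (α : X ≃* X) (h : ∀ x : X, α x * x⁻¹ ∈ Subgroup.center X) : ∀ x : X, α x = x := by
  -- δ(x) = α(x) x⁻¹ is a homomorphism to the centre, so trivial on commutators
  intro x
  have hcen : ∀ x y : X, (α x * x⁻¹) * y = y * (α x * x⁻¹) := fun x y => (Subgroup.mem_center_iff.mp (h x) y).symm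
  have hax : ∀ x : X, α x = (α x * x⁻¹) * x := fun x => by group
  let δ : X →* Subgroup.center X :=
    { toFun := fun x => ⟨α x * x⁻¹, h x⟩
      map_one' := Subtype.ext (by simp)
      map_mul' := fun a b => Subtype.ext (by
        change α (a * b) * (a * b)⁻¹ = (α a * a⁻¹) * (α b * b⁻¹)
        rw [map_mul, mul_inv_rev]
        calc α a * α b * (b⁻¹ * a⁻¹) = α a * ((α b * b⁻¹) * a⁻¹) := by group
          _ = α a * (a⁻¹ * (α b * b⁻¹)) := by rw [hcen b a⁻¹]
          _ = _ := by group) }
  have h1 : commutator X ≤ δ.ker := by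
    rw [commutator_def, Subgroup.commutator_le]
    intro a _ b _
    rw [MonoidHom.mem_ker, map_commutatorElement, commutatorElement_eq_one_iff_mul_comm]
    exact Subtype.ext (Subgroup.mem_center_iff.mp (δ b).2 (δ a : X))
  rw [hperf] at h1
  have h2 : δ x = 1 := h1 (Subgroup.mem_top x)
  have h3 : α x * x⁻¹ = 1 := congrArg Subtype.val h2
  exact mul_inv_eq_one.mp h3

end Cfsg.Agent.S1304
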