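import Cfsg.Statements.S1307
import Mathlib
import Cfsg.Agent.H1.QS

set_option autoImplicit false
open Cfsg

namespace Cfsg.Agent.S1307

open scoped commutatorElement Pointwise


/-- Let G be finite, x an involution and L ≤ C_G(x) a component of C_G(x) of even order and 2-rank 1, such that L is a component of C_G(y) for every involution y ∈ C_G(L). Then some involution of L is a classical involution of G. -/
theorem result {G : Type*} [Group G] [Finite G] (x : G) (hx : orderOf x = 2) (L : Subgroup G) (hLx : L ≤ Subgroup.centralizer ({x} : Set G)) (hL : Cfsg.IsComponent (L.subgroupOf (Subgroup.centralizer ({x} : Set G)))) (heven : Even (Nat.card ↥L)) (hrk : Cfsg.PRankLE 2 1 ↥L) (hne : ∀ y : G, orderOf y = 2 → y ∈ Subgroup.centralizer (L : Set G) → L ≤ Subgroup.centralizer ({y} : Set G) ∧ Cfsg.IsComponent (L.subgroupOf (Subgroup.centralizer ({y} : Set G)))) : ∃ t ∈ L, Cfsg.IsClassicalInvolution t := by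
  have hq : IsQuasisimple L := by
    have h1 := hL.2
    exact Cfsg.Agent.L0.isQuasisimple_of_mulEquiv (Subgroup.subgroupOfEquivOfLe hLx) h1
  have hU := Cfsg.Agent.H1.UI_of_rank_one hrk
  haveI : Fact (Nat.Prime 2) := ⟨Nat.prime_two⟩
  obtain ⟨t, ht⟩ := exists_prime_orderOf_dvd_card' (G := L) 2 heven.two_dvd
  have htc := Cfsg.Agent.H1.qs_central hq heven hU ht
  have hto : orderOf (t : G) = 2 := by rw [Subgroup.orderOf_coe]; exact ht
  have htC : (t : G) ∈ Subgroup.centralizer (L : Set G) := by
    rw [Subgroup.mem_centralizer_iff]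
    intro g hg
    exact congrArg Subtype.val (Subgroup.mem_center_iff.mp htc ⟨g, hg⟩)
  obtain ⟨hLt, hLc⟩ := hne t hto htC
  refine ⟨t, t.2, hto, L, hLt, t.2, hLc.1, ?_⟩
  haveI := hq.1
  obtain ⟨n, hn⟩ := Cfsg.Agent.H1.quat_of_perfect (L := L) Group.IsPerfect.commutator_eq_top heven hU default
  exact ⟨default, n, hn⟩

end Cfsg.Agent.S1307
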