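import Cfsg.Statements.S1319
import Cfsg.Agent.L0.GenFit
import Cfsg.Agent.H6.CharP
import Mathlib

set_option autoImplicit false
open Cfsg

namespace Cfsg.Agent.S1319

open Cfsg.Agent.L0

/-- Let A be a subnormal subgroup of the finite group X with E(A) = A. Then A ≤ E(X) and A is normal in E(X). -/
theorem result {X : Type*} [Group X] [Finite X] (A : Subgroup X) (hsn : A.IsSubnormal) (hA : Cfsg.layer ↥A = ⊤) : A ≤ Cfsg.layer X ∧ (A.subgroupOf (Cfsg.layer X)).Normal := by
  have hAle : A ≤ layer X := by
    have h1 := layer_map_subtype_le hsn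
    rwa [hA, ← MonoidHom.range_eq_map, Subgroup.range_subtype] at h1
  refine ⟨hAle, (Subgroup.normal_subgroupOf_iff_le_normalizer hAle).2 ?_⟩
  refine sSup_le fun K hK => ?_
  rcases component_subnormal_cases hK hsn with h | h
  · exact h.trans Subgroup.le_normalizer
  · exact (Subgroup.commutator_eq_bot_iff_le_centralizer.1 h).trans (Cfsg.Agent.H6.centralizer_le_norm A)

end Cfsg.Agent.S1319
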