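import Cfsg.Statements.S1326
import Cfsg.Agent.L0.GenFit
import Mathlib

set_option autoImplicit false
open Cfsg

namespace Cfsg.Agent.S1326

open Cfsg.Agent.L0

/-- For a finite group X: the Fitting subgroup contains its centralizer if and only if the layer of X is trivial. -/
theorem result {X : Type*} [Group X] [Finite X] : Subgroup.centralizer (Cfsg.fittingSubgroup X : Set X) ≤ Cfsg.fittingSubgroup X ↔ Cfsg.layer X = ⊥ := by
  constructor
  · intro h
    have h1 := Subgroup.commutator_eq_bot_iff_le_centralizer.1 (layer_commutator_fitting X)
    have h2 : layer X ≤ fittingSubgroup X := h1.trans h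
    refine sSup_eq_bot.2 fun K hK => ?_
    exfalso
    have h3 : Group.IsSolvable ↥(fittingSubgroup X) := by
      haveI := fittingSubgroup_isNilpotent X
      infer_instance
    exact quasisimple_not_isSolvable hK.2 (isSolvable_subgroup_of_le ((le_layer hK).trans h2) h3)
  · intro h
    have h1 := centralizer_generalizedFitting_le X
    unfold generalizedFittingSubgroup at h1
    rwa [h, bot_sup_eq] at h1

end Cfsg.Agent.S1326
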