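import Cfsg.Statements.S1336
import Cfsg.Agent.H6.CharP
import Mathlib

set_option autoImplicit false
open Cfsg

namespace Cfsg.Agent.S1336

open Pointwise Subgroup

variable {G : Type*} [Group G]

def RR (p : ℕ) (A B : Subgroup G) : Prop := IsElementaryAbelian p A ∧ p ^ 1 ≤ Nat.card ↥A ∧ IsElementaryAbelian p B ∧
        p ^ 1 ≤ Nat.card ↥B ∧ ∀ a ∈ A, ∀ b ∈ B, a * b = b * a

theorem RR.symm {p : ℕ} {A B : Subgroup G} (h : RR p A B) : RR p B A :=
  ⟨h.2.2.1, h.2.2.2.1, h.1, h.2.1, fun a ha b hb => (h.2.2.2.2 b hb a ha).symm⟩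

theorem ea_conj {p : ℕ} {A : Subgroup G} (h : IsElementaryAbelian p A) (g : G) :
    IsElementaryAbelian p (A.map (MulAut.conj g).toMonoidHom) := by
  refine ⟨⟨⟨?_⟩⟩, ?_⟩
  · rintro ⟨_, a, ha, rfl⟩ ⟨_, b, hb, rfl⟩
    have := congrArg Subtype.val (h.1.is_comm.comm ⟨a, ha⟩ ⟨b, hb⟩)
    apply Subtype.ext
    simp only [Subgroup.coe_mul] at this ⊢
    rw [← map_mul, ← map_mul, this]
  · rintro _ ⟨a, ha, rfl⟩
    rw [← map_pow, h.2 a ha, map_one]

theorem card_conj (A : Subgroup G) (g : G) : Nat.card ↥(A.map (MulAut.conj g).toMonoidHom) = Nat.card ↥A :=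
  Nat.card_congr (A.equivMapOfInjective _ (MulAut.conj g).injective).symm.toEquiv

theorem RR.conj {p : ℕ} {A B : Subgroup G} (h : RR p A B) (g : G) :
    RR p (A.map (MulAut.conj g).toMonoidHom) (B.map (MulAut.conj g).toMonoidHom) := by
  refine ⟨ea_conj h.1 g, by rw [card_conj]; exact h.2.1, ea_conj h.2.2.1 g, by rw [card_conj]; exact h.2.2.2.1, ?_⟩
  rintro _ ⟨a, ha, rfl⟩ _ ⟨b, hb, rfl⟩
  rw [← map_mul, ← map_mul, h.2.2.2.2 a ha b hb]

theorem tg_symm {p : ℕ} {A B : Subgroup G} (h : Relation.ReflTransGen (RR p) A B) : Relation.ReflTransGen (RR p) B A := by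
  induction h with
  | refl => exact Relation.ReflTransGen.refl
  | tail _ h1 ih => exact Relation.ReflTransGen.head h1.symm ih

theorem tg_conj {p : ℕ} {A B : Subgroup G} (h : Relation.ReflTransGen (RR p) A B) (g : G) :
    Relation.ReflTransGen (RR p) (A.map (MulAut.conj g).toMonoidHom) (B.map (MulAut.conj g).toMonoidHom) := by
  induction h with
  | refl => exact Relation.ReflTransGen.refl
  | tail _ h1 ih => exact ih.tail (h1.conj g)

theorem map_conj_mul (A : Subgroup G) (g h : G) : (A.map (MulAut.conj h).toMonoidHom).map (MulAut.conj g).toMonoidHom =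
    A.map (MulAut.conj (g * h)).toMonoidHom := by
  rw [Subgroup.map_map]
  congr 1
  ext x
  simp [mul_assoc]

theorem map_conj_one (A : Subgroup G) : A.map (MulAut.conj (1 : G)).toMonoidHom = A := by
  ext x
  constructor
  · rintro ⟨a, ha, rfl⟩
    simpa using ha
  · intro h
    exact ⟨x, h, by simp⟩

theorem ea_zp [Finite G] {p : ℕ} [Fact p.Prime] {z : G} (hz : orderOf z = p) : IsElementaryAbelian p (zpowers z) ∧ p ^ 1 ≤ Nat.card ↥(zpowers z) := by
  refine ⟨⟨inferInstance, ?_⟩, by rw [Nat.card_zpowers, hz, pow_one]⟩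
  rintro _ ⟨k, rfl⟩
  simp only
  rw [← zpow_natCast, ← zpow_mul, mul_comm, zpow_mul, zpow_natCast, ← hz, pow_orderOf_eq_one, one_zpow]

theorem isP {p : ℕ} [Fact p.Prime] {A : Subgroup G} (h : IsElementaryAbelian p A) : IsPGroup p ↥A := by
  intro x
  exact ⟨1, by
    apply Subtype.ext
    rw [pow_one]
    simpa using h.2 x.1 x.2⟩

theorem nb [Finite G] {p : ℕ} [hp : Fact p.Prime] {A : Subgroup G} (h : p ^ 1 ≤ Nat.card ↥A) : A ≠ ⊥ := by
  rintro rfl
  rw [Subgroup.card_bot, pow_one] at h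
  exact absurd hp.out.one_lt (by omega)

/-- in a `p`-subgroup, vertices are adjacent to a fixed one -/
theorem star [Finite G] {p : ℕ} [Fact p.Prime] {P : Subgroup G} (hP : IsPGroup p ↥P) (hP1 : P ≠ ⊥) :
    ∃ Z : Subgroup G, Z ≤ P ∧ IsElementaryAbelian p Z ∧ p ^ 1 ≤ Nat.card ↥Z ∧
      ∀ A : Subgroup G, IsElementaryAbelian p A → p ^ 1 ≤ Nat.card ↥A → A ≤ P → RR p A Z := by
  obtain ⟨z, hz, hzp, hzc⟩ := Cfsg.Agent.H6.exists_center_order_p hP hP1
  obtain ⟨h1, h2⟩ := ea_zp hzp
  refine ⟨zpowers z, (zpowers_le).2 hz, h1, h2, fun A hA hA1 hAP => ⟨hA, hA1, h1, h2, ?_⟩⟩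
  rintro a ha _ ⟨k, rfl⟩
  have hc : Commute a z := hzc a (hAP ha)
  exact hc.zpow_right k

/-- Let G be finite and p prime. Then G has a proper subgroup H with p ∣ |H| and p ∤ |H ∩ gHg⁻¹| for every g ∉ H (a strongly p-embedded subgroup) if and only if G is not 1-connected for p. -/
theorem result {G : Type*} [Group G] [Finite G] (p : ℕ) [Fact p.Prime] : (∃ H : Subgroup G, H ≠ ⊤ ∧ p ∣ Nat.card ↥H ∧ ∀ g : G, g ∉ H → ¬ p ∣ Nat.card ↥(H ⊓ H.map (MulAut.conj g).toMonoidHom)) ↔ ¬ Cfsg.IsKConnected p 1 G := by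
  have hpp : p.Prime := Fact.out
  constructor
  · rintro ⟨H, hH1, hH2, hH3⟩ hcon
    obtain ⟨x, hx⟩ := exists_prime_orderOf_dvd_card' p hH2
    have hx' : orderOf (x : G) = p := by rw [Subgroup.orderOf_coe]; exact hx
    obtain ⟨hE1, hE2⟩ := ea_zp hx'
    have key : ∀ B : Subgroup G, IsElementaryAbelian p B → p ^ 1 ≤ Nat.card ↥B → B ≤ H := by
      intro B hB1 hB2
      have := hcon (zpowers (x : G)) B hE1 hE2 hB1 hB2
      clear hB1 hB2
      induction this with
      | refl => exact (zpowers_le).2 x.2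
      | tail _ h ih =>
        obtain ⟨h1, h2, h3, h4, h5⟩ := h
        intro b hb
        by_contra hbH
        apply hH3 b hbH
        have hne := nb h2
        have hle : _ ≤ H ⊓ H.map (MulAut.conj b).toMonoidHom := le_inf ih (fun a ha => ⟨a, ih ha, by
          show b * a * b⁻¹ = a
          rw [← h5 a ha b hb]; group⟩)
        obtain ⟨n, hn0, hn⟩ := (IsPGroup.nontrivial_iff_card (isP h1)).1 ((Subgroup.nontrivial_iff_ne_bot _).2 hne)
        exact (hn ▸ dvd_pow_self p hn0.ne').trans (Subgroup.card_dvd_of_le hle)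
    obtain ⟨g, hg⟩ : ∃ g : G, g ∉ H := by
      by_contra hcon2
      push Not at hcon2
      exact hH1 ((Subgroup.eq_top_iff' H).2 hcon2)
    apply hH3 g hg
    have h1 : (zpowers (x : G)).map (MulAut.conj g).toMonoidHom ≤ H ⊓ H.map (MulAut.conj g).toMonoidHom :=
      le_inf (key _ (ea_conj hE1 g) (by rw [card_conj]; exact hE2)) (Subgroup.map_mono ((zpowers_le).2 x.2))
    have h2 := Subgroup.card_dvd_of_le h1
    rw [card_conj, Nat.card_zpowers, hx'] at h2
    exact h2
  · intro hn
    rw [Cfsg.IsKConnected] at hn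
    push Not at hn
    obtain ⟨E, E', hE1, hE2, hE'1, hE'2, hnc⟩ := hn
    change ¬ Relation.ReflTransGen (RR p) E E' at hnc
    let H : Subgroup G :=
      { carrier := {g | Relation.ReflTransGen (RR p) E (E.map (MulAut.conj g).toMonoidHom)}
        one_mem' := by
          show Relation.ReflTransGen (RR p) E _
          rw [map_conj_one]
        mul_mem' := by
          intro a b ha hb
          show Relation.ReflTransGen (RR p) E _
          have := tg_conj hb a
          rw [map_conj_mul] at this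
          exact ha.trans this
        inv_mem' := by
          intro a ha
          show Relation.ReflTransGen (RR p) E _
          have := tg_conj ha a⁻¹
          rw [map_conj_mul, inv_mul_cancel, map_conj_one] at this
          exact tg_symm this }
    have hmem : ∀ g, g ∈ H ↔ Relation.ReflTransGen (RR p) E (E.map (MulAut.conj g).toMonoidHom) := fun g => Iff.rfl
    obtain ⟨P, hP⟩ := (isP hE1).exists_le_sylow
    have hPbot : (P : Subgroup G) ≠ ⊥ := fun h => nb hE2 (le_bot_iff.1 (hP.trans h.le))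
    obtain ⟨Z, hZP, hZ1, hZ2, hZ3⟩ := star P.2 hPbot
    have hEZ : Relation.ReflTransGen (RR p) E Z := Relation.ReflTransGen.single (hZ3 E hE1 hE2 hP)
    have hPH : (P : Subgroup G) ≤ H := by
      intro x hx
      rw [hmem]
      refine hEZ.trans (Relation.ReflTransGen.single (RR.symm (hZ3 _ (ea_conj hE1 x) (by rw [card_conj]; exact hE2) ?_)))
      rintro _ ⟨a, ha, rfl⟩
      exact P.mul_mem (P.mul_mem hx (hP ha)) (P.inv_mem hx)
    have hF : ∀ F : Subgroup G, IsElementaryAbelian p F → p ^ 1 ≤ Nat.card ↥F → ∃ g : G, Relation.ReflTransGen (RR p) (E.map (MulAut.conj g).toMonoidHom) F ∧ (F ≤ H → g ∈ H) := by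
      intro F hF1 hF2
      by_cases hFH : F ≤ H
      · have hPs : IsPGroup p ↥(F.subgroupOf H) := (isP hF1).comap_of_injective H.subtype H.subtype_injective
        obtain ⟨Q, hQ⟩ := hPs.exists_le_sylow
        let P' : Sylow p ↥H := P.subtype hPH
        obtain ⟨h, hh⟩ := MulAction.exists_smul_eq ↥H P' Q
        have hFle : F ≤ (P : Subgroup G).map (MulAut.conj (h : G)).toMonoidHom := by
          intro f hf
          have h1 : (⟨f, hFH hf⟩ : ↥H) ∈ (Q : Subgroup ↥H) := hQ (Subgroup.mem_subgroupOf.2 hf)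
          rw [← hh, Sylow.coe_subgroup_smul, Subgroup.mem_pointwise_smul_iff_inv_smul_mem] at h1
          refine ⟨(h : G)⁻¹ * f * h, ?_, by simp [mul_assoc]⟩
          have h2 : ((MulAut.conj h)⁻¹ • (⟨f, hFH hf⟩ : ↥H)) ∈ (P : Subgroup G).subgroupOf H := h1
          rw [Subgroup.mem_subgroupOf] at h2
          show (h : G)⁻¹ * f * h ∈ (P : Subgroup G)
          convert h2 using 1
          simp
        refine ⟨(h : G), ?_, fun _ => h.2⟩
        have h3 := (tg_conj hEZ (h : G))
        refine h3.trans (Relation.ReflTransGen.single (RR.symm ?_))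
        have h4 := (hZ3 (F.map (MulAut.conj (h : G)⁻¹).toMonoidHom) (ea_conj hF1 _) (by rw [card_conj]; exact hF2) ?_).conj (h : G)
        · rwa [map_conj_mul, mul_inv_cancel, map_conj_one] at h4
        · rintro _ ⟨f, hf, rfl⟩
          obtain ⟨y, hy, hyf⟩ := hFle hf
          rw [← hyf]
          have : (MulAut.conj ((h : G)⁻¹)).toMonoidHom ((MulAut.conj (h : G)).toMonoidHom y) = y := by simp [mul_assoc]
          rw [this]
          exact hy
      · obtain ⟨Q, hQ⟩ := (isP hF1).exists_le_sylow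
        obtain ⟨h, hh⟩ := MulAction.exists_smul_eq G P Q
        have hFle : F ≤ (P : Subgroup G).map (MulAut.conj (h : G)).toMonoidHom := by
          intro f hf
          have h1 : f ∈ (Q : Subgroup G) := hQ hf
          rw [← hh, Sylow.coe_subgroup_smul, Subgroup.mem_pointwise_smul_iff_inv_smul_mem] at h1
          refine ⟨(h : G)⁻¹ * f * h, ?_, by simp [mul_assoc]⟩
          show (h : G)⁻¹ * f * h ∈ (P : Subgroup G)
          convert h1 using 1
          simp
        refine ⟨(h : G), ?_, fun h => absurd h hFH⟩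
        have h3 := (tg_conj hEZ (h : G))
        refine h3.trans (Relation.ReflTransGen.single (RR.symm ?_))
        have h4 := (hZ3 (F.map (MulAut.conj (h : G)⁻¹).toMonoidHom) (ea_conj hF1 _) (by rw [card_conj]; exact hF2) ?_).conj (h : G)
        · rwa [map_conj_mul, mul_inv_cancel, map_conj_one] at h4
        · rintro _ ⟨f, hf, rfl⟩
          obtain ⟨y, hy, hyf⟩ := hFle hf
          rw [← hyf]
          have : (MulAut.conj ((h : G)⁻¹)).toMonoidHom ((MulAut.conj (h : G)).toMonoidHom y) = y := by simp [mul_assoc]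
          rw [this]
          exact hy
    refine ⟨H, ?_, ?_, ?_⟩
    · intro hHt
      obtain ⟨g, hg1, hg2⟩ := hF E' hE'1 hE'2
      have : g ∈ H := hHt ▸ Subgroup.mem_top g
      exact hnc (((hmem g).1 this).trans hg1)
    · obtain ⟨n, hn0, hn⟩ := (IsPGroup.nontrivial_iff_card P.2).1 ((Subgroup.nontrivial_iff_ne_bot _).2 hPbot)
      exact (hn ▸ dvd_pow_self p hn0.ne').trans (Subgroup.card_dvd_of_le hPH)
    · intro g hg hdvd
      obtain ⟨x, hx⟩ := exists_prime_orderOf_dvd_card' p hdvd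
      have hx' : orderOf (x : G) = p := by rw [Subgroup.orderOf_coe]; exact hx
      obtain ⟨hx1, hx2⟩ := ea_zp hx'
      have hxH : zpowers (x : G) ≤ H := (zpowers_le).2 (Subgroup.mem_inf.1 x.2).1
      have hall : ∀ F : Subgroup G, IsElementaryAbelian p F → p ^ 1 ≤ Nat.card ↥F → F ≤ H → Relation.ReflTransGen (RR p) E F := by
        intro F h1 h2 h3
        obtain ⟨k, hk1, hk2⟩ := hF F h1 h2
        exact ((hmem k).1 (hk2 h3)).trans hk1
      have h1 := hall _ hx1 hx2 hxH
      obtain ⟨y, hy, hyx⟩ := (Subgroup.mem_inf.1 x.2).2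
      have h2 := tg_conj (hall ((zpowers (x : G)).map (MulAut.conj g⁻¹).toMonoidHom) (ea_conj hx1 _) (by rw [card_conj]; exact hx2) (by
        rw [Subgroup.map_le_iff_le_comap, zpowers_le, Subgroup.mem_comap, ← hyx]
        have : (MulAut.conj (g⁻¹)).toMonoidHom ((MulAut.conj g).toMonoidHom y) = y := by simp [mul_assoc]
        rw [this]
        exact hy)) g
      rw [map_conj_mul, mul_inv_cancel, map_conj_one] at h2
      exact hg ((hmem g).2 (h1.trans (tg_symm h2)))

end Cfsg.Agent.S1336
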