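import Cfsg.Statements.S1337
import Cfsg.Agent.S0130
import Cfsg.Agent.H2.SylCount
import Cfsg.Agent.H1.Class2
import Cfsg.Agent.L0.Coprime
import Mathlib

set_option autoImplicit false
open Cfsg

namespace Cfsg.Agent.S1337

open Subgroup

theorem comm_of {G : Type*} [Group G] {E : Subgroup G} {p : ℕ} (hE : IsElementaryAbelian p E) : ∀ a ∈ E, ∀ b ∈ E, a * b = b * a :=
  fun a ha b hb => congrArg Subtype.val (hE.1.is_comm.comm ⟨a, ha⟩ ⟨b, hb⟩)

theorem mk_ea {G : Type*} [Group G] {E : Subgroup G} {p : ℕ} (h1 : ∀ a ∈ E, ∀ b ∈ E, a * b = b * a) (h2 : ∀ a ∈ E, a ^ p = 1) : IsElementaryAbelian p E :=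
  ⟨⟨⟨fun a b => Subtype.ext (h1 a a.2 b b.2)⟩⟩, h2⟩

theorem ea_sup {G : Type*} [Group G] {A B : Subgroup G} {p : ℕ} (hA : IsElementaryAbelian p A) (hB : IsElementaryAbelian p B)
    (hc : ∀ a ∈ A, ∀ b ∈ B, a * b = b * a) : IsElementaryAbelian p (A ⊔ B) := by
  have hn : B ≤ normalizer (A : Set G) := by
    intro b hb
    rw [Subgroup.mem_normalizer_iff]
    intro a
    constructor
    · intro ha; rw [← hc a ha b hb, mul_inv_cancel_right]; exact ha
    · intro ha
      have h1 := hc _ ha b hb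
      have : a = b⁻¹ * (b * a * b⁻¹) * b := by group
      have h2 : b⁻¹ * (b * a * b⁻¹) * b = b * a * b⁻¹ := by
        calc b⁻¹ * (b * a * b⁻¹) * b = b⁻¹ * ((b * a * b⁻¹) * b) := by group
          _ = b⁻¹ * (b * (b * a * b⁻¹)) := by rw [h1]
          _ = b * a * b⁻¹ := by group
      rw [this, h2]; exact ha
  have hmem : ∀ x ∈ A ⊔ B, ∃ a ∈ A, ∃ b ∈ B, a * b = x := fun x hx => (L0.mem_sup_of_normalizes hn).1 hx
  refine mk_ea ?_ ?_
  · intro x hx y hy
    obtain ⟨a, ha, b, hb, rfl⟩ := hmem x hx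
    obtain ⟨c, hc', d, hd, rfl⟩ := hmem y hy
    have h1 : Commute a c := comm_of hA a ha c hc'
    have h2 : Commute b d := comm_of hB b hb d hd
    have h3 : Commute a d := hc a ha d hd
    have h4 : Commute c b := hc c hc' b hb
    exact ((h1.mul_right h3).mul_left (h4.symm.mul_right h2))
  · intro x hx
    obtain ⟨a, ha, b, hb, rfl⟩ := hmem x hx
    have h3 : Commute a b := hc a ha b hb
    rw [h3.mul_pow, hA.2 a ha, hB.2 b hb, one_mul]

variable {P : Type*} [Group P] [Finite P] {p : ℕ} [Fact p.Prime]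

theorem central_of_p (hP : IsPGroup p P) (L : Subgroup P) (hLn : L.Normal) (hLc : Nat.card L = p) (x : P) : x ∈ Subgroup.centralizer (L : Set P) := by
  have hpp : p.Prime := Fact.out
  refine H2.centralizes_of_card_prime hpp hLc (by rw [Subgroup.normalizer_eq_top]; exact mem_top x) ?_
  obtain ⟨k, hk⟩ := IsPGroup.iff_orderOf.1 hP x
  rw [hk]
  refine Nat.Coprime.pow_left k ?_
  rw [Nat.Prime.coprime_iff_not_dvd hpp]
  intro hd
  have := Nat.le_of_dvd (by have := hpp.one_lt; omega) hd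
  have := hpp.pos
  omega

/-- centralizer of a normal subgroup of order `p²` has index at most `p` -/
theorem index_le (hP : IsPGroup p P) (A : Subgroup P) (hAn : A.Normal) (ha : Nat.card A = p ^ 2) (E : Subgroup P) :
    Nat.card E ≤ Nat.card ↥(E ⊓ Subgroup.centralizer (A : Set P)) * p := by
  classical
  have hpp : p.Prime := Fact.out
  obtain ⟨L, hLn, hLA, hLc⟩ := H1.exists_normal_le_card hP A (b := 2) (k := 1) ha (by omega)
  rw [pow_one] at hLc
  obtain ⟨a0, ha0, ha0L⟩ : ∃ a0 ∈ A, a0 ∉ L := by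
    by_contra hcon
    push Not at hcon
    have : Nat.card A ≤ Nat.card L := Subgroup.card_le_of_le hcon
    rw [ha, hLc, pow_two] at this
    have := hpp.one_lt
    nlinarith
  have hgen : L ⊔ Subgroup.zpowers a0 = A := by
    have hle : L ⊔ Subgroup.zpowers a0 ≤ A := sup_le hLA (by rw [Subgroup.zpowers_le]; exact ha0)
    have hd : Nat.card ↥(L ⊔ Subgroup.zpowers a0) ∣ p ^ 2 := ha ▸ Subgroup.card_dvd_of_le hle
    obtain ⟨k, hk, hkc⟩ := (Nat.dvd_prime_pow hpp).1 hd
    have hlt : p < Nat.card ↥(L ⊔ Subgroup.zpowers a0) := by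
      rw [← hLc]
      refine lt_of_le_of_ne (Subgroup.card_le_of_le le_sup_left) fun heq => ?_
      have h5 : L = L ⊔ Subgroup.zpowers a0 := Subgroup.eq_of_le_of_card_ge le_sup_left heq.ge
      exact ha0L (h5 ▸ Subgroup.mem_sup_right (Subgroup.mem_zpowers a0))
    have hk2 : k = 2 := by
      by_contra hne
      have hk1 : k ≤ 1 := by omega
      rw [hkc] at hlt
      have : p ^ k ≤ p ^ 1 := Nat.pow_le_pow_right hpp.pos hk1
      rw [pow_one] at this
      omega
    refine Subgroup.eq_of_le_of_card_ge hle ?_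
    rw [hkc, hk2, ha]
  have hcomm : ∀ e : P, e * a0 * e⁻¹ * a0⁻¹ ∈ L := by
    intro e
    have hq : Nat.card (A.map (QuotientGroup.mk' L)) = p := by
      have h1 : Nat.card (A.map (QuotientGroup.mk' L)) * Nat.card L = Nat.card A := by
        have h2 := Subgroup.card_mul_index (L.subgroupOf A)
        have h3 : Nat.card (L.subgroupOf A) = Nat.card L := Nat.card_congr (Subgroup.subgroupOfEquivOfLe hLA).toEquiv
        have h4 : Nat.card (A.map (QuotientGroup.mk' L)) = (L.subgroupOf A).index := by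
          have e1 := QuotientGroup.quotientKerEquivRange ((QuotientGroup.mk' L).comp A.subtype)
          have e2 : ((QuotientGroup.mk' L).comp A.subtype).ker = L.subgroupOf A := by
            ext x; rw [MonoidHom.mem_ker, Subgroup.mem_subgroupOf]
            exact QuotientGroup.eq_one_iff (x : P)
          have e3 : ((QuotientGroup.mk' L).comp A.subtype).range = A.map (QuotientGroup.mk' L) := by
            rw [MonoidHom.range_comp, Subgroup.range_subtype]
          rw [← e3, ← e2]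
          exact (Nat.card_congr e1.toEquiv).symm
        rw [h4, ← h3, mul_comm]; exact h2
      rw [hLc, ha, pow_two] at h1
      exact Nat.eq_of_mul_eq_mul_right hpp.pos h1
    have hn : (A.map (QuotientGroup.mk' L)).Normal := hAn.map _ (QuotientGroup.mk'_surjective L)
    have h6 := central_of_p (hP.to_quotient L) (A.map (QuotientGroup.mk' L)) hn hq (QuotientGroup.mk' L e)
    have h7 := Subgroup.mem_centralizer_iff.1 h6 (QuotientGroup.mk' L a0) ⟨a0, ha0, rfl⟩
    rw [← QuotientGroup.eq_one_iff]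
    show QuotientGroup.mk' L (e * a0 * e⁻¹ * a0⁻¹) = 1
    rw [map_mul, map_mul, map_mul, map_inv, map_inv, ← h7]
    group
  obtain ⟨D, hD⟩ : ∃ D, D = E ⊓ Subgroup.centralizer (A : Set P) := ⟨_, rfl⟩
  have hDE : D ≤ E := hD ▸ inf_le_left
  have hDmem : ∀ x, x ∈ D ↔ x ∈ E ∧ x ∈ Subgroup.centralizer (A : Set P) := fun x => by rw [hD]; exact Subgroup.mem_inf
  have hidx : (D.subgroupOf E).index ≤ p := by
    rw [← hLc, Subgroup.index_eq_card]
    refine Nat.card_le_card_of_injective (fun q : ↥E ⧸ D.subgroupOf E => (⟨(q.out : P) * a0 * (q.out : P)⁻¹ * a0⁻¹, hcomm _⟩ : ↥L)) ?_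
    intro q q' hqq
    have h8 : (q.out : P) * a0 * (q.out : P)⁻¹ * a0⁻¹ = (q'.out : P) * a0 * (q'.out : P)⁻¹ * a0⁻¹ := congrArg Subtype.val hqq
    have h9 : (q.out : P) * a0 * (q.out : P)⁻¹ = (q'.out : P) * a0 * (q'.out : P)⁻¹ := mul_right_cancel h8
    rw [← Quotient.out_eq' q, ← Quotient.out_eq' q', Quotient.eq'', QuotientGroup.leftRel_apply, Subgroup.mem_subgroupOf]
    refine (hDmem _).2 ⟨E.mul_mem (E.inv_mem q.out.2) q'.out.2, ?_⟩
    have h10 : A ≤ Subgroup.centralizer ({(q.out : P)⁻¹ * (q'.out : P)} : Set P) := by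
      rw [← hgen]
      refine sup_le ?_ ?_
      · intro l hl
        rw [Subgroup.mem_centralizer_singleton_iff]
        exact Subgroup.mem_centralizer_iff.1 (central_of_p hP L hLn hLc ((q.out : P)⁻¹ * (q'.out : P))) l hl
      · rw [Subgroup.zpowers_le, Subgroup.mem_centralizer_singleton_iff]
        calc a0 * ((q.out : P)⁻¹ * (q'.out : P)) = (q.out : P)⁻¹ * ((q.out : P) * a0 * (q.out : P)⁻¹) * (q'.out : P) := by group
          _ = (q.out : P)⁻¹ * ((q'.out : P) * a0 * (q'.out : P)⁻¹) * (q'.out : P) := by rw [h9]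
          _ = (q.out : P)⁻¹ * (q'.out : P) * a0 := by group
    show ((q.out⁻¹ * q'.out : ↥E) : P) ∈ _
    rw [Subgroup.mem_centralizer_iff]
    intro x hx
    exact Subgroup.mem_centralizer_singleton_iff.1 (h10 hx)
  have hcard : Nat.card E = Nat.card D * (D.subgroupOf E).index := by
    have h2 := Subgroup.card_mul_index (D.subgroupOf E)
    have h3 : Nat.card (D.subgroupOf E) = Nat.card D := Nat.card_congr (Subgroup.subgroupOfEquivOfLe hDE).toEquiv
    rw [← h2, h3]
  rw [hcard, ← hD]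
  exact Nat.mul_le_mul_left _ hidx

theorem cent_small (hP : IsPGroup p P) (A : Subgroup P) (hAn : A.Normal) {a : ℕ} (ha : Nat.card A = p ^ a) (h1 : a ≤ 1) (x : P) :
    x ∈ Subgroup.centralizer (A : Set P) := by
  rcases (show a = 0 ∨ a = 1 by omega) with h0 | h0
  · rw [h0, pow_zero] at ha
    have : A = ⊥ := Subgroup.card_eq_one.1 ha
    rw [this, Subgroup.mem_centralizer_iff]
    intro y hy
    have : y = 1 := Subgroup.mem_bot.1 hy
    rw [this, one_mul, mul_one]
  · rw [h0, pow_one] at ha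
    exact central_of_p hP A hAn ha x

theorem exists_max (n : ℕ) : ∃ A : Subgroup P, A.Normal ∧ IsMulCommutative A ∧ (∀ b ∈ A, b ^ p ^ n = 1) ∧
    ∀ B : Subgroup P, B.Normal → IsMulCommutative B → (∀ b ∈ B, b ^ p ^ n = 1) → A ≤ B → B = A := by
  have hfin : {B : Subgroup P | B.Normal ∧ IsMulCommutative B ∧ ∀ b ∈ B, b ^ p ^ n = 1}.Finite := Set.toFinite _
  obtain ⟨A, hAmax⟩ := hfin.exists_maximal ⟨⊥, inferInstance, inferInstance, fun b hb => by
    rw [Subgroup.mem_bot] at hb; rw [hb, one_pow]⟩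
  obtain ⟨hAn, hAc, hAe⟩ := hAmax.prop
  exact ⟨A, hAn, hAc, hAe, fun B h1 h2 h3 h4 => le_antisymm (hAmax.le_of_ge ⟨h1, h2, h3⟩ h4) h4⟩

theorem exists_U (hP : IsPGroup p P) (E : Subgroup P) (hE : IsElementaryAbelian p E) (hE3 : p ^ 2 < Nat.card E) :
    ∃ U : Subgroup P, U.Normal ∧ IsElementaryAbelian p U ∧ Nat.card ↥U = p ^ 2 := by
  classical
  have hpp : p.Prime := Fact.out
  by_cases hp2 : p = 2
  · subst hp2
    obtain ⟨A, hAn, hAc, hAe, hmax⟩ := exists_max (P := P) (p := 2) 2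
    have hcA : ∀ a ∈ A, ∀ b ∈ A, a * b = b * a := fun a ha b hb => congrArg Subtype.val (hAc.is_comm.comm ⟨a, ha⟩ ⟨b, hb⟩)
    let W : Subgroup P :=
      { carrier := {x | x ∈ A ∧ x ^ 2 = 1}
        one_mem' := ⟨one_mem _, one_pow _⟩
        mul_mem' := by
          rintro a b ⟨ha, ha1⟩ ⟨hb, hb1⟩
          refine ⟨mul_mem ha hb, ?_⟩
          have : Commute a b := hcA a ha b hb
          rw [this.mul_pow, ha1, hb1, one_mul]
        inv_mem' := by
          rintro a ⟨ha, ha1⟩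
          exact ⟨inv_mem ha, by rw [inv_pow, ha1, inv_one]⟩ }
    have hWm : ∀ x, x ∈ W ↔ x ∈ A ∧ x ^ 2 = 1 := fun x => Iff.rfl
    have hWn : W.Normal := ⟨fun x hx g => ⟨hAn.conj_mem x hx.1 g, by rw [conj_pow, hx.2, mul_one, mul_inv_cancel]⟩⟩
    obtain ⟨w, hw⟩ := (hP.to_subgroup W).exists_card_eq
    by_cases hw2 : 2 ≤ w
    · obtain ⟨U, hU1, hU2, hU3⟩ := H1.exists_normal_le_card hP W (b := w) (k := 2) hw hw2
      exact ⟨U, hU1, mk_ea (fun a ha b hb => hcA a (hU2 ha).1 b (hU2 hb).1) (fun a ha => (hU2 ha).2), hU3⟩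
    · exfalso
      have hWc : Nat.card W ≤ 2 := by
        rw [hw]
        calc 2 ^ w ≤ 2 ^ 1 := Nat.pow_le_pow_right (by norm_num) (by omega)
          _ = 2 := by norm_num
      have hEC : Nat.card ↥(E ⊓ Subgroup.centralizer (A : Set P)) ≤ 2 := by
        refine le_trans (Subgroup.card_le_of_le ?_) hWc
        intro x hx
        have hxE := (Subgroup.mem_inf.1 hx).1
        have hx2 := hE.2 x hxE
        refine ⟨S0130.result hP 2 (by norm_num) A hAc hAe hmax x (Subgroup.mem_inf.1 hx).2 (by rw [pow_two, pow_mul, hx2, one_pow]), hx2⟩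
      have hsq : ∀ a ∈ A, a ^ 2 ∈ W := fun a ha => ⟨pow_mem ha 2, by rw [← pow_mul]; exact hAe a ha⟩
      have hA4 : Nat.card A ≤ 4 := by
        have hex : ∀ v : W, ∃ t : P, (∃ a ∈ A, a ^ 2 = (v : P)) → t ∈ A ∧ t ^ 2 = v := by
          intro v
          by_cases h : ∃ a ∈ A, a ^ 2 = (v : P)
          · obtain ⟨a, ha, hav⟩ := h
            exact ⟨a, fun _ => ⟨ha, hav⟩⟩
          · exact ⟨1, fun h' => absurd h' h⟩
        choose t ht using hex
        have h1 : Nat.card A ≤ Nat.card (W × W) := by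
          refine Nat.card_le_card_of_injective (fun a : A => ((⟨a ^ 2, hsq a a.2⟩ : W), (⟨a * (t ⟨a ^ 2, hsq a a.2⟩)⁻¹, ?_⟩ : W))) ?_
          · obtain ⟨h2, h3⟩ := ht ⟨a ^ 2, hsq a a.2⟩ ⟨a, a.2, rfl⟩
            refine ⟨mul_mem a.2 (inv_mem h2), ?_⟩
            have : Commute (a : P) (t ⟨a ^ 2, hsq a a.2⟩)⁻¹ := hcA _ a.2 _ (inv_mem h2)
            rw [this.mul_pow, inv_pow, h3, mul_inv_cancel]
          · intro a b hab
            have h2 : (⟨(a : P) ^ 2, hsq a a.2⟩ : W) = ⟨(b : P) ^ 2, hsq b b.2⟩ := congrArg Prod.fst hab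
            have h3 : (a : P) * (t ⟨a ^ 2, hsq a a.2⟩)⁻¹ = (b : P) * (t ⟨b ^ 2, hsq b b.2⟩)⁻¹ := congrArg (fun z => ((Prod.snd z : W) : P)) hab
            rw [h2] at h3
            exact Subtype.ext (mul_right_cancel h3)
        rw [Nat.card_prod] at h1
        nlinarith
      obtain ⟨a, ha⟩ := (hP.to_subgroup A).exists_card_eq
      have ha2 : a ≤ 2 := by
        by_contra hcon
        have : 2 ^ 3 ≤ 2 ^ a := Nat.pow_le_pow_right (by norm_num) (by omega)
        omega
      by_cases ha' : a = 2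
      · rw [ha'] at ha
        have := index_le hP A hAn ha E
        omega
      · have hall : E ≤ E ⊓ Subgroup.centralizer (A : Set P) := fun x hx => ⟨hx, cent_small hP A hAn ha (by omega) x⟩
        have := Subgroup.card_le_of_le hall
        omega
  · obtain ⟨A, hAn, hAc, hAe, hmax⟩ := exists_max (P := P) (p := p) 1
    have hcA : ∀ a ∈ A, ∀ b ∈ A, a * b = b * a := fun a ha b hb => congrArg Subtype.val (hAc.is_comm.comm ⟨a, ha⟩ ⟨b, hb⟩)
    obtain ⟨a, ha⟩ := (hP.to_subgroup A).exists_card_eq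
    by_cases ha2 : 2 ≤ a
    · obtain ⟨U, hU1, hU2, hU3⟩ := H1.exists_normal_le_card hP A (b := a) (k := 2) ha ha2
      exact ⟨U, hU1, mk_ea (fun a ha b hb => hcA a (hU2 ha) b (hU2 hb)) (fun a ha => by have := hAe a (hU2 ha); rwa [pow_one] at this), hU3⟩
    · exfalso
      have hall : E ≤ A := fun x hx => S0130.result hP 1 (by rw [pow_one]; exact hp2) A hAc hAe hmax x (cent_small hP A hAn ha (by omega) x) (by rw [pow_one]; exact hE.2 x hx)
      have h1 := Subgroup.card_le_of_le hall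
      have h2 : Nat.card A ≤ p ^ 1 := by rw [ha]; exact Nat.pow_le_pow_right hpp.pos (by omega)
      have h3 : p ^ 1 ≤ p ^ 2 := Nat.pow_le_pow_right hpp.pos (by omega)
      omega

/-- elementary abelian subgroups of a subgroup -/
theorem exists_of_rank {H : Subgroup P} (h : ¬ PRankLE p 2 ↥H) : ∃ E : Subgroup P, E ≤ H ∧ IsElementaryAbelian p E ∧ p ^ 2 < Nat.card E := by
  unfold PRankLE at h
  push Not at h
  obtain ⟨E, h1, h2, h3⟩ := h
  refine ⟨E.map H.subtype, Subgroup.map_subtype_le _, mk_ea ?_ ?_, ?_⟩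
  · rintro _ ⟨a, ha, rfl⟩ _ ⟨b, hb, rfl⟩
    exact congrArg (fun z : E => ((z : ↥H) : P)) (h1.is_comm.comm ⟨a, ha⟩ ⟨b, hb⟩)
  · rintro _ ⟨a, ha, rfl⟩
    exact congrArg Subtype.val (h2 a ha)
  · rw [Nat.card_congr (E.equivMapOfInjective _ H.subtype_injective).symm.toEquiv]; exact h3

theorem rank_of_exists {H E : Subgroup P} (hEH : E ≤ H) (hE : IsElementaryAbelian p E) (hc : p ^ 2 < Nat.card E) : ¬ PRankLE p 2 ↥H := by
  intro h
  have := h (E.subgroupOf H) ⟨⟨fun a b => Subtype.ext (Subtype.ext (comm_of hE a a.2 b b.2))⟩⟩ (fun a ha => Subtype.ext (hE.2 a ha))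
  rw [Nat.card_congr (Subgroup.subgroupOfEquivOfLe hEH).toEquiv] at this
  omega

theorem card_ge {E : Subgroup P} (hP : IsPGroup p P) (h : p ^ 2 < Nat.card E) : p ^ 3 ≤ Nat.card E := by
  have hpp : p.Prime := Fact.out
  obtain ⟨a, ha⟩ := (hP.to_subgroup E).exists_card_eq
  rw [ha] at h ⊢
  have : 2 < a := by
    by_contra hcon
    have := Nat.pow_le_pow_right hpp.pos (show a ≤ 2 by omega)
    omega
  exact Nat.pow_le_pow_right hpp.pos this

/-- Let P be a finite p-group of p-rank greater than 2. Then P has a normal elementary abelian subgroup U of order p², and for every elementary abelian X ≤ P with |X| ≥ p²: X is joined to U by a chain of pairwise commuting elementary abelian subgroups of order ≥ p² if and only if C_P(X) has p-rank greater than 2. -/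
theorem result {P : Type*} [Group P] [Finite P] (p : ℕ) [Fact p.Prime] (hP : IsPGroup p P) (hrk : ¬ Cfsg.PRankLE p 2 P) : ∃ U : Subgroup P, U.Normal ∧ Cfsg.IsElementaryAbelian p U ∧ Nat.card ↥U = p ^ 2 ∧ ∀ X : Subgroup P, Cfsg.IsElementaryAbelian p X → p ^ 2 ≤ Nat.card ↥X → (Relation.ReflTransGen (fun A B : Subgroup P => Cfsg.IsElementaryAbelian p A ∧ p ^ 2 ≤ Nat.card ↥A ∧ Cfsg.IsElementaryAbelian p B ∧ p ^ 2 ≤ Nat.card ↥B ∧ ∀ a ∈ A, ∀ b ∈ B, a * b = b * a) X U ↔ ¬ Cfsg.PRankLE p 2 ↥(Subgroup.centralizer (X : Set P))) := by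
  have hpp : p.Prime := Fact.out
  obtain ⟨E0, -, hE0, hE0c⟩ := exists_of_rank (p := p) (H := (⊤ : Subgroup P)) (fun h => hrk (fun A h1 h2 => by
    have := h (A.comap (⊤ : Subgroup P).subtype) ⟨⟨fun a b => Subtype.ext (Subtype.ext (by
      have h5 : ((a : ↥(⊤ : Subgroup P)) : P) * ((b : ↥(⊤ : Subgroup P)) : P) = ((b : ↥(⊤ : Subgroup P)) : P) * ((a : ↥(⊤ : Subgroup P)) : P) :=
        congrArg (fun z : A => (z : P)) (h1.is_comm.comm ⟨((a : ↥(⊤ : Subgroup P)) : P), a.2⟩ ⟨((b : ↥(⊤ : Subgroup P)) : P), b.2⟩)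
      exact h5))⟩⟩ (fun a ha => Subtype.ext (h2 a ha))
    rwa [show A.comap (⊤ : Subgroup P).subtype = A.subgroupOf ⊤ from rfl, Nat.card_congr (Subgroup.subgroupOfEquivOfLe le_top).toEquiv] at this))
  obtain ⟨U, hUn, hU, hUc⟩ := exists_U hP E0 hE0 hE0c
  have hD : ∀ E : Subgroup P, p ^ 2 < Nat.card E → p ^ 2 ≤ Nat.card ↥(E ⊓ Subgroup.centralizer (U : Set P)) := by
    intro E hE
    have h1 := index_le hP U hUn hUc E
    have h2 := card_ge hP hE
    have h3 : p ^ 2 * p ≤ Nat.card ↥(E ⊓ Subgroup.centralizer (U : Set P)) * p := by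
      rw [← pow_succ]; exact h2.trans h1
    exact Nat.le_of_mul_le_mul_right h3 hpp.pos
  have hsubEA : ∀ {A B : Subgroup P}, A ≤ B → IsElementaryAbelian p B → IsElementaryAbelian p A := fun hAB hB =>
    mk_ea (fun a ha b hb => comm_of hB a (hAB ha) b (hAB hb)) (fun a ha => hB.2 a (hAB ha))
  have hUself : U ≤ Subgroup.centralizer (U : Set P) := fun x hx => Subgroup.mem_centralizer_iff.2 fun y hy => comm_of hU y hy x hx
  have hUrank : ¬ PRankLE p 2 ↥(Subgroup.centralizer (U : Set P)) := by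
    obtain ⟨D, hDd⟩ : ∃ D, D = E0 ⊓ Subgroup.centralizer (U : Set P) := ⟨_, rfl⟩
    have hDE : D ≤ E0 := hDd ▸ inf_le_left
    have hDC : D ≤ Subgroup.centralizer (U : Set P) := hDd ▸ inf_le_right
    have hDc : p ^ 2 ≤ Nat.card D := hDd ▸ hD E0 hE0c
    have hDUc : ∀ a ∈ D, ∀ b ∈ U, a * b = b * a := fun a ha b hb => (Subgroup.mem_centralizer_iff.1 (hDC ha) b hb).symm
    by_cases hc : p ^ 2 < Nat.card ↥(D ⊔ U)
    · exact rank_of_exists (sup_le hDC hUself) (ea_sup (hsubEA hDE hE0) hU hDUc) hc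
    · have h1 : D = D ⊔ U := Subgroup.eq_of_le_of_card_ge le_sup_left (by omega)
      have h2 : U ≤ E0 := le_trans (by rw [h1]; exact le_sup_right) hDE
      refine rank_of_exists (E := E0) ?_ hE0 hE0c
      intro x hx
      rw [Subgroup.mem_centralizer_iff]
      intro y hy
      exact comm_of hE0 y (h2 hy) x hx
  refine ⟨U, hUn, hU, hUc, fun X hX hXc => ⟨fun hchain => ?_, fun hr => ?_⟩⟩
  · clear hX hXc
    induction hchain using Relation.ReflTransGen.head_induction_on with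
    | refl => exact hUrank
    | head h1 _ ih =>
      obtain ⟨hA, hAc, hB, hBc, hcomm⟩ := h1
      rename_i A B _
      intro hcon
      apply ih
      have hAself : A ≤ Subgroup.centralizer (A : Set P) := fun x hx => Subgroup.mem_centralizer_iff.2 fun y hy => comm_of hA y hy x hx
      have hBA : B ≤ Subgroup.centralizer (A : Set P) := fun x hx => Subgroup.mem_centralizer_iff.2 fun y hy => hcomm y hy x hx
      have hsupc : Nat.card ↥(A ⊔ B) ≤ p ^ 2 := by
        by_contra hlt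
        exact rank_of_exists (sup_le hAself hBA) (ea_sup hA hB hcomm) (by omega) hcon
      have h1 : A = A ⊔ B := Subgroup.eq_of_le_of_card_ge le_sup_left (by omega)
      have h2 : B = A ⊔ B := Subgroup.eq_of_le_of_card_ge le_sup_right (by omega)
      have h3 : A = B := h1.trans h2.symm
      rw [← h3]; exact hcon
  · obtain ⟨E, hEC, hE, hEc⟩ := exists_of_rank hr
    have hXE : ∀ a ∈ X, ∀ b ∈ E, a * b = b * a := fun a ha b hb => Subgroup.mem_centralizer_iff.1 (hEC hb) a ha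
    have hDc := hD E hEc
    have hDea : IsElementaryAbelian p (E ⊓ Subgroup.centralizer (U : Set P)) := hsubEA inf_le_left hE
    refine Relation.ReflTransGen.head ⟨hX, hXc, hE, hEc.le, hXE⟩ (Relation.ReflTransGen.head ⟨hE, hEc.le, hDea, hDc, fun a ha b hb => comm_of hE a ha b (Subgroup.mem_inf.1 hb).1⟩
      (Relation.ReflTransGen.single ⟨hDea, hDc, hU, hUc.ge, fun a ha b hb => (Subgroup.mem_centralizer_iff.1 (Subgroup.mem_inf.1 ha).2 b hb).symm⟩))

end Cfsg.Agent.S1337
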