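import Cfsg.Statements.S1386
import Mathlib
import Cfsg.Agent.H3.FH
import Cfsg.Agent.L0.Coprime

set_option autoImplicit false
open Cfsg

namespace Cfsg.Agent.S1386

/-- Let G be a finite group, W₁, W₂ subgroups forming a self-normalizing cyclic pair, S a subgroup with W₂ ≤ S and W₁ a complement to S' in S, and (W₁, U, W₂') type-P data for S. Then W₂' = W₂ (that is, C_{S'}(W₁) = W₂). -/
theorem result {G : Type*} [Group G] [Finite G] (W₁ W₂ S U W₂' : Subgroup G) (hW : Cfsg.IsSelfNormalizingCyclic W₁ W₂)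
    (hSW : Cfsg.IsComplIn ⁅S, S⁆ W₁ S) (hW₂S : W₂ ≤ S) (hP : Cfsg.IsTypePWith S W₁ U W₂') :
    W₂' = W₂ := by
  classical
  obtain ⟨hW1, hW2, hWd, hWc, hWcyc, hWn⟩ := hW
  obtain ⟨_, hW2', hWd', hWc', hWcyc', hWn'⟩ := hP.selfNormalizing
  have hn : (⁅S, S⁆.subgroupOf S).Normal := by
    constructor
    intro n hn g
    rw [Subgroup.mem_subgroupOf] at *
    simp only [Subgroup.coe_mul, Subgroup.coe_inv]
    have h1 : (g : G) * n * (g : G)⁻¹ * (n : G)⁻¹ ∈ ⁅S, S⁆ := Subgroup.commutator_mem_commutator g.2 n.2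
    have h2 := Subgroup.mul_mem _ h1 hn
    simpa using h2
  obtain ⟨x, hx, hx1⟩ := (Subgroup.ne_bot_iff_exists_ne_one).mp hW1 |> fun ⟨x, hx⟩ => (⟨(x : G), x.2, fun h => hx (Subtype.ext h)⟩ : ∃ x : G, x ∈ W₁ ∧ x ≠ 1)
  -- coprimality of |W₁| and |W₂|
  have hcop : (Nat.card W₁).Coprime (Nat.card W₂) := by
    rw [Nat.coprime_iff_gcd_eq_one]
    by_contra hne
    obtain ⟨p, hp, hpd⟩ := Nat.exists_prime_and_dvd hne
    have := Fact.mk hp
    obtain ⟨a, ha⟩ := exists_prime_orderOf_dvd_card' (G := W₁) p (hpd.trans (Nat.gcd_dvd_left _ _))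
    obtain ⟨b, hb⟩ := exists_prime_orderOf_dvd_card' (G := W₂) p (hpd.trans (Nat.gcd_dvd_right _ _))
    have := hWcyc
    let a' : ↥(W₁ ⊔ W₂) := ⟨a, Subgroup.mem_sup_left a.2⟩
    let b' : ↥(W₁ ⊔ W₂) := ⟨b, Subgroup.mem_sup_right b.2⟩
    have ha' : orderOf a' = p := by rw [Subgroup.orderOf_mk, Subgroup.orderOf_coe, ha]
    have hb' : orderOf b' = p := by rw [Subgroup.orderOf_mk, Subgroup.orderOf_coe, hb]
    have h1 : b' ∈ Subgroup.zpowers a' := Cfsg.Agent.H3.mem_zpowers_of_orderOf_dvd a' b' (by rw [ha', hb'])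
    obtain ⟨k, hk⟩ := h1
    have h2 : (b : G) = (a : G) ^ k := by
      have := congrArg Subtype.val hk
      exact this.symm
    have h3 : (b : G) ∈ W₁ ⊓ W₂ := ⟨by rw [h2]; exact W₁.zpow_mem a.2 k, b.2⟩
    rw [hWd, Subgroup.mem_bot] at h3
    have h4 : b = 1 := Subtype.ext h3
    rw [h4, orderOf_one] at hb
    exact hp.one_lt.ne hb
  have hcardS : Nat.card S = Nat.card ↥⁅S, S⁆ * Nat.card W₁ := Cfsg.Agent.H3.card_of_isComplIn hSW
  have hidx : (⁅S, S⁆.subgroupOf S).index = Nat.card W₁ := by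
    have h1 := Subgroup.index_mul_card (⁅S, S⁆.subgroupOf S)
    have h2 : Nat.card (⁅S, S⁆.subgroupOf S) = Nat.card ↥⁅S, S⁆ := Nat.card_congr (Subgroup.subgroupOfEquivOfLe hSW.1).toEquiv
    rw [h2, hcardS, mul_comm] at h1
    exact Nat.eq_of_mul_eq_mul_left Nat.card_pos h1
  -- W₂ ≤ S'
  have hW2S' : W₂ ≤ ⁅S, S⁆ := by
    intro w hw
    have h1 : orderOf ((⟨w, hW₂S hw⟩ : S) : S ⧸ ⁅S, S⁆.subgroupOf S) ∣ Nat.card W₁ := by
      rw [← hidx]; exact orderOf_dvd_natCard _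
    have h2 : orderOf ((⟨w, hW₂S hw⟩ : S) : S ⧸ ⁅S, S⁆.subgroupOf S) ∣ Nat.card W₂ := by
      have h3 := orderOf_map_dvd (QuotientGroup.mk' (⁅S, S⁆.subgroupOf S)) (⟨w, hW₂S hw⟩ : S)
      have h4 := orderOf_dvd_natCard (⟨w, hw⟩ : W₂)
      rw [Subgroup.orderOf_mk] at h3 h4
      exact h3.trans h4
    have h5 := Nat.eq_one_of_dvd_coprimes hcop h1 h2
    rw [orderOf_eq_one_iff, QuotientGroup.eq_one_iff] at h5
    exact h5
  have hcent := hP.W₂_centralizer x hx hx1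
  have hle : W₂ ≤ W₂' := by
    rw [← hcent]
    refine le_inf hW2S' ?_
    intro w hw
    rw [Subgroup.mem_centralizer_singleton_iff]
    exact (hWc x hx w hw).symm
  apply le_antisymm _ hle
  intro y hy
  obtain ⟨w, hw, hw1⟩ := (Subgroup.ne_bot_iff_exists_ne_one).mp hW2 |> fun ⟨x, hx⟩ => (⟨(x : G), x.2, fun h => hx (Subtype.ext h)⟩ : ∃ x : G, x ∈ W₂ ∧ x ≠ 1)
  have hWnx := hWn {x * w} (by
    rw [Set.singleton_subset_iff]
    refine ⟨Subgroup.mul_mem _ (Subgroup.mem_sup_left hx) (Subgroup.mem_sup_right hw), ?_⟩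
    rintro (h | h)
    · have h2 : w ∈ W₁ := by
        have := W₁.mul_mem (W₁.inv_mem hx) h
        simpa using this
      have : w ∈ W₁ ⊓ W₂ := ⟨h2, hw⟩
      rw [hWd, Subgroup.mem_bot] at this
      exact hw1 this
    · have h2 : x ∈ W₂ := by
        have := W₂.mul_mem h (W₂.inv_mem hw)
        simpa using this
      have : x ∈ W₁ ⊓ W₂ := ⟨hx, h2⟩
      rw [hWd, Subgroup.mem_bot] at this
      exact hx1 this) (Set.singleton_nonempty _)
  have hyx : x * y = y * x := hWc' x hx y hy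
  have hyw : w * y = y * w := by
    have := hWcyc'.isMulCommutative
    have h1 := this.is_comm.comm (⟨w, Subgroup.mem_sup_right (hle hw)⟩ : ↥(W₁ ⊔ W₂')) ⟨y, Subgroup.mem_sup_right hy⟩
    exact congrArg Subtype.val h1
  have hyN : y ∈ Subgroup.normalizer ({x * w} : Set G) := by
    rw [Subgroup.mem_set_normalizer_iff]
    intro n
    rw [Set.mem_singleton_iff, Set.mem_singleton_iff]
    have hc : y * (x * w) * y⁻¹ = x * w := by
      calc y * (x * w) * y⁻¹ = (y * x) * w * y⁻¹ := by group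
        _ = x * (y * w) * y⁻¹ := by rw [← hyx]; group
        _ = x * w := by rw [← hyw]; group
    constructor
    · rintro rfl; exact hc
    · intro h
      have : n = y⁻¹ * (y * n * y⁻¹) * y := by group
      rw [this, h]
      calc y⁻¹ * (x * w) * y = y⁻¹ * (y * (x * w) * y⁻¹) * y := by rw [hc]
        _ = x * w := by group
  rw [hWnx] at hyN
  have hWn1 : W₁ ≤ Subgroup.normalizer (W₂ : Set G) := by
    intro a ha
    rw [Subgroup.mem_normalizer_iff]
    intro n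
    constructor
    · intro hn
      rw [hWc a ha n hn]; simpa using hn
    · intro hn
      have h1 := hWc a ha _ hn
      have h2 : n = a * n * a⁻¹ := by
        calc n = a⁻¹ * (a * n * a⁻¹ * a) := by group
          _ = a⁻¹ * (a * (a * n * a⁻¹)) := by rw [h1]
          _ = _ := by group
      rw [h2]; exact hn
  rw [sup_comm, Cfsg.Agent.L0.mem_sup_of_normalizes' hWn1] at hyN
  obtain ⟨a, ha, b, hb, rfl⟩ := hyN
  have h1 : a ∈ ⁅S, S⁆ := by
    have h2 : a * b ∈ ⁅S, S⁆ := by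
      rw [← hcent] at hy; exact hy.1
    have h3 := Subgroup.mul_mem _ h2 (Subgroup.inv_mem _ (hW2S' hb))
    simpa using h3
  have h2 : a ∈ ⁅S, S⁆ ⊓ W₁ := ⟨h1, ha⟩
  rw [hSW.2.2.1, Subgroup.mem_bot] at h2
  rw [h2, one_mul]; exact hb

end Cfsg.Agent.S1386
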