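import Cfsg.Statements.S1387
import Mathlib
import Cfsg.Agent.H3.FH

set_option autoImplicit false
open Cfsg

namespace Cfsg.Agent.S1387

/-- Let M be a subgroup of a finite group G with type-P data (W₁, U, W₂) and H = M_F. Then the Fitting subgroup F(M) is generated by H and the centralizer of H in U. -/
theorem result {G : Type*} [Group G] [Finite G] (M W₁ U W₂ : Subgroup G) (hP : Cfsg.IsTypePWith M W₁ U W₂) :
    Cfsg.fittingOf M = Cfsg.fittingHallOf M ⊔ (U ⊓ Subgroup.centralizer (Cfsg.fittingHallOf M : Set G)) := by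
  apply le_antisymm
  · intro x hx
    obtain ⟨_, _, hd, hf⟩ := hP.U_compl
    obtain ⟨h, hh, u, hu, rfl⟩ := hf x (hP.fitting_le hx)
    have hhF : h ∈ fittingOf M := by
      rw [← hP.fitting_eq]; exact Subgroup.mem_sup_left hh
    have huF : u ∈ fittingOf M := by
      have := Subgroup.mul_mem _ (Subgroup.inv_mem _ hhF) hx
      simpa using this
    have huc := Cfsg.Agent.H3.commute_fittingHallOf huF (by
      intro k hk
      have : u ^ k ∈ fittingHallOf M ⊓ U := ⟨hk, U.pow_mem hu k⟩
      rw [hd] at this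
      exact Subgroup.mem_bot.mp this)
    exact Subgroup.mul_mem _ (Subgroup.mem_sup_left hh) (Subgroup.mem_sup_right ⟨hu, huc⟩)
  · rw [← hP.fitting_eq]
    refine sup_le_sup le_rfl (inf_le_inf ?_ le_rfl)
    exact hP.U_compl.2.1.trans (hP.W₁_compl.1)

end Cfsg.Agent.S1387
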