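import Cfsg.Statements.S1388
import Mathlib
import Cfsg.Agent.H3.FH

set_option autoImplicit false
open Cfsg

namespace Cfsg.Agent.S1388

/-- Let M be a subgroup of a finite group G with type-P data (W₁, U, W₂) and H = M_F. Then the derived subgroup of U centralizes H, and if U ≠ 1 then U does not centralize H. -/
theorem result {G : Type*} [Group G] [Finite G] (M W₁ U W₂ : Subgroup G) (hP : Cfsg.IsTypePWith M W₁ U W₂) :
    ⁅U, U⁆ ≤ Subgroup.centralizer (Cfsg.fittingHallOf M : Set G) ∧ (U ≠ ⊥ → ¬ U ≤ Subgroup.centralizer (Cfsg.fittingHallOf M : Set G)) := by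
  classical
  constructor
  · intro x hx
    have hxU : x ∈ U := (Subgroup.commutator_le_self U) hx
    have hxF : x ∈ fittingOf M := by
      rw [← hP.fitting_eq]
      apply hP.derived_two_le
      exact Subgroup.commutator_mono hP.U_compl.2.1 hP.U_compl.2.1 hx
    apply Cfsg.Agent.H3.commute_fittingHallOf hxF
    intro k hk
    have : x ^ k ∈ fittingHallOf M ⊓ U := ⟨hk, U.pow_mem hxU k⟩
    rw [hP.U_compl.2.2.1] at this
    exact Subgroup.mem_bot.mp this
  · intro hU hUC
    apply hU
    set D : Subgroup G := ⁅M, M⁆ with hD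
    have hHD : fittingHallOf M ≤ D := hP.U_compl.1
    have hUD : U ≤ D := hP.U_compl.2.1
    have hDM : D ≤ M := hP.W₁_compl.1
    -- D is nilpotent
    have hcomm : ∀ h ∈ fittingHallOf M, ∀ u ∈ U, h * u = u * h := fun h hh u hu =>
      Subgroup.mem_centralizer_iff.mp (hUC hu) h hh
    have hHn : ((fittingHallOf M).subgroupOf D).Normal := by
      constructor
      intro n hn g
      rw [Subgroup.mem_subgroupOf] at *
      obtain ⟨h', hh', hh2⟩ := hn
      have := Subgroup.Normal.conj_mem (inferInstance : (fittingHall M).Normal) h' hh' ⟨(g : G), hDM g.2⟩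
      refine ⟨_, this, ?_⟩
      simp only [Subgroup.coe_subtype, Subgroup.coe_mul, Subgroup.coe_inv]
      rw [← hh2]; rfl
    have hUn : (U.subgroupOf D).Normal := by
      constructor
      intro n hn g
      rw [Subgroup.mem_subgroupOf] at *
      obtain ⟨h, hh, u, hu, hg⟩ := hP.U_compl.2.2.2 (g : G) g.2
      simp only [Subgroup.coe_mul, Subgroup.coe_inv]
      rw [hg]
      have h1 : u * (n : G) * u⁻¹ ∈ U := U.mul_mem (U.mul_mem hu hn) (U.inv_mem hu)
      have h2 : h * u * (n : G) * (h * u)⁻¹ = u * n * u⁻¹ := by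
        calc h * u * (n : G) * (h * u)⁻¹ = h * (u * n * u⁻¹) * h⁻¹ := by group
          _ = (u * n * u⁻¹) * h * h⁻¹ := by rw [hcomm h hh _ h1]
          _ = _ := by group
      rw [h2]; exact h1
    have hsup : (fittingHallOf M).subgroupOf D ⊔ U.subgroupOf D = ⊤ := by
      rw [← top_le_iff]
      rintro ⟨g, hg⟩ _
      obtain ⟨h, hh, u, hu, hgu⟩ := hP.U_compl.2.2.2 g hg
      have : (⟨g, hg⟩ : D) = ⟨h, hHD hh⟩ * ⟨u, hUD hu⟩ := Subtype.ext hgu
      rw [this]
      exact Subgroup.mul_mem _ (Subgroup.mem_sup_left hh) (Subgroup.mem_sup_right hu)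
    have hHnil : Group.IsNilpotent (fittingHallOf M) := by
      have := (Cfsg.Agent.H3.fittingHall_spec M).1
      exact Group.nilpotent_of_surjective ((fittingHall M).equivMapOfInjective M.subtype M.subtype_injective).toMonoidHom
        ((fittingHall M).equivMapOfInjective M.subtype M.subtype_injective).surjective
    have hnil : Group.IsNilpotent D := by
      have h1 : Group.IsNilpotent ((fittingHallOf M).subgroupOf D) := Cfsg.Agent.L0.isNilpotent_subgroupOf hHnil D
      have h2 : Group.IsNilpotent (U.subgroupOf D) := Cfsg.Agent.L0.isNilpotent_subgroupOf hP.U_nilpotent D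
      have h3 := Cfsg.Agent.L0.isNilpotent_sup_of_normal _ _ h1 h2
      rw [hsup] at h3
      exact Group.nilpotent_of_surjective (Subgroup.topEquiv (G := D)).toMonoidHom (Subgroup.topEquiv (G := D)).surjective
    -- D is a normal nilpotent Hall subgroup of M
    have hDn : (D.subgroupOf M).Normal := by
      constructor
      intro n hn g
      rw [Subgroup.mem_subgroupOf] at *
      simp only [Subgroup.coe_mul, Subgroup.coe_inv]
      have h1 : (g : G) * n * (g : G)⁻¹ * (n : G)⁻¹ ∈ D := Subgroup.commutator_mem_commutator g.2 n.2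
      have h2 := D.mul_mem h1 hn
      simpa using h2
    have hcardM : Nat.card M = Nat.card D * Nat.card W₁ := Cfsg.Agent.H3.card_of_isComplIn hP.W₁_compl
    have hcardD : Nat.card (D.subgroupOf M) = Nat.card D := Nat.card_congr (Subgroup.subgroupOfEquivOfLe hDM).toEquiv
    have hidx : (D.subgroupOf M).index = Nat.card W₁ := by
      have h1 := Subgroup.index_mul_card (D.subgroupOf M)
      rw [hcardD, hcardM, mul_comm] at h1
      exact Nat.eq_of_mul_eq_mul_left Nat.card_pos h1
    have hidx2 : W₁.relIndex M = Nat.card D := by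
      have h1 := Cfsg.Agent.H3.relIndex_mul_card hP.W₁_compl.2.1
      rw [hcardM] at h1
      exact Nat.eq_of_mul_eq_mul_right Nat.card_pos h1
    have hle : D.subgroupOf M ≤ fittingHall M := by
      apply Cfsg.Agent.H3.le_fittingHall _ hDn (Cfsg.Agent.L0.isNilpotent_subgroupOf hnil M)
      rw [hcardD, hidx, ← hidx2]
      exact hP.W₁_hall.symm
    rw [eq_bot_iff, ← hP.U_compl.2.2.1]
    refine le_inf ?_ le_rfl
    intro u hu
    exact ⟨⟨u, hDM (hUD hu)⟩, hle (show (⟨u, hDM (hUD hu)⟩ : M) ∈ D.subgroupOf M from hUD hu), rfl⟩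

end Cfsg.Agent.S1388
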