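import Cfsg.Statements.S1441
import Mathlib
import Cfsg.Agent.L0.Coprime

set_option autoImplicit false
open Cfsg

namespace Cfsg.Agent.S1441

/-- Let G be a finite group, H a solvable subgroup and A a subgroup normalizing H. Suppose there is a chain H = H₀ ≥ H₁ ≥ ⋯ ≥ H_n = 1 of subgroups normal in H and normalized by A such that A acts trivially on each factor H_{i-1}/H_i (that is, [H_{i-1}, A] ≤ H_i). Then every prime dividing the index of C_A(H) in A divides the order of H. -/
theorem result {G : Type*} [Group G] [Finite G] (H A : Subgroup G) (hH : Group.IsSolvable H) (hA : (A ≤ Subgroup.normalizer (H : Set G)))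
    (n : ℕ) (c : Fin (n + 1) → Subgroup G) (hc0 : c 0 = H) (hcn : c (Fin.last n) = ⊥) (hanti : Antitone c)
    (hcN : ∀ i, H ≤ Subgroup.normalizer ((c i : Subgroup G) : Set G)) (hcA : ∀ i, A ≤ Subgroup.normalizer ((c i : Subgroup G) : Set G))
    (htriv : ∀ i : Fin n, ⁅c i.castSucc, A⁆ ≤ c i.succ) :
    ∀ p : ℕ, p.Prime → p ∣ (A ⊓ Subgroup.centralizer (H : Set G)).relIndex A → p ∣ Nat.card H := by
  classical
  intro p hp hpd
  have := Fact.mk hp
  by_contra hpH
  have hci : ∀ i, c i ≤ H := fun i => by rw [← hc0]; exact hanti (Fin.zero_le i)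
  obtain ⟨P⟩ : Nonempty (Sylow p A) := inferInstance
  let P' : Subgroup G := (P : Subgroup A).map A.subtype
  have hP'A : P' ≤ A := Subgroup.map_subtype_le _
  have hP'p : IsPGroup p P' := P.2.map _
  have hcop : (Nat.card P').Coprime (Nat.card H) := by
    obtain ⟨k, hk⟩ := hP'p.exists_card_eq
    rw [hk]
    exact Nat.Coprime.pow_left _ ((Nat.Prime.coprime_iff_not_dvd hp).mpr hpH)
  have hcc := Cfsg.Agent.L0.commutator_commutator_eq (A := P') (N := H) (hP'A.trans hA) hcop (Or.inr hH)
  have hle : ∀ j : ℕ, ∀ hj : j < n + 1, ⁅H, P'⁆ ≤ c ⟨j, hj⟩ := by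
    intro j
    induction j with
    | zero =>
      intro hj
      have : c ⟨0, hj⟩ = H := hc0
      rw [this]
      exact Cfsg.Agent.L0.commutator_le_of_normalizes (hP'A.trans hA)
    | succ j ih =>
      intro hj
      have h1 := ih (by omega)
      have h2 := htriv ⟨j, by omega⟩
      rw [← hcc]
      exact (Subgroup.commutator_mono h1 hP'A).trans h2
  have hbot : ⁅H, P'⁆ = ⊥ := by
    rw [eq_bot_iff, ← hcn]
    exact hle n (by omega)
  have hPC : P' ≤ Subgroup.centralizer (H : Set G) := by
    rw [Subgroup.le_centralizer_iff, ← Subgroup.commutator_eq_bot_iff_le_centralizer]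
    exact hbot
  have h1 : (P : Subgroup A) ≤ (A ⊓ Subgroup.centralizer (H : Set G)).subgroupOf A := by
    intro x hx
    rw [Subgroup.mem_subgroupOf]
    exact ⟨x.2, hPC (Subgroup.mem_map_of_mem _ hx)⟩
  exact P.not_dvd_index (hpd.trans (Subgroup.index_dvd_of_le h1))

end Cfsg.Agent.S1441
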