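import Cfsg.Statements.S1442
import Mathlib
import Cfsg.Agent.L0.Coprime
import Cfsg.Agent.H1.Basic

set_option autoImplicit false
open Cfsg

namespace Cfsg.Agent.S1442

open scoped commutatorElement

/-- Let G be a finite group, H a nilpotent subgroup and A a subgroup normalizing H with the orders of A and H coprime. Put C = H ∩ C_G(A). If H ∩ C_G(C) ≤ C then A centralizes H. -/
theorem result {G : Type*} [Group G] [Finite G] (H A : Subgroup G) (hH : Group.IsNilpotent H) (hA : (A ≤ Subgroup.normalizer (H : Set G))) (hcop : (Nat.card A).Coprime (Nat.card H))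
    (hC : H ⊓ Subgroup.centralizer (((H ⊓ Subgroup.centralizer (A : Set G)) : Subgroup G) : Set G) ≤ (H ⊓ Subgroup.centralizer (A : Set G))) :
    A ≤ Subgroup.centralizer (H : Set G) := by
  classical
  set C := H ⊓ Subgroup.centralizer (A : Set G) with hCdef
  have hCH : C ≤ H := inf_le_left
  by_cases hCeq : C = H
  · rw [Subgroup.le_centralizer_iff]
    rw [← hCeq]; exact inf_le_right
  exfalso
  have hlt : C < H := lt_of_le_of_ne hCH hCeq
  have hlt2 := Cfsg.Agent.H1.lt_normalizer_inf_of_lt hH hlt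
  set N := H ⊓ Subgroup.normalizer (C : Set G) with hN
  have hAN : A ≤ Subgroup.normalizer (N : Set G) := by
    have key : ∀ a ∈ A, ∀ n ∈ N, a * n * a⁻¹ ∈ N := by
      intro a ha n hn
      refine ⟨(Subgroup.mem_normalizer_iff.mp (hA ha) n).mp hn.1, ?_⟩
      have hac : ∀ c ∈ C, a * c = c * a := fun c hc => Subgroup.mem_centralizer_iff.mp hc.2 a ha
      apply Cfsg.Agent.H1.mem_normalizer_of_conj_mem
      intro c hc
      have h1 : a⁻¹ * c * a = c := by rw [mul_assoc, ← hac c hc]; group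
      have h2 : n * c * n⁻¹ ∈ C := (Subgroup.mem_normalizer_iff.mp hn.2 c).mp hc
      have h3 : a * n * a⁻¹ * c * (a * n * a⁻¹)⁻¹ = a * (n * (a⁻¹ * c * a) * n⁻¹) * a⁻¹ := by group
      rw [h3, h1, hac _ h2, mul_inv_cancel_right]
      exact h2
    intro a ha
    exact Cfsg.Agent.H1.mem_normalizer_of_conj_mem (key a ha)
  have hNnil : Group.IsNilpotent N := Cfsg.Agent.L0.isNilpotent_of_le hH inf_le_left
  have hNsol : Group.IsSolvable N := inferInstance
  have hcopN : (Nat.card A).Coprime (Nat.card N) := Nat.Coprime.coprime_dvd_right (Subgroup.card_dvd_of_le inf_le_left) hcop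
  have hNA : ⁅N, A⁆ ≤ C := by
    refine le_trans ?_ hC
    refine le_inf ((Cfsg.Agent.L0.commutator_le_of_normalizes hAN).trans inf_le_left) ?_
    rw [Subgroup.commutator_le]
    intro n hn a ha
    rw [Subgroup.mem_centralizer_iff]
    intro c hc
    have hac : ∀ c ∈ C, a * c = c * a := fun c hc => Subgroup.mem_centralizer_iff.mp hc.2 a ha
    have hac' : ∀ c ∈ C, a⁻¹ * c = c * a⁻¹ := fun c hc => by
      calc a⁻¹ * c = a⁻¹ * (c * a) * a⁻¹ := by group
        _ = a⁻¹ * (a * c) * a⁻¹ := by rw [hac c hc]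
        _ = c * a⁻¹ := by group
    have hnc : n⁻¹ * c * n ∈ C := by
      have := (Subgroup.mem_normalizer_iff.mp ((Subgroup.normalizer (C : Set G)).inv_mem hn.2) c).mp hc
      simpa using this
    symm
    rw [commutatorElement_def]
    calc n * a * n⁻¹ * a⁻¹ * c = n * a * n⁻¹ * (a⁻¹ * c) := by group
      _ = n * a * n⁻¹ * (c * a⁻¹) := by rw [hac' c hc]
      _ = n * (a * (n⁻¹ * c * n)) * n⁻¹ * a⁻¹ := by group
      _ = n * ((n⁻¹ * c * n) * a) * n⁻¹ * a⁻¹ := by rw [hac _ hnc]
      _ = c * (n * a * n⁻¹ * a⁻¹) := by group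
  have hbot : ⁅N, A⁆ = ⊥ := by
    apply Cfsg.Agent.L0.commutator_eq_bot_of_series hAN hcopN (Or.inr hNsol) hNA
    rw [Subgroup.commutator_eq_bot_iff_le_centralizer]
    exact inf_le_right
  have hNC : N ≤ C := by
    refine le_inf inf_le_left ?_
    rw [← Subgroup.commutator_eq_bot_iff_le_centralizer]
    exact hbot
  rw [inf_comm] at hlt2
  exact absurd hNC (not_le_of_gt hlt2)

end Cfsg.Agent.S1442
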