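import Cfsg.Statements.S1459
import Mathlib
import Cfsg.Agent.L0.Coprime2
import Cfsg.Agent.H3.FH

set_option autoImplicit false
open Cfsg

namespace Cfsg.Agent.S1459

open scoped commutatorElement

theorem part1 {G : Type*} [Group G] [Finite G] [Group.IsSolvable G] (H K : Subgroup G) [hHn : H.Normal]
    (hcop : (Nat.card H).Coprime H.index) (hK : Subgroup.IsComplement' H K) (hle : H ≤ commutator G) :
    H = ⁅H, K⁆ ∧ H ⊓ Subgroup.centralizer (K : Set G) ≤ ⁅H, H⁆ := by
  classical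
  have hsup : H ⊔ K = ⊤ := hK.sup_eq_top
  have hdis : H ⊓ K = ⊥ := hK.disjoint.eq_bot
  have hfac : ∀ g : G, ∃ h ∈ H, ∃ k ∈ K, h * k = g := by
    intro g
    have : g ∈ H ⊔ K := by rw [hsup]; trivial
    rwa [Subgroup.mem_sup_of_normal_left] at this
  have hHKH : ⁅H, K⁆ ≤ H := Subgroup.commutator_le_left H K
  have hHHH : ⁅H, H⁆ ≤ H := Subgroup.commutator_le_left H H
  have hLn : (⁅H, K⁆ : Subgroup G).Normal := by
    rw [← Subgroup.normalizer_eq_top_iff, ← top_le_iff, ← hsup]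
    exact sup_le (Subgroup.normalizer_commutator_ge_left H K) (Subgroup.normalizer_commutator_ge_right H K)
  have hN'n : (⁅H, H⁆ : Subgroup G).Normal := inferInstance
  set N := ⁅H, K⁆ ⊔ ⁅H, H⁆ with hNdef
  have hNn : N.Normal := inferInstance
  have hNH : N ≤ H := sup_le hHKH hHHH
  -- elements of H are central modulo N
  have hcen : ∀ h ∈ H, ∀ g : G, (h : G ⧸ N) * (g : G ⧸ N) = (g : G ⧸ N) * (h : G ⧸ N) := by
    intro h hh g
    obtain ⟨a, ha, k, hk, rfl⟩ := hfac g
    have e1 : (h : G ⧸ N) * (a : G ⧸ N) = (a : G ⧸ N) * (h : G ⧸ N) := by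
      have : ⁅h, a⁆ ∈ N := (le_sup_right : ⁅H, H⁆ ≤ N) (Subgroup.commutator_mem_commutator hh ha)
      rw [← QuotientGroup.eq_one_iff] at this
      have h2 : (h : G ⧸ N) * (a : G ⧸ N) * (h : G ⧸ N)⁻¹ * (a : G ⧸ N)⁻¹ = 1 := this
      rw [mul_inv_eq_one, mul_inv_eq_iff_eq_mul] at h2
      exact h2
    have e2 : (h : G ⧸ N) * (k : G ⧸ N) = (k : G ⧸ N) * (h : G ⧸ N) := by
      have : ⁅h, k⁆ ∈ N := (le_sup_left : ⁅H, K⁆ ≤ N) (Subgroup.commutator_mem_commutator hh hk)
      rw [← QuotientGroup.eq_one_iff] at this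
      have h2 : (h : G ⧸ N) * (k : G ⧸ N) * (h : G ⧸ N)⁻¹ * (k : G ⧸ N)⁻¹ = 1 := this
      rw [mul_inv_eq_one, mul_inv_eq_iff_eq_mul] at h2
      exact h2
    rw [QuotientGroup.mk_mul]
    calc (h : G ⧸ N) * ((a : G ⧸ N) * (k : G ⧸ N)) = ((h : G ⧸ N) * a) * k := by group
      _ = (a : G ⧸ N) * ((h : G ⧸ N) * k) := by rw [e1]; group
      _ = (a : G ⧸ N) * k * h := by rw [e2]; group
  have hG'le : commutator G ≤ N ⊔ K := by
    rw [commutator_def, Subgroup.commutator_le]
    intro x _ y _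
    obtain ⟨a, ha, k, hk, rfl⟩ := hfac x
    obtain ⟨b, hb, l, hl, rfl⟩ := hfac y
    have h1 : ((⁅a * k, b * l⁆ * ⁅k, l⁆⁻¹ : G) : G ⧸ N) = 1 := by
      have e1 := hcen a ha
      have e2 := hcen b hb
      simp only [commutatorElement_def, QuotientGroup.mk_mul, QuotientGroup.mk_inv, mul_inv_rev, inv_inv]
      have c1 : ∀ g : G, Commute (a : G ⧸ N) (g : G ⧸ N) := e1
      have c2 : ∀ g : G, Commute (b : G ⧸ N) (g : G ⧸ N) := e2
      generalize hA : (a : G ⧸ N) = A at *
      generalize hB : (b : G ⧸ N) = B at *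
      have hk1 := c1 k
      have hl1 := c1 l
      have hk2 := c2 k
      have hl2 := c2 l
      have hab : Commute A B := by
        have := c1 b
        rwa [hB] at this
      generalize (k : G ⧸ N) = k' at *
      generalize (l : G ⧸ N) = l' at *
      -- A, B central w.r.t. k', l'
      have s1 : A * k' * (B * l') * (k'⁻¹ * A⁻¹) * (l'⁻¹ * B⁻¹) = k' * l' * k'⁻¹ * l'⁻¹ := by
        calc A * k' * (B * l') * (k'⁻¹ * A⁻¹) * (l'⁻¹ * B⁻¹)
            = k' * A * (B * l') * (A⁻¹ * k'⁻¹) * (l'⁻¹ * B⁻¹) := by rw [hk1.eq, (hk1.inv_inv).eq]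
          _ = k' * (A * B) * l' * A⁻¹ * k'⁻¹ * (l'⁻¹ * B⁻¹) := by group
          _ = k' * (B * A) * l' * A⁻¹ * k'⁻¹ * (l'⁻¹ * B⁻¹) := by rw [hab.eq]
          _ = k' * B * (A * l') * A⁻¹ * k'⁻¹ * (l'⁻¹ * B⁻¹) := by group
          _ = k' * B * (l' * A) * A⁻¹ * k'⁻¹ * (l'⁻¹ * B⁻¹) := by rw [hl1.eq]
          _ = k' * (B * l') * k'⁻¹ * l'⁻¹ * B⁻¹ := by group
          _ = k' * (l' * B) * k'⁻¹ * l'⁻¹ * B⁻¹ := by rw [hl2.eq]
          _ = k' * l' * (B * k'⁻¹) * l'⁻¹ * B⁻¹ := by group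
          _ = k' * l' * (k'⁻¹ * B) * l'⁻¹ * B⁻¹ := by rw [(hk2.inv_right).eq]
          _ = k' * l' * k'⁻¹ * (B * l'⁻¹) * B⁻¹ := by group
          _ = k' * l' * k'⁻¹ * (l'⁻¹ * B) * B⁻¹ := by rw [(hl2.inv_right).eq]
          _ = _ := by group
      calc A * k' * (B * l') * (k'⁻¹ * A⁻¹) * (l'⁻¹ * B⁻¹) * (l' * (k' * (l'⁻¹ * k'⁻¹)))
          = (k' * l' * k'⁻¹ * l'⁻¹) * (l' * (k' * (l'⁻¹ * k'⁻¹))) := by rw [s1]
        _ = 1 := by group
    rw [QuotientGroup.eq_one_iff] at h1
    have h2 : ⁅a * k, b * l⁆ = (⁅a * k, b * l⁆ * ⁅k, l⁆⁻¹) * ⁅k, l⁆ := by group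
    rw [h2]
    exact Subgroup.mul_mem _ (Subgroup.mem_sup_left h1) (Subgroup.mem_sup_right
      (Subgroup.commutator_le_self K (Subgroup.commutator_mem_commutator hk hl)))
  have hHN : H ≤ N := by
    intro h hh
    have h1 := hG'le (hle hh)
    rw [Subgroup.mem_sup_of_normal_left] at h1
    obtain ⟨n, hn, k, hk, hnk⟩ := h1
    have h2 : k ∈ H ⊓ K := ⟨by
      have : k = n⁻¹ * h := by rw [← hnk]; group
      rw [this]
      exact H.mul_mem (H.inv_mem (hNH hn)) hh, hk⟩
    rw [hdis, Subgroup.mem_bot] at h2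
    rw [← hnk, h2, mul_one]; exact hn
  have hHeq : H = ⁅H, K⁆ ⊔ ⁅H, H⁆ := le_antisymm hHN hNH
  have hmain : H = ⁅H, K⁆ := by
    apply le_antisymm _ hHKH
    -- H / [H,K] is perfect and solvable
    have hsolv : Group.IsSolvable H := inferInstance
    have hLHn : (⁅H, K⁆.subgroupOf H).Normal := inferInstance
    by_contra hcon
    have hnt : Nontrivial (H ⧸ ⁅H, K⁆.subgroupOf H) := by
      rw [QuotientGroup.nontrivial_iff]
      intro h
      rw [Subgroup.subgroupOf_eq_top] at h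
      exact hcon h
    have hsolvQ : Group.IsSolvable (H ⧸ ⁅H, K⁆.subgroupOf H) := inferInstance
    have hlt := Group.IsSolvable.commutator_lt_top_of_nontrivial (G := H ⧸ ⁅H, K⁆.subgroupOf H)
    apply hlt.ne
    rw [← top_le_iff]
    intro q _
    obtain ⟨⟨h, hh⟩, rfl⟩ := QuotientGroup.mk_surjective q
    have h1 := hHN hh
    rw [hNdef, Subgroup.mem_sup_of_normal_left] at h1
    obtain ⟨l, hl, d, hd, hld⟩ := h1
    have e1 : (⟨h, hh⟩ : H) = ⟨l, hHKH hl⟩ * ⟨d, hHHH hd⟩ := Subtype.ext hld.symm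
    have e2 : ((⟨l, hHKH hl⟩ : H) : H ⧸ ⁅H, K⁆.subgroupOf H) = 1 := by
      rw [QuotientGroup.eq_one_iff]; exact hl
    rw [e1, QuotientGroup.mk_mul, e2, one_mul]
    have e3 : (⟨d, hHHH hd⟩ : H) ∈ commutator H := by
      rw [← Subgroup.map_subtype_commutator] at hd
      obtain ⟨d', hd', hdd⟩ := hd
      have : d' = ⟨d, hHHH (by rw [← Subgroup.map_subtype_commutator]; exact ⟨d', hd', hdd⟩)⟩ := Subtype.ext hdd
      rw [← this]; exact hd'
    have e4 : (commutator H).map (QuotientGroup.mk' (⁅H, K⁆.subgroupOf H)) ≤ commutator (H ⧸ ⁅H, K⁆.subgroupOf H) := by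
      rw [commutator_def, commutator_def, Subgroup.map_commutator]
      exact Subgroup.commutator_mono le_top le_top
    exact e4 (Subgroup.mem_map_of_mem _ e3)
  refine ⟨hmain, ?_⟩
  rintro c ⟨hcH, hcK⟩
  set π := QuotientGroup.mk' (⁅H, H⁆ : Subgroup G)
  have hcopHK : (Nat.card K).Coprime (Nat.card H) := by
    have : Nat.card K = H.index := hK.symm.index_eq_card.symm
    rw [this]; exact hcop.symm
  have h1 := Cfsg.Agent.L0.centralizer_inf_commutator_of_abelian (A := K.map π) (N := H.map π) (by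
      have : (H.map π).Normal := hHn.map _ (QuotientGroup.mk'_surjective _)
      rw [Subgroup.normalizer_eq_top]; exact le_top)
    (Nat.Coprime.coprime_dvd_left (Subgroup.card_map_dvd _ _) (Nat.Coprime.coprime_dvd_right (Subgroup.card_map_dvd _ _) hcopHK))
    (by
      rintro _ ⟨a, ha, rfl⟩ _ ⟨b, hb, rfl⟩
      have : ⁅a, b⁆ ∈ ⁅H, H⁆ := Subgroup.commutator_mem_commutator ha hb
      have h2 : π ⁅a, b⁆ = 1 := (QuotientGroup.eq_one_iff _).mpr this
      rw [map_commutatorElement, commutatorElement_eq_one_iff_mul_comm] at h2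
      exact h2)
  have h2 : π c ∈ (H.map π ⊓ Subgroup.centralizer (K.map π : Set (G ⧸ ⁅H, H⁆))) ⊓ ⁅H.map π, K.map π⁆ := by
    refine ⟨⟨Subgroup.mem_map_of_mem _ hcH, ?_⟩, ?_⟩
    · refine Subgroup.mem_centralizer_iff.mpr ?_
      rintro _ ⟨k, hk, rfl⟩
      rw [← map_mul, ← map_mul, Subgroup.mem_centralizer_iff.mp hcK k hk]
    · rw [← Subgroup.map_commutator, ← hmain]
      exact Subgroup.mem_map_of_mem _ hcH
  rw [h1, Subgroup.mem_bot] at h2
  exact (QuotientGroup.eq_one_iff _).mp h2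

/-- Let G be a finite solvable group. (a) If H is a normal subgroup of order coprime to its index, K is a complement to H, and H ≤ G', then H = [H, K] and H ∩ C_G(K) ≤ [H, H]. (b) If G' is nilpotent and has prime index in G, then the order of G' is coprime to its index and G' = [G, K] (the subgroup generated by commutators of elements of G with elements of K) for every complement K of G'. -/
theorem result {G : Type*} [Group G] [Finite G] [Group.IsSolvable G] :
    (∀ (H K : Subgroup G), H.Normal → (Nat.card H).Coprime H.index → Subgroup.IsComplement' H K → H ≤ commutator G →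
        H = ⁅H, K⁆ ∧ H ⊓ Subgroup.centralizer (K : Set G) ≤ ⁅H, H⁆) ∧
      (Group.IsNilpotent ↥(commutator G) → (commutator G).index.Prime →
        (Nat.card ↥(commutator G)).Coprime (commutator G).index ∧
        ∀ K : Subgroup G, Subgroup.IsComplement' (commutator G) K → commutator G = ⁅(⊤ : Subgroup G), K⁆) := by
  classical
  refine ⟨fun H K hHn hcop hK hle => part1 H K hcop hK hle, ?_⟩
  intro hnil hpr
  set p := (commutator G).index with hp
  have := Fact.mk hpr
  set N := commutator G with hN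
  let M' : Subgroup N := Cfsg.pPrimeCore p N
  have hM'c : M'.Characteristic := inferInstance
  let M : Subgroup G := M'.map N.subtype
  have hMn : M.Normal := Cfsg.Agent.L0.normal_map_subtype_of_characteristic M'
  have hMN : M ≤ N := Subgroup.map_subtype_le _
  -- G / M is a p-group
  have hidxM' : ∀ q : ℕ, q.Prime → q ∣ M'.index → q = p := by
    intro q hq hqd
    by_contra hqp
    have := Fact.mk hq
    have h1 : Cfsg.pCore q N ≤ M' := by
      apply Cfsg.Agent.L0.le_pPrimeCore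
      obtain ⟨k, hk⟩ := (Cfsg.Agent.L0.pCore_isPGroup q N).exists_card_eq
      rw [hk]
      exact Nat.Coprime.pow_left _ ((Nat.coprime_primes hq hpr).mpr hqp)
    exact Cfsg.Agent.L0.not_dvd_index_pCore_of_nilpotent (p := q) hnil (hqd.trans (Subgroup.index_dvd_of_le h1))
  have hidxM : M.index = M'.index * p := by
    rw [hp]; exact Subgroup.index_map_subtype M'
  have hPG : IsPGroup p (G ⧸ M) := by
    apply IsPGroup.of_card (n := (Nat.card (G ⧸ M)).primeFactorsList.length)
    have h1 : ∀ q : ℕ, q.Prime → q ∣ Nat.card (G ⧸ M) → q = p := by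
      intro q hq hqd
      have h2 : q ∣ M'.index * p := by rw [← hidxM]; exact hqd
      rcases (Nat.Prime.dvd_mul hq).mp h2 with h3 | h3
      · exact hidxM' q hq h3
      · exact (Nat.prime_dvd_prime_iff_eq hq hpr).mp h3
    exact Nat.eq_prime_pow_of_unique_prime_dvd Nat.card_pos.ne' (fun hd hdd => h1 _ hd hdd)
  have hnilQ : Group.IsNilpotent (G ⧸ M) := hPG.isNilpotent
  have hcommQ : commutator (G ⧸ M) = N.map (QuotientGroup.mk' M) := by
    rw [hN, commutator_def, commutator_def, Subgroup.map_commutator,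
      Subgroup.map_top_of_surjective _ (QuotientGroup.mk'_surjective M)]
  -- G/M is cyclic
  obtain ⟨x, hx⟩ : ∃ x : G, x ∉ N := by
    by_contra hcon
    push Not at hcon
    have : N = ⊤ := by rw [← top_le_iff]; intro y _; exact hcon y
    rw [this, Subgroup.index_top] at hp
    exact hpr.one_lt.ne hp.symm
  have hxN : Subgroup.zpowers x ⊔ N = ⊤ := by
    have h1 : (Subgroup.zpowers x ⊔ N).index ∣ p := Subgroup.index_dvd_of_le le_sup_right
    rcases (Nat.dvd_prime hpr).mp h1 with h2 | h2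
    · exact Subgroup.index_eq_one.mp h2
    · exfalso
      apply hx
      have h3 : N = Subgroup.zpowers x ⊔ N := by
        apply Subgroup.eq_of_le_of_card_ge le_sup_right
        have e1 := Subgroup.index_mul_card N
        have e2 := Subgroup.index_mul_card (Subgroup.zpowers x ⊔ N)
        rw [h2] at e2
        rw [← hp] at e1
        exact (Nat.eq_of_mul_eq_mul_left hpr.pos (e2.trans e1.symm)).le
      rw [h3]
      exact Subgroup.mem_sup_left (Subgroup.mem_zpowers x)
  have hcyc : Subgroup.zpowers (x : G ⧸ M) = ⊤ := by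
    apply Cfsg.Agent.L0.eq_top_of_sup_commutator_eq_top hnilQ
    rw [hcommQ]
    have h1 : Subgroup.zpowers (x : G ⧸ M) = (Subgroup.zpowers x).map (QuotientGroup.mk' M) := by
      rw [MonoidHom.map_zpowers]; rfl
    rw [h1, ← Subgroup.map_sup, hxN, Subgroup.map_top_of_surjective _ (QuotientGroup.mk'_surjective M)]
  have hNM : N ≤ M := by
    rw [hN, commutator_def, Subgroup.commutator_le]
    intro a _ b _
    rw [← QuotientGroup.eq_one_iff]
    have hmem : ∀ c : G, (c : G ⧸ M) ∈ Subgroup.zpowers (x : G ⧸ M) := fun c => by rw [hcyc]; trivial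
    obtain ⟨i, hi⟩ := hmem a
    obtain ⟨j, hj⟩ := hmem b
    simp only at hi hj
    have : ((⁅a, b⁆ : G) : G ⧸ M) = ⁅(a : G ⧸ M), (b : G ⧸ M)⁆ := rfl
    rw [this, ← hi, ← hj, commutatorElement_eq_one_iff_mul_comm, ← zpow_add, ← zpow_add, add_comm]
  have hNeq : N = M := le_antisymm hNM hMN
  have hcop : (Nat.card N).Coprime p := by
    rw [hNeq, Nat.card_congr (M'.equivMapOfInjective N.subtype N.subtype_injective).toEquiv.symm]
    exact Cfsg.Agent.L0.pPrimeCore_coprime p N
  refine ⟨hcop, ?_⟩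
  intro K hK
  have h1 := (part1 N K hcop hK le_rfl).1
  apply le_antisymm
  · calc N = ⁅N, K⁆ := h1
      _ ≤ ⁅(⊤ : Subgroup G), K⁆ := Subgroup.commutator_mono le_top le_rfl
  · rw [hN, commutator_def]
    exact Subgroup.commutator_mono le_rfl le_top

end Cfsg.Agent.S1459
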