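import Cfsg.Statements.S1466
import Mathlib
import Cfsg.Agent.H3.Puig

set_option autoImplicit false
open Cfsg

namespace Cfsg.Agent.S1466

/-- Let p be a prime and R a nontrivial finite p-group. Then for every i > 0, Z(R) ≤ C_R(L_i(R)) ≤ L_i(R); likewise Z(R) ≤ C_R(L_*(R)) ≤ L_*(R) and Z(R) ≤ C_R(L(R)) ≤ L(R); and L(R) ≠ 1, L_*(R) ≠ 1. -/
theorem result {R : Type*} [Group R] [Finite R] (p : ℕ) [Fact p.Prime] (hR : IsPGroup p R) [Nontrivial R] :
    (∀ i : ℕ, 0 < i → Subgroup.center R ≤ Subgroup.centralizer ((Cfsg.puigSeq R i : Subgroup R) : Set R) ∧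
        Subgroup.centralizer ((Cfsg.puigSeq R i : Subgroup R) : Set R) ≤ Cfsg.puigSeq R i) ∧
      (Subgroup.center R ≤ Subgroup.centralizer ((Cfsg.puigLower R : Subgroup R) : Set R) ∧ Subgroup.centralizer ((Cfsg.puigLower R : Subgroup R) : Set R) ≤ Cfsg.puigLower R) ∧
      (Subgroup.center R ≤ Subgroup.centralizer ((Cfsg.puigSubgroup R : Subgroup R) : Set R) ∧ Subgroup.centralizer ((Cfsg.puigSubgroup R : Subgroup R) : Set R) ≤ Cfsg.puigSubgroup R) ∧
      Cfsg.puigSubgroup R ≠ ⊥ ∧ Cfsg.puigLower R ≠ ⊥ := by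
  classical
  have hnil : Group.IsNilpotent R := hR.isNilpotent
  obtain ⟨A, hAn, hAc, hAmax⟩ := Cfsg.Agent.H1.exists_maximal_normal_abelian (G := R)
  have hAA : Subgroup.centralizer (A : Set R) = A := Cfsg.Agent.H1.centralizer_eq_of_maximal_normal_abelian A hAmax
  have hAstep : ∀ X : Subgroup R, A ≤ Cfsg.puigStep X := fun X => le_sSup ⟨hAc, by
    rw [Subgroup.normalizer_eq_top]; exact le_top⟩
  have hAseq : ∀ i : ℕ, 0 < i → A ≤ Cfsg.puigSeq R i := by
    intro i hi
    obtain ⟨j, rfl⟩ : ∃ j, i = j + 1 := ⟨i - 1, by omega⟩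
    exact hAstep _
  have key : ∀ L : Subgroup R, A ≤ L → Subgroup.center R ≤ Subgroup.centralizer (L : Set R) ∧
      Subgroup.centralizer (L : Set R) ≤ L := by
    intro L hL
    refine ⟨Subgroup.center_le_centralizer _, ?_⟩
    calc Subgroup.centralizer (L : Set R) ≤ Subgroup.centralizer (A : Set R) := Subgroup.centralizer_le hL
      _ = A := hAA
      _ ≤ L := hL
  have hAne : A ≠ ⊥ := by
    intro h
    rw [h] at hAA
    have h1 : Subgroup.centralizer ((⊥ : Subgroup R) : Set R) = ⊤ := by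
      rw [← top_le_iff]
      intro x _
      rw [Subgroup.mem_centralizer_iff]
      intro y hy
      rw [Subgroup.mem_bot.mp hy]; simp
    rw [h1] at hAA
    exact top_ne_bot hAA
  obtain ⟨k, hk⟩ := Cfsg.Agent.H3.puig_stab R
  have hL : A ≤ Cfsg.puigLower R := by
    rw [← (hk (k + 1) (by omega)).1]
    exact hAseq _ (by omega)
  have hU : A ≤ Cfsg.puigSubgroup R := by
    rw [← (hk k le_rfl).2]
    exact hAseq _ (by omega)
  refine ⟨fun i hi => key _ (hAseq i hi), key _ hL, key _ hU, ?_, ?_⟩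
  · intro h; rw [h] at hU; exact hAne (le_bot_iff.mp hU)
  · intro h; rw [h] at hL; exact hAne (le_bot_iff.mp hL)

end Cfsg.Agent.S1466
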