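import Cfsg.Statements.S1485
import Cfsg.Agent.H4.Cliff3

set_option autoImplicit false
open Cfsg

namespace Cfsg.Agent.S1485

/-- Let H be a normal subgroup of the finite group G and θ an irreducible character of H. On H, the function induced from θ equals r times the sum of the distinct G-conjugates of θ, where r is the number of elements of G fixing θ under conjugation divided by the order of H (the index of H in the inertia group). -/
theorem result {G : Type*} [Group G] [Fintype G] (H : Subgroup G) [hN : H.Normal] (θ : H → ℂ) (hθ : Cfsg.IsIrrCharacter H θ) : (fun h : H => Cfsg.indFun H θ h) = ((Nat.card {g : G // ∀ h : H, θ ⟨g * h * g⁻¹, hN.conj_mem h h.2 g⟩ = θ h} : ℂ) / (Nat.card H : ℂ)) • ∑ᶠ ψ ∈ {ψ : H → ℂ | ∃ g : G, ψ = fun h : H => θ ⟨g * h * g⁻¹, hN.conj_mem h h.2 g⟩}, ψ := by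
  have h1 := H4.indFun_restrict hN θ
  rw [h1]
  have h2 := H4.sum_conj_orbit hN θ (fun ψ : H → ℂ => ψ)
  have h3 : Nat.card {g : G // ∀ h : H, θ ⟨g * h * g⁻¹, hN.conj_mem h h.2 g⟩ = θ h} = Nat.card (H4.inertia hN θ) := by
    apply Nat.card_congr
    apply Equiv.subtypeEquivRight
    intro g
    show _ ↔ H4.conjBy hN g θ = θ
    rw [funext_iff]
    rfl
  have h4 : ∑ᶠ ψ ∈ {ψ : H → ℂ | ∃ g : G, ψ = fun h : H => θ ⟨g * h * g⁻¹, hN.conj_mem h h.2 g⟩}, ψ = ∑ᶠ ψ ∈ {ψ : H → ℂ | ∃ g : G, ψ = H4.conjBy hN g θ}, ψ := rfl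
  rw [h4, h3]
  have h5 : ∑ x : G, H4.conjBy hN x θ = (Nat.card (H4.inertia hN θ) : ℂ) • ∑ᶠ ψ ∈ {ψ : H → ℂ | ∃ g : G, ψ = H4.conjBy hN g θ}, ψ := by
    rw [Nat.cast_smul_eq_nsmul]
    exact h2
  rw [h5, smul_smul, div_eq_inv_mul]

end Cfsg.Agent.S1485
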