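import Cfsg.Statements.S1487
import Cfsg.Agent.H4.Cliff3

set_option autoImplicit false
open Cfsg

namespace Cfsg.Agent.S1487

/-- Let A ≤ H be normal subgroups of the finite group G and θ an irreducible character of H. Then θ takes the value θ 1 on all of A if and only if the function induced from θ to G takes its value at 1 on all of A. -/
theorem result {G : Type*} [Group G] [Fintype G] (A H : Subgroup G) [A.Normal] [H.Normal] (hAH : A ≤ H) (θ : H → ℂ) (hθ : Cfsg.IsIrrCharacter H θ) : (∀ a : H, (a : G) ∈ A → θ a = θ 1) ↔ (∀ a : G, a ∈ A → Cfsg.indFun H θ a = Cfsg.indFun H θ 1) := by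
  classical
  have hH : H.Normal := inferInstance
  have hA : A.Normal := inferInstance
  have hval : ∀ a : G, a ∈ A → ∀ x : G, ∃ h : x⁻¹ * a * x ∈ H, extendByZero H θ (x⁻¹ * a * x) = θ ⟨x⁻¹ * a * x, h⟩ ∧ x⁻¹ * a * x ∈ A := by
    intro a ha x
    have h1 : x⁻¹ * a * x ∈ A := by
      have := hA.conj_mem a ha x⁻¹
      rwa [inv_inv] at this
    exact ⟨hAH h1, H4.extendByZero_mem H θ (hAH h1), h1⟩
  have hG0 : (Nat.card G : ℂ) ≠ 0 := H4.card_ne_zero' G
  have hH0 : (Nat.card H : ℂ) ≠ 0 := H4.card_ne_zero' H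
  have hind1 : indFun H θ 1 = (Nat.card H : ℂ)⁻¹ * ∑ x : G, θ 1 := by
    unfold indFun
    congr 1
    apply Finset.sum_congr rfl; intro x _
    have h1 : x⁻¹ * 1 * x = ((1 : H) : G) := by simp
    rw [h1, H4.extendByZero_coe]
  constructor
  · intro h a ha
    rw [hind1]
    unfold indFun
    congr 1
    apply Finset.sum_congr rfl; intro x _
    obtain ⟨h1, h2, h3⟩ := hval a ha x
    rw [h2]
    exact h _ h3
  · intro h a ha
    have h1 := h a ha
    rw [hind1] at h1
    unfold indFun at h1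
    have h2 := mul_left_cancel₀ (inv_ne_zero hH0) h1
    obtain ⟨d, hd⟩ := H4.IsChar.exists_degree (H4.IsIrr.isCharacter hθ)
    have h3 : ∀ x : H, (θ x).re ≤ d := by
      intro x
      have := H4.IsChar.norm_le (H4.IsIrr.isCharacter hθ) x
      rw [hd, Complex.norm_natCast] at this
      exact (Complex.re_le_norm _).trans this
    have h4 : ∑ x : G, ((d : ℝ) - (extendByZero H θ (x⁻¹ * a * x)).re) = 0 := by
      rw [Finset.sum_sub_distrib, ← Complex.re_sum, h2, hd]
      simp
    have h5 := (Finset.sum_eq_zero_iff_of_nonneg (fun x _ => by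
      obtain ⟨h6, h7, h8⟩ := hval a ha x
      rw [h7]; exact sub_nonneg.mpr (h3 _))).mp h4 1 (Finset.mem_univ _)
    have h6 : extendByZero H θ ((1 : G)⁻¹ * a * 1) = θ a := by
      rw [inv_one, one_mul, mul_one, H4.extendByZero_coe]
    rw [h6] at h5
    have h7 : (θ a).re = d := by linarith
    have h8 := H4.IsChar.norm_le (H4.IsIrr.isCharacter hθ) a
    rw [hd, Complex.norm_natCast] at h8
    have h9 : (θ a).im = 0 := by
      have h10 := Complex.sq_norm (θ a)
      rw [Complex.normSq_apply, h7] at h10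
      have h11 : ‖θ a‖ ^ 2 ≤ (d : ℝ) ^ 2 := pow_le_pow_left₀ (norm_nonneg _) h8 2
      nlinarith [mul_self_nonneg (θ a).im]
    rw [hd]
    apply Complex.ext
    · rw [h7]; simp
    · rw [h9]; simp

end Cfsg.Agent.S1487
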