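import Cfsg.Statements.S1489
import Cfsg.Agent.H4.Cliff3

set_option autoImplicit false
open Cfsg

namespace Cfsg.Agent.S1489

/-- Let H be a normal subgroup of the finite group G, θ an irreducible character of H, and T the inertia group of θ (the elements g with θ(g h g⁻¹) = θ(h) for all h ∈ H). If ψ and ψ' are irreducible characters of T having nonzero inner product with the function induced from θ to T, then the function induced from ψ to G is an irreducible character of G, and it equals the one induced from ψ' only if ψ = ψ'. -/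
theorem result {G : Type*} [Group G] [Fintype G] (H T : Subgroup G) [hN : H.Normal] [Fintype T] (θ : H → ℂ) (hθ : Cfsg.IsIrrCharacter H θ) (hT : ∀ g : G, g ∈ T ↔ ∀ h : H, θ ⟨g * h * g⁻¹, hN.conj_mem h h.2 g⟩ = θ h) (hHT : H ≤ T) (ψ ψ' : T → ℂ) (hψ : Cfsg.IsIrrCharacter T ψ) (hψ' : Cfsg.IsIrrCharacter T ψ') (hc : Cfsg.classInner (Cfsg.indFun (H.subgroupOf T) (fun x => θ ⟨(x : T), Subgroup.mem_subgroupOf.mp x.2⟩)) ψ ≠ 0) (hc' : Cfsg.classInner (Cfsg.indFun (H.subgroupOf T) (fun x => θ ⟨(x : T), Subgroup.mem_subgroupOf.mp x.2⟩)) ψ' ≠ 0) : Cfsg.IsIrrCharacter G (Cfsg.indFun T ψ) ∧ (Cfsg.indFun T ψ = Cfsg.indFun T ψ' → ψ = ψ') := by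
  classical
  have hTe : T = H4.inertia hN θ := by
    ext g
    rw [hT, H4.mem_inertia, funext_iff]
    rfl
  have : Fintype H := Fintype.ofFinite H
  have : Fintype (H.subgroupOf T) := Fintype.ofFinite _
  have key : ∀ ξ : T → ℂ, IsIrrCharacter T ξ → classInner (indFun (H.subgroupOf T) (fun x => θ ⟨(x : T), Subgroup.mem_subgroupOf.mp x.2⟩)) ξ ≠ 0 →
      classInner (H4.resLE hHT ξ) θ ≠ 0 := by
    intro ξ hξ h h0
    apply h
    rw [H4.frobenius_reciprocity _ _ _ (H4.IsIrr.isClassFunction hξ)]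
    rw [← H4.toSub_restrict hHT ξ]
    have h1 : classInner (H4.toSub θ : H.subgroupOf T → ℂ) (H4.toSub (H4.resLE hHT ξ)) = classInner θ (H4.resLE hHT ξ) := H4.classInner_toSub hHT _ _
    refine h1.trans ?_
    rw [← H5.classInner_conj_symm, h0, map_zero]
  refine ⟨H4.clifford_induce hN θ hθ T hTe hHT ψ hψ (key ψ hψ hc), fun heq => ?_⟩
  exact H4.clifford_unique hN θ hθ T hTe hHT ψ ψ' hψ hψ' (key ψ hψ hc) (key ψ' hψ' hc') heq

end Cfsg.Agent.S1489
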