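import Cfsg.Statements.S1491
import Cfsg.Agent.H4.Cliff4

set_option autoImplicit false
open Cfsg

namespace Cfsg.Agent.S1491

/-- Let H be a normal subgroup of the finite group G and θ an irreducible character of H with inertia group T, where T/H is abelian (commutators of T lie in H) and the index of H in T is coprime to the order of H. Then the function induced from θ is the sum of a set of exactly [T:H] irreducible characters of G, each of degree [G:T] * θ(1). -/
theorem result {G : Type*} [Group G] [Fintype G] (H T : Subgroup G) [hN : H.Normal] (θ : H → ℂ) (hθ : Cfsg.IsIrrCharacter H θ) (hT : ∀ g : G, g ∈ T ↔ ∀ h : H, θ ⟨g * h * g⁻¹, hN.conj_mem h h.2 g⟩ = θ h) (hab : ∀ x ∈ T, ∀ y ∈ T, x * y * x⁻¹ * y⁻¹ ∈ H) (hcop : Nat.Coprime (Nat.card H) (H.relIndex T)) : ∃ C : Finset (G → ℂ), (∀ χ ∈ C, Cfsg.IsIrrCharacter G χ) ∧ C.card = H.relIndex T ∧ Cfsg.indFun H θ = ∑ χ ∈ C, χ ∧ ∀ χ ∈ C, χ 1 = (T.index : ℂ) * θ 1 := by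
  classical
  have hTe : T = H4.inertia hN θ := by
    ext g
    rw [hT, H4.mem_inertia, funext_iff]
    rfl
  have hHT : H ≤ T := by rw [hTe]; exact H4.le_inertia hN (H4.IsIrr.isClassFunction hθ)
  obtain ⟨e, C, h1, h2, h3, h4, h5, h6⟩ := H4.abelian_ramified_general hN T θ hθ hTe hHT hab
  have he := h6 hcop
  subst he
  refine ⟨C, h2, ?_, by simpa using h4, fun χ hχ => by rw [h5 χ hχ]; simp⟩
  have h7 := (H.subgroupOf T).card_mul_index
  rw [H4.card_subgroupOf_of_le hHT] at h7
  have h8 : C.card * Nat.card H = Nat.card H * H.relIndex T := by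
    rw [Subgroup.relIndex, h7, ← h3]; ring
  rw [mul_comm] at h8
  exact Nat.eq_of_mul_eq_mul_left Nat.card_pos h8

end Cfsg.Agent.S1491
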