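import Cfsg.Statements.S1492
import Cfsg.Agent.H4.BrauerInd4

set_option autoImplicit false
open Cfsg

namespace Cfsg.Agent.S1492

/-- Let ψ be an irreducible character of the finite group G and B ≤ D ≤ C subgroups with B normal in C, every commutator of an element of D with an element of C lying in B (so D/B is central in C/B), and ψ constant equal to ψ 1 on B. Then ψ(1) ^ 2 * |C| * |D| ≤ |G| ^ 2. -/
theorem result {G : Type*} [Group G] [Finite G] (ψ : G → ℂ) (hψ : Cfsg.IsIrrCharacter G ψ) (B C D : Subgroup G) (hBD : B ≤ D) (hDC : D ≤ C) (hBn : ∀ c ∈ C, ∀ b ∈ B, c * b * c⁻¹ ∈ B) (hcent : ∀ d ∈ D, ∀ c ∈ C, d * c * d⁻¹ * c⁻¹ ∈ B) (hker : ∀ b ∈ B, ψ b = ψ 1) : ‖ψ 1‖ ^ 2 * (Nat.card C : ℝ) * (Nat.card D : ℝ) ≤ (Nat.card G : ℝ) ^ 2 := by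
  classical
  letI : Fintype G := Fintype.ofFinite G
  have : Fintype C := Fintype.ofFinite C
  have hψc := H4.IsIrr.isCharacter hψ
  -- a constituent of the restriction to C
  obtain ⟨m, hm1, hm2⟩ := H4.IsChar.exists_mult (H4.IsChar.restrict C hψc)
  obtain ⟨φ, hφ⟩ : ∃ φ : IrrCharacter C, m φ ≠ 0 := by
    by_contra hcon
    push Not at hcon
    apply H4.IsIrr.degree_ne_zero hψ
    have := hm2 1
    simp only [hcon] at this
    simpa using this
  -- degree bound psi 1 ≤ index * phi 1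
  have h1 : ∃ k : ℕ, k ≠ 0 ∧ classInner (indFun C (φ : C → ℂ)) ψ = k := by
    refine ⟨m φ, hφ, ?_⟩
    rw [H4.frobenius_reciprocity C _ _ (H4.IsIrr.isClassFunction hψ), ← H5.classInner_conj_symm, hm1]
    simp
  obtain ⟨k, hk0, hk⟩ := h1
  obtain ⟨m', hm1', hm2'⟩ := H4.IsChar.exists_mult (H4.IsChar.induce C (φ : C → ℂ) (H4.IsIrr.isCharacter φ.2))
  have hle := H4.IsChar.degree_le_of_mult (H4.IsChar.induce C (φ : C → ℂ) (H4.IsIrr.isCharacter φ.2)) m' hm2' ⟨ψ, hψ⟩ (by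
    intro h0
    have := hm1' ⟨ψ, hψ⟩
    rw [h0] at this
    apply hk0
    have h2 : (k : ℂ) = ((0 : ℕ) : ℂ) := by rw [← hk]; exact this
    exact_mod_cast h2)
  have hdi : (charDegree (indFun C (φ : C → ℂ)) : ℂ) = C.index * (charDegree (φ : C → ℂ)) := by
    rw [← H4.IsChar.one_eq (H4.IsChar.induce C (φ : C → ℂ) (H4.IsIrr.isCharacter φ.2)), H4.indFun_one, H4.IsChar.one_eq (H4.IsIrr.isCharacter φ.2)]
  have hdi' : charDegree (indFun C (φ : C → ℂ)) = C.index * (charDegree (φ : C → ℂ)) := by exact_mod_cast hdi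
  rw [hdi'] at hle
  -- D acts by scalars on φ
  have hkerφ : ∀ b : C, (b : G) ∈ B → (φ : C → ℂ) b = (φ : C → ℂ) 1 := by
    intro b hb
    have h2 := hm2 b
    have h3 := hm2 1
    have h4 : ψ b = ψ 1 := hker b hb
    have h5 : ∑ χ : IrrCharacter C, (m χ : ℂ) * (χ : C → ℂ) b = ∑ χ : IrrCharacter C, (m χ : ℂ) * (χ : C → ℂ) 1 := by
      rw [← h2, ← h3]; exact h4
    have h6 : ∀ χ : IrrCharacter C, ∃ d : ℕ, (χ : C → ℂ) 1 = d := fun χ => H4.IsChar.exists_degree (H4.IsIrr.isCharacter χ.2)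
    choose d hd using h6
    have h7 : ∀ χ : IrrCharacter C, ((χ : C → ℂ) b).re ≤ d χ := by
      intro χ
      have := H4.IsChar.norm_le (H4.IsIrr.isCharacter χ.2) b
      rw [hd, Complex.norm_natCast] at this
      exact (Complex.re_le_norm _).trans this
    have h8 : ∑ χ : IrrCharacter C, (m χ : ℝ) * (d χ - ((χ : C → ℂ) b).re) = 0 := by
      have h9 := congrArg Complex.re h5
      rw [Complex.re_sum, Complex.re_sum] at h9
      have h10 : ∀ χ : IrrCharacter C, (m χ : ℝ) * (d χ - ((χ : C → ℂ) b).re) = ((m χ : ℂ) * (χ : C → ℂ) 1).re - ((m χ : ℂ) * (χ : C → ℂ) b).re := by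
        intro χ
        rw [hd]
        simp [Complex.mul_re]
        ring
      simp_rw [h10]
      rw [Finset.sum_sub_distrib, h9, sub_self]
    have h9 := (Finset.sum_eq_zero_iff_of_nonneg (fun χ _ => mul_nonneg (Nat.cast_nonneg _) (sub_nonneg.mpr (h7 χ)))).mp h8 φ (Finset.mem_univ _)
    have h10 : (d φ : ℝ) - ((φ : C → ℂ) b).re = 0 := by
      rcases mul_eq_zero.mp h9 with h | h
      · exact absurd (by exact_mod_cast h) hφ
      · exact h
    have h11 := H4.IsChar.norm_le (H4.IsIrr.isCharacter φ.2) b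
    rw [hd, Complex.norm_natCast] at h11
    have h12 : ((φ : C → ℂ) b).re = d φ := by linarith
    have h13 : ((φ : C → ℂ) b).im = 0 := by
      have h14 := Complex.sq_norm ((φ : C → ℂ) b)
      rw [Complex.normSq_apply, h12] at h14
      have h15 : ‖(φ : C → ℂ) b‖ ^ 2 ≤ (d φ : ℝ) ^ 2 := pow_le_pow_left₀ (norm_nonneg _) h11 2
      nlinarith [mul_self_nonneg ((φ : C → ℂ) b).im]
    rw [hd]
    apply Complex.ext
    · rw [h12]; simp
    · rw [h13]; simp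
  obtain ⟨n, ρ, hρ, hρφ⟩ := φ.2
  have hnt : Nontrivial (Fin n → ℂ) := ((H4.isIrreducible_iff ρ).mp hρ).1
  have hscal : ∀ d : C, (d : G) ∈ D → ‖(φ : C → ℂ) d‖ = ‖(φ : C → ℂ) 1‖ := by
    intro d hd
    have h2 : ∀ c : C, ρ d * ρ c = ρ c * ρ d := by
      intro c
      have h3 : (φ : C → ℂ) (d * c * d⁻¹ * c⁻¹) = (φ : C → ℂ) 1 := hkerφ _ (hcent d hd c c.2)
      rw [← hρφ] at h3
      have h4 := (H4.IsChar.eq_one_iff_rep ρ _).mp h3
      have h5 : d * c = (d * c * d⁻¹ * c⁻¹) * (c * d) := by group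
      rw [← map_mul, h5, map_mul, h4, one_mul, map_mul]
    obtain ⟨c, hc⟩ := H5.schur_scalar ρ hρ (ρ d) (fun x v => by
        have := congrArg (fun T : Module.End ℂ (Fin n → ℂ) => T v) (h2 x)
        exact this)
    have h3 : ‖ρ.character d‖ = (Module.finrank ℂ (Fin n → ℂ) : ℝ) := by
      rw [H4.norm_char_eq_iff]
      exact ⟨c, LinearMap.ext fun v => hc v⟩
    rw [← hρφ, h3, Representation.char_one]; simp
  -- norm
  have h2 : classInner (φ : C → ℂ) (φ : C → ℂ) = 1 := H5.classInner_irr_self φ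
  rw [H5.classInner_self_re] at h2
  have h3 : (Nat.card C : ℝ)⁻¹ * ∑ g : C, ‖(φ : C → ℂ) g‖ ^ 2 = 1 := by exact_mod_cast h2
  have hC0 : (Nat.card C : ℝ) ≠ 0 := by exact_mod_cast Nat.card_pos.ne'
  have h4 : ∑ g : C, ‖(φ : C → ℂ) g‖ ^ 2 = Nat.card C := by
    field_simp at h3; exact h3
  have h5 : (Nat.card D : ℝ) * ‖(φ : C → ℂ) 1‖ ^ 2 ≤ Nat.card C := by
    rw [← h4]
    have h6 : ∑ g ∈ Finset.univ.filter (fun g : C => (g : G) ∈ D), ‖(φ : C → ℂ) g‖ ^ 2 = (Nat.card D : ℝ) * ‖(φ : C → ℂ) 1‖ ^ 2 := by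
      rw [Finset.sum_congr rfl (fun g hg => by rw [hscal g (Finset.mem_filter.mp hg).2]), Finset.sum_const, nsmul_eq_mul]
      congr 2
      rw [← Fintype.card_subtype, ← Nat.card_eq_fintype_card]
      apply Nat.card_congr
      exact ⟨fun x => ⟨x.1, x.2⟩, fun x => ⟨⟨x, hDC x.2⟩, x.2⟩, fun _ => rfl, fun _ => rfl⟩
    rw [← h6]
    exact Finset.sum_le_sum_of_subset_of_nonneg (Finset.filter_subset _ _) (fun _ _ _ => by positivity)
  have h6 : ‖ψ 1‖ ≤ (C.index : ℝ) * ‖(φ : C → ℂ) 1‖ := by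
    rw [H4.IsChar.one_eq hψc, H4.IsChar.one_eq (H4.IsIrr.isCharacter φ.2), Complex.norm_natCast, Complex.norm_natCast]
    exact_mod_cast hle
  have h7 : ‖ψ 1‖ ^ 2 ≤ ((C.index : ℝ) * ‖(φ : C → ℂ) 1‖) ^ 2 := pow_le_pow_left₀ (norm_nonneg _) h6 2
  have h8 : (Nat.card G : ℝ) = Nat.card C * C.index := by exact_mod_cast C.card_mul_index.symm
  rw [h8]
  calc ‖ψ 1‖ ^ 2 * (Nat.card C : ℝ) * (Nat.card D : ℝ) ≤ ((C.index : ℝ) * ‖(φ : C → ℂ) 1‖) ^ 2 * (Nat.card C : ℝ) * (Nat.card D : ℝ) := by gcongr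
    _ = (C.index : ℝ) ^ 2 * (Nat.card C : ℝ) * ((Nat.card D : ℝ) * ‖(φ : C → ℂ) 1‖ ^ 2) := by ring
    _ ≤ (C.index : ℝ) ^ 2 * (Nat.card C : ℝ) * (Nat.card C) := by gcongr
    _ = _ := by ring

end Cfsg.Agent.S1492
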