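import Cfsg.Statements.S1494
import Cfsg.Agent.H5.Char4

set_option autoImplicit false
open Cfsg

namespace Cfsg.Agent.S1494

/-- Let χ be a generalized character of the finite group G, p a prime, x an element of order p and y an element commuting with x. Then χ(x * y) − χ(y) = (1 − ε) * ω for some algebraic integer ω, where ε = exp(2πi/p). -/
theorem result {G : Type*} [Group G] [Finite G] (χ : G → ℂ) (hχ : Cfsg.IsGeneralizedCharacter G χ) (p : ℕ) (hp : p.Prime) (x y : G) (hx : orderOf x = p) (hxy : x * y = y * x) : ∃ ω : ℂ, IsIntegral ℤ ω ∧ χ (x * y) - χ y = (1 - Complex.exp (2 * Real.pi * Complex.I / p)) * ω := by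
  classical
  set ζ : ℂ := Complex.exp (2 * Real.pi * Complex.I / p) with hζdef
  have hζ := Complex.isPrimitiveRoot_exp p hp.ne_zero
  haveI : NeZero p := ⟨hp.ne_zero⟩
  have hζi : IsIntegral ℤ ζ := hζ.isIntegral hp.pos
  let A : Subgroup G := Subgroup.closure {x, y}
  have hcomm : ∀ a b : A, a * b = b * a := by
    have h1 : ∀ a ∈ ({x, y} : Set G), ∀ b ∈ ({x, y} : Set G), a * b = b * a := by
      intro a ha b hb
      rcases ha with rfl | ha <;> rcases hb with rfl | hb
      · rfl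
      · rw [Set.mem_singleton_iff.mp hb]; exact hxy
      · rw [Set.mem_singleton_iff.mp ha]; exact hxy.symm
      · rw [Set.mem_singleton_iff.mp ha, Set.mem_singleton_iff.mp hb]
    exact (Subgroup.closureCommGroupOfComm h1).mul_comm
  have hxA : x ∈ A := Subgroup.subset_closure (by simp)
  have hyA : y ∈ A := Subgroup.subset_closure (by simp)
  have key : ∀ χ : G → ℂ, IsCharacter G χ → ∃ ω : ℂ, IsIntegral ℤ ω ∧ χ (x * y) - χ y = (1 - ζ) * ω := by
    intro χ hχ
    obtain ⟨l, hl⟩ := H5.IsCharacter.exists_list_hom hcomm (H5.isCharacter_restrict A hχ)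
    have h1 : χ (x * y) = (l.map fun lam => (lam (⟨x, hxA⟩ * ⟨y, hyA⟩) : ℂ)).sum := hl (⟨x, hxA⟩ * ⟨y, hyA⟩)
    have h2 : χ y = (l.map fun lam => (lam ⟨y, hyA⟩ : ℂ)).sum := hl ⟨y, hyA⟩
    rw [h1, h2]
    clear hl h1 h2
    induction l with
    | nil => exact ⟨0, isIntegral_zero, by simp⟩
    | cons lam l ih =>
      obtain ⟨ω, hω, h3⟩ := ih
      have h4 : (lam ⟨x, hxA⟩ : ℂ) ^ p = 1 := by
        rw [← Units.val_pow_eq_pow_val, ← map_pow]
        have : (⟨x, hxA⟩ : A) ^ p = 1 := by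
          apply Subtype.ext
          show x ^ p = 1
          rw [← hx, pow_orderOf_eq_one]
        rw [this, map_one, Units.val_one]
      obtain ⟨j, hj, hj'⟩ := hζ.eq_pow_of_pow_eq_one h4
      refine ⟨ω - (lam ⟨y, hyA⟩ : ℂ) * ∑ i ∈ Finset.range j, ζ ^ i, ?_, ?_⟩
      · apply hω.sub
        apply (H5.hom_isIntegral lam _).mul
        exact IsIntegral.sum _ (fun i _ => hζi.pow i)
      · simp only [List.map_cons, List.sum_cons, map_mul, Units.val_mul] at h3 ⊢
        rw [← hj']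
        have h5 : (∑ i ∈ Finset.range j, ζ ^ i) * (ζ - 1) = ζ ^ j - 1 := geom_sum_mul ζ j
        linear_combination h3 - (lam ⟨y, hyA⟩ : ℂ) * h5
  obtain ⟨a, b, ha, hb, rfl⟩ := hχ
  obtain ⟨ω₁, h1, h1'⟩ := key a ha
  obtain ⟨ω₂, h2, h2'⟩ := key b hb
  refine ⟨ω₁ - ω₂, h1.sub h2, ?_⟩
  simp only [Pi.sub_apply]
  linear_combination h1' - h2'

end Cfsg.Agent.S1494
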