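import Cfsg.Statements.S1495
import Cfsg.Agent.H4.Misc3

set_option autoImplicit false
open Cfsg

namespace Cfsg.Agent.S1495

/-- Let p be a prime, ε = exp(2πi/p), and n an integer such that n = (1 − ε) * ω for some algebraic integer ω. Then p divides n. -/
theorem result (p : ℕ) (hp : p.Prime) (n : ℤ) (ω : ℂ) (hω : IsIntegral ℤ ω) (h : (n : ℂ) = (1 - Complex.exp (2 * Real.pi * Complex.I / p)) * ω) : (p : ℤ) ∣ n := by
  have hζ := Complex.isPrimitiveRoot_exp p hp.ne_zero
  set ζ : ℂ := Complex.exp (2 * Real.pi * Complex.I / p) with hζdef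
  have hζi : IsIntegral ℤ ζ := hζ.isIntegral hp.pos
  obtain ⟨M, hM⟩ := H4.exists_isPModular hp
  have hprime := H5.isPrime_of_isPModular hM
  let z : AlgInt := ⟨ζ, hζi⟩
  let w : AlgInt := ⟨ω, hω⟩
  have hz : z ^ p = 1 := by
    apply Subtype.ext
    show ζ ^ p = 1
    exact hζ.pow_eq_one
  obtain ⟨r, hr⟩ := exists_add_pow_prime_eq hp (1 - z) z
  rw [sub_add_cancel, one_pow, hz] at hr
  have h1 : (1 - z) ^ p ∈ M := by
    have h2 : (1 - z) ^ p = -((p : AlgInt) * ((1 - z) * z * r)) := by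
      linear_combination -hr
    rw [h2]
    exact M.neg_mem (M.mul_mem_right _ hM.2.2)
  have h2 : (1 - z) ∈ M := hprime.mem_of_pow_mem _ h1
  have h3 : (1 - z) * w ∈ M := M.mul_mem_right _ h2
  have h4 : MemLocalIdeal M (n : ℂ) := by
    refine ⟨(1 - z) * w, 1, h3, ?_, ?_⟩
    · intro h5; exact hprime.ne_top ((Ideal.eq_top_iff_one M).mpr h5)
    · rw [h]; simp [z, w]
  exact (H5.memLocI_intCast_iff hM n).1 h4

end Cfsg.Agent.S1495
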