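import Cfsg.Statements.S1497
import Cfsg.Agent.H4.Dade

set_option autoImplicit false
open Cfsg

namespace Cfsg.Agent.S1497

/-- Let A be a nonempty subset of the finite group G not containing 1 and L a subgroup. Then A is a TI-subset whose normaliser is L if and only if the Dade hypothesis holds for A, L and the constant choice H(a) = ⊥. -/
theorem result {G : Type*} [Group G] [Finite G] (A : Set G) (hA : A.Nonempty) (h1 : (1 : G) ∉ A) (L : Subgroup G) : (Cfsg.IsTISubset A ∧ Subgroup.normalizer A = L) ↔ Cfsg.DadeHypothesis A L (fun _ => ⊥) := by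
  have hnorm : ∀ g : G, g ∈ Subgroup.normalizer A ↔ ∀ h : G, h ∈ A ↔ g * h * g⁻¹ ∈ A := fun g => Subgroup.mem_set_normalizer_iff
  constructor
  · rintro ⟨hTI, hN⟩
    have hne : ∀ a ∈ A, a ≠ 1 := fun a ha h => h1 (h ▸ ha)
    have hself : ∀ (g a : G), a ∈ A → g * a * g⁻¹ ∈ A → g ∈ L := by
      intro g a ha hga
      by_contra hg
      rw [← hN] at hg
      exact hne a ha (hTI g hg a ha hga)
    have hcent : ∀ a ∈ A, Subgroup.centralizer ({a} : Set G) ≤ L := by
      intro a ha c hc
      apply hself c a ha
      rw [Subgroup.mem_centralizer_singleton_iff] at hc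
      rw [hc, mul_inv_cancel_right]; exact ha
    refine ⟨h1, ?_, ?_, ?_, ?_, ?_, ?_, ?_, ?_⟩
    · intro a ha
      exact hcent a ha (Subgroup.mem_centralizer_singleton_iff.mpr rfl)
    · intro x hx a ha
      rw [← hN] at hx
      exact ((hnorm x).mp hx a).mp ha
    · intro a ha g hga
      exact ⟨g, hself g a ha hga, rfl⟩
    · intro a _; exact bot_le
    · intro a _ c _ u hu
      rw [Subgroup.mem_bot] at hu ⊢
      rw [hu]; simp
    · intro a _; exact bot_inf_eq _
    · intro a ha
      show ⊥ ⊔ (L ⊓ Subgroup.centralizer ({a} : Set G)) = Subgroup.centralizer ({a} : Set G)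
      rw [bot_sup_eq, inf_eq_right.mpr (hcent a ha)]
    · intro a _ b _
      show Nat.Coprime (Nat.card (⊥ : Subgroup G)) _
      rw [Subgroup.card_bot]; exact Nat.coprime_one_left _
  · intro hD
    have hcent : ∀ a ∈ A, Subgroup.centralizer ({a} : Set G) ≤ L := by
      intro a ha
      have h2 := hD.sup_eq a ha
      have h3 : L ⊓ Subgroup.centralizer ({a} : Set G) = Subgroup.centralizer ({a} : Set G) := by
        rw [← h2]; simp [h2]
      rw [← h3]; exact inf_le_left
    have hself : ∀ (g a : G), a ∈ A → g * a * g⁻¹ ∈ A → g ∈ L := by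
      intro g a ha hga
      obtain ⟨x, hx, hxa⟩ := hD.fusion a ha g hga
      have hc : x⁻¹ * g ∈ Subgroup.centralizer ({a} : Set G) := by
        rw [Subgroup.mem_centralizer_singleton_iff]
        have h2 : x⁻¹ * (g * a * g⁻¹) * g = a * (x⁻¹ * g) := by rw [← hxa]; group
        rw [← h2]; group
      have h3 : g = x * (x⁻¹ * g) := by group
      rw [h3]
      exact L.mul_mem hx (hcent a ha hc)
    have hLN : L ≤ Subgroup.normalizer A := by
      intro x hx
      rw [hnorm]
      intro h
      constructor
      · exact hD.conj_mem x hx h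
      · intro hh
        have := hD.conj_mem x⁻¹ (L.inv_mem hx) _ hh
        have h2 : x⁻¹ * (x * h * x⁻¹) * x⁻¹⁻¹ = h := by group
        rwa [h2] at this
    refine ⟨?_, le_antisymm ?_ hLN⟩
    · intro g hg x hx hgx
      exact absurd (hLN (hself g x hx hgx)) hg
    · intro g hg
      obtain ⟨a, ha⟩ := hA
      exact hself g a ha (((hnorm g).mp hg a).mp ha)

end Cfsg.Agent.S1497
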