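import Cfsg.Statements.S1499
import Cfsg.Agent.H4.Dade

set_option autoImplicit false
open Cfsg

namespace Cfsg.Agent.S1499

/-- Under the Dade hypothesis for (A, L, H), let a, b ∈ A. If an element of the coset a·H(a) is conjugate in G to an element of b·H(b), then a and b are conjugate by an element of L. Moreover the set normaliser of the coset a·H(a) is the centraliser of a. -/
theorem result {G : Type*} [Group G] [Finite G] (A : Set G) (L : Subgroup G) (H : G → Subgroup G) (hD : Cfsg.DadeHypothesis A L H) (a b : G) (ha : a ∈ A) (hb : b ∈ A) : ((∃ u ∈ H a, ∃ v ∈ H b, ∃ g : G, g * (a * u) * g⁻¹ = b * v) → ∃ x ∈ L, x * a * x⁻¹ = b) ∧ Subgroup.normalizer ((fun u : G => a * u) '' (H a : Set G)) = Subgroup.centralizer ({a} : Set G) := by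
  constructor
  · rintro ⟨u, hu, v, hv, g, h⟩
    obtain ⟨h1, -⟩ := H4.Dade.parts hD ha hb hu hv h
    obtain ⟨x, hx, hxa⟩ := hD.fusion a ha g (by rw [h1]; exact hb)
    exact ⟨x, hx, hxa.trans h1⟩
  · ext g
    have hfwd : ∀ c : G, c ∈ Subgroup.centralizer ({a} : Set G) → ∀ h, h ∈ ((fun u : G => a * u) '' (H a : Set G)) → c * h * c⁻¹ ∈ ((fun u : G => a * u) '' (H a : Set G)) := by
      rintro c hc h ⟨u, hu, rfl⟩
      refine ⟨c * u * c⁻¹, hD.conj_mem_H a ha c hc u hu, ?_⟩
      rw [Subgroup.mem_centralizer_singleton_iff] at hc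
      show a * (c * u * c⁻¹) = c * (a * u) * c⁻¹
      calc a * (c * u * c⁻¹) = (a * c) * u * c⁻¹ := by group
        _ = (c * a) * u * c⁻¹ := by rw [hc]
        _ = _ := by group
    constructor
    · intro hg
      have h1 := (Subgroup.mem_set_normalizer_iff.mp hg a).mp ⟨1, (H a).one_mem, by simp⟩
      obtain ⟨v, hv, hav⟩ := h1
      have h2 : g * (a * 1) * g⁻¹ = a * v := by rw [mul_one]; exact hav.symm
      obtain ⟨h3, -⟩ := H4.Dade.parts hD ha ha (H a).one_mem hv h2
      rw [Subgroup.mem_centralizer_singleton_iff]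
      exact mul_inv_eq_iff_eq_mul.mp h3
    · intro hg
      rw [Subgroup.mem_set_normalizer_iff]
      intro h
      constructor
      · exact hfwd g hg h
      · intro hh
        have h2 := hfwd g⁻¹ (Subgroup.inv_mem _ hg) _ hh
        have h3 : g⁻¹ * (g * h * g⁻¹) * g⁻¹⁻¹ = h := by group
        rwa [h3] at h2

end Cfsg.Agent.S1499
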