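import Cfsg.Statements.S1504
import Cfsg.Agent.H4.Cyc3

set_option autoImplicit false
open Cfsg

namespace Cfsg.Agent.S1504

/-- Let W₁, W₂ be subgroups of a finite group with W₁ ⊓ W₂ = ⊥ whose elements commute, and W = W₁ ⊔ W₂. For linear characters φ, ψ of W with φ trivial on W₂ and ψ trivial on W₁, the function (1 − φ)(1 − ψ) vanishes on W₁ ∪ W₂; and the family of these functions, indexed by pairs (φ, ψ) with φ ≠ 1 ≠ ψ, is linearly independent over ℂ. -/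
theorem result {G : Type*} [Group G] [Finite G] (W₁ W₂ : Subgroup G) (hdisj : W₁ ⊓ W₂ = ⊥) (hcomm : ∀ a ∈ W₁, ∀ b ∈ W₂, a * b = b * a) : (∀ φ ψ : ↥(W₁ ⊔ W₂) →* ℂˣ, (∀ w : ↥(W₁ ⊔ W₂), (w : G) ∈ W₂ → φ w = 1) → (∀ w : ↥(W₁ ⊔ W₂), (w : G) ∈ W₁ → ψ w = 1) → ∀ w : ↥(W₁ ⊔ W₂), ((w : G) ∈ W₁ ∨ (w : G) ∈ W₂) → (1 - (φ w : ℂ) - (ψ w : ℂ) + (φ w : ℂ) * (ψ w : ℂ)) = 0) ∧ LinearIndependent ℂ (fun p : {p : (↥(W₁ ⊔ W₂) →* ℂˣ) × (↥(W₁ ⊔ W₂) →* ℂˣ) // p.1 ≠ 1 ∧ p.2 ≠ 1 ∧ (∀ w : ↥(W₁ ⊔ W₂), (w : G) ∈ W₂ → p.1 w = 1) ∧ (∀ w : ↥(W₁ ⊔ W₂), (w : G) ∈ W₁ → p.2 w = 1)} => fun w : ↥(W₁ ⊔ W₂) => 1 - (p.1.1 w : ℂ) - (p.1.2 w : ℂ) + (p.1.1 w : ℂ) * (p.1.2 w : ℂ)) := by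
  classical
  letI : Fintype ↥(W₁ ⊔ W₂) := Fintype.ofFinite _
  constructor
  · intro φ ψ hφ hψ w hw
    rcases hw with h | h
    · rw [hψ w h, Units.val_one]; ring
    · rw [hφ w h, Units.val_one]; ring
  · rw [linearIndependent_iff']
    intro s g hg i hi
    have h1a : ∀ w : ↥(W₁ ⊔ W₂), (w : G) ∈ W₂ → (1 : ↥(W₁ ⊔ W₂) →* ℂˣ) w = 1 := fun w _ => rfl
    have h1b : ∀ w : ↥(W₁ ⊔ W₂), (w : G) ∈ W₁ → (1 : ↥(W₁ ⊔ W₂) →* ℂˣ) w = 1 := fun w _ => rfl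
    have h1 : classInner (∑ j ∈ s, g j • H4.alphaFun (W₁ := W₁) (W₂ := W₂) j.1.1 j.1.2) (H4.hprod i.1.1 i.1.2) = 0 := by
      have h2 : (∑ j ∈ s, g j • H4.alphaFun (W₁ := W₁) (W₂ := W₂) j.1.1 j.1.2) = 0 := hg
      rw [h2, H5.classInner_zero_left]
    rw [H5.classInner_sum_left, Finset.sum_eq_single i] at h1
    · rw [H5.classInner_smul_left, H4.alphaFun_eq] at h1
      simp only [H5.classInner_add_left, H5.classInner_sub_left] at h1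
      rw [H4.hprod_inner hcomm h1a i.2.2.2.1 h1b i.2.2.2.2, H4.hprod_inner hcomm i.2.2.2.1 i.2.2.2.1 h1b i.2.2.2.2,
        H4.hprod_inner hcomm h1a i.2.2.2.1 i.2.2.2.2 i.2.2.2.2, H4.hprod_inner hcomm i.2.2.2.1 i.2.2.2.1 i.2.2.2.2 i.2.2.2.2,
        if_neg (Ne.symm i.2.1), if_neg (Ne.symm i.2.2.1), if_pos rfl, if_pos rfl] at h1
      simpa using h1
    · intro j _ hji
      rw [H5.classInner_smul_left, H4.alphaFun_eq]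
      simp only [H5.classInner_add_left, H5.classInner_sub_left]
      rw [H4.hprod_inner hcomm h1a i.2.2.2.1 h1b i.2.2.2.2, H4.hprod_inner hcomm j.2.2.2.1 i.2.2.2.1 h1b i.2.2.2.2,
        H4.hprod_inner hcomm h1a i.2.2.2.1 j.2.2.2.2 i.2.2.2.2, H4.hprod_inner hcomm j.2.2.2.1 i.2.2.2.1 j.2.2.2.2 i.2.2.2.2,
        if_neg (Ne.symm i.2.1), if_neg (Ne.symm i.2.2.1)]
      have h3 : (if j.1.1 = i.1.1 then (1 : ℂ) else 0) * (if j.1.2 = i.1.2 then 1 else 0) = 0 := by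
        by_cases ha : j.1.1 = i.1.1
        · have hb : j.1.2 ≠ i.1.2 := fun hb => hji (Subtype.ext (Prod.ext ha hb))
          rw [if_neg hb, mul_zero]
        · rw [if_neg ha, zero_mul]
      rw [h3]; ring
    · intro h; exact absurd hi h

end Cfsg.Agent.S1504
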