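import Cfsg.Statements.S1509
import Cfsg.Agent.H4.Odd1

set_option autoImplicit false
open Cfsg

namespace Cfsg.Agent.S1509

/-- Let α, β, γ, δ be functions on a finite group X each of which is an irreducible character or the negative of one, and u, v nonzero real numbers. Suppose ⟨α, β⟩ = ⟨γ, δ⟩ = 0, ⟨α − β, uγ − vδ⟩ = 0, α 1 = β 1 and u γ 1 = v δ 1. Then also ⟨α, γ⟩ = ⟨α, δ⟩ = ⟨β, γ⟩ = ⟨β, δ⟩ = 0. -/
theorem result {X : Type*} [Group X] [Fintype X] (α β γ δ : X → ℂ) (hα : Cfsg.IsIrrCharacter X α ∨ Cfsg.IsIrrCharacter X (-α)) (hβ : Cfsg.IsIrrCharacter X β ∨ Cfsg.IsIrrCharacter X (-β)) (hγ : Cfsg.IsIrrCharacter X γ ∨ Cfsg.IsIrrCharacter X (-γ)) (hδ : Cfsg.IsIrrCharacter X δ ∨ Cfsg.IsIrrCharacter X (-δ)) (u v : ℝ) (hu : u ≠ 0) (hv : v ≠ 0) (hab : Cfsg.classInner α β = 0) (hcd : Cfsg.classInner γ δ = 0) (hmix : Cfsg.classInner (α - β) ((u : ℂ) • γ - (v : ℂ) • δ) = 0) (h1 : α 1 = β 1) (h2 : (u : ℂ) * γ 1 = (v : ℂ) * δ 1) : Cfsg.classInner α γ = 0 ∧ Cfsg.classInner α δ =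 0 ∧ Cfsg.classInner β γ = 0 ∧ Cfsg.classInner β δ = 0 := by
  classical
  -- inner products of signed irreducibles
  have hsq : ∀ (α γ : X → ℂ), (IsIrrCharacter X α ∨ IsIrrCharacter X (-α)) → (IsIrrCharacter X γ ∨ IsIrrCharacter X (-γ)) →
      classInner α γ = 0 ∨ (∃ ε : ℝ, (ε = 1 ∨ ε = -1) ∧ γ = (ε : ℂ) • α) := by
    intro α γ hα hγ
    have h1 : ∃ (a : X → ℂ) (e : ℝ), IsIrrCharacter X a ∧ (e = 1 ∨ e = -1) ∧ α = (e : ℂ) • a := by
      rcases hα with h | h
      · exact ⟨α, 1, h, Or.inl rfl, by simp⟩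
      · exact ⟨-α, -1, h, Or.inr rfl, by simp⟩
    have h2 : ∃ (a : X → ℂ) (e : ℝ), IsIrrCharacter X a ∧ (e = 1 ∨ e = -1) ∧ γ = (e : ℂ) • a := by
      rcases hγ with h | h
      · exact ⟨γ, 1, h, Or.inl rfl, by simp⟩
      · exact ⟨-γ, -1, h, Or.inr rfl, by simp⟩
    obtain ⟨a, e, ha, he, rfl⟩ := h1
    obtain ⟨b, f, hb, hf, rfl⟩ := h2
    by_cases hab : a = b
    · right
      subst hab
      refine ⟨f * e, ?_, ?_⟩
      · rcases he with rfl | rfl <;> rcases hf with rfl | rfl <;> simp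
      · rw [smul_smul]
        congr 1
        rcases he with rfl | rfl <;> simp
    · left
      rw [H5.classInner_smul_left, H5.classInner_smul_right, H4.inner_irr_eq ha hb, if_neg hab]
      simp
  have hself : ∀ (α : X → ℂ), (IsIrrCharacter X α ∨ IsIrrCharacter X (-α)) → classInner α α = 1 ∧ α 1 ≠ 0 := by
    rintro α (h | h)
    · exact ⟨by rw [H4.inner_irr_eq h h, if_pos rfl], H4.IsIrr.degree_ne_zero h⟩
    · refine ⟨?_, ?_⟩
      · have h1 := H4.inner_irr_eq h h
        rw [if_pos rfl] at h1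
        have h2 : -α = (-1 : ℂ) • α := by simp
        rw [h2, H5.classInner_smul_left, H5.classInner_smul_right] at h1
        simpa using h1
      · have := H4.IsIrr.degree_ne_zero h
        intro h0; apply this; simp [h0]
  have hu' : (u : ℂ) ≠ 0 := by exact_mod_cast hu
  have hv' : (v : ℂ) ≠ 0 := by exact_mod_cast hv
  have hba : classInner β α = 0 := by rw [← H5.classInner_conj_symm, hab, map_zero]
  have hdc : classInner δ γ = 0 := by rw [← H5.classInner_conj_symm, hcd, map_zero]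
  -- the mixed relation
  have hmix' : (u : ℂ) * classInner α γ - v * classInner α δ - u * classInner β γ + v * classInner β δ = 0 := by
    rw [H5.classInner_sub_left, H5.classInner_sub_right, H5.classInner_sub_right, H5.classInner_smul_right, H5.classInner_smul_right,
      H5.classInner_smul_right, H5.classInner_smul_right, Complex.conj_ofReal, Complex.conj_ofReal] at hmix
    linear_combination hmix
  -- general key
  have key : ∀ (α β γ δ : X → ℂ) (u v : ℝ), (IsIrrCharacter X α ∨ IsIrrCharacter X (-α)) → (IsIrrCharacter X β ∨ IsIrrCharacter X (-β)) →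
      (IsIrrCharacter X γ ∨ IsIrrCharacter X (-γ)) → (IsIrrCharacter X δ ∨ IsIrrCharacter X (-δ)) → u ≠ 0 → v ≠ 0 →
      classInner α β = 0 → classInner β α = 0 → classInner γ δ = 0 → classInner δ γ = 0 →
      (u : ℂ) * classInner α γ - v * classInner α δ - u * classInner β γ + v * classInner β δ = 0 → α 1 = β 1 → (u : ℂ) * γ 1 = v * δ 1 →
      classInner α γ = 0 := by
    intro α β γ δ u v hα hβ hγ hδ hu hv hab hba hcd hdc hm h1 h2
    have hu' : (u : ℂ) ≠ 0 := by exact_mod_cast hu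
    have hv' : (v : ℂ) ≠ 0 := by exact_mod_cast hv
    rcases hsq α γ hα hγ with h | ⟨ε, hε, hγα⟩
    · exact h
    exfalso
    have hε0 : (ε : ℂ) ≠ 0 := by rcases hε with rfl | rfl <;> simp
    have hαα := (hself α hα).1
    have hα1 := (hself α hα).2
    have hββ := (hself β hβ).1
    have h3 : classInner α γ = ε := by rw [hγα, H5.classInner_smul_right, hαα, Complex.conj_ofReal, mul_one]
    have h4 : classInner β γ = 0 := by rw [hγα, H5.classInner_smul_right, hba, mul_zero]
    have h5 : classInner α δ = 0 := by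
      have h6 : classInner γ δ = (ε : ℂ) * classInner α δ := by rw [hγα, H5.classInner_smul_left]
      rw [hcd] at h6
      exact (mul_eq_zero.mp h6.symm).resolve_left hε0
    rcases hsq β δ hβ hδ with h | ⟨η, hη, hδβ⟩
    · rw [h3, h4, h5, h] at hm
      simp only [mul_zero, sub_zero, add_zero] at hm
      exact (mul_ne_zero hu' hε0) hm
    · have h6 : classInner β δ = η := by rw [hδβ, H5.classInner_smul_right, hββ, Complex.conj_ofReal, mul_one]
      rw [h3, h4, h5, h6] at hm
      rw [hγα, hδβ] at h2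
      simp only [Pi.smul_apply, smul_eq_mul] at h2
      rw [← h1] at h2
      have h7 : (u : ℂ) * ε = v * η := by
        apply mul_right_cancel₀ hα1
        linear_combination h2
      have h8 : (2 : ℂ) * (u * ε) = 0 := by linear_combination hm + h7
      have h9 := (mul_eq_zero.mp h8).resolve_left two_ne_zero
      exact (mul_ne_zero hu' hε0) h9
  refine ⟨?_, ?_, ?_, ?_⟩
  · exact key α β γ δ u v hα hβ hγ hδ hu hv hab hba hcd hdc hmix' h1 h2
  · exact key α β δ γ v u hα hβ hδ hγ hv hu hab hba hdc hcd (by linear_combination -hmix') h1 h2.symm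
  · exact key β α γ δ u v hβ hα hγ hδ hu hv hba hab hcd hdc (by linear_combination -hmix') h1.symm h2
  · exact key β α δ γ v u hβ hα hδ hγ hv hu hba hab hdc hcd (by linear_combination hmix') h1.symm h2.symm

end Cfsg.Agent.S1509
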