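import Cfsg.Statements.S1512
import Cfsg.Agent.H4.Odd1

set_option autoImplicit false
open Cfsg

namespace Cfsg.Agent.S1512

/-- Let K be a normal subgroup of the finite group L and x a non-identity element whose order is coprime to the order of K, such that K ⊓ C_L(y) = W₂ for every non-identity element y of the cyclic group generated by x. Then the number of conjugacy classes of K mapped to themselves by conjugation by x is at most Nat.card W₂. -/
theorem result {L : Type*} [Group L] [Finite L] (K W₂ : Subgroup L) [hK : K.Normal] (x : L) (hx1 : x ≠ 1) (hx : Nat.Coprime (orderOf x) (Nat.card K)) (hC : ∀ y ∈ Subgroup.zpowers x, y ≠ 1 → K ⊓ Subgroup.centralizer ({y} : Set L) = W₂) : Nat.card {C : ConjClasses K // ConjClasses.map (MulEquiv.toMonoidHom ((MulAut.conjNormal x : MulAut K))) C = C} ≤ Nat.card W₂ := by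
  classical
  have hNx : x ∈ Subgroup.normalizer (K : Set L) := by rw [Subgroup.normalizer_eq_top]; trivial
  have hW₂ : ∀ k : L, k ∈ W₂ ↔ k ∈ K ∧ k * x = x * k := by
    intro k
    rw [← hC x (Subgroup.mem_zpowers x) hx1, Subgroup.mem_inf, Subgroup.mem_centralizer_singleton_iff]
  let F : W₂ → {C : ConjClasses K // ConjClasses.map (MulEquiv.toMonoidHom ((MulAut.conjNormal x : MulAut K))) C = C} := fun k =>
    ⟨ConjClasses.mk ⟨k, ((hW₂ k).mp k.2).1⟩, by
      show ConjClasses.mk ((MulAut.conjNormal x : MulAut K) ⟨k, ((hW₂ k).mp k.2).1⟩) = _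
      congr 1
      apply Subtype.ext
      rw [MulAut.conjNormal_apply]
      show x * k * x⁻¹ = k
      rw [← ((hW₂ k).mp k.2).2, mul_inv_cancel_right]⟩
  apply Nat.card_le_card_of_surjective F
  rintro ⟨C, hCfix⟩
  induction C using Quotient.inductionOn with
  | _ c =>
    have h3 : IsConj ((MulAut.conjNormal x : MulAut K) c) c := ConjClasses.mk_eq_mk_iff_isConj.1 hCfix
    obtain ⟨y, hy⟩ := isConj_iff.1 h3
    have h4 : (y : L) * (x * c * x⁻¹) * (y : L)⁻¹ = c := by
      have := congrArg Subtype.val hy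
      simpa [MulAut.conjNormal_apply] using this
    have h5 : ((y : L) * x) * c = c * (y * x) := by
      calc ((y : L) * x) * c = (y : L) * (x * c * x⁻¹) * (y : L)⁻¹ * (y * x) := by group
        _ = c * (y * x) := by rw [h4]
    obtain ⟨u, hu, d, hd, hdx, hud⟩ := H4.coset_conj K x hNx hx y y.2
    -- c' = u c u⁻¹ commutes with d x, hence with x
    have h6 : (d * x) * (u * c * u⁻¹) = (u * c * u⁻¹) * (d * x) := by
      rw [← hud]
      calc u * (y * x) * u⁻¹ * (u * c * u⁻¹) = u * ((y * x) * c) * u⁻¹ := by group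
        _ = u * (c * (y * x)) * u⁻¹ := by rw [h5]
        _ = _ := by group
    have hord : orderOf d ∣ Nat.card K := (by have := orderOf_dvd_natCard (⟨d, hd⟩ : K); rwa [Subgroup.orderOf_mk] at this)
    have h7 : (d * x) ^ H4.partExp hx = x := by
      have h8 := H4.mul_pow_partExp hx (x := x) (y := d) (show Commute x d from hdx.symm) (dvd_refl _) hord
      rw [← hdx] at h8
      exact h8
    have h8 : x * (u * c * u⁻¹) = (u * c * u⁻¹) * x := by
      have := (Commute.pow_left (show Commute (d * x) (u * c * u⁻¹) from h6) (H4.partExp hx))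
      rw [h7] at this
      exact this
    have h9 : u * (c : L) * u⁻¹ ∈ K := K.mul_mem (K.mul_mem hu c.2) (K.inv_mem hu)
    refine ⟨⟨u * c * u⁻¹, (hW₂ _).mpr ⟨h9, h8.symm⟩⟩, ?_⟩
    apply Subtype.ext
    show ConjClasses.mk (⟨u * c * u⁻¹, h9⟩ : K) = ConjClasses.mk c
    rw [ConjClasses.mk_eq_mk_iff_isConj]
    apply IsConj.symm
    rw [isConj_iff]
    exact ⟨⟨u, hu⟩, rfl⟩

end Cfsg.Agent.S1512
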