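import Cfsg.Statements.S1513
import Cfsg.Agent.H4.Prim1

set_option autoImplicit false
open Cfsg

namespace Cfsg.Agent.S1513

/-- Let L be a finite group with K normal with complement W₁ ≠ 1 a cyclic Hall subgroup, and W₂ ≠ 1 a cyclic subgroup of K equal to C_K(x) for every non-identity x ∈ W₁, with W₁W₂ of odd order. For an irreducible character θ of K: if θ is not fixed under conjugation by some element of W₁, then the function induced from θ to L is an irreducible character of L; and the irreducible characters of K fixed by all of W₁ are exactly Nat.card W₂ in number, each inducing to the sum of Nat.card W₁ pairwise distinct irreducible characters of L. -/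
theorem result {L : Type*} [Group L] [Fintype L] (K W₁ W₂ : Subgroup L) [hK : K.Normal] (hKW₁ : K ⊓ W₁ = ⊥) (hKW₁' : K ⊔ W₁ = ⊤) (hW₁ : W₁ ≠ ⊥) (hW₁c : IsCyclic W₁) (hHall : Nat.Coprime (Nat.card W₁) W₁.index) (hW₂ : W₂ ≠ ⊥) (hW₂c : IsCyclic W₂) (hW₂K : W₂ ≤ K) (hC : ∀ x ∈ W₁, x ≠ 1 → K ⊓ Subgroup.centralizer ({x} : Set L) = W₂) (hodd : Odd (Nat.card ↥(W₁ ⊔ W₂))) : (∀ θ : K → ℂ, Cfsg.IsIrrCharacter K θ → (∃ x ∈ W₁, (fun k : K => θ ⟨x * k * x⁻¹, hK.conj_mem (k : L) k.2 x⟩) ≠ θ) → Cfsg.IsIrrCharacter L (Cfsg.indFun K θ)) ∧ Nat.card {θ : Cfsg.IrrCharacter K // ∀ x ∈ W₁, (fun k : K => (θ : K → ℂ) ⟨x * k * x⁻¹, hK.conj_mem (k : L) k.2 x⟩) = θ} = Nat.card W₂ ∧ (∀ θ : K → ℂ, Cfsg.IsIrrCharacter K θ → (∀ x ∈ W₁, (fun k : K => θ ⟨x * k * x⁻¹, hK.conj_mem (k : L) k.2 x⟩) = θ) → ∃ C : Finset (L → ℂ), C.card = Nat.card W₁ ∧ (∀ μ ∈ C, Cfsg.IsIrrCharacter L μ) ∧ Cfsg.indFun K θ = ∑ μ ∈ C, μ) := by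
  classical
  have : Fintype K := Fintype.ofFinite K
  obtain ⟨hcK, hcW⟩ := H4.prim_cop hHall hKW₁ hKW₁' hK
  have hcop : Nat.Coprime (Nat.card W₁) (Nat.card K) := by rw [hcK]; exact hHall
  have hab : ∀ a ∈ W₂, ∀ b ∈ W₂, a * b = b * a := by
    intro a ha b hb
    have := (IsCyclic.commGroup (α := W₂)).mul_comm ⟨a, ha⟩ ⟨b, hb⟩
    exact congrArg Subtype.val this
  have hord : ∀ x ∈ W₁, Nat.Coprime (orderOf x) (Nat.card K) := by
    intro x hx
    have h1 : orderOf x ∣ Nat.card W₁ := by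
      have := orderOf_dvd_natCard (⟨x, hx⟩ : W₁)
      rwa [Subgroup.orderOf_mk] at this
    exact Nat.Coprime.coprime_dvd_left h1 hcop
  -- generator
  obtain ⟨⟨w, hw⟩, hgen⟩ := hW₁c.exists_generator
  have hw1 : w ≠ 1 := by
    rintro rfl
    apply hW₁
    rw [eq_bot_iff]
    intro x hx
    obtain ⟨k, hk⟩ := hgen ⟨x, hx⟩
    have : (1 : L) ^ k = x := congrArg Subtype.val hk
    rw [Subgroup.mem_bot, ← this, one_zpow]
  have hpow : ∀ x ∈ W₁, ∃ k : ℤ, w ^ k = x := by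
    intro x hx
    obtain ⟨k, hk⟩ := hgen ⟨x, hx⟩
    exact ⟨k, congrArg Subtype.val hk⟩
  -- fixed by w implies fixed by W₁
  have hfix : ∀ θ : K → ℂ, H4.conjBy hK w θ = θ → ∀ x ∈ W₁, H4.conjBy hK x θ = θ := by
    intro θ hθ x hx
    have h1 : w ∈ H4.inertia hK θ := hθ
    obtain ⟨k, rfl⟩ := hpow x hx
    exact Subgroup.zpow_mem _ h1 k
  have hcount : ∀ x ∈ W₁, x ≠ 1 → Nat.card {χ : IrrCharacter K // H4.conjBy hK x (χ : K → ℂ) = (χ : K → ℂ)} = Nat.card W₂ := by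
    intro x hx hx1
    exact H4.prim_fixed_chars hK x hx1 (hord x hx) (hC x hx hx1) hab
  have hcount2 : Nat.card {θ : IrrCharacter K // ∀ x ∈ W₁, H4.conjBy hK x (θ : K → ℂ) = θ} = Nat.card W₂ := by
    rw [← hcount w hw hw1]
    apply Nat.card_congr
    exact Equiv.subtypeEquivRight (fun θ => ⟨fun h => h w hw, fun h => hfix θ h⟩)
  -- fixed by any y ≠ 1 in W₁ implies fixed by W₁
  have hall : ∀ y ∈ W₁, y ≠ 1 → ∀ θ : IrrCharacter K, H4.conjBy hK y (θ : K → ℂ) = θ → ∀ x ∈ W₁, H4.conjBy hK x (θ : K → ℂ) = θ := by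
    intro y hy hy1 θ hθ
    let F : {θ : IrrCharacter K // ∀ x ∈ W₁, H4.conjBy hK x (θ : K → ℂ) = θ} → {χ : IrrCharacter K // H4.conjBy hK y (χ : K → ℂ) = (χ : K → ℂ)} :=
      fun θ => ⟨θ.1, θ.2 y hy⟩
    have hF : Function.Injective F := fun a b h => by
      have h' : (F a).1 = (F b).1 := by rw [h]
      exact Subtype.ext h'
    have hbij := Function.Injective.bijective_of_nat_card_le hF (by rw [hcount2, hcount y hy hy1])
    obtain ⟨a, ha⟩ := hbij.2 ⟨θ, hθ⟩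
    have : a.1 = θ := congrArg Subtype.val ha
    rw [← this]; exact a.2
  refine ⟨?_, ?_, ?_⟩
  · intro θ hθ hne
    apply H4.induced_irr_of_inertia hK θ hθ
    intro g hg
    obtain ⟨k, hk, x, hx, rfl⟩ := H4.frob_decomp hK hKW₁' g
    by_cases hx1 : x = 1
    · rw [hx1, mul_one]; exact hk
    exfalso
    have hkI : k ∈ H4.inertia hK θ := H4.le_inertia hK (H4.IsIrr.isClassFunction hθ) hk
    have hxI : x ∈ H4.inertia hK θ := by
      have := (H4.inertia hK θ).mul_mem ((H4.inertia hK θ).inv_mem hkI) hg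
      rwa [inv_mul_cancel_left] at this
    obtain ⟨y, hy, hyne⟩ := hne
    exact hyne (hall x hx hx1 ⟨θ, hθ⟩ hxI y hy)
  · exact hcount2
  · intro θ hθ hinv
    have htop : H4.inertia hK θ = ⊤ := by
      rw [eq_top_iff]
      intro g _
      obtain ⟨k, hk, x, hx, rfl⟩ := H4.frob_decomp hK hKW₁' g
      exact (H4.inertia hK θ).mul_mem (H4.le_inertia hK (H4.IsIrr.isClassFunction hθ) hk) (hinv x hx)
    have habq : ∀ x ∈ (⊤ : Subgroup L), ∀ y ∈ (⊤ : Subgroup L), x * y * x⁻¹ * y⁻¹ ∈ K := by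
      intro x _ y _
      obtain ⟨k, hk, a, ha, rfl⟩ := H4.frob_decomp hK hKW₁' x
      obtain ⟨l, hl, b, hb, rfl⟩ := H4.frob_decomp hK hKW₁' y
      rw [← QuotientGroup.eq_one_iff]
      have hk' : (QuotientGroup.mk k : L ⧸ K) = 1 := (QuotientGroup.eq_one_iff k).mpr hk
      have hl' : (QuotientGroup.mk l : L ⧸ K) = 1 := (QuotientGroup.eq_one_iff l).mpr hl
      have hab' : a * b = b * a := congrArg Subtype.val ((IsCyclic.commGroup (α := W₁)).mul_comm ⟨a, ha⟩ ⟨b, hb⟩)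
      simp only [QuotientGroup.mk_mul, QuotientGroup.mk_inv, hk', hl', one_mul]
      rw [← QuotientGroup.mk_mul, hab', QuotientGroup.mk_mul]
      group
    obtain ⟨e, C, -, hCirr, hcard, hsum, -, he⟩ := H4.abelian_ramified_general hK ⊤ θ hθ htop.symm le_top habq
    have he1 := he (by rw [Subgroup.relIndex_top_right, ← hcW]; exact hcop.symm)
    subst he1
    refine ⟨C, ?_, hCirr, by simpa using hsum⟩
    rw [one_pow, one_mul, Subgroup.card_top, ← K.card_mul_index, ← hcW, mul_comm] at hcard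
    exact Nat.eq_of_mul_eq_mul_left Nat.card_pos hcard

end Cfsg.Agent.S1513
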