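import Cfsg.Statements.S1515
import Cfsg.Agent.H4.Coh2

set_option autoImplicit false
open Cfsg

namespace Cfsg.Agent.S1515

/-- Let (S, τ, R) be a coherence system from L to G, χ ∈ S, and ψ an integer combination of S with ⟨χ, ψ⟩ = ⟨conj χ, ψ⟩ = 0. Let τ₁ be a linear isometry on the integer combinations of χ − ψ and χ − conj χ, with virtual-character values, agreeing with τ on integer multiples of χ − conj χ. Then the sum over α ∈ R χ of the squared absolute values of ⟨τ₁(χ − ψ), α⟩ is at least ⟨χ, χ⟩; and if ⟨τ₁(χ − ψ), τ₁(χ − ψ)⟩ minus that sum is at least ⟨ψ, ψ⟩, then the sum equals ⟨χ, χ⟩ and every ⟨τ₁(χ − ψ), α⟩ with α ∈ R χ is 0 or 1. -/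
theorem result {L : Type*} [Group L] [Fintype L] {G : Type*} [Group G] [Fintype G] (S : Set (L → ℂ)) (τ : (L → ℂ) → (G → ℂ)) (R : (L → ℂ) → Finset (G → ℂ)) (hS : Cfsg.IsCoherenceSystem S τ R) (χ : L → ℂ) (hχ : χ ∈ S) (ψ : L → ℂ) (hψ : ψ ∈ Cfsg.zspan S) (h1 : Cfsg.classInner χ ψ = 0) (h2 : Cfsg.classInner (Cfsg.conjFun χ) ψ = 0) (τ₁ : (L → ℂ) → (G → ℂ)) (hτ₁ : Cfsg.IsLinearIsometryOn (Cfsg.zspan {χ - ψ, χ - Cfsg.conjFun χ}) τ₁) (hagree : ∀ n : ℤ, τ₁ (n • (χ - Cfsg.conjFun χ)) = τ (n • (χ - Cfsg.conjFun χ))) : (Cfsg.classInner χ χ).re ≤ ∑ α ∈ R χ, ‖Cfsg.classInner (τ₁ (χ - ψ)) α‖ ^ 2 ∧ ((Cfsg.classInner ψ ψ).re ≤ (Cfsg.classInner (τ₁ (χ - ψ)) (τ₁ (χ - ψ))).re - ∑ α ∈ R χ, ‖Cfsg.classInner (τ₁ (χ - ψ)) α‖ ^ 2 → (∑ α ∈ R χ, ‖Cfsg.classInner (τ₁ (χ - ψ)) α‖ ^ 2 = (Cfsg.classInner χ χ).re ∧ ∀ α ∈ R χ, Cfsg.classInner (τ₁ (χ - ψ)) α = 0 ∨ Cfsg.classInner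 (τ₁ (χ - ψ)) α = 1)) := by
  classical
  have hχm : χ ∈ zspan S := H4.zspan_mem hχ
  have hmem1 : χ - ψ ∈ zspan ({χ - ψ, χ - conjFun χ} : Set (L → ℂ)) := H4.zspan_mem (by simp)
  have hmem2 : χ - conjFun χ ∈ zspan ({χ - ψ, χ - conjFun χ} : Set (L → ℂ)) := H4.zspan_mem (by simp)
  have hgen := hτ₁.2.2.2 _ hmem1
  have hag : τ₁ (χ - conjFun χ) = τ (χ - conjFun χ) := by
    have := hagree 1
    rwa [one_smul] at this
  have hin : classInner (τ₁ (χ - ψ)) (τ (χ - conjFun χ)) = classInner χ χ := by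
    rw [← hag, hτ₁.2.2.1 _ hmem1 _ hmem2, H5.classInner_sub_left, H5.classInner_sub_right, H5.classInner_sub_right,
      H4.cs_inner_conj hS hχ, ← H5.classInner_conj_symm χ ψ, ← H5.classInner_conj_symm (conjFun χ) ψ, h1, h2]
    simp
  obtain ⟨hp1, hp2⟩ := H4.cs_proj hS hχ hgen hin
  refine ⟨hp1, fun hle => hp2 ?_⟩
  have hnorm : classInner (τ₁ (χ - ψ)) (τ₁ (χ - ψ)) = classInner χ χ + classInner ψ ψ := by
    rw [hτ₁.2.2.1 _ hmem1 _ hmem1, H5.classInner_sub_left, H5.classInner_sub_right, H5.classInner_sub_right,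
      ← H5.classInner_conj_symm χ ψ, h1]
    simp
  rw [hnorm, Complex.add_re] at hle
  linarith

end Cfsg.Agent.S1515
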