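import Cfsg.Statements.S1518
import Cfsg.Agent.H4.Dade5

set_option autoImplicit false
open Cfsg

namespace Cfsg.Agent.S1518

/-- Under the Dade hypothesis for (A, L, H): if χ is an irreducible character of L vanishing at every non-identity element of L outside A, then the Dade image of χ − conj χ equals μ − conj μ for some irreducible character μ of G. -/
theorem result {G : Type*} [Group G] [Fintype G] (A : Set G) (L : Subgroup G) [Fintype L] (H : G → Subgroup G) (hD : Cfsg.DadeHypothesis A L H) (χ : L → ℂ) (hχ : Cfsg.IsIrrCharacter L χ) (hsupp : ∀ x : L, x ≠ 1 → (x : G) ∉ A → χ x = 0) : ∃ μ : G → ℂ, Cfsg.IsIrrCharacter G μ ∧ Cfsg.dadeIsometry A L H (χ - Cfsg.conjFun χ) = μ - Cfsg.conjFun μ := by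
  classical
  have hχch := H4.IsIrr.isCharacter hχ
  have hconj : IsIrrCharacter L (conjFun χ) := H4.IsIrr.conj hχ
  by_cases hreal : conjFun χ = χ
  · refine ⟨fun _ => 1, H5.isIrrCharacter_trivial, ?_⟩
    have h1 : χ - conjFun χ = 0 := by rw [hreal, sub_self]
    have h2 : (fun _ => (1 : ℂ)) - conjFun (fun _ : G => (1 : ℂ)) = 0 := by
      funext g; simp [conjFun]
    rw [h1, h2]
    funext g
    unfold dadeIsometry
    split_ifs <;> rfl
  have hβ : IsGeneralizedCharacter L (χ - conjFun χ) := ⟨χ, conjFun χ, hχch, H4.IsIrr.isCharacter hconj, rfl⟩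
  have hβA : ∀ x : L, (x : G) ∉ A → (χ - conjFun χ) x = 0 := by
    intro x hx
    by_cases hx1 : x = 1
    · subst hx1
      obtain ⟨n, hn⟩ := H4.IsChar.exists_degree hχch
      simp [conjFun, hn]
    · have h1 := hsupp x hx1 hx
      simp [conjFun, h1]
  have hgen := H4.dade_gen hD hβ hβA
  have hcl := H5.IsGeneralizedCharacter.classFun' hβ
  have hnorm : classInner (dadeIsometry A L H (χ - conjFun χ)) (dadeIsometry A L H (χ - conjFun χ)) = 2 := by
    rw [H4.dade_isometry' hD hcl hβA hcl, H5.classInner_sub_left, H5.classInner_sub_right, H5.classInner_sub_right,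
      H4.inner_irr_eq hχ hχ, H4.inner_irr_eq hconj hconj, H4.inner_irr_eq hχ hconj, H4.inner_irr_eq hconj hχ,
      if_pos rfl, if_pos rfl, if_neg hreal, if_neg (Ne.symm hreal)]
    norm_num
  obtain ⟨a, b, hab, h⟩ := H4.gen_norm_two _ hgen (H4.dade_one hD _) hnorm
  have hneg : conjFun ((a : G → ℂ) - (b : G → ℂ)) = -((a : G → ℂ) - (b : G → ℂ)) := by
    rw [← h, ← H4.dade_conj, ← H4.dade_neg]
    congr 1
    funext x
    simp [conjFun]
  have ha : IsIrrCharacter G (conjFun (a : G → ℂ)) := H4.IsIrr.conj a.2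
  have hb : IsIrrCharacter G (conjFun (b : G → ℂ)) := H4.IsIrr.conj b.2
  have h1 : conjFun (a : G → ℂ) + (a : G → ℂ) = conjFun (b : G → ℂ) + (b : G → ℂ) := by
    funext g
    have h2 := congrFun hneg g
    simp only [conjFun, Pi.sub_apply, Pi.neg_apply, map_sub, Pi.add_apply] at h2 ⊢
    linear_combination h2
  have h2 := congrArg (fun f => classInner f (a : G → ℂ)) h1
  simp only [H5.classInner_add_left] at h2
  have hab' : (b : G → ℂ) ≠ (a : G → ℂ) := fun h' => hab (Subtype.ext h').symm
  rw [H4.inner_irr_eq a.2 a.2, H4.inner_irr_eq b.2 a.2, if_pos rfl, if_neg hab', H4.inner_irr_eq ha a.2, H4.inner_irr_eq hb a.2] at h2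
  have h3 : conjFun (b : G → ℂ) = (a : G → ℂ) := by
    by_contra hne
    rw [if_neg hne] at h2
    split_ifs at h2
    · norm_num at h2
    · norm_num at h2
  refine ⟨a, a.2, ?_⟩
  rw [h]
  congr 1
  rw [← h3]
  funext g
  simp [conjFun]

end Cfsg.Agent.S1518
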