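import Cfsg.Statements.S1524
import Cfsg.Agent.H4.Sib4

set_option autoImplicit false
open Cfsg

namespace Cfsg.Agent.S1524

/-- Let G be a finite group and H ≤ L subgroups with L of odd order, H ≠ ⊥ nilpotent and normal in L with a nontrivial complement W₁ in L (H ⊓ W₁ = ⊥, H ⊔ W₁ = L) acting on H without non-identity fixed points (L is a Frobenius group with kernel H), and suppose the underlying set of H is a TI-subset of G whose normaliser is L. Let S be the set of functions on L induced from the non-principal irreducible characters of H. Then (S, L minus 1, induction to G) is coherent. -/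
theorem result {G : Type*} [Group G] [Fintype G] (H L W₁ : Subgroup G) [Fintype L] (hodd : Odd (Nat.card L)) (hHL : H ≤ L) (hW₁L : W₁ ≤ L) (hH1 : H ≠ ⊥) (hW1 : W₁ ≠ ⊥) (hnil : Group.IsNilpotent H) (hHn : ∀ x ∈ L, ∀ h ∈ H, x * h * x⁻¹ ∈ H) (hinf : H ⊓ W₁ = ⊥) (hsup : H ⊔ W₁ = L) (hfpf : ∀ w ∈ W₁, w ≠ 1 → ∀ h ∈ H, w * h = h * w → h = 1) (hTI : Cfsg.IsTISubset (H : Set G)) (hN : Subgroup.normalizer (H : Set G) = L) : Cfsg.IsCoherent (Cfsg.inducedIrrAbove (H.subgroupOf L) ⊥) {1}ᶜ (fun α : L → ℂ => Cfsg.indFun L α) := by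
  classical
  have hmK : ∀ x : L, x ∈ H.subgroupOf L ↔ (x : G) ∈ H := fun x => Subgroup.mem_subgroupOf
  have hK : (H.subgroupOf L).Normal := by
    refine ⟨fun k hk x => ?_⟩
    rw [hmK] at hk ⊢
    exact hHn x x.2 k hk
  have hsup' : H.subgroupOf L ⊔ W₁.subgroupOf L = ⊤ := by
    apply Subgroup.map_injective L.subtype_injective
    rw [Subgroup.map_sup, Subgroup.map_subgroupOf_eq_of_le hHL, Subgroup.map_subgroupOf_eq_of_le hW₁L, hsup,
      ← MonoidHom.range_eq_map, Subgroup.range_subtype]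
  have hC : ∀ k ∈ H.subgroupOf L, k ≠ 1 → Subgroup.centralizer ({k} : Set L) ≤ H.subgroupOf L := by
    intro k hk hk1 g hg
    rw [Subgroup.mem_centralizer_singleton_iff] at hg
    refine H4.frob_centralizer hK hsup' ?_ k hk hk1 g hg
    intro w hw hw1 h hh hwh
    have := hfpf w hw (fun h => hw1 (Subtype.ext h)) h hh (congrArg Subtype.val hwh)
    exact Subtype.ext this
  have hK1 : H.subgroupOf L ≠ ⊥ := by
    intro h
    apply hH1
    rw [← Subgroup.map_subgroupOf_eq_of_le hHL, h, Subgroup.map_bot]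
  haveI : Group.IsNilpotent H := hnil
  have hnil' : Group.IsNilpotent (H.subgroupOf L) := 
    Group.nilpotent_of_mulEquiv (Subgroup.subgroupOfEquivOfLe hHL).symm
  exact H4.sibley H L hN hodd hTI _ rfl hC hK1 hnil'

end Cfsg.Agent.S1524
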