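import Cfsg.Statements.S1525
import Cfsg.Agent.H4.Dade2

set_option autoImplicit false
open Cfsg

namespace Cfsg.Agent.S1525

/-- Under the Dade hypothesis for (A, L, H), let χ be a class function of G and let ψ be a function on L whose value at each a ∈ A is the average of χ over the coset a·H(a). Then (1/|G|) Σ |χ g|² over the elements g of G conjugate into some coset a·H(a) with a ∈ A is at least (1/|L|) Σ_{a ∈ A ∩ L} |ψ a|². -/
theorem result {G : Type*} [Group G] [Fintype G] (A : Set G) (L : Subgroup G) [Fintype L] (H : G → Subgroup G) (hD : Cfsg.DadeHypothesis A L H) (χ : G → ℂ) (hχ : Cfsg.IsClassFunction G χ) (ψ : L → ℂ) (hψ : ∀ a : L, (a : G) ∈ A → ψ a = (Nat.card (H a) : ℂ)⁻¹ * ∑ᶠ u ∈ (H a : Set G), χ (a * u)) : (Nat.card L : ℝ)⁻¹ * ∑ᶠ a ∈ {a : L | (a : G) ∈ A}, ‖ψ a‖ ^ 2 ≤ (Nat.card G : ℝ)⁻¹ * ∑ᶠ g ∈ {g : G | ∃ a ∈ A, ∃ u ∈ H a, ∃ x : G, x * g * x⁻¹ = a *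 u}, ‖χ g‖ ^ 2 := by
  classical
  have : ∀ a : G, Fintype (H a) := fun a => Fintype.ofFinite _
  let D : Set G := {g : G | ∃ a ∈ A, ∃ u ∈ H a, ∃ x : G, x * g * x⁻¹ = a * u}
  let F : G → ℂ := fun g => if g ∈ D then ((‖χ g‖ ^ 2 : ℝ) : ℂ) else 0
  have hDc : ∀ g h : G, h * g * h⁻¹ ∈ D ↔ g ∈ D := by
    intro g h
    constructor
    · rintro ⟨a, ha, u, hu, x, hx⟩
      exact ⟨a, ha, u, hu, x * h, by rw [← hx]; group⟩
    · rintro ⟨a, ha, u, hu, x, hx⟩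
      exact ⟨a, ha, u, hu, x * h⁻¹, by rw [← hx]; group⟩
  have hF : IsClassFunction G F := by
    intro g h
    show (if h * g * h⁻¹ ∈ D then _ else _) = (if g ∈ D then _ else _)
    by_cases hg : g ∈ D
    · rw [if_pos hg, if_pos ((hDc g h).mpr hg), hχ g h]
    · rw [if_neg hg, if_neg (fun h' => hg ((hDc g h).mp h'))]
  have h1 := H4.dade_sum hD F hF (fun g hg => if_neg hg)
  have h2 : ∑ g : G, F g = ((∑ᶠ g ∈ {g : G | ∃ a ∈ A, ∃ u ∈ H a, ∃ x : G, x * g * x⁻¹ = a * u}, ‖χ g‖ ^ 2 : ℝ) : ℂ) := by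
    have h3 : ∑ᶠ g ∈ {g : G | ∃ a ∈ A, ∃ u ∈ H a, ∃ x : G, x * g * x⁻¹ = a * u}, ‖χ g‖ ^ 2 = ∑ g : G, if g ∈ D then ‖χ g‖ ^ 2 else 0 := by
      rw [finsum_mem_def, finsum_eq_sum_of_fintype]
      apply Finset.sum_congr rfl; intro g _
      rw [Set.indicator_apply]
    rw [h3]
    push_cast
    apply Finset.sum_congr rfl; intro g _
    show (if g ∈ D then ((‖χ g‖ ^ 2 : ℝ) : ℂ) else 0) = _
    split_ifs <;> push_cast <;> rfl
  rw [h2] at h1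
  have h3 : ∑ a : L, (if (a : G) ∈ A then (Nat.card (H a) : ℂ)⁻¹ * ∑ u : H (a : G), F ((a : G) * u) else 0) = ((∑ a : L, (if (a : G) ∈ A then (Nat.card (H a) : ℝ)⁻¹ * ∑ u : H (a : G), ‖χ ((a : G) * u)‖ ^ 2 else 0) : ℝ) : ℂ) := by
    push_cast
    apply Finset.sum_congr rfl; intro a _
    split_ifs with ha
    · rw [Complex.ofReal_mul, Complex.ofReal_inv, Complex.ofReal_natCast, Complex.ofReal_sum]
      refine congrArg _ ?_
      apply Finset.sum_congr rfl; intro u _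
      have h4 : (a : G) * u ∈ D := ⟨a, ha, u, u.2, 1, by group⟩
      show (if (a : G) * u ∈ D then ((‖χ ((a : G) * u)‖ ^ 2 : ℝ) : ℂ) else 0) = _
      rw [if_pos h4]
    · rfl
  rw [h3] at h1
  have h4 : (Nat.card G : ℝ)⁻¹ * ∑ᶠ g ∈ {g : G | ∃ a ∈ A, ∃ u ∈ H a, ∃ x : G, x * g * x⁻¹ = a * u}, ‖χ g‖ ^ 2 = (Nat.card L : ℝ)⁻¹ * ∑ a : L, (if (a : G) ∈ A then (Nat.card (H a) : ℝ)⁻¹ * ∑ u : H (a : G), ‖χ ((a : G) * u)‖ ^ 2 else 0) := by
    apply Complex.ofReal_injective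
    rw [Complex.ofReal_mul, Complex.ofReal_mul, Complex.ofReal_inv, Complex.ofReal_inv, Complex.ofReal_natCast, Complex.ofReal_natCast]
    exact h1
  rw [h4]
  apply mul_le_mul_of_nonneg_left _ (by positivity)
  have h5 : ∑ᶠ a ∈ {a : L | (a : G) ∈ A}, ‖ψ a‖ ^ 2 = ∑ a : L, if (a : G) ∈ A then ‖ψ a‖ ^ 2 else 0 := by
    rw [finsum_mem_def, finsum_eq_sum_of_fintype]
    apply Finset.sum_congr rfl; intro g _
    rw [Set.indicator_apply]; rfl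
  rw [h5]
  apply Finset.sum_le_sum
  intro a _
  split_ifs with ha
  · rw [hψ a ha, H4.finsum_mem_subgroup, norm_mul, norm_inv, Complex.norm_natCast, mul_pow]
    have hH0 : (0 : ℝ) < Nat.card (H (a : G)) := by exact_mod_cast Nat.card_pos
    have h6 : ‖∑ u : H (a : G), χ ((a : G) * u)‖ ^ 2 ≤ (Nat.card (H (a : G)) : ℝ) * ∑ u : H (a : G), ‖χ ((a : G) * u)‖ ^ 2 := by
      have h7 : ‖∑ u : H (a : G), χ ((a : G) * u)‖ ≤ ∑ u : H (a : G), ‖χ ((a : G) * u)‖ := norm_sum_le _ _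
      have h8 : (∑ u : H (a : G), ‖χ ((a : G) * u)‖) ^ 2 ≤ (Finset.card (Finset.univ : Finset (H (a : G))) : ℝ) * ∑ u : H (a : G), ‖χ ((a : G) * u)‖ ^ 2 := sq_sum_le_card_mul_sum_sq
      rw [Finset.card_univ, ← Nat.card_eq_fintype_card] at h8
      exact (pow_le_pow_left₀ (norm_nonneg _) h7 2).trans h8
    calc ((Nat.card (H (a : G)) : ℝ)⁻¹) ^ 2 * ‖∑ u : H (a : G), χ ((a : G) * u)‖ ^ 2
        ≤ ((Nat.card (H (a : G)) : ℝ)⁻¹) ^ 2 * ((Nat.card (H (a : G)) : ℝ) * ∑ u : H (a : G), ‖χ ((a : G) * u)‖ ^ 2) := by gcongr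
      _ = _ := by field_simp
  · exact le_refl _

end Cfsg.Agent.S1525
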