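import Cfsg.Statements.S1527
import Mathlib

set_option autoImplicit false
open Cfsg

namespace Cfsg.Agent.S1527

/-- Let G be a finite group and H i (i in a finite index type) subgroups of pairwise coprime orders, each of whose underlying sets is a TI-subset of G, such that every non-identity element of G is conjugate to an element of some H i. Then Nat.card G − 1 = Σ_i [G : N_G(H i)] · (Nat.card (H i) − 1). -/
theorem result {G : Type*} [Group G] [Finite G] {ι : Type*} [Fintype ι] (H : ι → Subgroup G) (hcop : ∀ i j, i ≠ j → Nat.Coprime (Nat.card (H i)) (Nat.card (H j))) (hTI : ∀ i, Cfsg.IsTISubset (H i : Set G)) (hcover : ∀ g : G, g ≠ 1 → ∃ i, ∃ x : G, x * g * x⁻¹ ∈ H i) : Nat.card G - 1 = ∑ i, (Subgroup.normalizer (H i : Set G)).index * (Nat.card (H i) - 1) := by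
  classical
  letI : Fintype G := Fintype.ofFinite G
  have h1 : Nat.card G - 1 = Nat.card {g : G // g ≠ 1} := by
    have h2 : Fintype.card {g : G // ¬ (g = 1)} = Fintype.card G - Fintype.card {g : G // g = 1} := Fintype.card_subtype_compl _
    rw [Fintype.card_subtype_eq, ← Nat.card_eq_fintype_card, ← Nat.card_eq_fintype_card] at h2
    exact h2.symm
  have h2 : ∀ i, Nat.card (H i) - 1 = Nat.card {h : H i // h ≠ 1} := by
    intro i
    have h2 : Fintype.card {g : H i // ¬ (g = 1)} = Fintype.card (H i) - Fintype.card {g : H i // g = 1} := Fintype.card_subtype_compl _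
    rw [Fintype.card_subtype_eq, ← Nat.card_eq_fintype_card, ← Nat.card_eq_fintype_card] at h2
    exact h2.symm
  rw [h1]
  have h3 : ∀ i, (Subgroup.normalizer (H i : Set G)).index * (Nat.card (H i) - 1) = Nat.card ((G ⧸ Subgroup.normalizer (H i : Set G)) × {h : H i // h ≠ 1}) := by
    intro i
    rw [Nat.card_prod, h2]; rfl
  rw [Finset.sum_congr rfl (fun i _ => h3 i), ← Nat.card_sigma]
  symm
  apply Nat.card_congr
  let F : (Σ i : ι, (G ⧸ Subgroup.normalizer (H i : Set G)) × {h : H i // h ≠ 1}) → {g : G // g ≠ 1} := fun w =>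
    ⟨w.2.1.out * ((w.2.2 : H w.1) : G) * (w.2.1.out)⁻¹, by
      intro h
      apply w.2.2.2
      apply Subtype.ext
      have : ((w.2.2 : H w.1) : G) = (w.2.1.out)⁻¹ * (w.2.1.out * ((w.2.2 : H w.1) : G) * (w.2.1.out)⁻¹) * w.2.1.out := by group
      rw [this, h]
      simp⟩
  have hord : ∀ (x z : G), orderOf (x * z * x⁻¹) = orderOf z := by
    intro x z
    have := MulEquiv.orderOf_eq (MulAut.conj x) z
    simpa [MulAut.conj_apply] using this
  refine Equiv.ofBijective F ⟨?_, ?_⟩
  · rintro ⟨i, q, h⟩ ⟨j, q', h'⟩ heq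
    have heq' : q.out * ((h : H i) : G) * (q.out)⁻¹ = q'.out * ((h' : H j) : G) * (q'.out)⁻¹ := congrArg Subtype.val heq
    have hij : i = j := by
      by_contra hne
      have h4 : orderOf ((h : H i) : G) ∣ Nat.card (H i) := by
        have := orderOf_dvd_natCard (h : H i)
        rwa [← Subgroup.orderOf_coe] at this
      have h5 : orderOf ((h' : H j) : G) ∣ Nat.card (H j) := by
        have := orderOf_dvd_natCard (h' : H j)
        rwa [← Subgroup.orderOf_coe] at this
      have h6 : orderOf ((h : H i) : G) = orderOf ((h' : H j) : G) := by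
        rw [← hord q.out, heq', hord]
      rw [← h6] at h5
      have h7 := Nat.eq_one_of_dvd_coprimes (hcop i j hne) h4 h5
      rw [orderOf_eq_one_iff] at h7
      exact h.2 (Subtype.ext h7)
    subst hij
    have hq : q = q' := by
      by_contra hne
      have h4 : (q'.out)⁻¹ * q.out ∉ Subgroup.normalizer (H i : Set G) := by
        intro hmem
        apply hne
        rw [← QuotientGroup.out_eq' q, ← QuotientGroup.out_eq' q']
        symm
        rw [QuotientGroup.eq]
        exact hmem
      have h5 : ((q'.out)⁻¹ * q.out) * ((h : H i) : G) * ((q'.out)⁻¹ * q.out)⁻¹ ∈ (H i : Set G) := by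
        have : ((q'.out)⁻¹ * q.out) * ((h : H i) : G) * ((q'.out)⁻¹ * q.out)⁻¹ = ((h' : H i) : G) := by
          calc ((q'.out)⁻¹ * q.out) * ((h : H i) : G) * ((q'.out)⁻¹ * q.out)⁻¹ = (q'.out)⁻¹ * (q.out * ((h : H i) : G) * (q.out)⁻¹) * q'.out := by group
            _ = _ := by rw [heq']; group
        rw [this]; exact (h' : H i).2
      have h6 := hTI i _ h4 _ (h : H i).2 h5
      exact h.2 (Subtype.ext h6)
    subst hq
    have h4 : ((h : H i) : G) = ((h' : H i) : G) := mul_left_cancel (mul_right_cancel heq')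
    have h5 : h = h' := Subtype.ext (Subtype.ext h4)
    rw [h5]
  · rintro ⟨g, hg⟩
    obtain ⟨i, x, hx⟩ := hcover g hg
    let q : G ⧸ Subgroup.normalizer (H i : Set G) := QuotientGroup.mk x⁻¹
    have h4 : (q.out)⁻¹ * x⁻¹ ∈ Subgroup.normalizer (H i : Set G) := by
      rw [← QuotientGroup.eq, QuotientGroup.out_eq']
    have h5 : (q.out)⁻¹ * g * q.out ∈ H i := by
      have h6 := (Subgroup.mem_normalizer_iff.mp h4 (x * g * x⁻¹)).mp hx
      have h7 : (q.out)⁻¹ * x⁻¹ * (x * g * x⁻¹) * ((q.out)⁻¹ * x⁻¹)⁻¹ = (q.out)⁻¹ * g * q.out := by group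
      rwa [h7] at h6
    refine ⟨⟨i, q, ⟨⟨_, h5⟩, ?_⟩⟩, ?_⟩
    · intro h
      apply hg
      have h6 : (q.out)⁻¹ * g * q.out = 1 := congrArg Subtype.val h
      have h7 : g = q.out * ((q.out)⁻¹ * g * q.out) * (q.out)⁻¹ := by group
      rw [h7, h6]; simp
    · apply Subtype.ext
      show q.out * ((q.out)⁻¹ * g * q.out) * (q.out)⁻¹ = g
      group

end Cfsg.Agent.S1527
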