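import Cfsg.Statements.S1529
import Cfsg.Agent.H4.Coh1

set_option autoImplicit false
open Cfsg

namespace Cfsg.Agent.S1529

/-- Let N be a subgroup of the finite group G, S a set of irreducible characters of N with at least two members, and τ₁ a linear isometry on the integer combinations of S with virtual-character values such that τ₁ α vanishes at 1 whenever α ∈ ℤ[S] does. Then there is ε ∈ {1, −1} such that ε • τ₁ χ is an irreducible character of G for every χ ∈ S, and distinct members of S give distinct characters. -/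
theorem result {G : Type*} [Group G] [Fintype G] (N : Subgroup G) [Fintype N] (S : Set (N → ℂ)) (hirr : ∀ χ ∈ S, Cfsg.IsIrrCharacter N χ) (htwo : ∃ χ ∈ S, ∃ ψ ∈ S, χ ≠ ψ) (τ₁ : (N → ℂ) → (G → ℂ)) (hτ₁ : Cfsg.IsLinearIsometryOn (Cfsg.zspan S) τ₁) (h0 : ∀ α ∈ Cfsg.zspan S, α 1 = 0 → τ₁ α 1 = 0) : ∃ ε : ℂ, (ε = 1 ∨ ε = -1) ∧ (∀ χ ∈ S, Cfsg.IsIrrCharacter G (ε • τ₁ χ)) ∧ (∀ χ ∈ S, ∀ ψ ∈ S, τ₁ χ = τ₁ ψ → χ = ψ) := by
  classical
  obtain ⟨hadd, hsm, hinner, hgen⟩ := hτ₁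
  have hmem : ∀ χ ∈ S, χ ∈ zspan S := fun χ hχ => Submodule.subset_span hχ
  have hirr' : ∀ χ ∈ S, IsIrrCharacter G (τ₁ χ) ∨ IsIrrCharacter G (-(τ₁ χ)) := by
    intro χ hχ
    apply H4.gen_norm_one (hgen χ (hmem χ hχ))
    rw [hinner χ (hmem χ hχ) χ (hmem χ hχ), H4.inner_irr_eq (hirr χ hχ) (hirr χ hχ), if_pos rfl]
  have hinj : ∀ χ ∈ S, ∀ ψ ∈ S, τ₁ χ = τ₁ ψ → χ = ψ := by
    intro χ hχ ψ hψ h
    by_contra hne
    have h1 := hinner χ (hmem χ hχ) ψ (hmem ψ hψ)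
    rw [H4.inner_irr_eq (hirr χ hχ) (hirr ψ hψ), if_neg hne, ← h, hinner χ (hmem χ hχ) χ (hmem χ hχ),
      H4.inner_irr_eq (hirr χ hχ) (hirr χ hχ), if_pos rfl] at h1
    exact one_ne_zero h1
  have hdeg : ∀ χ ∈ S, ∀ ψ ∈ S, ∀ a b : ℕ, χ 1 = a → ψ 1 = b → (b : ℂ) * τ₁ χ 1 = (a : ℂ) * τ₁ ψ 1 := by
    intro χ hχ ψ hψ a b ha hb
    have h1 : (b : ℤ) • χ ∈ zspan S := Submodule.smul_mem _ _ (hmem χ hχ)
    have h2 : (-(a : ℤ)) • ψ ∈ zspan S := Submodule.smul_mem _ _ (hmem ψ hψ)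
    have h3 : (b : ℤ) • χ + (-(a : ℤ)) • ψ ∈ zspan S := Submodule.add_mem _ h1 h2
    have h4 : ((b : ℤ) • χ + (-(a : ℤ)) • ψ) 1 = 0 := by
      rw [Pi.add_apply, H4.zs_apply, H4.zs_apply, ha, hb]
      push_cast; ring
    have h5 := h0 _ h3 h4
    rw [hadd _ h1 _ h2, hsm _ (hmem χ hχ), hsm _ (hmem ψ hψ)] at h5
    rw [Pi.add_apply, H4.zs_apply, H4.zs_apply] at h5
    push_cast at h5
    linear_combination h5
  obtain ⟨χ₀, hχ₀, -⟩ := htwo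
  obtain ⟨a₀, ha₀, ha₀'⟩ := H4.IsIrr.exists_degree (hirr χ₀ hχ₀)
  obtain ⟨d₀, hd₀, hd₀1, hpos₀, hneg₀⟩ := H4.irr_signed_degree (hirr' χ₀ hχ₀)
  have hkey : ∀ χ ∈ S, (0 < d₀ → IsIrrCharacter G (τ₁ χ)) ∧ (d₀ < 0 → IsIrrCharacter G (-(τ₁ χ))) := by
    intro χ hχ
    obtain ⟨a, ha, ha'⟩ := H4.IsIrr.exists_degree (hirr χ hχ)
    obtain ⟨d, hd, hd1, hpos, hneg⟩ := H4.irr_signed_degree (hirr' χ hχ)
    have h1 := hdeg χ hχ χ₀ hχ₀ a a₀ ha' ha₀'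
    rw [hd1, hd₀1] at h1
    have h2 : (a₀ : ℤ) * d = a * d₀ := by exact_mod_cast h1
    constructor
    · intro h3
      apply hpos
      have h4 : 0 < (a₀ : ℤ) * d := by rw [h2]; positivity
      exact pos_of_mul_pos_right h4 (by positivity) |> fun h => h
    · intro h3
      apply hneg
      have h4 : (a₀ : ℤ) * d < 0 := by
        rw [h2]
        have : (0 : ℤ) < a := by exact_mod_cast ha
        nlinarith
      have : (0 : ℤ) < a₀ := by exact_mod_cast ha₀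
      by_contra hcon
      push Not at hcon
      have : 0 ≤ (a₀ : ℤ) * d := by positivity
      omega
  rcases lt_or_gt_of_ne hd₀ with h | h
  · refine ⟨-1, Or.inr rfl, fun χ hχ => ?_, hinj⟩
    have := (hkey χ hχ).2 h
    simpa using this
  · refine ⟨1, Or.inl rfl, fun χ hχ => ?_, hinj⟩
    have := (hkey χ hχ).1 h
    simpa using this

end Cfsg.Agent.S1529
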