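import Cfsg.Statements.S1536
import Cfsg.Agent.H4.Odd1

set_option autoImplicit false
open Cfsg

namespace Cfsg.Agent.S1536

/-- Let H be a normal subgroup of the finite group M whose order is coprime to its index. For x ∈ M: some non-principal irreducible character of H is unchanged under h ↦ θ(x h x⁻¹) if and only if some non-identity element of H commutes with x. -/
theorem result {M : Type*} [Group M] [Finite M] (H : Subgroup M) [hN : H.Normal] (hHall : Nat.Coprime (Nat.card H) H.index) (x : M) : (∃ θ : H → ℂ, Cfsg.IsIrrCharacter H θ ∧ θ ≠ (fun _ => 1) ∧ (fun h : H => θ ⟨x * h * x⁻¹, hN.conj_mem h h.2 x⟩) = θ) ↔ ∃ h ∈ H, h ≠ 1 ∧ x * h = h * x := by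
  classical
  have h1 := H4.brauer_perm_aut (H4.conjAut hN x)
  have hN' : ∀ g : M, g ∈ Subgroup.normalizer (H : Set M) := fun g => by
    rw [Subgroup.normalizer_eq_top]; trivial
  constructor
  · rintro ⟨θ, hθ, hθ1, hinv⟩
    -- at least two fixed characters
    have h2 : 1 < Nat.card {χ : IrrCharacter H // (χ : H → ℂ) ∘ (H4.conjAut hN x) = (χ : H → ℂ)} := by
      rw [Finite.one_lt_card_iff_nontrivial]
      refine ⟨⟨⟨θ, hθ⟩, hinv⟩, ⟨⟨fun _ => 1, H5.isIrrCharacter_trivial⟩, rfl⟩, ?_⟩
      intro h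
      exact hθ1 (congrArg (fun z => ((z.1 : IrrCharacter H) : H → ℂ)) h)
    rw [← h1, Finite.one_lt_card_iff_nontrivial] at h2
    obtain ⟨C, hC⟩ := exists_ne (⟨ConjClasses.mk 1, by show ConjClasses.mk (H4.conjAut hN x 1) = _; rw [map_one]⟩ : {C : ConjClasses H // ConjClasses.map (H4.conjAut hN x).toMonoidHom C = C})
    obtain ⟨C, hCfix⟩ := C
    induction C using Quotient.inductionOn with
    | _ c =>
      have hc1 : c ≠ 1 := by
        rintro rfl
        exact hC rfl
      have h3 : IsConj (H4.conjAut hN x c) c := ConjClasses.mk_eq_mk_iff_isConj.1 hCfix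
      obtain ⟨y, hy⟩ := isConj_iff.1 h3
      have h4 : (y : M) * (x * c * x⁻¹) * (y : M)⁻¹ = c := congrArg Subtype.val hy
      have h5 : ((y : M) * x) * c = c * (y * x) := by
        calc ((y : M) * x) * c = (y : M) * (x * c * x⁻¹) * (y : M)⁻¹ * (y * x) := by group
          _ = c * (y * x) := by rw [h4]
      -- z = y x; split into parts
      set z : M := (y : M) * x with hz
      have hord : orderOf z ∣ Nat.card H * H.index := by rw [H.card_mul_index]; exact orderOf_dvd_natCard z
      obtain ⟨a, b, hab, hcomm, ha, hb, hau, hbu⟩ := H4.exists_parts hHall z hord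
      -- a in H
      have haH : a ∈ H := by
        have h6 : ((QuotientGroup.mk a : M ⧸ H)) ^ Nat.card H = 1 := by
          rw [← QuotientGroup.mk_pow, orderOf_dvd_iff_pow_eq_one.mp ha]; rfl
        have h7 : orderOf (QuotientGroup.mk a : M ⧸ H) ∣ Nat.card H := orderOf_dvd_of_pow_eq_one h6
        have h8 : orderOf (QuotientGroup.mk a : M ⧸ H) ∣ H.index := orderOf_dvd_natCard _
        have h9 := Nat.eq_one_of_dvd_coprimes hHall h7 h8
        rw [orderOf_eq_one_iff, QuotientGroup.eq_one_iff] at h9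
        exact h9
      have hcb : b * c = c * b := by
        obtain ⟨k, hk⟩ := hbu
        rw [← hk]
        exact (Commute.zpow_left (show Commute z c from h5) k)
      have hcopb : Nat.Coprime (orderOf b) (Nat.card H) := Nat.Coprime.coprime_dvd_left hb hHall.symm
      -- x = (y⁻¹ a) b
      have hx : x = ((y : M)⁻¹ * a) * b := by
        rw [mul_assoc, ← hab, hz]; group
      obtain ⟨u, hu, d, hd, hdb, hud⟩ := H4.coset_conj H b (hN' b) hcopb ((y : M)⁻¹ * a) (H.mul_mem (H.inv_mem y.2) haH)
      rw [← hx] at hud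
      -- x = u⁻¹ d b u
      have hx2 : x = u⁻¹ * (d * b) * u := by rw [← hud]; group
      by_cases hd1 : d = 1
      · refine ⟨u⁻¹ * c * u, H.mul_mem (H.mul_mem (H.inv_mem hu) c.2) hu, ?_, ?_⟩
        · intro h
          apply hc1
          apply Subtype.ext
          have : (c : M) = u * (u⁻¹ * c * u) * u⁻¹ := by group
          rw [this, h]; simp
        · rw [hx2, hd1, one_mul]
          calc u⁻¹ * b * u * (u⁻¹ * c * u) = u⁻¹ * (b * c) * u := by group
            _ = u⁻¹ * (c * b) * u := by rw [hcb]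
            _ = _ := by group
      · refine ⟨u⁻¹ * d * u, H.mul_mem (H.mul_mem (H.inv_mem hu) hd) hu, ?_, ?_⟩
        · intro h
          apply hd1
          have : d = u * (u⁻¹ * d * u) * u⁻¹ := by group
          rw [this, h]; simp
        · rw [hx2]
          calc u⁻¹ * (d * b) * u * (u⁻¹ * d * u) = u⁻¹ * (d * (b * d)) * u := by group
            _ = u⁻¹ * (d * (d * b)) * u := by rw [hdb]
            _ = _ := by group
  · rintro ⟨h, hh, hh1, hxh⟩
    have h2 : 1 < Nat.card {C : ConjClasses H // ConjClasses.map (H4.conjAut hN x).toMonoidHom C = C} := by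
      rw [Finite.one_lt_card_iff_nontrivial]
      refine ⟨⟨ConjClasses.mk ⟨h, hh⟩, ?_⟩, ⟨ConjClasses.mk 1, by show ConjClasses.mk (H4.conjAut hN x 1) = _; rw [map_one]⟩, ?_⟩
      · show ConjClasses.mk (H4.conjAut hN x ⟨h, hh⟩) = ConjClasses.mk ⟨h, hh⟩
        congr 1
        apply Subtype.ext
        show x * h * x⁻¹ = h
        rw [hxh, mul_inv_cancel_right]
      · intro heq
        have h3 : ConjClasses.mk (⟨h, hh⟩ : H) = ConjClasses.mk 1 := congrArg Subtype.val heq
        rw [ConjClasses.mk_eq_mk_iff_isConj, isConj_one_left] at h3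
        exact hh1 (congrArg Subtype.val h3)
    rw [h1, Finite.one_lt_card_iff_nontrivial] at h2
    obtain ⟨χ, hχ⟩ := exists_ne (⟨⟨fun _ => 1, H5.isIrrCharacter_trivial⟩, rfl⟩ : {χ : IrrCharacter H // (χ : H → ℂ) ∘ (H4.conjAut hN x) = (χ : H → ℂ)})
    refine ⟨χ.1, χ.1.2, ?_, χ.2⟩
    intro h'
    exact hχ (Subtype.ext (Subtype.ext h'))

end Cfsg.Agent.S1536
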