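import Cfsg.Statements.S1546
import Mathlib

set_option autoImplicit false
open Cfsg

namespace Cfsg.Agent.S1546

/-- Let p and q be odd primes and N = (p ^ q − 1) / (p − 1) = 1 + p + ⋯ + p^(q−1). Then N is odd; if p ≡ 1 (mod q) then q ∣ N; and if p is not ≡ 1 (mod q) then N is coprime to p − 1 and every divisor of N is ≡ 1 (mod q). -/
theorem result (p q : ℕ) (hp : p.Prime) (hq : q.Prime) (hp2 : p ≠ 2) (hq2 : q ≠ 2) : Odd ((p ^ q - 1) / (p - 1)) ∧ (p % q = 1 → q ∣ (p ^ q - 1) / (p - 1)) ∧ (p % q ≠ 1 → Nat.Coprime ((p ^ q - 1) / (p - 1)) (p - 1) ∧ ∀ x : ℕ, x ∣ (p ^ q - 1) / (p - 1) → x % q = 1) := by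
  have hN : (p ^ q - 1) / (p - 1) = ∑ k ∈ Finset.range q, p ^ k := (Nat.geomSum_eq hp.two_le q).symm
  rw [hN]
  set N := ∑ k ∈ Finset.range q, p ^ k with hNdef
  have hpodd : Odd p := hp.odd_of_ne_two hp2
  have hqodd : Odd q := hq.odd_of_ne_two hq2
  have h1 : ∀ m : ℕ, p ≡ 1 [MOD m] → N ≡ q [MOD m] := by
    intro m hm
    have : N ≡ ∑ k ∈ Finset.range q, 1 [MOD m] := by
      rw [hNdef, ← ZMod.natCast_eq_natCast_iff]
      push_cast
      have h2 : (p : ZMod m) = 1 := by
        have := (ZMod.natCast_eq_natCast_iff p 1 m).mpr hm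
        simpa using this
      simp [h2]
    simpa using this
  have hgeom : N * (p - 1) = p ^ q - 1 := by
    have := Nat.geomSum_eq hp.two_le q
    rw [hNdef, this, Nat.div_mul_cancel]
    exact Nat.sub_one_dvd_pow_sub_one p q
  refine ⟨?_, ?_, ?_⟩
  · have h2 : N ≡ q [MOD 2] := h1 2 (by
      rw [Nat.ModEq]; exact Nat.odd_iff.mp hpodd)
    rw [Nat.odd_iff, h2]
    exact Nat.odd_iff.mp hqodd
  · intro hpq
    have h2 : N ≡ q [MOD q] := h1 q (by
      rw [Nat.ModEq, hpq, Nat.mod_eq_of_lt hq.one_lt])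
    rw [Nat.dvd_iff_mod_eq_zero, h2]
    simp
  · intro hpq
    have hcop : Nat.Coprime N (p - 1) := by
      have h2 : N ≡ q [MOD (p - 1)] := h1 (p - 1) (by
        have : 1 ≡ p [MOD (p - 1)] := (Nat.modEq_iff_dvd' hp.one_le).mpr (dvd_refl _)
        exact this.symm)
      rw [Nat.Coprime, h2.gcd_eq]
      rcases (Nat.dvd_prime hq).mp (Nat.gcd_dvd_left q (p - 1)) with h | h
      · exact h
      · exfalso
        apply hpq
        have h3 : q ∣ p - 1 := by rw [← h]; exact Nat.gcd_dvd_right q (p - 1)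
        have h4 : 1 ≡ p [MOD q] := (Nat.modEq_iff_dvd' hp.one_le).mpr h3
        rw [← h4, Nat.mod_eq_of_lt hq.one_lt]
    refine ⟨hcop, ?_⟩
    have hprime : ∀ r : ℕ, r.Prime → r ∣ N → r ≡ 1 [MOD q] := by
      intro r hr hrN
      haveI : Fact r.Prime := ⟨hr⟩
      have h2 : (p : ZMod r) ^ q = 1 := by
        have h3 : r ∣ p ^ q - 1 := by rw [← hgeom]; exact Dvd.dvd.mul_right hrN _
        have h4 : 1 ≡ p ^ q [MOD r] := (Nat.modEq_iff_dvd' (Nat.one_le_pow _ _ hp.pos)).mpr h3
        have := (ZMod.natCast_eq_natCast_iff _ _ _).mpr h4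
        push_cast at this
        exact this.symm
      have h3 : (p : ZMod r) ≠ 1 := by
        intro h
        have h4 : 1 ≡ p [MOD r] := by
          apply (ZMod.natCast_eq_natCast_iff _ _ _).mp
          push_cast; exact h.symm
        have h5 : r ∣ p - 1 := (Nat.modEq_iff_dvd' hp.one_le).mp h4
        exact hr.one_lt.ne' (Nat.eq_one_of_dvd_coprimes hcop hrN h5)
      haveI : Fact q.Prime := ⟨hq⟩
      have h4 : orderOf (p : ZMod r) = q := orderOf_eq_prime h2 h3
      have hp0 : (p : ZMod r) ≠ 0 := by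
        intro h0
        rw [h0, zero_pow hq.ne_zero] at h2
        exact zero_ne_one h2
      have h5 : (p : ZMod r) ^ (r - 1) = 1 := ZMod.pow_card_sub_one_eq_one hp0
      have h6 : q ∣ r - 1 := by rw [← h4]; exact orderOf_dvd_of_pow_eq_one h5
      exact ((Nat.modEq_iff_dvd' hr.one_le).mpr h6).symm
    intro x hx
    have hN0 : N ≠ 0 := by
      intro h0
      rw [h0, zero_mul] at hgeom
      have : 1 < p ^ q := Nat.one_lt_pow hq.ne_zero hp.one_lt
      omega
    have key : ∀ x : ℕ, x ∣ N → x ≡ 1 [MOD q] := by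
      intro x
      induction x using Nat.recOnMul with
      | zero => intro h; exact absurd (Nat.eq_zero_of_zero_dvd h) hN0
      | one => intro _; rfl
      | prime r hr => intro h; exact hprime r hr h
      | mul a b iha ihb =>
        intro h
        have := (iha (dvd_of_mul_right_dvd h)).mul (ihb (dvd_of_mul_left_dvd h))
        simpa using this
    rw [key x hx, Nat.mod_eq_of_lt hq.one_lt]

end Cfsg.Agent.S1546
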