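import Cfsg.Statements.S1552
import Cfsg.Agent.H9.OrbS

set_option autoImplicit false
open scoped Pointwise
open Cfsg

namespace Cfsg.Agent.S1552

theorem key : H9.OrbList (MulAction.stabilizer Cfsg.M24 (H9.Sx H9.sx0)) (H9.sxF : Set (Finset (Finset Cfsg.GolayPt))) [1, 90, 240, 1440] := by
  rw [H9.coe_sxF]; exact H9.ss_s

/-- A sextet stabiliser has four orbits on the 1771 sextets, of sizes 1, 90, 240, 1440; and the stabiliser is a maximal proper subgroup. -/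
theorem result (S : Finset (Finset Cfsg.GolayPt)) (hS : S ∈ Cfsg.sextets) : ∃ X₁ ∈ Cfsg.sextets, ∃ X₂ ∈ Cfsg.sextets, ∃ X₃ ∈ Cfsg.sextets, (MulAction.orbit ↥(MulAction.stabilizer Cfsg.M24 S) X₁).ncard = 90 ∧ (MulAction.orbit ↥(MulAction.stabilizer Cfsg.M24 S) X₂).ncard = 240 ∧ (MulAction.orbit ↥(MulAction.stabilizer Cfsg.M24 S) X₃).ncard = 1440 ∧ Cfsg.sextets = {S} ∪ MulAction.orbit ↥(MulAction.stabilizer Cfsg.M24 S) X₁ ∪ MulAction.orbit ↥(MulAction.stabilizer Cfsg.M24 S) X₂ ∪ MulAction.orbit ↥(MulAction.stabilizer Cfsg.M24 S) X₃ ∧ IsCoatom (MulAction.stabilizer Cfsg.M24 S) := by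
  obtain ⟨u, hu, h⟩ := H9.sextet_trans H9.sx0_mem hS
  have hOL : H9.OrbList (MulAction.stabilizer Cfsg.M24 S) Cfsg.sextets [1, 90, 240, 1440] :=
    H9.OrbList.transport (fun (g : ↥Cfsg.M24) x hx => H9.smul_mem_sextets g.2 hx) H9.ss_s ⟨⟨u, hu⟩, h⟩
  obtain ⟨X1, h1, X2, h2, X3, h3, e1, e2, e3, e4⟩ := hOL.fixed_three hS (fun g hg => hg) (by norm_num) (by norm_num) (by norm_num)
  refine ⟨X1, h1, X2, h2, X3, h3, e1, e2, e3, e4, ?_⟩
  refine H9.coatom_of_orbList (Ω := H9.sxF) (L := [90, 240, 1440]) ?_ (by rw [H9.coe_sxF]; exact hOL) (by decide) ?_ ?_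
  · intro y
    rw [H9.mem_sxF]
    constructor
    · intro hy
      obtain ⟨g, hg, h⟩ := H9.sextet_trans hS hy
      exact ⟨⟨g, hg⟩, h⟩
    · rintro ⟨g, rfl⟩; exact H9.smul_mem_sextets g.2 hS
  · rw [H9.sxF_card]; decide
  · rw [H9.sxF_card]; norm_num

end Cfsg.Agent.S1552
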