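import Cfsg.Statements.S1553
import Cfsg.Agent.H9.OctStab

set_option autoImplicit false
open scoped Pointwise
open Cfsg

namespace Cfsg.Agent.S1553

/-- The stabiliser of an octad in the group of the length-24 code induces on the octad exactly its alternating group. -/
theorem result (o : Finset Cfsg.GolayPt) (ho : o ∈ Cfsg.octads) : {e : Equiv.Perm ↥o | ∃ g : Equiv.Perm Cfsg.GolayPt, g ∈ Cfsg.M24 ∧ ∃ h : (∀ x, g x ∈ o ↔ x ∈ o), g.subtypePerm h = e} = (alternatingGroup ↥o : Set (Equiv.Perm ↥o)) := by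
  rw [← H9.octS_range ho]
  ext e
  constructor
  · rintro ⟨g, hg, h, rfl⟩
    have hst : g ∈ H9.octS o := by
      refine ⟨hg, ?_⟩
      show g • o = o
      ext p
      rw [Finset.mem_smul_finset]
      constructor
      · rintro ⟨q, hq, rfl⟩; exact (h q).2 hq
      · intro hp
        refine ⟨g⁻¹ p, ?_, by simp⟩
        rw [← h]; simpa using hp
    exact ⟨⟨g, hst⟩, Equiv.ext fun x => Subtype.ext rfl⟩
  · rintro ⟨g, rfl⟩
    exact ⟨g, g.2.1, fun x => H9.smul_mem_of_fix g.2.2, Equiv.ext fun x => Subtype.ext rfl⟩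

end Cfsg.Agent.S1553
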