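import Cfsg.Statements.S1554
import Cfsg.Agent.H9.OctStab

set_option autoImplicit false
open scoped Pointwise
open Cfsg

namespace Cfsg.Agent.S1554

/-- An octad stabiliser is a split extension: the joint stabiliser of the octad and a point outside it is a complement to the pointwise stabiliser of the octad, and is isomorphic to the alternating group of degree 8. -/
theorem result (o : Finset Cfsg.GolayPt) (ho : o ∈ Cfsg.octads) (p : Cfsg.GolayPt) (hp : p ∉ o) : (Cfsg.M24 ⊓ fixingSubgroup (Equiv.Perm Cfsg.GolayPt) (o : Set Cfsg.GolayPt)) ⊓ (Cfsg.M24 ⊓ MulAction.stabilizer (Equiv.Perm Cfsg.GolayPt) o ⊓ MulAction.stabilizer (Equiv.Perm Cfsg.GolayPt) p) = ⊥ ∧ (Cfsg.M24 ⊓ fixingSubgroup (Equiv.Perm Cfsg.GolayPt) (o : Set Cfsg.GolayPt)) ⊔ (Cfsg.M24 ⊓ MulAction.stabilizer (Equiv.Perm Cfsg.GolayPt) o ⊓ MulAction.stabilizer (Equiv.Perm Cfsg.GolayPt) p) = (Cfsg.M24 ⊓ MulAction.stabilizer (Equiv.Perm Cfsg.GolayPt) o) ∧ Nonempty (↥(Cfsg.M24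 ⊓ MulAction.stabilizer (Equiv.Perm Cfsg.GolayPt) o ⊓ MulAction.stabilizer (Equiv.Perm Cfsg.GolayPt) p) ≃* alternatingGroup (Fin 8)) := by
  classical
  have hcardK : Nat.card ↥(Cfsg.M24 ⊓ MulAction.stabilizer (Equiv.Perm Cfsg.GolayPt) o ⊓
      MulAction.stabilizer (Equiv.Perm Cfsg.GolayPt) p) = 20160 := by
    have h1 := H9.card_step (H9.octS o) p oᶜ (by
      intro q hq
      rw [Finset.mem_compl] at hq
      obtain ⟨u, hu, h3, -, h4⟩ := H9.oct_frame' 0 (by norm_num) ho (fun _ => p) (by intro i hi; omega)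
        (by intro i hi j hj; omega) hp
      obtain ⟨v, hv, h5, -, h6⟩ := H9.oct_frame' 0 (by norm_num) ho (fun _ => q) (by intro i hi; omega)
        (by intro i hi j hj; omega) hq
      refine ⟨v⁻¹ * u, ⟨Cfsg.M24.mul_mem (Cfsg.M24.inv_mem hv) hu, ?_⟩, ?_⟩
      · show (v⁻¹ * u) • o = o
        rw [mul_smul, h3, ← h5, inv_smul_smul]
      · show v⁻¹ (u p) = q
        rw [h4, Equiv.Perm.inv_eq_iff_eq, h6]) (by
      intro g hg
      rw [Finset.mem_compl]
      show g p ∉ o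
      rw [H9.smul_mem_of_fix hg.2]; exact hp)
    rw [H9.card_octS ho, Finset.card_compl, H9.card_pt, H9.octad_card ho] at h1
    have h2 : H9.octS o ⊓ MulAction.stabilizer (Equiv.Perm Cfsg.GolayPt) p =
      Cfsg.M24 ⊓ MulAction.stabilizer (Equiv.Perm Cfsg.GolayPt) o ⊓
        MulAction.stabilizer (Equiv.Perm Cfsg.GolayPt) p := rfl
    rw [h2] at h1
    omega
  have hbot : (Cfsg.M24 ⊓ fixingSubgroup (Equiv.Perm Cfsg.GolayPt) (o : Set Cfsg.GolayPt)) ⊓
      (Cfsg.M24 ⊓ MulAction.stabilizer (Equiv.Perm Cfsg.GolayPt) o ⊓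
        MulAction.stabilizer (Equiv.Perm Cfsg.GolayPt) p) = ⊥ := by
    rw [eq_bot_iff]
    rintro g ⟨⟨h1, h2⟩, h3, h4⟩
    rw [Subgroup.mem_bot]
    exact H9.fixing_point ho hp h1 (H9.mem_fixing.1 h2) h4
  refine ⟨hbot, ?_, ?_⟩
  · have hle1 : Cfsg.M24 ⊓ fixingSubgroup (Equiv.Perm Cfsg.GolayPt) (o : Set Cfsg.GolayPt) ≤
        Cfsg.M24 ⊓ MulAction.stabilizer (Equiv.Perm Cfsg.GolayPt) o := by
      rw [← H9.octS_inf_fixing]; exact inf_le_left
    have hle2 : Cfsg.M24 ⊓ MulAction.stabilizer (Equiv.Perm Cfsg.GolayPt) o ⊓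
        MulAction.stabilizer (Equiv.Perm Cfsg.GolayPt) p ≤
        Cfsg.M24 ⊓ MulAction.stabilizer (Equiv.Perm Cfsg.GolayPt) o := inf_le_left
    apply le_antisymm (sup_le hle1 hle2)
    intro g hg
    obtain ⟨u, hu, h3, -, h4⟩ := H9.oct_frame' 0 (by norm_num) ho (fun _ => p) (by intro i hi; omega)
      (by intro i hi j hj; omega) hp
    have h5 : u (g p) ∈ H9.S (H9.orb 6) := by
      have e1 : H9.S (H9.orb 6) = (H9.S H9.oct0)ᶜ := by rw [H9.orb6_eq, ← H9.S_compl]; rfl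
      rw [e1, Finset.mem_compl, ← h3]
      intro h
      obtain ⟨r, hr, h6⟩ := Finset.mem_smul_finset.1 h
      rw [Equiv.Perm.smul_def] at h6
      rw [u.injective h6, H9.smul_mem_of_fix hg.2] at hr
      exact hp hr
    obtain ⟨k, hk, h6⟩ := H9.trans_step (by norm_num) h5
    have h7 : u⁻¹ * k * u ∈ Cfsg.M24 ⊓ fixingSubgroup (Equiv.Perm Cfsg.GolayPt) (o : Set Cfsg.GolayPt) := by
      rw [H9.fixing_conj hu h3]
      have e : u * (u⁻¹ * k * u) * u⁻¹ = k := by group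
      rw [e]; exact hk
    have h8 : (u⁻¹ * k * u)⁻¹ * g ∈ Cfsg.M24 ⊓ MulAction.stabilizer (Equiv.Perm Cfsg.GolayPt) o ⊓
        MulAction.stabilizer (Equiv.Perm Cfsg.GolayPt) p := by
      refine ⟨Subgroup.mul_mem _ (Subgroup.inv_mem _ (hle1 h7)) hg, ?_⟩
      show (u⁻¹ * k * u)⁻¹ (g p) = p
      rw [Equiv.Perm.inv_eq_iff_eq]
      show g p = u⁻¹ (k (u p))
      rw [h4, h6, eq_comm, Equiv.Perm.inv_eq_iff_eq]
    have h9 := Subgroup.mul_mem_sup h7 h8
    rwa [mul_inv_cancel_left] at h9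
  · have hfixK : ∀ g ∈ Cfsg.M24 ⊓ MulAction.stabilizer (Equiv.Perm Cfsg.GolayPt) o ⊓
        MulAction.stabilizer (Equiv.Perm Cfsg.GolayPt) p, g • o = o := fun g hg => hg.1.2
    have hinj : Function.Injective (H9.resHom _ o hfixK) := by
      rw [injective_iff_map_eq_one]
      rintro ⟨g, hg⟩ h
      apply Subtype.ext
      apply H9.fixing_point ho hp hg.1.1 _ hg.2
      intro q hq
      exact congrArg (fun f : Equiv.Perm ↥o => ((f ⟨q, hq⟩ : ↥o) : Cfsg.GolayPt)) h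
    have hrange : (H9.resHom _ o hfixK).range = alternatingGroup ↥o := by
      apply Subgroup.eq_of_le_of_card_ge
      · rw [← H9.octS_range ho]
        rintro _ ⟨g, rfl⟩
        exact ⟨⟨g, g.2.1⟩, Equiv.ext fun x => Subtype.ext rfl⟩
      · have h1 : Nat.card (H9.resHom _ o hfixK).range = 20160 := by
          rw [← hcardK]
          exact (Nat.card_congr (MonoidHom.ofInjective hinj).toEquiv).symm
        rw [h1]
        have h2 : Nontrivial ↥o := by
          rw [← Finite.one_lt_card_iff_nontrivial, Nat.card_eq_fintype_card, Fintype.card_coe, H9.octad_card ho]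
          norm_num
        have h3 := two_mul_nat_card_alternatingGroup (α := ↥o)
        rw [Nat.card_eq_fintype_card (α := Equiv.Perm ↥o), ← Nat.card_eq_fintype_card, H9.card_perm_oct ho] at h3
        omega
    have e8 : ↥o ≃ Fin 8 := by
      refine Fintype.equivFinOfCardEq ?_
      rw [Fintype.card_coe, H9.octad_card ho]
    exact ⟨((MonoidHom.ofInjective hinj).trans (MulEquiv.subgroupCongr hrange)).trans
      (Equiv.altCongrHom e8)⟩

end Cfsg.Agent.S1554
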