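import Cfsg.Statements.S1555
import Cfsg.Agent.H9.Trio

set_option autoImplicit false
open scoped Pointwise
open Cfsg

namespace Cfsg.Agent.S1555

open H9 in
/-- a subset of an octad with at most five points can be moved to the standard base -/
theorem sub_frame {o s : Finset Cfsg.GolayPt} (ho : o ∈ Cfsg.octads) (hs : s ⊆ o) (h5 : s.card ≤ 5) :
    ∃ g ∈ Cfsg.M24, g • o = H9.S H9.oct0 ∧ g • s = H9.S (H9.bsMask s.card) := by
  obtain ⟨t, hst, hto, ht⟩ : ∃ t, s ⊆ t ∧ t ⊆ o ∧ t.card = 5 :=
    Finset.exists_subsuperset_card_eq hs h5 (by rw [H9.octad_card ho]; norm_num)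
  -- list the points of s first
  obtain ⟨g, hg, h1, h2⟩ : ∃ g ∈ Cfsg.M24, g • s = H9.S (H9.bsMask s.card) ∧ g • t = H9.S (H9.bsMask 5) := by
    obtain ⟨g, hg, h⟩ := H9.to_base_list (s.toList ++ (t \ s).toList) (by
      rw [List.nodup_append]
      refine ⟨s.nodup_toList, (t \ s).nodup_toList, ?_⟩
      intro a ha b hb hab
      rw [Finset.mem_toList] at ha hb
      rw [hab] at ha
      exact (Finset.mem_sdiff.1 hb).2 ha) (by
      rw [List.length_append, Finset.length_toList, Finset.length_toList, Finset.card_sdiff_of_subset hst]; omega)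
    have hl : (s.toList ++ (t \ s).toList).length = 5 := by
      rw [List.length_append, Finset.length_toList, Finset.length_toList, Finset.card_sdiff_of_subset hst]
      have := Finset.card_le_card hst
      omega
    rw [hl] at h
    have hget : ∀ i (hi : i < 5), g ((s.toList ++ (t \ s).toList)[i]'(by omega)) = H9.B i := by
      intro i hi
      have h3 := congrArg (fun l => l[i]?) h
      simp only [List.getElem?_map] at h3
      rw [List.getElem?_eq_getElem (by omega), List.getElem?_range hi] at h3
      simpa using h3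
    refine ⟨g, hg, ?_, ?_⟩
    · symm
      apply Finset.eq_of_subset_of_card_le
      · intro p hp
        rw [H9.mem_bsMask (by omega)] at hp
        obtain ⟨i, hi, rfl⟩ := hp
        rw [← hget i (by omega), H9.mem_smul_iff', List.getElem_append_left (by rw [Finset.length_toList]; exact hi),
          ← Finset.mem_toList]
        exact List.getElem_mem _
      · rw [Finset.card_smul_finset, H9.card_S]
        have hc : ∀ n ≤ 5, n ≤ H9.pc (H9.bsMask n) := by decide +kernel
        exact hc _ h5
    · symm
      apply Finset.eq_of_subset_of_card_le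
      · intro p hp
        rw [H9.mem_bsMask (by omega)] at hp
        obtain ⟨i, hi, rfl⟩ := hp
        rw [← hget i (by omega), H9.mem_smul_iff']
        have hm := List.getElem_mem (l := s.toList ++ (t \ s).toList) (n := i) (by omega)
        rw [List.mem_append, Finset.mem_toList, Finset.mem_toList] at hm
        rcases hm with hm | hm
        · exact hst hm
        · exact (Finset.mem_sdiff.1 hm).1
      · rw [Finset.card_smul_finset, H9.card_S, ht]
        decide +kernel
  refine ⟨g, hg, ?_, h1⟩
  apply H9.octad_eq_of_inter (H9.smul_mem_octads hg ho) H9.oct0_mem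
  have h6 : H9.S (H9.bsMask 5) ⊆ g • o ∩ H9.S H9.oct0 := by
    apply Finset.subset_inter
    · rw [← h2]; exact Finset.smul_finset_subset_smul_finset hto
    · rw [H9.subset_S_iff (by decide +kernel)]; decide +kernel
  calc 5 = (H9.S (H9.bsMask 5)).card := by rw [H9.card_S]; decide +kernel
    _ ≤ _ := Finset.card_le_card h6

theorem cnt_sub {o s : Finset Cfsg.GolayPt} (ho : o ∈ Cfsg.octads) (hs : s ⊆ o) (h5 : s.card ≤ 5) :
    {o' : Finset Cfsg.GolayPt | o' ∈ Cfsg.octads ∧ o ∩ o' = s}.ncard =
      H9.cnt (fun k => H9.band (Nat.beq (H9.pc (H9.enc k)) 8) (Nat.beq (Nat.land H9.oct0 (H9.enc k)) (H9.bsMask s.card))) := by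
  obtain ⟨g, hg, h1, h2⟩ := sub_frame ho hs h5
  rw [← H9.ncard_words (w := 8) (fun k => Nat.beq (Nat.land H9.oct0 (H9.enc k)) (H9.bsMask s.card))
    (fun x => H9.S H9.oct0 ∩ x = H9.S (H9.bsMask s.card))]
  · apply H9.ncard_transport g
    intro x
    show (x ∈ Cfsg.octads ∧ o ∩ x = s) ↔ (g • x ∈ Cfsg.octads ∧ H9.S H9.oct0 ∩ g • x = H9.S (H9.bsMask s.card))
    rw [← h1, ← h2, ← Finset.smul_finset_inter]
    constructor
    · rintro ⟨a, b⟩; exact ⟨H9.smul_mem_octads hg a, by rw [b]⟩
    · rintro ⟨a, b⟩
      have := H9.smul_mem_octads (Cfsg.M24.inv_mem hg) a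
      rw [inv_smul_smul] at this
      exact ⟨this, smul_left_cancel g b⟩
  · intro k hk
    show Nat.beq _ _ = true ↔ H9.S H9.oct0 ∩ H9.S (H9.enc k) = H9.S (H9.bsMask s.card)
    rw [H9.beq_iff, ← H9.S_and]
    constructor
    · intro h; exact congrArg H9.S h
    · intro h
      apply H9.S_inj _ _ h
      · exact lt_of_le_of_lt Nat.and_le_left (by decide)
      · have hc : ∀ n ≤ 5, H9.bsMask n < 2 ^ 24 := by decide +kernel
        exact hc _ h5

/-- Bottom row of the Leech triangle: an octad is met in a prescribed pair of its points by exactly 16 octads and in a prescribed 4-subset by exactly 4 octads. -/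
theorem result (o : Finset Cfsg.GolayPt) (ho : o ∈ Cfsg.octads) (s : Finset Cfsg.GolayPt) (hs : s ⊆ o) : (s.card = 2 → {o' : Finset Cfsg.GolayPt | o' ∈ Cfsg.octads ∧ o ∩ o' = s}.ncard = 16) ∧ (s.card = 4 → {o' : Finset Cfsg.GolayPt | o' ∈ Cfsg.octads ∧ o ∩ o' = s}.ncard = 4) := by
  constructor
  · intro h
    rw [cnt_sub ho hs (by omega), h]; decide +kernel
  · intro h
    rw [cnt_sub ho hs (by omega), h]; decide +kernel

end Cfsg.Agent.S1555
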