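import Cfsg.Statements.S1559
import Cfsg.Agent.H9.OrbT

set_option autoImplicit false
open scoped Pointwise
open Cfsg

namespace Cfsg.Agent.S1559

/-- A trio stabiliser has five orbits on the 3795 trios, of sizes 1, 42, 56, 1008, 2688; and the stabiliser is a maximal proper subgroup. -/
theorem result (T : Finset (Finset Cfsg.GolayPt)) (hT : T ∈ Cfsg.trios) : ∃ X₁ ∈ Cfsg.trios, ∃ X₂ ∈ Cfsg.trios, ∃ X₃ ∈ Cfsg.trios, ∃ X₄ ∈ Cfsg.trios, (MulAction.orbit ↥(MulAction.stabilizer Cfsg.M24 T) X₁).ncard = 42 ∧ (MulAction.orbit ↥(MulAction.stabilizer Cfsg.M24 T) X₂).ncard = 56 ∧ (MulAction.orbit ↥(MulAction.stabilizer Cfsg.M24 T) X₃).ncard = 1008 ∧ (MulAction.orbit ↥(MulAction.stabilizer Cfsg.M24 T) X₄).ncard = 2688 ∧ Cfsg.trios = {T} ∪ MulAction.orbit ↥(MulAction.stabilizer Cfsg.M24 T) X₁ ∪ MulAction.orbit ↥(MulAction.stabilizer Cfsg.M24 T) X₂ ∪ MulAction.orbit ↥(MulAction.stabilizer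 Cfsg.M24 T) X₃ ∪ MulAction.orbit ↥(MulAction.stabilizer Cfsg.M24 T) X₄ ∧ IsCoatom (MulAction.stabilizer Cfsg.M24 T) := by
  obtain ⟨u, hu, h⟩ := H9.trio_trans H9.tr0_mem hT
  have hOL : H9.OrbList (MulAction.stabilizer Cfsg.M24 T) Cfsg.trios [1, 42, 56, 1008, 2688] :=
    H9.OrbList.transport (fun (g : ↥Cfsg.M24) x hx => H9.smul_mem_trios g.2 hx) H9.st_t ⟨⟨u, hu⟩, h⟩
  obtain ⟨X1, h1, X2, h2, X3, h3, X4, h4, e1, e2, e3, e4, e5⟩ :=
    hOL.fixed_four hT (fun g hg => hg) (by norm_num) (by norm_num) (by norm_num) (by norm_num)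
  refine ⟨X1, h1, X2, h2, X3, h3, X4, h4, e1, e2, e3, e4, e5, ?_⟩
  refine H9.coatom_of_orbList (Ω := H9.trF) (L := [42, 56, 1008, 2688]) ?_ (by rw [H9.coe_trF]; exact hOL) (by decide) ?_ ?_
  · intro y
    rw [H9.mem_trF]
    constructor
    · intro hy
      obtain ⟨g, hg, h⟩ := H9.trio_trans hT hy
      exact ⟨⟨g, hg⟩, h⟩
    · rintro ⟨g, rfl⟩; exact H9.smul_mem_trios g.2 hT
  · rw [H9.trF_card]; decide
  · rw [H9.trF_card]; norm_num

end Cfsg.Agent.S1559
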