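import Cfsg.Statements.S1562
import Cfsg.Agent.H9.Six

set_option autoImplicit false
open scoped Pointwise
open Cfsg

namespace Cfsg.Agent.S1562

/-- Orbits of a triad stabiliser on the triads disjoint from it: the 210 triads inside a common octad with it form one orbit and the remaining 1120 another. -/
theorem result (T : Finset Cfsg.GolayPt) (hT : T.card = 3) : {U : Finset Cfsg.GolayPt | U.card = 3 ∧ Disjoint T U ∧ (∃ o ∈ Cfsg.octads, T ∪ U ⊆ o)}.ncard = 210 ∧ {U : Finset Cfsg.GolayPt | U.card = 3 ∧ Disjoint T U ∧ ¬ (∃ o ∈ Cfsg.octads, T ∪ U ⊆ o)}.ncard = 1120 ∧ ∀ U U' : Finset Cfsg.GolayPt, U.card = 3 → U'.card = 3 → Disjoint T U → Disjoint T U' → ((∃ o ∈ Cfsg.octads, T ∪ U ⊆ o) ↔ (∃ o ∈ Cfsg.octads, T ∪ U' ⊆ o)) → ∃ g : Equiv.Perm Cfsg.GolayPt, g ∈ Cfsg.M24 ∧ g • T = T ∧ g • U = U' := by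
  classical
  have hin : {U : Finset Cfsg.GolayPt | U.card = 3 ∧ Disjoint T U ∧ (∃ o ∈ Cfsg.octads, T ∪ U ⊆ o)}.ncard = 210 := by
    have h := H9.count_in_octad (T := T) (j := 3) (by omega)
    rw [H9.octads_through3 hT, hT] at h
    rw [← show 21 * (8 - 3).choose 3 = 210 by decide, ← h, ← Set.ncard_coe_finset]
    congr 1
    ext U
    simp [Finset.mem_powersetCard]
  have hall : {U : Finset Cfsg.GolayPt | U.card = 3 ∧ Disjoint T U}.ncard = 1330 := by
    have : {U : Finset Cfsg.GolayPt | U.card = 3 ∧ Disjoint T U} = ((Tᶜ).powersetCard 3 : Set (Finset Cfsg.GolayPt)) := by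
      ext U
      rw [Finset.mem_coe, Finset.mem_powersetCard, Finset.subset_compl_iff_disjoint_left]
      exact and_comm
    rw [this, Set.ncard_coe_finset, Finset.card_powersetCard, Finset.card_compl, H9.card_pt, hT]
    decide
  refine ⟨hin, ?_, ?_⟩
  · have hsub : {U : Finset Cfsg.GolayPt | U.card = 3 ∧ Disjoint T U ∧ (∃ o ∈ Cfsg.octads, T ∪ U ⊆ o)} ⊆
        {U : Finset Cfsg.GolayPt | U.card = 3 ∧ Disjoint T U} := fun U hU => ⟨hU.1, hU.2.1⟩
    have h1 := Set.ncard_sdiff_add_ncard_of_subset hsub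
    rw [hin, hall] at h1
    have h2 : {U : Finset Cfsg.GolayPt | U.card = 3 ∧ Disjoint T U ∧ ¬ (∃ o ∈ Cfsg.octads, T ∪ U ⊆ o)} =
        {U : Finset Cfsg.GolayPt | U.card = 3 ∧ Disjoint T U} \
          {U : Finset Cfsg.GolayPt | U.card = 3 ∧ Disjoint T U ∧ (∃ o ∈ Cfsg.octads, T ∪ U ⊆ o)} := by
      ext U
      exact ⟨fun h => ⟨⟨h.1, h.2.1⟩, fun h' => h.2.2 h'.2.2⟩, fun h => ⟨h.1.1, h.1.2, fun h' => h.2 ⟨h.1.1, h.1.2, h'⟩⟩⟩
    rw [h2]; omega
  · intro U U' hU hU' hd hd' hiff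
    obtain ⟨a, b, c, hab, hac, hbc, rfl⟩ := Finset.card_eq_three.1 hT
    obtain ⟨d, e, f, hde, hdf, hef, rfl⟩ := Finset.card_eq_three.1 hU
    obtain ⟨d', e', f', hde', hdf', hef', rfl⟩ := Finset.card_eq_three.1 hU'
    simp only [Finset.disjoint_insert_left, Finset.disjoint_singleton_left, Finset.mem_insert, Finset.mem_singleton,
      not_or] at hd hd'
    obtain ⟨⟨h1, h2, h3⟩, ⟨h4, h5, h6⟩, h7, h8, h9⟩ := hd
    obtain ⟨⟨h1', h2', h3'⟩, ⟨h4', h5', h6'⟩, h7', h8', h9'⟩ := hd'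
    have conv : ∀ x y z : Cfsg.GolayPt, (∃ o ∈ Cfsg.octads, ({a, b, c} : Finset Cfsg.GolayPt) ∪ {x, y, z} ⊆ o) ↔
        (∃ o ∈ Cfsg.octads, ∀ w ∈ [a, b, c, x, y, z], w ∈ o) := by
      intro x y z
      refine exists_congr fun o => and_congr_right fun _ => ?_
      simp only [Finset.union_subset_iff, Finset.insert_subset_iff, Finset.singleton_subset_iff, List.forall_mem_cons,
        List.not_mem_nil, false_implies, implies_true, and_true, and_assoc]
    rw [conv, conv] at hiff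
    obtain ⟨g, hg, g1, g2, g3, g4, g5, g6⟩ := H9.six_trans
      (by simp [hab, hac, hbc, hde, hdf, hef, h1, h2, h3, h4, h5, h6, h7, h8, h9])
      (by simp [hab, hac, hbc, hde', hdf', hef', h1', h2', h3', h4', h5', h6', h7', h8', h9']) hiff
    refine ⟨g, hg, ?_, ?_⟩
    · rw [H9.smul_insert_set, H9.smul_insert_set, H9.smul_single_set, g1, g2, g3]
    · rw [H9.smul_insert_set, H9.smul_insert_set, H9.smul_single_set, g4, g5, g6]

end Cfsg.Agent.S1562
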