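import Cfsg.Statements.S1563
import Cfsg.Agent.H9.Six

set_option autoImplicit false
open scoped Pointwise
open Cfsg

namespace Cfsg.Agent.S1563

/-- The stabiliser of a pair of points (setwise) is a maximal proper subgroup of the group of the length-24 code. -/
theorem result (s : Finset Cfsg.GolayPt) (hs : s.card = 2) : IsCoatom (MulAction.stabilizer Cfsg.M24 s) := by
  exact H9.pair_coatom Cfsg.M24 Finset.univ (fun _ _ _ _ => Finset.mem_univ _) (H9.m24_transOn.mono (by norm_num)) 24
    (by rw [Finset.card_univ, H9.card_pt]) (by norm_num) (by decide) (by decide) s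
    (Finset.mem_powersetCard.2 ⟨Finset.subset_univ _, hs⟩)

end Cfsg.Agent.S1563
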