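import Cfsg.Statements.S1564
import Cfsg.Agent.H9.Six

set_option autoImplicit false
open scoped Pointwise
open Cfsg

namespace Cfsg.Agent.S1564

open Classical in
/-- colour of a triad relative to `s` -/
noncomputable def col (s x : Finset Cfsg.GolayPt) : ℕ :=
  if (s ∩ x).card = 0 then (if ∃ o ∈ Cfsg.octads, s ∪ x ⊆ o then 3 else 0) else (s ∩ x).card

theorem exists_split {s x : Finset Cfsg.GolayPt} {i : ℕ} (hs : s.card = 3) (hx : x.card = 3) (h : (s ∩ x).card = i) :
    ∃ l m n : List Cfsg.GolayPt, l.length = i ∧ m.length = 3 - i ∧ n.length = 3 - i ∧ (l ++ m ++ n).Nodup ∧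
      s = (l ++ m).toFinset ∧ x = (l ++ n).toFinset := by
  classical
  refine ⟨(s ∩ x).toList, (s \ x).toList, (x \ s).toList, ?_, ?_, ?_, ?_, ?_, ?_⟩
  · rw [Finset.length_toList, h]
  · rw [Finset.length_toList]
    have := Finset.card_sdiff_add_card_inter s x
    omega
  · rw [Finset.length_toList]
    have := Finset.card_sdiff_add_card_inter x s
    rw [Finset.inter_comm] at this
    omega
  · rw [List.nodup_append, List.nodup_append]
    refine ⟨⟨Finset.nodup_toList _, Finset.nodup_toList _, ?_⟩, Finset.nodup_toList _, ?_⟩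
    · intro a ha b hb hab
      rw [Finset.mem_toList] at ha hb
      subst hab
      exact (Finset.mem_sdiff.1 hb).2 (Finset.mem_inter.1 ha).2
    · intro a ha b hb hab
      subst hab
      rw [List.mem_append, Finset.mem_toList, Finset.mem_toList] at ha
      rw [Finset.mem_toList] at hb
      rcases ha with ha | ha
      · exact (Finset.mem_sdiff.1 hb).2 (Finset.mem_inter.1 ha).1
      · exact (Finset.mem_sdiff.1 hb).2 (Finset.mem_sdiff.1 ha).1
  · ext a
    simp only [List.mem_toFinset, List.mem_append, Finset.mem_toList, Finset.mem_inter, Finset.mem_sdiff]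
    tauto
  · ext a
    simp only [List.mem_toFinset, List.mem_append, Finset.mem_toList, Finset.mem_inter, Finset.mem_sdiff]
    tauto

theorem smul_toFinset (g : Equiv.Perm Cfsg.GolayPt) (l : List Cfsg.GolayPt) :
    g • l.toFinset = (l.map g).toFinset := by
  ext a
  rw [Finset.mem_smul_finset, List.mem_toFinset, List.mem_map]
  simp only [List.mem_toFinset]
  rfl

theorem subset_o (s x o : Finset Cfsg.GolayPt) {a b c d e f : Cfsg.GolayPt} (h1 : s = ([a, b, c] : List _).toFinset)
    (h2 : x = ([d, e, f] : List _).toFinset) : s ∪ x ⊆ o ↔ ∀ w ∈ [a, b, c, d, e, f], w ∈ o := by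
  subst h1 h2
  rw [Finset.union_subset_iff]
  simp only [List.toFinset_cons, List.toFinset_nil, insert_empty_eq, Finset.insert_subset_iff,
    Finset.singleton_subset_iff, List.forall_mem_cons, List.not_mem_nil, false_implies, implies_true, and_true, and_assoc]

/-- The stabiliser of a set of three points (setwise) is a maximal proper subgroup of the group of the length-24 code. -/
theorem result (s : Finset Cfsg.GolayPt) (hs : s.card = 3) : IsCoatom (MulAction.stabilizer Cfsg.M24 s) := by
  classical
  have hd3 : (Finset.univ \ s).card = 21 := by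
    have := Finset.card_sdiff_add_card_eq_card (Finset.subset_univ s)
    rw [Finset.card_univ, H9.card_pt] at this
    omega
  have hcard : ((Finset.univ : Finset Cfsg.GolayPt).powersetCard 3).card = 2024 := by
    rw [Finset.card_powersetCard, Finset.card_univ, H9.card_pt]; decide
  have hi : ∀ i ≤ 2, ((Finset.univ.powersetCard 3).filter fun x : Finset Cfsg.GolayPt => (s ∩ x).card = i).card =
      (3).choose i * (21).choose (3 - i) := by
    intro i hi
    rw [H9.card_inter_filter _ _ (Finset.subset_univ _) 3 i (by omega), hs, hd3]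
  have hcol0 : ∀ x, col s x = 0 ↔ (s ∩ x).card = 0 ∧ ¬ ∃ o ∈ Cfsg.octads, s ∪ x ⊆ o := by
    intro x; unfold col
    split_ifs with h1 h2
    · simp [h1, h2]
    · simp [h1, h2]
    · simp [h1]
  have hcol3 : ∀ x, (s ∩ x).card ≤ 2 → (col s x = 3 ↔ (s ∩ x).card = 0 ∧ ∃ o ∈ Cfsg.octads, s ∪ x ⊆ o) := by
    intro x hx; unfold col
    split_ifs with h1 h2
    · simp [h1, h2]
    · simp [h1, h2]
    · constructor
      · intro h; omega
      · intro h; exact absurd h.1 h1
  have hle : ∀ x ∈ (Finset.univ : Finset Cfsg.GolayPt).powersetCard 3, x ≠ s → (s ∩ x).card ≤ 2 := by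
    intro x hx hne
    rw [Finset.mem_powersetCard] at hx
    by_contra hc
    have h3 : (s ∩ x).card = 3 := by
      have : (s ∩ x).card ≤ 3 := by rw [← hs]; exact Finset.card_le_card Finset.inter_subset_left
      omega
    apply hne
    have e1 : s ∩ x = s := Finset.eq_of_subset_of_card_le Finset.inter_subset_left (by rw [h3, hs])
    have e2 : s ∩ x = x := Finset.eq_of_subset_of_card_le Finset.inter_subset_right (by rw [h3, hx.2])
    rw [← e2, e1]
  have c1 : ((Finset.univ.powersetCard 3).filter fun x : Finset Cfsg.GolayPt => x ≠ s ∧ col s x = 1).card = 630 := by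
    have := (hi 1 (by norm_num)).trans (by decide : _ = 630)
    rw [← this]
    congr 1
    ext x
    rw [Finset.mem_filter, Finset.mem_filter]
    refine and_congr_right fun hx => ⟨?_, ?_⟩
    · rintro ⟨h1, h2⟩
      unfold col at h2
      split_ifs at h2 with h3 h4
      all_goals first | exact h2 | omega
    · intro h
      refine ⟨?_, ?_⟩
      · rintro rfl; rw [Finset.inter_self, hs] at h; omega
      · unfold col; rw [if_neg (by omega), h]
  have c2 : ((Finset.univ.powersetCard 3).filter fun x : Finset Cfsg.GolayPt => x ≠ s ∧ col s x = 2).card = 63 := by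
    have := (hi 2 (by norm_num)).trans (by decide : _ = 63)
    rw [← this]
    congr 1
    ext x
    rw [Finset.mem_filter, Finset.mem_filter]
    refine and_congr_right fun hx => ⟨?_, ?_⟩
    · rintro ⟨h1, h2⟩
      unfold col at h2
      split_ifs at h2 with h3 h4
      all_goals first | exact h2 | omega
    · intro h
      refine ⟨?_, ?_⟩
      · rintro rfl; rw [Finset.inter_self, hs] at h; omega
      · unfold col; rw [if_neg (by omega), h]
  have c3 : ((Finset.univ.powersetCard 3).filter fun x : Finset Cfsg.GolayPt => x ≠ s ∧ col s x = 3).card = 210 := by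
    have h := H9.count_in_octad (T := s) (j := 3) (by omega)
    rw [H9.octads_through3 hs, hs] at h
    rw [← h.trans (by decide : _ = 210)]
    congr 1
    ext x
    rw [Finset.mem_filter, Finset.mem_filter]
    refine and_congr_right fun hx => ⟨?_, ?_⟩
    · rintro ⟨h1, h2⟩
      rw [hcol3 x (hle x hx h1), Finset.card_eq_zero, ← Finset.disjoint_iff_inter_eq_empty] at h2
      exact h2
    · rintro ⟨h1, h2⟩
      have h3 : (s ∩ x).card = 0 := by rw [Finset.card_eq_zero, ← Finset.disjoint_iff_inter_eq_empty]; exact h1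
      refine ⟨?_, (hcol3 x (by omega)).2 ⟨h3, h2⟩⟩
      rintro rfl; rw [Finset.inter_self, hs] at h3; omega
  have c0 : ((Finset.univ.powersetCard 3).filter fun x : Finset Cfsg.GolayPt => x ≠ s ∧ col s x = 0).card = 1120 := by
    have h0 := (hi 0 (by norm_num)).trans (by decide : _ = 1330)
    have h3 := c3
    have h4 : ((Finset.univ.powersetCard 3).filter fun x : Finset Cfsg.GolayPt => (s ∩ x).card = 0).card =
        ((Finset.univ.powersetCard 3).filter fun x : Finset Cfsg.GolayPt => x ≠ s ∧ col s x = 0).card +
        ((Finset.univ.powersetCard 3).filter fun x : Finset Cfsg.GolayPt => x ≠ s ∧ col s x = 3).card := by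
      rw [← Finset.card_union_of_disjoint]
      · congr 1
        ext x
        rw [Finset.mem_union, Finset.mem_filter, Finset.mem_filter, Finset.mem_filter]
        constructor
        · rintro ⟨hx, h5⟩
          have hne : x ≠ s := by rintro rfl; rw [Finset.inter_self, hs] at h5; omega
          by_cases h6 : ∃ o ∈ Cfsg.octads, s ∪ x ⊆ o
          · right; exact ⟨hx, hne, (hcol3 x (by omega)).2 ⟨h5, h6⟩⟩
          · left; exact ⟨hx, hne, (hcol0 x).2 ⟨h5, h6⟩⟩
        · rintro (⟨hx, h5, h6⟩ | ⟨hx, h5, h6⟩)
          · exact ⟨hx, ((hcol0 x).1 h6).1⟩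
          · exact ⟨hx, ((hcol3 x (hle x hx h5)).1 h6).1⟩
      · rw [Finset.disjoint_left]
        intro x hx hx'
        rw [Finset.mem_filter] at hx hx'
        have := hx.2.2.symm.trans hx'.2.2
        omega
    omega
  refine H9.coatom_of_suborbits (G := Cfsg.M24) s (Finset.univ.powersetCard 3) ?_ (col s) {0, 1, 2, 3} ?_ ?_ ?_ ?_
  · intro x
    rw [Finset.mem_powersetCard]
    constructor
    · rintro ⟨-, hx⟩
      obtain ⟨g, hg, h⟩ := H9.exists_toBaseSet (s := s) (by omega)
      obtain ⟨k, hk, h'⟩ := H9.exists_toBaseSet (s := x) (by omega)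
      refine ⟨⟨k⁻¹ * g, Cfsg.M24.mul_mem (Cfsg.M24.inv_mem hk) hg⟩, ?_⟩
      show (k⁻¹ * g) • s = x
      rw [mul_smul, h, hs, ← hx, ← h', inv_smul_smul]
    · rintro ⟨g, rfl⟩
      refine ⟨Finset.subset_univ _, ?_⟩
      show ((g : Equiv.Perm Cfsg.GolayPt) • s).card = 3
      rw [Finset.card_smul_finset, hs]
  · intro x hx hne
    have := hle x hx hne
    unfold col
    split_ifs
    · decide
    · decide
    · simp only [Finset.mem_insert, Finset.mem_singleton]; omega
  · intro x hx y hy hxs hys hc
    have hx2 := hle x hx hxs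
    have hy2 := hle y hy hys
    rw [Finset.mem_powersetCard] at hx hy
    -- equal intersection sizes
    have hcc : (s ∩ x).card = (s ∩ y).card := by
      unfold col at hc
      split_ifs at hc <;> omega
    have hoo : (s ∩ x).card = 0 → ((∃ o ∈ Cfsg.octads, s ∪ x ⊆ o) ↔ (∃ o ∈ Cfsg.octads, s ∪ y ⊆ o)) := by
      intro h0
      have h0' : (s ∩ y).card = 0 := by omega
      by_cases h1 : ∃ o ∈ Cfsg.octads, s ∪ x ⊆ o
      · have : col s x = 3 := (hcol3 x hx2).2 ⟨h0, h1⟩
        rw [this] at hc
        exact ⟨fun _ => ((hcol3 y hy2).1 hc.symm).2, fun _ => h1⟩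
      · have : col s x = 0 := (hcol0 x).2 ⟨h0, h1⟩
        rw [this] at hc
        exact ⟨fun h => absurd h h1, fun h => absurd h ((hcol0 y).1 hc.symm).2⟩
    obtain ⟨i, hi'⟩ : ∃ i, (s ∩ x).card = i := ⟨_, rfl⟩
    obtain ⟨l, m, n, hl, hm, hn, hnd, e1, e2⟩ := exists_split hs hx.2 hi'
    obtain ⟨l', m', n', hl', hm', hn', hnd', e1', e2'⟩ := exists_split hs hy.2 (hcc.symm.trans hi')
    have fin : ∀ g : Equiv.Perm Cfsg.GolayPt, (l ++ m ++ n).map g = l' ++ m' ++ n' → g • s = s ∧ g • x = y := by
      intro g hg
      rw [List.map_append, List.map_append] at hg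
      have h1 := List.append_inj_left hg (by
        rw [List.length_append, List.length_append, List.length_map, List.length_map]; omega)
      have h2 := List.append_inj_right hg (by
        rw [List.length_append, List.length_append, List.length_map, List.length_map]; omega)
      have h3 := List.append_inj_left h1 (by rw [List.length_map]; omega)
      constructor
      · conv_lhs => rw [e1]
        conv_rhs => rw [e1']
        rw [smul_toFinset, List.map_append, h1]
      · rw [e2, e2', smul_toFinset, List.map_append, h2, h3]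
    by_cases h0 : i = 0
    · subst h0
      have hl0 := List.length_eq_zero_iff.1 hl
      have hl0' := List.length_eq_zero_iff.1 hl'
      subst hl0 hl0'
      obtain ⟨a, b, c, rfl⟩ := List.length_eq_three.1 hm
      obtain ⟨d, e, f, rfl⟩ := List.length_eq_three.1 hn
      obtain ⟨a', b', c', rfl⟩ := List.length_eq_three.1 hm'
      obtain ⟨d', e', f', rfl⟩ := List.length_eq_three.1 hn'
      have hiff := hoo hi'
      have k1 := fun o => subset_o s x o e1 e2
      have k2 := fun o => subset_o s y o e1' e2'
      simp only [k1, k2] at hiff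
      obtain ⟨g, hg, g1, g2, g3, g4, g5, g6⟩ := H9.six_trans hnd hnd' hiff
      obtain ⟨h1, h2⟩ := fin g (by simp [g1, g2, g3, g4, g5, g6])
      exact ⟨⟨g, hg⟩, h1, h2⟩
    · obtain ⟨g, hg, h⟩ := H9.m24_transOn (l ++ m ++ n) (l' ++ m' ++ n') hnd hnd' (by
        simp only [List.length_append]; omega) (by simp only [List.length_append]; omega) (by simp) (by simp)
      obtain ⟨h1, h2⟩ := fin g h
      exact ⟨⟨g, hg⟩, h1, h2⟩
  · intro C hC
    rw [hcard]
    have hC' : C ∈ ({0, 1, 2, 3} : Finset ℕ).powerset := Finset.mem_powerset.2 hC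
    have e : ∀ i ∈ C, ((Finset.univ.powersetCard 3).filter fun x : Finset Cfsg.GolayPt => x ≠ s ∧ col s x = i).card =
        (if i = 0 then 1120 else if i = 1 then 630 else if i = 2 then 63 else 210) := by
      intro i hi
      have := hC hi
      simp only [Finset.mem_insert, Finset.mem_singleton] at this
      rcases this with rfl | rfl | rfl | rfl
      · rw [c0]; rfl
      · rw [c1]; rfl
      · rw [c2]; rfl
      · rw [c3]; rfl
    rw [Finset.sum_congr rfl e]
    revert hC'
    generalize C = C'
    revert C'
    decide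
  · rw [hcard]; norm_num

end Cfsg.Agent.S1564
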