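import Cfsg.Statements.S1566
import Cfsg.Agent.H9.Six

set_option autoImplicit false
open scoped Pointwise
open Cfsg

namespace Cfsg.Agent.S1566

/-- the pair of complementary sets -/
def pr (e : Finset Cfsg.GolayPt) : Finset (Finset Cfsg.GolayPt) := {e, eᶜ}

theorem smul_compl' (g : Equiv.Perm Cfsg.GolayPt) (e : Finset Cfsg.GolayPt) : g • eᶜ = (g • e)ᶜ := by
  ext x
  rw [Finset.mem_compl, ← Finset.inv_smul_mem_iff, ← Finset.inv_smul_mem_iff, Finset.mem_compl]

theorem smul_pr (g : Equiv.Perm Cfsg.GolayPt) (e : Finset Cfsg.GolayPt) : g • pr e = pr (g • e) := by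
  rw [pr, pr, Finset.smul_finset_insert, Finset.smul_finset_singleton, smul_compl']

theorem pr_compl (e : Finset Cfsg.GolayPt) : pr eᶜ = pr e := by
  rw [pr, pr, compl_compl, Finset.pair_comm]

theorem compl_dod {e : Finset Cfsg.GolayPt} (he : e ∈ Cfsg.dodecads) : eᶜ ∈ Cfsg.dodecads := by
  obtain ⟨m, hm, h12, rfl⟩ := H9.dodecad_mask he
  rw [← H9.S_compl]
  apply H9.S_mem_dodecads (H9.isCW_xor hm H9.one_memCW)
  rw [← H9.card_S, H9.S_compl, Finset.card_compl, H9.card_pt, H9.card_S, h12]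

theorem inter_compl_card (d e : Finset Cfsg.GolayPt) (hd : d.card = 12) : (d ∩ eᶜ).card = 12 - (d ∩ e).card := by
  have h := Finset.card_sdiff_add_card_inter d e
  rw [Finset.sdiff_eq_inter_compl, hd] at h
  omega

theorem inter_dod {d e : Finset Cfsg.GolayPt} (hd : d ∈ Cfsg.dodecads) (he : e ∈ Cfsg.dodecads) :
    pr e = pr d ∨ (d ∩ e).card = 4 ∨ (d ∩ e).card = 6 ∨ (d ∩ e).card = 8 := by
  obtain ⟨m, hm, hm8, rfl⟩ := H9.dodecad_mask hd
  obtain ⟨n, hn, hn8, rfl⟩ := H9.dodecad_mask he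
  rw [H9.pc_and]
  have h1 := H9.pc_xor m n
  rcases H9.cw_weight (H9.isCW_xor hm hn) with h | h | h | h | h
  · left
    have : m = n := by
      have := congrArg (· ^^^ n) h
      simpa [Nat.xor_assoc] using this
    rw [this]
  · omega
  · omega
  · omega
  · left
    have h2 : H9.S (m ^^^ n) = Finset.univ := by
      apply Finset.eq_univ_of_card
      rw [H9.card_S, h, H9.card_pt]
    have h3 : H9.S n = (H9.S m)ᶜ := by
      rw [H9.S_xor] at h2
      ext x
      have : x ∈ symmDiff (H9.S m) (H9.S n) := by rw [h2]; exact Finset.mem_univ _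
      rw [Finset.mem_symmDiff] at this
      rw [Finset.mem_compl]
      rcases this with ⟨a, b⟩ | ⟨a, b⟩
      · exact ⟨fun h => absurd h b, fun h => absurd a h⟩
      · exact ⟨fun _ => b, fun _ => a⟩
    rw [h3, pr_compl]

/-- representatives: dodecads through the extra point -/
noncomputable def R : Finset (Finset Cfsg.GolayPt) := (H9.wF 12).filter fun e => (none : Cfsg.GolayPt) ∈ e

theorem mem_R {e : Finset Cfsg.GolayPt} : e ∈ R ↔ e ∈ Cfsg.dodecads ∧ (none : Cfsg.GolayPt) ∈ e := by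
  rw [R, Finset.mem_filter, H9.mem_wF]; exact Iff.rfl

theorem pr_inj {e f : Finset Cfsg.GolayPt} (he : (none : Cfsg.GolayPt) ∈ e) (hf : (none : Cfsg.GolayPt) ∈ f)
    (h : pr e = pr f) : e = f := by
  have : e ∈ pr f := by rw [← h]; exact Finset.mem_insert_self _ _
  rw [pr, Finset.mem_insert, Finset.mem_singleton] at this
  rcases this with h1 | h1
  · exact h1
  · rw [h1, Finset.mem_compl] at he; exact absurd hf he

theorem exists_rep {e : Finset Cfsg.GolayPt} (he : e ∈ Cfsg.dodecads) : ∃ f ∈ R, pr f = pr e := by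
  by_cases h : (none : Cfsg.GolayPt) ∈ e
  · exact ⟨e, mem_R.2 ⟨he, h⟩, rfl⟩
  · exact ⟨eᶜ, mem_R.2 ⟨compl_dod he, Finset.mem_compl.2 h⟩, pr_compl e⟩

open Classical in
/-- colour of a pair relative to the standard dodecad -/
noncomputable def col (x : Finset (Finset Cfsg.GolayPt)) : ℕ :=
  if ∃ e ∈ x, (H9.S H9.dod0 ∩ e).card = 6 then 0 else 1

theorem col_pr (e : Finset Cfsg.GolayPt) : col (pr e) = 0 ↔ (H9.S H9.dod0 ∩ e).card = 6 := by
  have hd := H9.dodecad_card H9.dod0_mem
  unfold col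
  constructor
  · intro h
    split_ifs at h with h1
    obtain ⟨f, hf, h2⟩ := h1
    rw [pr, Finset.mem_insert, Finset.mem_singleton] at hf
    rcases hf with rfl | rfl
    · exact h2
    · rw [inter_compl_card _ _ hd] at h2; omega
  · intro h
    rw [if_pos ⟨e, by rw [pr]; exact Finset.mem_insert_self _ _, h⟩]

theorem none_eq : (none : Cfsg.GolayPt) = H9.pt 23 := by rw [← H9.B0_pt, H9.B_zero]

theorem card_R_filter (i : ℕ) : (R.filter fun e => (H9.S H9.dod0 ∩ e).card = i).card =
    H9.cnt (fun k => H9.band (Nat.beq (H9.pc (H9.enc k)) 12) (H9.band (Nat.beq (H9.bt (H9.enc k) 23) 1)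
      (Nat.beq (H9.pc (Nat.land (H9.enc k) H9.dod0)) i))) := by
  rw [R, Finset.filter_filter, H9.filter_wF, ← H9.ncard_words (w := 12) _
    (fun s => (none : Cfsg.GolayPt) ∈ s ∧ (H9.S H9.dod0 ∩ s).card = i) (by
      intro k hk
      rw [H9.band_iff, H9.mem_test (by norm_num), H9.inter_test, none_eq])]

theorem std : IsCoatom (MulAction.stabilizer Cfsg.M24 (pr (H9.S H9.dod0))) := by
  classical
  have hd := H9.dodecad_card H9.dod0_mem
  have hcardO : (R.image pr).card = 1288 := by
    rw [Finset.card_image_of_injOn (fun e he f hf h => pr_inj (mem_R.1 he).2 (mem_R.1 hf).2 h)]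
    have : R.card = H9.cnt (fun k => H9.band (Nat.beq (H9.pc (H9.enc k)) 12) (Nat.beq (H9.bt (H9.enc k) 23) 1)) := by
      rw [R, H9.filter_wF, ← H9.ncard_words (w := 12) _ (fun s => (none : Cfsg.GolayPt) ∈ s) (by
        intro k hk
        rw [H9.mem_test (by norm_num), none_eq])]
    rw [this]; decide +kernel
  have himg : ∀ P : Finset Cfsg.GolayPt → Prop, ∀ (_ : DecidablePred P), ∀ Q : Finset (Finset Cfsg.GolayPt) → Prop,
      ∀ (_ : DecidablePred Q), (∀ e ∈ R, Q (pr e) ↔ P e) → ((R.image pr).filter Q).card = (R.filter P).card := by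
    intro P _ Q _ h
    rw [← Finset.card_image_of_injOn (s := R.filter P) (f := pr) (fun e he f hf h => pr_inj
      (mem_R.1 (Finset.mem_filter.1 he).1).2 (mem_R.1 (Finset.mem_filter.1 hf).1).2 h)]
    congr 1
    ext x
    rw [Finset.mem_filter, Finset.mem_image, Finset.mem_image]
    constructor
    · rintro ⟨⟨e, he, rfl⟩, h1⟩
      exact ⟨e, Finset.mem_filter.2 ⟨he, (h e he).1 h1⟩, rfl⟩
    · rintro ⟨e, he, rfl⟩
      rw [Finset.mem_filter] at he
      exact ⟨⟨e, he.1, rfl⟩, (h e he.1).2 he.2⟩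
  have hne : ∀ e, (H9.S H9.dod0 ∩ e).card = 4 ∨ (H9.S H9.dod0 ∩ e).card = 6 ∨ (H9.S H9.dod0 ∩ e).card = 8 →
      pr e ≠ pr (H9.S H9.dod0) := by
    intro e he h
    have : e ∈ pr (H9.S H9.dod0) := by rw [← h]; exact Finset.mem_insert_self _ _
    rw [pr, Finset.mem_insert, Finset.mem_singleton] at this
    rcases this with rfl | rfl
    · rw [Finset.inter_self, hd] at he; omega
    · rw [inter_compl_card _ _ hd, Finset.inter_self, hd] at he; omega
  have c0 : ((R.image pr).filter fun x => x ≠ pr (H9.S H9.dod0) ∧ col x = 0).card = 792 := by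
    rw [himg (fun e => (H9.S H9.dod0 ∩ e).card = 6) _ _ _ ?_, card_R_filter]
    · decide +kernel
    · intro e he
      rw [col_pr]
      exact ⟨fun h => h.2, fun h => ⟨hne e (by omega), h⟩⟩
  have c1 : ((R.image pr).filter fun x => x ≠ pr (H9.S H9.dod0) ∧ col x = 1).card = 495 := by
    have hsplit : (R.filter fun e => (H9.S H9.dod0 ∩ e).card = 4 ∨ (H9.S H9.dod0 ∩ e).card = 8).card = 495 := by
      rw [Finset.filter_or, Finset.card_union_of_disjoint, card_R_filter, card_R_filter]
      · decide +kernel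
      · rw [Finset.disjoint_left]
        intro x hx hx'
        rw [Finset.mem_filter] at hx hx'
        have := hx.2.symm.trans hx'.2
        omega
    rw [← hsplit]
    refine himg _ _ _ _ ?_
    intro e he
    have h0 := col_pr e
    have h1 : col (pr e) = 1 ↔ ¬ (H9.S H9.dod0 ∩ e).card = 6 := by
      rw [← h0]; unfold col; split_ifs <;> simp
    rw [h1]
    constructor
    · rintro ⟨h2, h3⟩
      rcases inter_dod H9.dod0_mem (mem_R.1 he).1 with h4 | h4 | h4 | h4
      · exact absurd h4 h2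
      · exact Or.inl h4
      · exact absurd h4 h3
      · exact Or.inr h4
    · intro h
      exact ⟨hne e (by omega), by omega⟩
  refine H9.coatom_of_suborbits (G := Cfsg.M24) (pr (H9.S H9.dod0)) (R.image pr) ?_ col {0, 1} ?_ ?_ ?_ ?_
  · intro x
    rw [Finset.mem_image]
    constructor
    · rintro ⟨e, he, rfl⟩
      obtain ⟨g, hg, h⟩ := H9.dodecad_trans H9.dod0_mem (mem_R.1 he).1
      refine ⟨⟨g, hg⟩, ?_⟩
      show g • pr (H9.S H9.dod0) = pr e
      rw [smul_pr, h]
    · rintro ⟨⟨g, hg⟩, rfl⟩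
      obtain ⟨f, hf, h⟩ := exists_rep (H9.smul_mem_dodecads hg H9.dod0_mem)
      refine ⟨f, hf, ?_⟩
      show pr f = g • pr (H9.S H9.dod0)
      rw [smul_pr, h]
  · intro x _ _
    unfold col; split_ifs <;> decide
  · intro x hx y hy hxa hya hc
    rw [Finset.mem_image] at hx hy
    obtain ⟨e, he, rfl⟩ := hx
    obtain ⟨f, hf, rfl⟩ := hy
    have he' := (mem_R.1 he).1
    have hf' := (mem_R.1 hf).1
    -- choose representatives with equal intersection
    have key : ∃ e' f', pr e' = pr e ∧ pr f' = pr f ∧ e' ∈ Cfsg.dodecads ∧ f' ∈ Cfsg.dodecads ∧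
        (H9.S H9.dod0 ∩ e').card = (H9.S H9.dod0 ∩ f').card := by
      have rep : ∀ u ∈ Cfsg.dodecads, pr u ≠ pr (H9.S H9.dod0) → ¬ (H9.S H9.dod0 ∩ u).card = 6 →
          ∃ u', pr u' = pr u ∧ u' ∈ Cfsg.dodecads ∧ (H9.S H9.dod0 ∩ u').card = 4 := by
        intro u hu h1 h2
        rcases inter_dod H9.dod0_mem hu with h4 | h4 | h4 | h4
        · exact absurd h4 h1
        · exact ⟨u, rfl, hu, h4⟩
        · exact absurd h4 h2
        · exact ⟨uᶜ, pr_compl u, compl_dod hu, by rw [inter_compl_card _ _ hd]; omega⟩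
      by_cases h6 : (H9.S H9.dod0 ∩ e).card = 6
      · have : (H9.S H9.dod0 ∩ f).card = 6 := by
          rw [← col_pr, ← hc, col_pr]; exact h6
        exact ⟨e, f, rfl, rfl, he', hf', by rw [h6, this]⟩
      · have h6' : ¬ (H9.S H9.dod0 ∩ f).card = 6 := by
          rw [← col_pr, ← hc, col_pr]; exact h6
        obtain ⟨e', a1, a2, a3⟩ := rep e he' hxa h6
        obtain ⟨f', b1, b2, b3⟩ := rep f hf' hya h6'
        exact ⟨e', f', a1, b1, a2, b2, by rw [a3, b3]⟩
    obtain ⟨e', f', h1, h2, h3, h4, h5⟩ := key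
    obtain ⟨g, hg, h6, h7⟩ := H9.dod_words_trans H9.dod0_mem h3.1 h4.1
      (by rw [H9.dodecad_card h3, H9.dodecad_card h4]) h5
    refine ⟨⟨g, hg⟩, ?_, ?_⟩
    · show g • pr (H9.S H9.dod0) = pr (H9.S H9.dod0)
      rw [smul_pr, h6]
    · show g • pr e = pr f
      rw [← h1, smul_pr, h7, h2]
  · intro C hC
    rw [hcardO]
    have hC' : C ∈ ({0, 1} : Finset ℕ).powerset := Finset.mem_powerset.2 hC
    have e : ∀ i ∈ C, ((R.image pr).filter fun x => x ≠ pr (H9.S H9.dod0) ∧ col x = i).card =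
        (if i = 0 then 792 else 495) := by
      intro i hi
      have := hC hi
      simp only [Finset.mem_insert, Finset.mem_singleton] at this
      rcases this with rfl | rfl
      · rw [c0]; rfl
      · rw [c1]; rfl
    rw [Finset.sum_congr rfl e]
    revert hC'
    generalize C = C'
    revert C'
    decide
  · rw [hcardO]; norm_num

/-- The setwise stabiliser of a dodecad together with its complement is a maximal proper subgroup of the group of the length-24 code. -/
theorem result (d : Finset Cfsg.GolayPt) (hd : d ∈ Cfsg.dodecads) : IsCoatom (MulAction.stabilizer Cfsg.M24 ({d, dᶜ} : Finset (Finset Cfsg.GolayPt))) := by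
  apply H9.coatom_conj _ std
  obtain ⟨g, hg, h⟩ := H9.dodecad_trans H9.dod0_mem hd
  refine ⟨⟨g, hg⟩, ?_⟩
  show g • pr (H9.S H9.dod0) = pr d
  rw [smul_pr, h]

end Cfsg.Agent.S1566
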