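import Cfsg.Statements.S1573
import Cfsg.Agent.H9.Leech.Cnt

set_option autoImplicit false
open Cfsg

namespace Cfsg.Agent.S1573

/-- Census of minimal vectors by inner product with a fixed minimal vector: 4600 have customary inner product −2, 47104 have −1, and 93150 are orthogonal. -/
theorem result (v : Cfsg.GolayPt → ℤ) (hv : v ∈ Cfsg.leechLattice) (hvn : Cfsg.sqNorm v = 32) : {w : Cfsg.GolayPt → ℤ | w ∈ Cfsg.leechLattice ∧ Cfsg.sqNorm w = 32 ∧ Cfsg.dotInt v w = -16}.ncard = 4600 ∧ {w : Cfsg.GolayPt → ℤ | w ∈ Cfsg.leechLattice ∧ Cfsg.sqNorm w = 32 ∧ Cfsg.dotInt v w = -8}.ncard = 47104 ∧ {w : Cfsg.GolayPt → ℤ | w ∈ Cfsg.leechLattice ∧ Cfsg.sqNorm w = 32 ∧ Cfsg.dotInt v w = 0}.ncard = 93150 := by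
  have key : ∀ k : ℤ, {w : Cfsg.GolayPt → ℤ | w ∈ Cfsg.leechLattice ∧ Cfsg.sqNorm w = 32 ∧ Cfsg.dotInt v w = k}.ncard = H9.Leech.cnt 32 k ⟨v, hv⟩ := by
    intro k
    unfold H9.Leech.cnt
    rw [← Set.ncard_image_of_injective (H9.Leech.cS 32 k ⟨v, hv⟩) (f := fun v : Cfsg.leechLattice => (v : Cfsg.GolayPt → ℤ)) Subtype.coe_injective]
    congr 1
    ext x
    constructor
    · rintro ⟨h1, h2, h3⟩; exact ⟨⟨x, h1⟩, ⟨h2, h3⟩, rfl⟩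
    · rintro ⟨w, ⟨h1, h2⟩, rfl⟩; exact ⟨w.2, h1, h2⟩
  obtain ⟨h1, h2, h3⟩ := H9.Leech.census (v := ⟨v, hv⟩) hvn
  rw [key, key, key]
  exact ⟨h1, h2, h3⟩

end Cfsg.Agent.S1573
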