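import Cfsg.Statements.S1578
import Cfsg.Agent.H9.Leech.Cnt

set_option autoImplicit false
open Cfsg

namespace Cfsg.Agent.S1578

/-- A lattice vector of customary norm 6 is the sum of an unordered pair of minimal vectors in exactly 276 ways (552 ordered summands). -/
theorem result (u : ↥Cfsg.leechLattice) (hu : Cfsg.sqNorm (u : Cfsg.GolayPt → ℤ) = 48) : {v : ↥Cfsg.leechLattice | Cfsg.sqNorm (v : Cfsg.GolayPt → ℤ) = 32 ∧ Cfsg.sqNorm ((u - v) : Cfsg.GolayPt → ℤ) = 32}.ncard = 552 := by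
  rw [← H9.Leech.c552 hu]
  unfold H9.Leech.cnt
  congr 1
  ext x
  constructor
  · rintro ⟨h1, h2⟩
    exact ⟨h1, (H9.Leech.split48 hu h1).1 h2⟩
  · rintro ⟨h1, h2⟩
    exact ⟨h1, (H9.Leech.split48 hu h1).2 h2⟩

end Cfsg.Agent.S1578
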