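import Cfsg.Statements.S1579
import Cfsg.Agent.H9.Leech.Pair

set_option autoImplicit false
open Cfsg

namespace Cfsg.Agent.S1579

/-- The stabiliser of a vector of customary norm 6 is transitive on the 552 minimal vectors that complete it to a sum of two minimal vectors. -/
theorem result (u v v' : ↥Cfsg.leechLattice) (hu : Cfsg.sqNorm (u : Cfsg.GolayPt → ℤ) = 48) (hv : Cfsg.sqNorm (v : Cfsg.GolayPt → ℤ) = 32 ∧ Cfsg.sqNorm ((u - v) : Cfsg.GolayPt → ℤ) = 32) (hv' : Cfsg.sqNorm (v' : Cfsg.GolayPt → ℤ) = 32 ∧ Cfsg.sqNorm ((u - v') : Cfsg.GolayPt → ℤ) = 32) : ∃ g : ↥Cfsg.Co0, g • u = u ∧ g • v = v' := by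
  have key : ∀ v : ↥Cfsg.leechLattice, Cfsg.sqNorm (v : Cfsg.GolayPt → ℤ) = 32 → Cfsg.sqNorm ((u - v) : Cfsg.GolayPt → ℤ) = 32 →
      Cfsg.sqNorm ((u - v : ↥Cfsg.leechLattice) : Cfsg.GolayPt → ℤ) = 32 ∧
      Cfsg.dotInt (v : Cfsg.GolayPt → ℤ) ((u - v : ↥Cfsg.leechLattice) : Cfsg.GolayPt → ℤ) = -8 := by
    intro v hv h
    have h' : Cfsg.sqNorm ((u - v : ↥Cfsg.leechLattice) : Cfsg.GolayPt → ℤ) = 32 := h
    have h2 := H9.Leech.norm_add v (u - v)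
    rw [add_sub_cancel, hu, hv, h'] at h2
    exact ⟨h', by omega⟩
  obtain ⟨a1, a2⟩ := key v hv.1 hv.2
  obtain ⟨b1, b2⟩ := key v' hv'.1 hv'.2
  obtain ⟨g, h1, h2⟩ := H9.Leech.pair8 hv.1 a1 hv'.1 b1 a2 b2
  refine ⟨g, ?_, h1⟩
  have h3 : g • u = g • v + g • (u - v) := by rw [← H9.Leech.smul_add', add_sub_cancel]
  rw [h3, h1, h2, add_sub_cancel]

end Cfsg.Agent.S1579
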