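import Cfsg.Statements.S1580
import Cfsg.Agent.H9.Leech.Hs3

set_option autoImplicit false
open Cfsg

namespace Cfsg.Agent.S1580

/-- The McLaughlin configuration: for u of customary norm 6 and v minimal with u − v minimal, there are 275 further such summands x of customary inner product 2 with v, permuted transitively by the stabiliser of u and v. -/
theorem result (u v : ↥Cfsg.leechLattice) (hu : Cfsg.sqNorm (u : Cfsg.GolayPt → ℤ) = 48) (hv : Cfsg.sqNorm (v : Cfsg.GolayPt → ℤ) = 32 ∧ Cfsg.sqNorm ((u - v) : Cfsg.GolayPt → ℤ) = 32) : {x : ↥Cfsg.leechLattice | Cfsg.sqNorm (x : Cfsg.GolayPt → ℤ) = 32 ∧ Cfsg.sqNorm ((u - x) : Cfsg.GolayPt → ℤ) = 32 ∧ Cfsg.dotInt (v : Cfsg.GolayPt → ℤ) (x : Cfsg.GolayPt → ℤ) = 16}.ncard = 275 ∧ ∀ x ∈ {x : ↥Cfsg.leechLattice | Cfsg.sqNorm (x : Cfsg.GolayPt → ℤ) = 32 ∧ Cfsg.sqNorm ((u - x) : Cfsg.GolayPt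 → ℤ) = 32 ∧ Cfsg.dotInt (v : Cfsg.GolayPt → ℤ) (x : Cfsg.GolayPt → ℤ) = 16}, ∀ x' ∈ {x : ↥Cfsg.leechLattice | Cfsg.sqNorm (x : Cfsg.GolayPt → ℤ) = 32 ∧ Cfsg.sqNorm ((u - x) : Cfsg.GolayPt → ℤ) = 32 ∧ Cfsg.dotInt (v : Cfsg.GolayPt → ℤ) (x : Cfsg.GolayPt → ℤ) = 16}, ∃ g : ↥Cfsg.Co0, g • u = u ∧ g • v = v ∧ g • x = x' := by
  have key : ∀ x : ↥Cfsg.leechLattice, Cfsg.sqNorm (x : Cfsg.GolayPt → ℤ) = 32 → (Cfsg.sqNorm ((u - x) : Cfsg.GolayPt → ℤ) = 32 ↔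
      Cfsg.dotInt (u : Cfsg.GolayPt → ℤ) (x : Cfsg.GolayPt → ℤ) = 24) := by
    intro x hx
    have h := H9.Leech.norm_sub' u x
    have h' : Cfsg.sqNorm ((u - x : ↥Cfsg.leechLattice) : Cfsg.GolayPt → ℤ) = Cfsg.sqNorm ((u - x) : Cfsg.GolayPt → ℤ) := rfl
    rw [h'] at h
    rw [h, hu, hx]
    constructor <;> intro h <;> omega
  exact H9.Leech.mc_main hu hv.1 ((key v hv.1).1 hv.2) (Set.ext fun x => by
    constructor
    · rintro ⟨a, b, c⟩; exact ⟨a, (key x a).1 b, c⟩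
    · rintro ⟨a, b, c⟩; exact ⟨a, (key x a).2 b, c⟩)

end Cfsg.Agent.S1580
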