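import Cfsg.Statements.S1591
import Cfsg.Agent.H9.Tern

set_option autoImplicit false
open Cfsg

namespace Cfsg.Agent.S1591

/-- Any two words of the length-12 ternary code have dot product zero. -/
theorem result (x y : Cfsg.ArrayPt → ZMod 3) (hx : x ∈ Cfsg.ternaryGolayCode) (hy : y ∈ Cfsg.ternaryGolayCode) : ∑ p, x p * y p = 0 := by
  have h3 : (3 : ZMod 3) = 0 := by decide
  have sq : ∀ z ∈ Cfsg.ternaryGolayCode, ∑ p, z p * z p = 0 := by
    intro z hz
    have h1 : ∑ p, z p * z p = ((Cfsg.ternarySupport z).card : ZMod 3) := by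
      unfold Cfsg.ternarySupport
      rw [Finset.card_filter, Nat.cast_sum]
      apply Finset.sum_congr rfl
      intro p _
      have : ∀ a : ZMod 3, a * a = ((if a ≠ 0 then 1 else 0 : ℕ) : ZMod 3) := by decide
      exact this _
    rw [h1]
    by_cases h0 : z = 0
    · have : Cfsg.ternarySupport z = ∅ := by rw [h0]; ext p; simp [Cfsg.ternarySupport]
      rw [this]; simp
    · rcases Cfsg.Agent.H9.Tern.weights hz h0 with h | h | h <;> rw [h] <;> decide
  have h1 := sq x hx
  have h2 := sq y hy
  have h4 := sq (x + y) (Submodule.add_mem _ hx hy)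
  have h5 : ∑ p, (x + y) p * (x + y) p = ∑ p, x p * x p + ∑ p, y p * y p + 2 * ∑ p, x p * y p := by
    rw [Finset.mul_sum, ← Finset.sum_add_distrib, ← Finset.sum_add_distrib]
    apply Finset.sum_congr rfl
    intro p _
    rw [Pi.add_apply]; ring
  rw [h5, h1, h2] at h4
  linear_combination 2 * h4 - (∑ p, x p * y p) * h3

end Cfsg.Agent.S1591
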