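import Cfsg.Statements.S1592
import Cfsg.Agent.H9.Tern2

set_option autoImplicit false
open Cfsg

namespace Cfsg.Agent.S1592

/-- The supports of the weight-6 words of the length-12 ternary code form a Steiner system S(5, 6, 12) with 132 blocks. -/
theorem result : Cfsg.IsSteinerSystem 5 6 {h : Finset Cfsg.ArrayPt | ∃ x ∈ Cfsg.ternaryGolayCode, Cfsg.ternarySupport x = h ∧ h.card = 6} ∧ {h : Finset Cfsg.ArrayPt | ∃ x ∈ Cfsg.ternaryGolayCode, Cfsg.ternarySupport x = h ∧ h.card = 6}.ncard = 132 := by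
  have h := Cfsg.Agent.H9.Tern.set_eq
  rw [h]
  refine ⟨⟨?_, ?_⟩, ?_⟩
  · intro b hb
    obtain ⟨x, _, _, h6⟩ := Cfsg.Agent.H9.Tern.mem_HF.1 hb
    exact h6
  · intro s hs
    obtain ⟨c, hc, hsc⟩ := Cfsg.Agent.H9.Tern.exists_hex hs
    exact ⟨c, ⟨hc, hsc⟩, fun d hd => Cfsg.Agent.H9.Tern.HF_uniq hd.1 hc hs hd.2 hsc⟩
  · rw [Set.ncard_coe_finset, Cfsg.Agent.H9.Tern.HF_card]

end Cfsg.Agent.S1592
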