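import Cfsg.Statements.S1593
import Cfsg.Agent.H9.Tern2

set_option autoImplicit false
open Cfsg

namespace Cfsg.Agent.S1593

/-- The only sign changes preserving the length-12 ternary code are the identity and negation of all coordinates. -/
theorem result (c : Cfsg.ArrayPt → (ZMod 3)ˣ) (h : (∀ x ∈ Cfsg.ternaryGolayCode, Cfsg.monomialMap 1 c x ∈ Cfsg.ternaryGolayCode)) : (∀ p, c p = 1) ∨ (∀ p, c p = -1) := by
  have hc : ∀ x ∈ Cfsg.ternaryGolayCode, (fun p => (c p : ZMod 3) * x p) ∈ Cfsg.ternaryGolayCode := h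
  have hu : ∀ u : (ZMod 3)ˣ, u = 1 ∨ u = -1 := by decide
  have key : ∀ p q : Cfsg.ArrayPt, p ≠ q → c p = c q := by
    intro p q hpq
    obtain ⟨T, hpT, _, hT⟩ := Finset.exists_subsuperset_card_eq (s := {p, q}) (t := Finset.univ) (n := 5) (Finset.subset_univ _)
      (by rw [Finset.card_pair hpq]; norm_num) (by rw [Finset.card_univ]; have : Fintype.card Cfsg.ArrayPt = 12 := by decide
                                                   rw [this]; norm_num)
    obtain ⟨hx, hh, hTh⟩ := Cfsg.Agent.H9.Tern.exists_hex hT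
    obtain ⟨x, hxC, rfl, h6⟩ := Cfsg.Agent.H9.Tern.mem_HF.1 hh
    have hs : Cfsg.ternarySupport (fun p => (c p : ZMod 3) * x p) = Cfsg.ternarySupport x := by
      ext r
      rw [Cfsg.Agent.H9.Tern.mem_supp, Cfsg.Agent.H9.Tern.mem_supp]
      simp
    have hp : x p ≠ 0 := Cfsg.Agent.H9.Tern.mem_supp.1 (hTh (hpT (Finset.mem_insert_self _ _)))
    have hq : x q ≠ 0 := Cfsg.Agent.H9.Tern.mem_supp.1 (hTh (hpT (Finset.mem_insert_of_mem (Finset.mem_singleton_self _))))
    rcases Cfsg.Agent.H9.Tern.uniq hxC (hc x hxC) h6 (by rw [hs]; exact h6) hT hTh (by rw [hs]; exact hTh) with h1 | h1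
    · have a1 : x p = (c p : ZMod 3) * x p := congrFun h1 p
      have a2 : x q = (c q : ZMod 3) * x q := congrFun h1 q
      have b1 : (c p : ZMod 3) = 1 := by
        have := mul_right_cancel₀ hp ((one_mul (x p)).trans a1)
        exact this.symm
      have b2 : (c q : ZMod 3) = 1 := by
        have := mul_right_cancel₀ hq ((one_mul (x q)).trans a2)
        exact this.symm
      exact Units.ext (b1.trans b2.symm)
    · have a1 : x p = -((c p : ZMod 3) * x p) := congrFun h1 p
      have a2 : x q = -((c q : ZMod 3) * x q) := congrFun h1 q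
      have b1 : (1 : ZMod 3) = -(c p : ZMod 3) := mul_right_cancel₀ hp (by rw [one_mul, neg_mul]; exact a1)
      have b2 : (1 : ZMod 3) = -(c q : ZMod 3) := mul_right_cancel₀ hq (by rw [one_mul, neg_mul]; exact a2)
      exact Units.ext (neg_injective (b1.symm.trans b2))
  have all : ∀ p, c p = c (0, 0) := by
    intro p
    by_cases hp : p = (0, 0)
    · rw [hp]
    · exact key _ _ hp
  rcases hu (c (0, 0)) with h1 | h1
  · left; intro p; rw [all p, h1]
  · right; intro p; rw [all p, h1]

end Cfsg.Agent.S1593
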