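import Cfsg.Statements.S1595
import Cfsg.Agent.L0.St.Steiner4
-- import your own Cfsg.Agent.* helpers here

set_option autoImplicit false
open Cfsg

namespace Cfsg.Agent.S1595

/-- Leech triangle of S(5, 6, 12): blocks meet in 0, 2, 3 or 4 points, and a block is met exactly in a given 2-, 3- or 4-subset by 3, 2, 3 blocks respectively. -/
theorem result {α : Type*} [Fintype α] [DecidableEq α] (hα : Fintype.card α = 12) {B : Set (Finset α)} (hB : Cfsg.IsSteinerSystem 5 6 B) (b : Finset α) (hb : b ∈ B) : (∀ c ∈ B, c ≠ b → (b ∩ c).card = 0 ∨ (b ∩ c).card = 2 ∨ (b ∩ c).card = 3 ∨ (b ∩ c).card = 4) ∧ ∀ s ⊆ b, (s.card = 2 → {c : Finset α | c ∈ B ∧ b ∩ c = s}.ncard = 3) ∧ (s.card = 3 → {c : Finset α | c ∈ B ∧ b ∩ c = s}.ncard = 2) ∧ (s.card = 4 → {c : Finset α | c ∈ B ∧ b ∩ c = s}.ncard = 3) := by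
  classical
  obtain ⟨C, hBC, hC⟩ := Cfsg.Agent.L0.St.Stn.of hB
  have hb' := (hBC b).mpr hb
  have key : ∀ s, {c : Finset α | c ∈ B ∧ b ∩ c = s}.ncard = Cfsg.Agent.L0.St.eI C b s := by
    intro s
    rw [Cfsg.Agent.L0.St.ncard_of hBC (fun c => b ∩ c = s)]
    rfl
  refine ⟨fun c hc hcb => ?_, fun s hs => ⟨fun h => ?_, fun h => ?_, fun h => ?_⟩⟩
  · obtain ⟨-, h1, -, -, -, h5⟩ := Cfsg.Agent.L0.St.s12 hα hC hb'
    have hc' := (hBC c).mpr hc
    have a1 := Cfsg.Agent.L0.St.nI_ne hc' h1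
    have hlt : (b ∩ c).card < 5 := by
      by_contra hcon
      exact hcb (hC.eq_of_card hb' hc' (by omega)).symm
    omega
  · rw [key]; exact Cfsg.Agent.L0.St.eI_two hα hC hb' hs h
  · rw [key]; exact Cfsg.Agent.L0.St.eI_three hα hC hb' hs h
  · rw [key]; exact Cfsg.Agent.L0.St.eI_four hα hC hb' hs h

end Cfsg.Agent.S1595
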