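import Cfsg.Statements.S1600
import Cfsg.Agent.H9.DodComp

set_option autoImplicit false
open scoped Pointwise
open Cfsg

namespace Cfsg.Agent.S1600

/-- The pointwise stabiliser of three points of a dodecad inside the dodecad stabiliser (order 72) is transitive on the complementary dodecad. -/
theorem result (d : Finset Cfsg.GolayPt) (hd : d ∈ Cfsg.dodecads) (p q r : Cfsg.GolayPt) (hp : p ∈ d) (hq : q ∈ d) (hr : r ∈ d) (hpq : p ≠ q) (hpr : p ≠ r) (hqr : q ≠ r) : Nat.card ↥(MulAction.stabilizer Cfsg.M24 d ⊓ MulAction.stabilizer Cfsg.M24 p ⊓ MulAction.stabilizer Cfsg.M24 q ⊓ MulAction.stabilizer Cfsg.M24 r) = 72 ∧ ∀ x ∉ d, ∀ y ∉ d, ∃ g ∈ (MulAction.stabilizer Cfsg.M24 d ⊓ MulAction.stabilizer Cfsg.M24 p ⊓ MulAction.stabilizer Cfsg.M24 q ⊓ MulAction.stabilizer Cfsg.M24 r), ((g : ↥Cfsg.M24) : Equiv.Perm Cfsg.GolayPt) x = y := by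
  obtain ⟨u, hu, h1, h2⟩ := H9.dod_frame hd [p, q, r] [H9.D 0, H9.D 1, H9.D 2] (by simp [hpq, hpr, hqr]) (by
      have h10 := (H9.D_ne (i := 1) (j := 0) (by norm_num) (by norm_num)).symm
      have h20 := (H9.D_ne (i := 2) (j := 0) (by norm_num) (by norm_num)).symm
      have h21 := (H9.D_ne (i := 2) (j := 1) (by norm_num) (by norm_num)).symm
      simp [h10, h20, h21]) rfl (by simp) (by simp [hp, hq, hr])
    (by simp [H9.D_mem (i := 0) (by norm_num), H9.D_mem (i := 1) (by norm_num), H9.D_mem (i := 2) (by norm_num)])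
  simp only [List.map_cons, List.map_nil, List.cons.injEq, and_true] at h2
  obtain ⟨hp', hq', hr'⟩ := h2
  constructor
  · have e : MulAction.stabilizer Cfsg.M24 d ⊓ MulAction.stabilizer Cfsg.M24 p ⊓ MulAction.stabilizer Cfsg.M24 q ⊓
        MulAction.stabilizer Cfsg.M24 r = MulAction.stabilizer Cfsg.M24 (d, p, q, r) := by
      rw [H9.stab_prod, H9.stab_prod, H9.stab_prod, ← inf_assoc, ← inf_assoc]
    have e2 : Cfsg.M24 ⊓ MulAction.stabilizer (Equiv.Perm Cfsg.GolayPt) (H9.S H9.dod0, H9.D 0, H9.D 1, H9.D 2) =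
        H9.chn H9.K12 H9.g12B 3 := by
      rw [H9.stab_prod, H9.stab_prod, H9.stab_prod, ← inf_assoc, ← inf_assoc, ← inf_assoc]; rfl
    rw [e]
    obtain ⟨f⟩ := H9.stab_transport Cfsg.M24 (a := (d, p, q, r)) (b := (H9.S H9.dod0, H9.D 0, H9.D 1, H9.D 2))
      ⟨u, hu, Prod.ext h1 (Prod.ext hp' (Prod.ext hq' hr'))⟩
    rw [Nat.card_congr f.toEquiv, e2, H9.card_chn3]
  · intro x hx y hy
    have hux : u x ∉ H9.S H9.dod0 := by rw [← h1, H9.mem_smul_iff']; exact hx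
    have huy : u y ∉ H9.S H9.dod0 := by rw [← h1, H9.mem_smul_iff']; exact hy
    obtain ⟨g, hg, hgx⟩ := H9.h72_trans hux
    obtain ⟨k, hk, hky⟩ := H9.h72_trans huy
    rw [H9.mem_chn] at hg hk
    have hm : k * g⁻¹ ∈ H9.K12 := H9.K12.mul_mem hk.1 (H9.K12.inv_mem hg.1)
    have hfix : ∀ j < 3, (k * g⁻¹) (H9.D j) = H9.D j := by
      intro j hj
      show k (g⁻¹ (H9.D j)) = H9.D j
      have a1 : g (H9.D j) = H9.D j := hg.2 j hj
      have a2 : k (H9.D j) = H9.D j := hk.2 j hj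
      rw [Equiv.Perm.inv_eq_iff_eq.2 a1.symm, a2]
    refine ⟨⟨u⁻¹ * (k * g⁻¹) * u, H9.back hu hm.1⟩, ⟨⟨⟨?_, ?_⟩, ?_⟩, ?_⟩, ?_⟩
    · show (u⁻¹ * (k * g⁻¹) * u) • d = d
      apply H9.back_set
      rw [h1]; exact hm.2
    · exact H9.back_pt hp' (hfix 0 (by norm_num))
    · exact H9.back_pt hq' (hfix 1 (by norm_num))
    · exact H9.back_pt hr' (hfix 2 (by norm_num))
    · show u⁻¹ (k (g⁻¹ (u x))) = y
      rw [Equiv.Perm.inv_eq_iff_eq.2 hgx.symm, hky, Equiv.Perm.inv_eq_iff_eq]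

end Cfsg.Agent.S1600
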