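import Cfsg.Statements.S1604
import Cfsg.Agent.H9.OrbTools

set_option autoImplicit false
open scoped Pointwise
open Cfsg

namespace Cfsg.Agent.S1604

/-- A hexad stabiliser in the two-point stabiliser has orbits of sizes 1, 16, 60 on the 77 hexads: the 16 hexads disjoint from it and the 60 meeting it in two points. -/
theorem result (p q : Cfsg.GolayPt) (hpq : p ≠ q) (o o' o'' : Finset Cfsg.GolayPt) (ho : o ∈ Cfsg.octads) (ho' : o' ∈ Cfsg.octads) (ho'' : o'' ∈ Cfsg.octads) (hp : p ∈ o ∧ p ∈ o' ∧ p ∈ o'') (hq : q ∈ o ∧ q ∈ o' ∧ q ∈ o'') (h : (o ∩ o').card = (o ∩ o'').card) : {x : Finset Cfsg.GolayPt | x ∈ Cfsg.octads ∧ p ∈ x ∧ q ∈ x ∧ (o ∩ x).card = 2}.ncard = 16 ∧ {x : Finset Cfsg.GolayPt | x ∈ Cfsg.octads ∧ p ∈ x ∧ q ∈ x ∧ (o ∩ x).card = 4}.ncard = 60 ∧ ∃ g : Equiv.Perm Cfsg.GolayPt, g ∈ Cfsg.M24 ∧ g p = p ∧ g q = q ∧ g • o = o ∧ g • o' = o'' := by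
  obtain ⟨u, hu, h1, h2⟩ := H9.oct_frame 2 (by norm_num) ho (fun i => if i = 0 then p else q)
    (by intro i hi; split_ifs; exacts [hp.1, hq.1])
    (by intro i hi j hj
        have : i = 1 := by omega
        have : j = 0 := by omega
        subst_vars
        simpa using hpq.symm)
  have h2' : u p = H9.pt 23 := by rw [← H9.B0_pt]; simpa using h2 0 (by norm_num)
  have h3' : u q = H9.pt 0 := by rw [← H9.B1_pt]; simpa using h2 1 (by norm_num)
  have hcnt : ∀ j, {x : Finset Cfsg.GolayPt | x ∈ Cfsg.octads ∧ p ∈ x ∧ q ∈ x ∧ (o ∩ x).card = j}.ncard =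
      H9.cnt (fun k => H9.band (Nat.beq (H9.pc (H9.enc k)) 8) (H9.band (Nat.beq (H9.bt (H9.enc k) 23) 1)
        (H9.band (Nat.beq (H9.bt (H9.enc k) 0) 1) (Nat.beq (H9.pc (Nat.land (H9.enc k) H9.oct0)) j)))) := by
    intro j
    rw [← H9.ncard_words (w := 8) _ (fun s => H9.pt 23 ∈ s ∧ H9.pt 0 ∈ s ∧ (H9.S H9.oct0 ∩ s).card = j) (by
      intro k hk
      rw [H9.band_iff, H9.band_iff, H9.mem_test (by norm_num), H9.mem_test (by norm_num), H9.inter_test])]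
    apply H9.ncard_transport u
    intro s
    show (_ ∧ _ ∧ _ ∧ _) ↔ (_ ∧ _ ∧ _ ∧ _)
    rw [H9.words_iff hu, ← h1, H9.smul_inter_card, ← h2', ← h3', H9.mem_smul_iff', H9.mem_smul_iff']
    exact Iff.rfl
  refine ⟨?_, ?_, ?_⟩
  · rw [hcnt]; decide +kernel
  · rw [hcnt]; decide +kernel
  · obtain ⟨g, hg, h3, h4, h5, h6⟩ := H9.ca_trans (H9.smul_mem_weight hu ho') (H9.smul_mem_weight hu ho'')
      ⟨by rw [← h2', H9.mem_smul_iff']; exact hp.2.1, by rw [← h2', H9.mem_smul_iff']; exact hp.2.2⟩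
      ⟨by rw [← h3', H9.mem_smul_iff']; exact hq.2.1, by rw [← h3', H9.mem_smul_iff']; exact hq.2.2⟩
      (by rw [← h1, H9.smul_inter_card, H9.smul_inter_card]; exact h)
    exact ⟨u⁻¹ * g * u, H9.back hu hg, H9.back_pt h2' h4, H9.back_pt h3' h5, H9.back_set (by rw [h1, h3]),
      H9.back_set h6⟩

end Cfsg.Agent.S1604
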