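import Cfsg.Statements.S1605
import Cfsg.Agent.H9.OrbTools

set_option autoImplicit false
open scoped Pointwise
open Cfsg

namespace Cfsg.Agent.S1605

theorem frame {p q : Cfsg.GolayPt} {o : Finset Cfsg.GolayPt} (ho : o ∈ Cfsg.octads) (hp : p ∈ o) (hq : q ∉ o) :
    ∃ u ∈ Cfsg.M24, u • o = H9.S H9.oct0 ∧ u p = H9.pt 23 ∧ u q = H9.pt 4 := by
  obtain ⟨u, hu, h1, h2, h3⟩ := H9.oct_frame' 1 (by norm_num) ho (fun _ => p) (by intro i _; exact hp)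
    (by intro i hi j hj; omega) hq
  exact ⟨u, hu, h1, by rw [← H9.B0_pt]; exact h2 0 (by norm_num), by rw [← H9.B6_pt]; exact h3⟩

theorem exists_oct {p q : Cfsg.GolayPt} (hpq : p ≠ q) : ∃ o ∈ Cfsg.octads, p ∈ o ∧ q ∉ o := H9.sep_octad hpq

/-- The two-point stabiliser acts on the 176 octads through the first point avoiding the second with rank 3 and subdegrees 1, 70, 105 (intersections 8, 2, 4). -/
theorem result (p q : Cfsg.GolayPt) (hpq : p ≠ q) : {x : Finset Cfsg.GolayPt | (x ∈ Cfsg.octads ∧ p ∈ x ∧ q ∉ x)}.ncard = 176 ∧ (∀ o o' : Finset Cfsg.GolayPt, (o ∈ Cfsg.octads ∧ p ∈ o ∧ q ∉ o) → (o' ∈ Cfsg.octads ∧ p ∈ o' ∧ q ∉ o') → ∃ g : Equiv.Perm Cfsg.GolayPt, g ∈ Cfsg.M24 ∧ g p = p ∧ g q = q ∧ g • o = o') ∧ ∀ o : Finset Cfsg.GolayPt, (o ∈ Cfsg.octads ∧ p ∈ o ∧ q ∉ o) → {x : Finset Cfsg.GolayPt | (x ∈ Cfsg.octads ∧ p ∈ x ∧ q ∉ x) ∧ (o ∩ x).card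 = 2}.ncard = 70 ∧ {x : Finset Cfsg.GolayPt | (x ∈ Cfsg.octads ∧ p ∈ x ∧ q ∉ x) ∧ (o ∩ x).card = 4}.ncard = 105 ∧ ∀ o' o'' : Finset Cfsg.GolayPt, (o' ∈ Cfsg.octads ∧ p ∈ o' ∧ q ∉ o') → (o'' ∈ Cfsg.octads ∧ p ∈ o'' ∧ q ∉ o'') → (o ∩ o').card = (o ∩ o'').card → ∃ g : Equiv.Perm Cfsg.GolayPt, g ∈ Cfsg.M24 ∧ g p = p ∧ g q = q ∧ g • o = o ∧ g • o' = o'' := by
  obtain ⟨o, ho, hpo, hqo⟩ := exists_oct hpq
  refine ⟨?_, ?_, ?_⟩
  · obtain ⟨u, hu, h1, h2, h3⟩ := frame ho hpo hqo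
    have : {x : Finset Cfsg.GolayPt | (x ∈ Cfsg.octads ∧ p ∈ x ∧ q ∉ x)}.ncard =
      H9.cnt (fun k => H9.band (Nat.beq (H9.pc (H9.enc k)) 8) (H9.band (Nat.beq (H9.bt (H9.enc k) 23) 1)
        (Nat.beq (H9.bt (H9.enc k) 4) 0))) := by
      rw [← H9.ncard_words (w := 8) _ (fun s => H9.pt 23 ∈ s ∧ H9.pt 4 ∉ s) (by
        intro k hk
        rw [H9.band_iff, H9.mem_test (by norm_num), H9.notMem_test (by norm_num)])]
      apply H9.ncard_transport u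
      intro s
      show (_ ∧ _ ∧ _) ↔ (_ ∧ _ ∧ _)
      rw [H9.words_iff hu, ← h2, ← h3, H9.mem_smul_iff', H9.mem_smul_iff']
      exact Iff.rfl
    rw [this]; decide +kernel
  · rintro o o' ⟨ho, hp, hq⟩ ⟨ho', hp', hq'⟩
    obtain ⟨u, hu, h1, h2, h3⟩ := frame ho hp hq
    obtain ⟨v, hv, h4, h5, h6⟩ := frame ho' hp' hq'
    refine ⟨v⁻¹ * u, Cfsg.M24.mul_mem (Cfsg.M24.inv_mem hv) hu, ?_, ?_, ?_⟩
    · show v⁻¹ (u p) = p
      rw [Equiv.Perm.inv_eq_iff_eq, h2, h5]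
    · show v⁻¹ (u q) = q
      rw [Equiv.Perm.inv_eq_iff_eq, h3, h6]
    · rw [mul_smul, h1, ← h4, inv_smul_smul]
  · rintro o ⟨ho, hp, hq⟩
    obtain ⟨u, hu, h1, h2', h3'⟩ := frame ho hp hq
    have hcnt : ∀ j, {x : Finset Cfsg.GolayPt | (x ∈ Cfsg.octads ∧ p ∈ x ∧ q ∉ x) ∧ (o ∩ x).card = j}.ncard =
        H9.cnt (fun k => H9.band (Nat.beq (H9.pc (H9.enc k)) 8) (H9.band (Nat.beq (H9.bt (H9.enc k) 23) 1)
          (H9.band (Nat.beq (H9.bt (H9.enc k) 4) 0) (Nat.beq (H9.pc (Nat.land (H9.enc k) H9.oct0)) j)))) := by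
      intro j
      rw [← H9.ncard_words (w := 8) _ (fun s => H9.pt 23 ∈ s ∧ H9.pt 4 ∉ s ∧ (H9.S H9.oct0 ∩ s).card = j) (by
        intro k hk
        rw [H9.band_iff, H9.band_iff, H9.mem_test (by norm_num), H9.notMem_test (by norm_num), H9.inter_test])]
      apply H9.ncard_transport u
      intro s
      show ((_ ∧ _ ∧ _) ∧ _) ↔ (_ ∧ _ ∧ _ ∧ _)
      rw [H9.words_iff hu, ← h1, H9.smul_inter_card, ← h2', ← h3', H9.mem_smul_iff', H9.mem_smul_iff', and_assoc,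
        and_assoc]
      exact Iff.rfl
    refine ⟨?_, ?_, ?_⟩
    · rw [hcnt]; decide +kernel
    · rw [hcnt]; decide +kernel
    · rintro o' o'' ⟨ho', hp', hq'⟩ ⟨ho'', hp'', hq''⟩ h
      obtain ⟨g, hg, h3, h4, h5, h6⟩ := H9.cb_trans (H9.smul_mem_weight hu ho') (H9.smul_mem_weight hu ho'')
        ⟨by rw [← h2', H9.mem_smul_iff']; exact hp', by rw [← h2', H9.mem_smul_iff']; exact hp''⟩
        ⟨by rw [← h3', H9.mem_smul_iff']; exact hq', by rw [← h3', H9.mem_smul_iff']; exact hq''⟩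
        (by rw [← h1, H9.smul_inter_card, H9.smul_inter_card]; exact h)
      exact ⟨u⁻¹ * g * u, H9.back hu hg, H9.back_pt h2' h4, H9.back_pt h3' h5, H9.back_set (by rw [h1, h3]),
        H9.back_set h6⟩

end Cfsg.Agent.S1605
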