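import Cfsg.Statements.S1607
import Cfsg.Agent.H9.OrbTools

set_option autoImplicit false
open scoped Pointwise
open Cfsg

namespace Cfsg.Agent.S1607

/-- The point stabiliser acts on the 253 heptads of its S(4, 7, 23) with rank 3 and subdegrees 1, 112, 140 (intersections 8, 2, 4). -/
theorem result (x : Cfsg.GolayPt) (o : Finset Cfsg.GolayPt) (ho : o ∈ Cfsg.octads) (hx : x ∈ o) : {o' : Finset Cfsg.GolayPt | o' ∈ Cfsg.octads ∧ x ∈ o' ∧ (o ∩ o').card = 2}.ncard = 112 ∧ {o' : Finset Cfsg.GolayPt | o' ∈ Cfsg.octads ∧ x ∈ o' ∧ (o ∩ o').card = 4}.ncard = 140 ∧ ∀ o' o'' : Finset Cfsg.GolayPt, o' ∈ Cfsg.octads → o'' ∈ Cfsg.octads → x ∈ o' → x ∈ o'' → (o ∩ o').card = (o ∩ o'').card → ∃ g : Equiv.Perm Cfsg.GolayPt, g ∈ Cfsg.M24 ∧ g x = x ∧ g • o = o ∧ g • o' = o'' := by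
  obtain ⟨u, hu, h1, h2⟩ := H9.oct_frame 1 (by norm_num) ho (fun _ => x) (by intro i _; exact hx)
    (by intro i hi j hj; omega)
  have h2' : u x = H9.pt 23 := by rw [← H9.B0_pt]; exact h2 0 (by norm_num)
  have hcnt : ∀ j, {o' : Finset Cfsg.GolayPt | o' ∈ Cfsg.octads ∧ x ∈ o' ∧ (o ∩ o').card = j}.ncard =
      H9.cnt (fun k => H9.band (Nat.beq (H9.pc (H9.enc k)) 8) (H9.band (Nat.beq (H9.bt (H9.enc k) 23) 1)
        (Nat.beq (H9.pc (Nat.land (H9.enc k) H9.oct0)) j))) := by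
    intro j
    rw [← H9.ncard_words (w := 8) _ (fun s => H9.pt 23 ∈ s ∧ (H9.S H9.oct0 ∩ s).card = j) (by
      intro k hk; rw [H9.band_iff, H9.mem_test (by norm_num), H9.inter_test])]
    apply H9.ncard_transport u
    intro s
    show (_ ∧ _ ∧ _) ↔ (_ ∧ _ ∧ _)
    rw [H9.words_iff hu, ← h1, H9.smul_inter_card, ← h2', H9.mem_smul_iff']
    exact Iff.rfl
  refine ⟨?_, ?_, ?_⟩
  · rw [hcnt]; decide +kernel
  · rw [hcnt]; decide +kernel
  · intro o' o'' ho' ho'' hx' hx'' h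
    obtain ⟨g, hg, h3, h4, h5⟩ := H9.cc_trans (H9.smul_mem_weight hu ho') (H9.smul_mem_weight hu ho'')
      ⟨by rw [← h2', H9.mem_smul_iff']; exact hx', by rw [← h2', H9.mem_smul_iff']; exact hx''⟩
      (by rw [← h1, H9.smul_inter_card, H9.smul_inter_card]; exact h)
    exact ⟨u⁻¹ * g * u, H9.back hu hg, H9.back_pt h2' h4, H9.back_set (by rw [h1, h3]), H9.back_set h5⟩

end Cfsg.Agent.S1607
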