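import Cfsg.Statements.S1631
import Mathlib
import Cfsg.Agent.H8.TTC2
open Cfsg.Agent.H7 Cfsg.Agent.H7.UTv Cfsg.Agent.H7.Tv

set_option autoImplicit false
open scoped MatrixGroups
open Cfsg

namespace Cfsg.Agent.S1631



/-- The unitary transvections of SU(n, 2), n ≥ 4, form a generating conjugacy class of 3-transpositions. -/
theorem result (F : Type) [Field F] [Fintype F] [DecidableEq F] (hF : Fintype.card F = 4) (n : ℕ) (hn : 4 ≤ n) : Cfsg.IsThreeTranspositionClass {g : ↥(Cfsg.SU n F 2) | (((g : Matrix.SpecialLinearGroup (Fin n) F) : Matrix (Fin n) (Fin n) F) - 1).rank = 1} := by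
  have hF' : Fintype.card F = 2 ^ 2 := by rw [hF]; norm_num
  obtain ⟨σ, hσ, hB, hBq, hGU⟩ := hm_std hF' n
  have h20 : (2 : F) = 0 := by
    have h1 := FiniteField.cast_card_eq_zero F
    rw [hF] at h1
    have h2 : (2 : F) * 2 = 0 := by
      have : ((4 : ℕ) : F) = 2 * 2 := by norm_num
      rw [← this]; exact h1
    rcases mul_eq_zero.1 h2 with h | h <;> exact h
  have h2 : ∀ x : F, x + x = 0 := by
    intro x
    linear_combination x * h20
  refine Cfsg.Agent.H8.TTC.u_class hB (by rw [Fintype.card_fin]; exact hn) ?_ ?_ h2 (suE n F 2) (suE_inj n) (suE_range hGU)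
  · intro c hc
    rw [hσ] at hc
    have h3 : c * (1 + c) = 0 := by linear_combination hc
    rcases mul_eq_zero.1 h3 with h | h
    · exact Or.inl h
    · right
      linear_combination h - h20
  · intro c hc
    rw [hσ]
    have := FiniteField.pow_card_sub_one_eq_one c hc
    rw [hF] at this
    rw [← this]
    ring

end Cfsg.Agent.S1631
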