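import Cfsg.Statements.S1638
import Cfsg.Agent.H9.Six

set_option autoImplicit false
open scoped Pointwise
open Cfsg

namespace Cfsg.Agent.S1638

/-- Fix two points p ≠ q and a pair s of two further points. Among the pairs avoiding p, q and disjoint from s, exactly 30 lie in an octad together with p, q and s and exactly 160 do not; and any two pairs other than s that meet s in equally many points and agree on that octad property are carried to one another by an element of the group of the length-24 code fixing p, q and s. -/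
theorem result (p q : Cfsg.GolayPt) (hpq : p ≠ q) (s : Finset Cfsg.GolayPt) (hs : (s.card = 2 ∧ p ∉ s ∧ q ∉ s)) : {t : Finset Cfsg.GolayPt | (t.card = 2 ∧ p ∉ t ∧ q ∉ t) ∧ Disjoint s t ∧ (∃ o ∈ Cfsg.octads, p ∈ o ∧ q ∈ o ∧ s ∪ t ⊆ o)}.ncard = 30 ∧ {t : Finset Cfsg.GolayPt | (t.card = 2 ∧ p ∉ t ∧ q ∉ t) ∧ Disjoint s t ∧ ¬ (∃ o ∈ Cfsg.octads, p ∈ o ∧ q ∈ o ∧ s ∪ t ⊆ o)}.ncard = 160 ∧ ∀ t t' : Finset Cfsg.GolayPt, (t.card = 2 ∧ p ∉ t ∧ q ∉ t) → (t'.card = 2 ∧ p ∉ t' ∧ q ∉ t') → t ≠ s → t' ≠ s → (s ∩ t).card = (s ∩ t').card → ((∃ o ∈ Cfsg.octads, p ∈ o ∧ q ∈ o ∧ s ∪ t ⊆ o) ↔ (∃ o ∈ Cfsg.octads, p ∈ o ∧ q ∈ o ∧ s ∪ t' ⊆ o)) → ∃ g : Equiv.Perm Cfsg.GolayPt, g ∈ Cfsg.M24 ∧ g p = p ∧ g q = q ∧ g • s = s ∧ g • t = t' := by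
  classical
  obtain ⟨hs2, hps, hqs⟩ := hs
  have hT : ({p, q} ∪ s).card = 4 := by
    rw [Finset.card_union_of_disjoint (by simp [hps, hqs]), Finset.card_pair hpq, hs2]
  have hT' : ({p, q} ∪ s : Finset Cfsg.GolayPt).card ≤ 5 := by omega
  have e1 : ∀ t : Finset Cfsg.GolayPt, Disjoint ({p, q} ∪ s) t ↔ (p ∉ t ∧ q ∉ t) ∧ Disjoint s t := by
    intro t; simp [Finset.disjoint_union_left, and_assoc]
  have e2 : ∀ t : Finset Cfsg.GolayPt, (∃ o ∈ Cfsg.octads, ({p, q} ∪ s) ∪ t ⊆ o) ↔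
      (∃ o ∈ Cfsg.octads, p ∈ o ∧ q ∈ o ∧ s ∪ t ⊆ o) := by
    intro t
    refine exists_congr fun o => and_congr_right fun _ => ?_
    rw [Finset.union_assoc, Finset.union_subset_iff (s := {p, q}), Finset.insert_subset_iff, Finset.singleton_subset_iff,
      and_assoc]
  have hin : {t : Finset Cfsg.GolayPt | (t.card = 2 ∧ p ∉ t ∧ q ∉ t) ∧ Disjoint s t ∧
      (∃ o ∈ Cfsg.octads, p ∈ o ∧ q ∈ o ∧ s ∪ t ⊆ o)}.ncard = 30 := by
    have h := H9.count_in_octad (T := {p, q} ∪ s) (j := 2) (by omega)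
    rw [H9.octads_through4 hT, hT] at h
    rw [← show 5 * (8 - 4).choose 2 = 30 by decide, ← h, ← Set.ncard_coe_finset]
    congr 1
    ext t
    rw [Finset.mem_coe, Finset.mem_filter, Finset.mem_powersetCard, e1, e2]
    show ((_ ∧ _) ∧ _ ∧ _) ↔ _
    constructor
    · rintro ⟨⟨a, b⟩, c, d⟩; exact ⟨⟨Finset.subset_univ _, a⟩, ⟨b, c⟩, d⟩
    · rintro ⟨⟨_, a⟩, ⟨b, c⟩, d⟩; exact ⟨⟨a, b⟩, c, d⟩
  have hall : {t : Finset Cfsg.GolayPt | (t.card = 2 ∧ p ∉ t ∧ q ∉ t) ∧ Disjoint s t}.ncard = 190 := by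
    have : {t : Finset Cfsg.GolayPt | (t.card = 2 ∧ p ∉ t ∧ q ∉ t) ∧ Disjoint s t} =
        ((({p, q} ∪ s : Finset Cfsg.GolayPt)ᶜ).powersetCard 2 : Set (Finset Cfsg.GolayPt)) := by
      ext U
      rw [Finset.mem_coe, Finset.mem_powersetCard, Finset.subset_compl_iff_disjoint_left, e1]
      exact ⟨fun h => ⟨⟨h.1.2, h.2⟩, h.1.1⟩, fun h => ⟨⟨h.2, h.1.1⟩, h.1.2⟩⟩
    rw [this, Set.ncard_coe_finset, Finset.card_powersetCard, Finset.card_compl, H9.card_pt, hT]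
    decide
  refine ⟨hin, ?_, ?_⟩
  · have hsub : {t : Finset Cfsg.GolayPt | (t.card = 2 ∧ p ∉ t ∧ q ∉ t) ∧ Disjoint s t ∧
        (∃ o ∈ Cfsg.octads, p ∈ o ∧ q ∈ o ∧ s ∪ t ⊆ o)} ⊆
        {t : Finset Cfsg.GolayPt | (t.card = 2 ∧ p ∉ t ∧ q ∉ t) ∧ Disjoint s t} := fun U hU => ⟨hU.1, hU.2.1⟩
    have h1 := Set.ncard_sdiff_add_ncard_of_subset hsub
    rw [hin, hall] at h1
    have h2 : {t : Finset Cfsg.GolayPt | (t.card = 2 ∧ p ∉ t ∧ q ∉ t) ∧ Disjoint s t ∧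
        ¬ (∃ o ∈ Cfsg.octads, p ∈ o ∧ q ∈ o ∧ s ∪ t ⊆ o)} =
        {t : Finset Cfsg.GolayPt | (t.card = 2 ∧ p ∉ t ∧ q ∉ t) ∧ Disjoint s t} \
        {t : Finset Cfsg.GolayPt | (t.card = 2 ∧ p ∉ t ∧ q ∉ t) ∧ Disjoint s t ∧
        (∃ o ∈ Cfsg.octads, p ∈ o ∧ q ∈ o ∧ s ∪ t ⊆ o)} := by
      ext U
      exact ⟨fun h => ⟨⟨h.1, h.2.1⟩, fun h' => h.2.2 h'.2.2⟩, fun h => ⟨h.1.1, h.1.2, fun h' => h.2 ⟨h.1.1, h.1.2, h'⟩⟩⟩
    rw [h2]; omega
  · rintro t t' ⟨ht, hpt, hqt⟩ ⟨ht', hpt', hqt'⟩ hne hne' hcard hiff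
    have split : ∀ x : Finset Cfsg.GolayPt, x.card = 2 → (s ∩ x).card = 1 → ∃ u v w, s = {u, v} ∧ x = {u, w} ∧ u ≠ v ∧
        u ≠ w ∧ v ≠ w := by
      intro x hx h1
      obtain ⟨u, hu⟩ := Finset.card_eq_one.1 h1
      have hus : u ∈ s := (Finset.mem_inter.1 (by rw [hu]; exact Finset.mem_singleton_self u)).1
      have hux : u ∈ x := (Finset.mem_inter.1 (by rw [hu]; exact Finset.mem_singleton_self u)).2
      obtain ⟨v, hv⟩ : ∃ v, s.erase u = {v} := Finset.card_eq_one.1 (by rw [Finset.card_erase_of_mem hus, hs2])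
      obtain ⟨w, hw⟩ : ∃ w, x.erase u = {w} := Finset.card_eq_one.1 (by rw [Finset.card_erase_of_mem hux, hx])
      have hv' : v ∈ s.erase u := by rw [hv]; exact Finset.mem_singleton_self v
      have hw' : w ∈ x.erase u := by rw [hw]; exact Finset.mem_singleton_self w
      rw [Finset.mem_erase] at hv' hw'
      refine ⟨u, v, w, ?_, ?_, fun h => hv'.1 h.symm, fun h => hw'.1 h.symm, ?_⟩
      · rw [← Finset.insert_erase hus, hv]
      · rw [← Finset.insert_erase hux, hw]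
      · rintro rfl
        have : v ∈ s ∩ x := Finset.mem_inter.2 ⟨hv'.2, hw'.2⟩
        rw [hu, Finset.mem_singleton] at this
        exact hv'.1 this
    have h2 : (s ∩ t).card ≤ 2 := by rw [← hs2]; exact Finset.card_le_card Finset.inter_subset_left
    have h3 : (s ∩ t).card ≠ 2 := by
      intro h
      apply hne
      have e1 : s ∩ t = s := Finset.eq_of_subset_of_card_le Finset.inter_subset_left (by rw [h, hs2])
      have e2 : s ∩ t = t := Finset.eq_of_subset_of_card_le Finset.inter_subset_right (by rw [h, ht])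
      rw [← e2, e1]
    have h01 : (s ∩ t).card = 1 ∨ (s ∩ t).card = 0 := by omega
    rcases h01 with hh | hh
    · obtain ⟨u, v, w, a1, a2, n1, n2, n3⟩ := split t ht hh
      obtain ⟨u', v', w', b1, b2, m1, m2, m3⟩ := split t' ht' (by omega)
      rw [a1] at hps hqs
      simp only [Finset.mem_insert, Finset.mem_singleton, not_or] at hps hqs
      have hps' : p ≠ u' ∧ p ≠ v' := by
        have : p ∉ ({u', v'} : Finset Cfsg.GolayPt) := by rw [← b1, a1]; simp [hps]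
        simpa using this
      have hqs' : q ≠ u' ∧ q ≠ v' := by
        have : q ∉ ({u', v'} : Finset Cfsg.GolayPt) := by rw [← b1, a1]; simp [hqs]
        simpa using this
      rw [a2] at hpt hqt
      rw [b2] at hpt' hqt'
      simp only [Finset.mem_insert, Finset.mem_singleton, not_or] at hpt hqt hpt' hqt'
      obtain ⟨g, hg, h⟩ := H9.m24_transOn [p, q, u, v, w] [p, q, u', v', w']
        (by simp [hpq, hps.1, hps.2, hqs.1, hqs.2, hpt.2, hqt.2, n1, n2, n3])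
        (by simp [hpq, hps'.1, hps'.2, hqs'.1, hqs'.2, hpt'.2, hqt'.2, m1, m2, m3]) rfl (by simp) (by simp) (by simp)
      simp only [List.map_cons, List.map_nil, List.cons.injEq, and_true] at h
      obtain ⟨g1, g2, g3, g4, g5⟩ := h
      refine ⟨g, hg, g1, g2, ?_, ?_⟩
      · conv_lhs => rw [a1]
        conv_rhs => rw [b1]
        rw [H9.smul_insert_set, H9.smul_single_set, g3, g4]
      · rw [a2, b2, H9.smul_insert_set, H9.smul_single_set, g3, g5]
    · have hh' : (s ∩ t').card = 0 := by omega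
      rw [Finset.card_eq_zero, ← Finset.disjoint_iff_inter_eq_empty] at hh hh'
      obtain ⟨a, b, hab, rfl⟩ := Finset.card_eq_two.1 hs2
      obtain ⟨c, d, hcd, rfl⟩ := Finset.card_eq_two.1 ht
      obtain ⟨c', d', hcd', rfl⟩ := Finset.card_eq_two.1 ht'
      simp only [Finset.disjoint_insert_left, Finset.disjoint_singleton_left, Finset.mem_insert, Finset.mem_singleton,
        not_or] at hh hh' hps hqs hpt hqt hpt' hqt'
      have conv : ∀ x y : Cfsg.GolayPt, (∃ o ∈ Cfsg.octads, p ∈ o ∧ q ∈ o ∧ ({a, b} : Finset Cfsg.GolayPt) ∪ {x, y} ⊆ o) ↔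
          (∃ o ∈ Cfsg.octads, ∀ w ∈ [p, q, a, b, x, y], w ∈ o) := by
        intro x y
        refine exists_congr fun o => and_congr_right fun _ => ?_
        simp only [Finset.union_subset_iff, Finset.insert_subset_iff, Finset.singleton_subset_iff, List.forall_mem_cons,
          List.not_mem_nil, false_implies, implies_true, and_true, and_assoc]
      rw [conv, conv] at hiff
      obtain ⟨g, hg, g1, g2, g3, g4, g5, g6⟩ := H9.six_trans
        (by simp [hpq, hab, hcd, hps.1, hps.2, hqs.1, hqs.2, hpt.1, hpt.2, hqt.1, hqt.2, hh.1.1, hh.1.2, hh.2.1, hh.2.2])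
        (by simp [hpq, hab, hcd', hps.1, hps.2, hqs.1, hqs.2, hpt'.1, hpt'.2, hqt'.1, hqt'.2, hh'.1.1, hh'.1.2, hh'.2.1,
              hh'.2.2]) hiff
      refine ⟨g, hg, g1, g2, ?_, ?_⟩
      · rw [H9.smul_insert_set, H9.smul_single_set, g3, g4]
      · rw [H9.smul_insert_set, H9.smul_single_set, g5, g6]

end Cfsg.Agent.S1638
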