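import Cfsg.Statements.S1639
import Cfsg.Agent.H9.OrbTools

set_option autoImplicit false
open scoped Pointwise
open Cfsg

namespace Cfsg.Agent.S1639

/-- The point stabiliser acts on the 1288 dodecads through the point with rank 4 and subdegrees 1, 165, 330, 792, distinguished by intersection 4, 8, 6 with the fixed dodecad. -/
theorem result (x : Cfsg.GolayPt) (d : Finset Cfsg.GolayPt) (hd : d ∈ Cfsg.dodecads) (hx : x ∈ d) : {d' : Finset Cfsg.GolayPt | d' ∈ Cfsg.dodecads ∧ x ∈ d' ∧ (d ∩ d').card = 4}.ncard = 165 ∧ {d' : Finset Cfsg.GolayPt | d' ∈ Cfsg.dodecads ∧ x ∈ d' ∧ (d ∩ d').card = 8}.ncard = 330 ∧ {d' : Finset Cfsg.GolayPt | d' ∈ Cfsg.dodecads ∧ x ∈ d' ∧ (d ∩ d').card = 6}.ncard = 792 ∧ ∀ d' d'' : Finset Cfsg.GolayPt, d' ∈ Cfsg.dodecads → d'' ∈ Cfsg.dodecads → x ∈ d' → x ∈ d'' → (d ∩ d').card = (d ∩ d'').card → ∃ g : Equiv.Perm Cfsg.GolayPt, g ∈ Cfsg.M24 ∧ g x = x ∧ g • d = d ∧ g • d' = d''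 := by
  obtain ⟨u, hu, h1, h2⟩ := H9.dod_frame hd [x] [H9.D 0] (by simp) (by simp) rfl (by simp) (by simpa using hx)
    (by simpa using H9.D_mem (by norm_num))
  simp only [List.map_cons, List.map_nil, List.cons.injEq, and_true] at h2
  have h2' : u x = H9.pt 0 := by rw [← H9.D0_pt]; exact h2
  have hcnt : ∀ j, {d' : Finset Cfsg.GolayPt | d' ∈ Cfsg.dodecads ∧ x ∈ d' ∧ (d ∩ d').card = j}.ncard =
      H9.cnt (fun k => H9.band (Nat.beq (H9.pc (H9.enc k)) 12) (H9.band (Nat.beq (H9.bt (H9.enc k) 0) 1)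
        (Nat.beq (H9.pc (Nat.land (H9.enc k) H9.dod0)) j))) := by
    intro j
    rw [← H9.ncard_words (w := 12) _ (fun s => H9.pt 0 ∈ s ∧ (H9.S H9.dod0 ∩ s).card = j) (by
      intro k hk; rw [H9.band_iff, H9.mem_test (by norm_num), H9.inter_test])]
    apply H9.ncard_transport u
    intro s
    show (_ ∧ _ ∧ _) ↔ (_ ∧ _ ∧ _)
    rw [H9.words_iff hu, ← h1, H9.smul_inter_card, ← h2', H9.mem_smul_iff']
    exact Iff.rfl
  refine ⟨?_, ?_, ?_, ?_⟩
  · rw [hcnt]; decide +kernel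
  · rw [hcnt]; decide +kernel
  · rw [hcnt]; decide +kernel
  · intro o' o'' ho' ho'' hx' hx'' h
    obtain ⟨g, hg, h3, h4, h5⟩ := H9.ce_trans (H9.smul_mem_weight hu ho') (H9.smul_mem_weight hu ho'')
      ⟨by rw [← h2', H9.mem_smul_iff']; exact hx', by rw [← h2', H9.mem_smul_iff']; exact hx''⟩
      (by rw [← h1, H9.smul_inter_card, H9.smul_inter_card]; exact h)
    exact ⟨u⁻¹ * g * u, H9.back hu hg, H9.back_pt h2' h4, H9.back_set (by rw [h1, h3]), H9.back_set h5⟩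

end Cfsg.Agent.S1639
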