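import Cfsg.Statements.S1691

-- import your own Cfsg.Agent.* helpers here

set_option autoImplicit false
open Cfsg

namespace Cfsg.Agent.S1691

/-- The commutator subgroup of the presented group Fi₂₄ has index 2 (the presented group is Fi₂₄′:2 with Fi₂₄′ its derived subgroup). -/
theorem result : (commutator Cfsg.Spor.Fi24).index = 2 := by
  classical
  set W := Cfsg.Spor.Fi24 with hW
  have hrel : ∀ r : FreeGroup Cfsg.Spor.Fi24.Gen, r ∈ Cfsg.Spor.coxRelators Cfsg.Spor.Fi24.edges ∪ {r | r ∈ Cfsg.Spor.Fi24.extra} →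
      FreeGroup.lift (fun _ : Cfsg.Spor.Fi24.Gen => (-1 : ℤˣ)) r = 1 := by
    rintro r (⟨x, -, y, -, rfl⟩ | hr)
    · rw [map_pow, map_mul, FreeGroup.lift_apply_of, FreeGroup.lift_apply_of]
      norm_num
    · simp only [Cfsg.Spor.Fi24.extra, Set.mem_setOf_eq, List.mem_cons, List.not_mem_nil, or_false] at hr
      rcases hr with rfl | rfl
      · simp only [map_mul, map_pow, map_inv, FreeGroup.lift_apply_of]
        decide
      · simp only [map_mul, map_pow, map_inv, FreeGroup.lift_apply_of]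
        decide
  let f : W →* ℤˣ := PresentedGroup.toGroup (f := fun _ : Cfsg.Spor.Fi24.Gen => (-1 : ℤˣ)) hrel
  let o : Cfsg.Spor.Fi24.Gen → W := PresentedGroup.of
  have hf : ∀ x, f (o x) = -1 := fun x => PresentedGroup.toGroup.of hrel
  let q : W →* Abelianization W := Abelianization.of
  have hone : ∀ r ∈ Cfsg.Spor.coxRelators Cfsg.Spor.Fi24.edges ∪ {r | r ∈ Cfsg.Spor.Fi24.extra}, (PresentedGroup.mk (Cfsg.Spor.coxRelators Cfsg.Spor.Fi24.edges ∪ {r | r ∈ Cfsg.Spor.Fi24.extra}) r) = 1 :=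
    fun r hr => PresentedGroup.one_of_mem hr
  have hnode : ∀ x : Cfsg.Spor.Fi24.Gen, x ∈ Cfsg.Spor.coxNodes Cfsg.Spor.Fi24.edges := by
    intro x; cases x <;> decide
  have hsq : ∀ x, q (o x) * q (o x) = 1 := by
    intro x
    have h1 := hone ((FreeGroup.of x * FreeGroup.of x) ^ Cfsg.Spor.coxLabel Cfsg.Spor.Fi24.edges x x) (Or.inl ⟨x, hnode x, x, hnode x, rfl⟩)
    have h2 : Cfsg.Spor.coxLabel Cfsg.Spor.Fi24.edges x x = 1 := by unfold Cfsg.Spor.coxLabel; rw [if_pos rfl]
    rw [h2, pow_one, map_mul] at h1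
    have h3 : o x * o x = 1 := h1
    rw [← map_mul, h3, map_one]
  have hE : ∀ x y, Cfsg.Spor.coxLabel Cfsg.Spor.Fi24.edges x y = 3 → q (o x) = q (o y) := by
    intro x y hl
    have h1 := hone ((FreeGroup.of x * FreeGroup.of y) ^ Cfsg.Spor.coxLabel Cfsg.Spor.Fi24.edges x y) (Or.inl ⟨x, hnode x, y, hnode y, rfl⟩)
    rw [hl, map_pow, map_mul] at h1
    have h3 : (o x * o y) ^ 3 = 1 := h1
    have h4 : (q (o x) * q (o y)) ^ 3 = 1 := by rw [← map_mul, ← map_pow, h3, map_one]
    have h5 : (q (o x) * q (o y)) ^ 3 = q (o x) * q (o y) := by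
      rw [mul_pow, pow_succ, pow_two, hsq, one_mul, pow_succ, pow_two, hsq, one_mul]
    rw [h5] at h4
    exact mul_right_cancel (h4.trans (hsq y).symm)
  have hall : ∀ x, q (o x) = q (o .d) := by
    have h1 : q (o .c) = q (o .d) := hE _ _ (by decide)
    have h2 : q (o .b) = q (o .d) := (hE _ _ (by decide : Cfsg.Spor.coxLabel Cfsg.Spor.Fi24.edges .b .c = 3)).trans h1
    have h3 : q (o .a) = q (o .d) := (hE _ _ (by decide : Cfsg.Spor.coxLabel Cfsg.Spor.Fi24.edges .a .b = 3)).trans h2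
    have h4 : q (o .k) = q (o .d) := (hE _ _ (by decide : Cfsg.Spor.coxLabel Cfsg.Spor.Fi24.edges .k .a = 3)).trans h3
    have h5 : q (o .l) = q (o .d) := (hE _ _ (by decide : Cfsg.Spor.coxLabel Cfsg.Spor.Fi24.edges .l .k = 3)).trans h4
    have h6 : q (o .e) = q (o .d) := hE _ _ (by decide)
    have h7 : q (o .f) = q (o .d) := (hE _ _ (by decide : Cfsg.Spor.coxLabel Cfsg.Spor.Fi24.edges .f .e = 3)).trans h6
    have h8 : q (o .g) = q (o .d) := (hE _ _ (by decide : Cfsg.Spor.coxLabel Cfsg.Spor.Fi24.edges .g .f = 3)).trans h7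
    have h9 : q (o .j) = q (o .d) := (hE _ _ (by decide : Cfsg.Spor.coxLabel Cfsg.Spor.Fi24.edges .j .g = 3)).trans h8
    have h10 : q (o .h) = q (o .d) := hE _ _ (by decide)
    have h11 : q (o .i) = q (o .d) := (hE _ _ (by decide : Cfsg.Spor.coxLabel Cfsg.Spor.Fi24.edges .i .h = 3)).trans h10
    intro x
    cases x <;> first | assumption | rfl
  have key : ∀ w : W, ∃ k : ℤ, q w = q (o .d) ^ k ∧ f w = (-1) ^ k := by
    intro w
    have hw : w ∈ Subgroup.closure (Set.range o) := by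
      have h1 : Subgroup.closure (Set.range o) = ⊤ := PresentedGroup.closure_range_of _
      rw [h1]; trivial
    induction hw using Subgroup.closure_induction with
    | mem y hy =>
      obtain ⟨x, rfl⟩ := hy
      exact ⟨1, by rw [zpow_one, hall], by rw [zpow_one, hf]⟩
    | one => exact ⟨0, by simp, by simp⟩
    | mul y z _ _ ihy ihz =>
      obtain ⟨k, h1, h2⟩ := ihy
      obtain ⟨l, h3, h4⟩ := ihz
      exact ⟨k + l, by rw [map_mul, h1, h3, zpow_add], by rw [map_mul, h2, h4, zpow_add]⟩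
    | inv y _ ihy =>
      obtain ⟨k, h1, h2⟩ := ihy
      exact ⟨-k, by rw [map_inv, h1, zpow_neg], by rw [map_inv, h2, zpow_neg]⟩
  have hker : commutator W = f.ker := by
    apply le_antisymm
    · exact Abelianization.commutator_subset_ker f
    · intro w hw
      obtain ⟨k, h1, h2⟩ := key w
      rw [MonoidHom.mem_ker] at hw
      rw [hw] at h2
      have h3 : Even k := by
        by_contra hcon
        rw [Int.not_even_iff_odd] at hcon
        rw [hcon.neg_one_zpow] at h2
        exact absurd h2 (by decide)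
      obtain ⟨m, rfl⟩ := h3
      rw [zpow_add, ← mul_zpow, hsq, one_zpow] at h1
      rw [← Abelianization.ker_of]
      exact h1
  have hsurj : f.range = ⊤ := by
    rw [eq_top_iff]
    intro u _
    rcases Int.units_eq_one_or u with rfl | rfl
    · exact ⟨1, map_one f⟩
    · exact ⟨o .d, hf _⟩
  rw [hker, Subgroup.index_ker, hsurj, Subgroup.card_top]
  simp

end Cfsg.Agent.S1691
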