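import Cfsg.Statements.S1753

-- import your own Cfsg.Agent.* helpers here

set_option autoImplicit false
universe u
open Cfsg

namespace Cfsg.Agent.S1753

/-- Let K be any property of groups. (1) If G is a minimal counterexample relative to K — a finite non-abelian simple group not satisfying K such that every finite non-abelian simple group of smaller order satisfies K — then every proper subgroup of G is a K-group (all its non-abelian simple sections satisfy K), since such sections have smaller order than G. (2) Consequently (induction on the order), if every finite non-abelian simple group all of whose proper subgroups are K-groups satisfies K, then every finite non-abelian simple group satisfies K. -/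
theorem result (K : ∀ (X : Type u) [Group X], Prop) :
    (∀ (G : Type u) [Group G], Cfsg.IsMinCounterexampleWith K G → Cfsg.IsKProperWith K G) ∧
      ((∀ (X : Type u) [Group X] [Finite X], IsSimpleGroup X → ¬ IsMulCommutative X → Cfsg.IsKProperWith K X → K X) →
        ∀ (G : Type u) [Group G] [Finite G], IsSimpleGroup G → ¬ IsMulCommutative G → K G) := by
  have hsec : ∀ (G : Type u) [Group G] [Finite G] (H : Subgroup G), H ≠ ⊤ → ∀ (L : Subgroup H) (N : Subgroup L) [N.Normal], Nat.card (L ⧸ N) < Nat.card G := by
    intro G _ _ H hH L N _
    have h1 : Nat.card (L ⧸ N) ≤ Nat.card L := Nat.card_le_card_of_surjective _ (QuotientGroup.mk'_surjective N)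
    have h2 : Nat.card L ≤ Nat.card H := Nat.card_le_card_of_injective _ L.subtype_injective
    have h3 : Nat.card H < Nat.card G := by
      have h4 : H < ⊤ := lt_top_iff_ne_top.mpr hH
      have h5 := Set.ncard_lt_ncard (SetLike.coe_ssubset_coe.mpr h4) (Set.toFinite _)
      rw [Subgroup.coe_top, Set.ncard_univ] at h5
      exact h5
    omega
  refine ⟨?_, ?_⟩
  · intro G _ hG
    obtain ⟨hfin, hs, hc, hK, hmin⟩ := hG
    haveI := hfin
    intro H hH L N hN hsimp hna
    exact hmin _ hsimp hna (hsec G H hH L N)
  · intro h
    have key : ∀ n : ℕ, ∀ (G : Type u) [Group G] [Finite G], Nat.card G = n → IsSimpleGroup G → ¬ IsMulCommutative G → K G := by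
      intro n
      induction n using Nat.strong_induction_on with
      | _ n ih =>
      intro G _ _ hn hs hc
      refine h G hs hc ?_
      intro H hH L N hN hsimp hna
      exact ih _ (by rw [← hn]; exact hsec G H hH L N) _ rfl hsimp hna
    intro G _ _ hs hc
    exact key _ G rfl hs hc

end Cfsg.Agent.S1753
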