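import Cfsg.Statements.S1754
import Cfsg.Agent.L0.GenFit
-- import your own Cfsg.Agent.* helpers here

set_option autoImplicit false
open Cfsg

namespace Cfsg.Agent.S1754

/-- Let A be a standard subgroup of the finite group G (A quasisimple, C_G(A) tightly embedded of even order, A commuting elementwise with no other conjugate of itself, and N_G(A) = N_G(C_G(A))), and let t be an involution of G centralizing A. Then the centralizer of t lies in the normalizer of A; in particular A, viewed inside C_G(t), is a component of C_G(t). -/
theorem result {G : Type*} [Group G] [Finite G]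
    (A : Subgroup G) (hA : Cfsg.IsStandardSubgroup A) (t : G) (ht : orderOf t = 2) (htA : t ∈ Subgroup.centralizer (A : Set G)) :
    Subgroup.centralizer ({t} : Set G) ≤ Subgroup.normalizer (A : Set G) ∧
      Cfsg.IsComponent (A.subgroupOf (Subgroup.centralizer ({t} : Set G))) := by
  obtain ⟨hQ, ⟨-, hte⟩, -, hN⟩ := hA
  have ht1 : t ≠ 1 := by rintro rfl; rw [orderOf_one] at ht; norm_num at ht
  have hle : Subgroup.centralizer ({t} : Set G) ≤ Subgroup.normalizer (A : Set G) := by
    intro g hg
    rw [hN]
    by_contra hgn
    have h1 := hte g hgn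
    rw [Subgroup.mem_centralizer_singleton_iff] at hg
    have h2 : t ∈ Subgroup.centralizer (A : Set G) ⊓ (Subgroup.centralizer (A : Set G)).map (MulAut.conj g).toMonoidHom := by
      refine Subgroup.mem_inf.mpr ⟨htA, t, htA, ?_⟩
      change g * t * g⁻¹ = t
      rw [hg, mul_inv_cancel_right]
    have h3 := Subgroup.orderOf_dvd_natCard _ h2
    rw [ht] at h3
    exact (Nat.not_odd_iff_even.mpr (even_iff_two_dvd.mpr h3)) h1
  have hAC : A ≤ Subgroup.centralizer ({t} : Set G) := by
    intro a ha
    rw [Subgroup.mem_centralizer_singleton_iff]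
    exact Subgroup.mem_centralizer_iff.mp htA a ha
  refine ⟨hle, ?_⟩
  have hn : (A.subgroupOf (Subgroup.centralizer ({t} : Set G))).Normal := (Subgroup.normal_subgroupOf_iff_le_normalizer hAC).2 hle
  exact ⟨hn.isSubnormal, Cfsg.Agent.L0.isQuasisimple_subgroupOf hAC hQ⟩

end Cfsg.Agent.S1754
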