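import Cfsg.Statements.S1755
import Cfsg.Agent.L0.GenFit
-- import your own Cfsg.Agent.* helpers here

set_option autoImplicit false
open Cfsg

namespace Cfsg.Agent.S1755

/-- Let G be a finite group and let z be an involution of G such that Q, the generalized Fitting subgroup of the centralizer C of z, is a 2-group of symplectic type (every characteristic abelian subgroup of Q is cyclic). Let B be a characteristic abelian subgroup of Q, viewed as a subgroup of G. Then for every g in G, the conjugate of B by g either equals B or meets B trivially. -/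
theorem result {G : Type*} [Group G] [Finite G] (z : G) (hz : orderOf z = 2) (hQ : Cfsg.IsOfSymplecticType ↥(Cfsg.generalizedFittingSubgroup ↥(Subgroup.centralizer ({z} : Set G))))
    (B : Subgroup ↥(Cfsg.generalizedFittingSubgroup ↥(Subgroup.centralizer ({z} : Set G)))) (hBc : B.Characteristic) (hBa : IsMulCommutative ↥B) (g : G) :
    ((B.map (Cfsg.generalizedFittingSubgroup ↥(Subgroup.centralizer ({z} : Set G))).subtype).map (Subgroup.centralizer ({z} : Set G)).subtype).map (MulAut.conj g).toMonoidHom =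
        (B.map (Cfsg.generalizedFittingSubgroup ↥(Subgroup.centralizer ({z} : Set G))).subtype).map (Subgroup.centralizer ({z} : Set G)).subtype ∨
      ((B.map (Cfsg.generalizedFittingSubgroup ↥(Subgroup.centralizer ({z} : Set G))).subtype).map (Subgroup.centralizer ({z} : Set G)).subtype).map (MulAut.conj g).toMonoidHom ⊓
        (B.map (Cfsg.generalizedFittingSubgroup ↥(Subgroup.centralizer ({z} : Set G))).subtype).map (Subgroup.centralizer ({z} : Set G)).subtype = ⊥ := by
  classical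
  obtain ⟨C, hC⟩ : ∃ C, C = Subgroup.centralizer ({z} : Set G) := ⟨_, rfl⟩
  revert hQ B
  rw [← hC]
  intro hQ B hBc hBa
  obtain ⟨F, hF⟩ : ∃ F, F = Cfsg.generalizedFittingSubgroup ↥C := ⟨_, rfl⟩
  have hFn : F.Normal := by rw [hF]; infer_instance
  revert hQ B
  rw [← hF]
  intro hQ B hBc hBa
  haveI := hFn
  obtain ⟨BG, hBG⟩ : ∃ BG : Subgroup G, BG = (B.map F.subtype).map C.subtype := ⟨_, rfl⟩
  rw [← hBG]
  have hmem : ∀ y, y ∈ BG ↔ ∃ b : ↥F, b ∈ B ∧ ((b : ↥C) : G) = y := by
    intro y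
    rw [hBG]
    constructor
    · rintro ⟨_, ⟨b, hb, rfl⟩, rfl⟩
      exact ⟨b, hb, rfl⟩
    · rintro ⟨b, hb, rfl⟩
      exact ⟨_, ⟨b, hb, rfl⟩, rfl⟩
  have hconj : ∀ c ∈ C, ∀ y ∈ BG, c * y * c⁻¹ ∈ BG := by
    intro c hc y hy
    obtain ⟨b, hb, rfl⟩ := (hmem y).mp hy
    have h1 := hBc.fixed (MulAut.conjNormal (⟨c, hc⟩ : ↥C))
    rw [← h1, Subgroup.mem_comap] at hb
    rw [hmem]
    refine ⟨_, hb, ?_⟩
    rfl
  haveI := Fact.mk Nat.prime_two
  have hcyc2 : ∀ (H : Subgroup ↥F), IsCyclic H → ∀ x ∈ H, ∀ y ∈ H, x ^ 2 = 1 → y ^ 2 = 1 → x ≠ 1 → y ≠ 1 → x = y := by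
    intro H hH x hx y hy hx2 hy2 hx1 hy1
    haveI : Fintype H := Fintype.ofFinite _
    by_contra hne
    have h1 := IsCyclic.card_pow_eq_one_le (α := H) (n := 2) (by norm_num)
    have h2 : ({1, ⟨x, hx⟩, ⟨y, hy⟩} : Finset H) ⊆ Finset.univ.filter (fun a : H => a ^ 2 = 1) := by
      intro w hw
      simp only [Finset.mem_insert, Finset.mem_singleton] at hw
      rw [Finset.mem_filter]
      refine ⟨Finset.mem_univ _, ?_⟩
      rcases hw with rfl | rfl | rfl
      · exact one_pow 2
      · exact Subtype.ext hx2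
      · exact Subtype.ext hy2
    have h3 := Finset.card_le_card h2
    have h4 : ({1, ⟨x, hx⟩, ⟨y, hy⟩} : Finset H).card = 3 := by
      rw [Finset.card_insert_of_notMem, Finset.card_insert_of_notMem, Finset.card_singleton]
      · rw [Finset.mem_singleton]
        intro h; exact hne (congrArg Subtype.val h)
      · rw [Finset.mem_insert, Finset.mem_singleton]
        rintro (h | h)
        · exact hx1 (congrArg Subtype.val h).symm
        · exact hy1 (congrArg Subtype.val h).symm
    omega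
  have hBcyc := hQ.2 B hBc hBa
  have hZcyc := hQ.2 (Subgroup.center ↥F) inferInstance inferInstance
  have hz1 : z ≠ 1 := by rintro rfl; rw [orderOf_one] at hz; norm_num at hz
  have hzz : z ^ 2 = 1 := by rw [← hz]; exact pow_orderOf_eq_one z
  have hzC : z ∈ C := by rw [hC, Subgroup.mem_centralizer_singleton_iff]
  have hCz : ∀ c ∈ C, c * z = z * c := by
    intro c hc
    rw [hC, Subgroup.mem_centralizer_singleton_iff] at hc
    exact hc
  have hzF : (⟨z, hzC⟩ : ↥C) ∈ F := by
    rw [hF]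
    apply Cfsg.Agent.L0.centralizer_generalizedFitting_le
    rw [Subgroup.mem_centralizer_iff]
    intro c _
    exact Subtype.ext (hCz c c.2)
  have hzcen : (⟨⟨z, hzC⟩, hzF⟩ : ↥F) ∈ Subgroup.center ↥F := by
    rw [Subgroup.mem_center_iff]
    intro c
    exact Subtype.ext (Subtype.ext (hCz _ (c : ↥C).2))
  -- involutions of BG are z
  have hinv : ∀ y ∈ BG, y ^ 2 = 1 → y ≠ 1 → y = z := by
    intro y hy hy2 hy1
    obtain ⟨b, hb, rfl⟩ := (hmem y).mp hy
    have hb2 : b ^ 2 = 1 := Subtype.ext (Subtype.ext hy2)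
    have hb1 : b ≠ 1 := by rintro rfl; exact hy1 rfl
    haveI : B.Normal := inferInstance
    have hbc : b ∈ Subgroup.center ↥F := by
      rw [Subgroup.mem_center_iff]
      intro q
      have h1 : q * b * q⁻¹ ∈ B := ‹B.Normal›.conj_mem b hb q
      have h2 := hcyc2 B hBcyc _ h1 _ hb (by rw [conj_pow, hb2]; group) hb2 (by
        intro h
        apply hb1
        have : b = q⁻¹ * (q * b * q⁻¹) * q := by group
        rw [this, h]; group) hb1
      calc q * b = (q * b * q⁻¹) * q := by group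
        _ = b * q := by rw [h2]
    have h3 := hcyc2 _ hZcyc _ hbc _ hzcen hb2 (Subtype.ext (Subtype.ext hzz)) hb1 (by
      intro h
      exact hz1 (congrArg (fun w : ↥F => ((w : ↥C) : G)) h))
    exact congrArg (fun w : ↥F => ((w : ↥C) : G)) h3
  by_cases hint : BG.map (MulAut.conj g).toMonoidHom ⊓ BG = ⊥
  · right; exact hint
  left
  obtain ⟨w, hw, hw1⟩ : ∃ w ∈ BG.map (MulAut.conj g).toMonoidHom ⊓ BG, w ≠ 1 := by
    by_contra hcon
    push Not at hcon
    exact hint ((Subgroup.eq_bot_iff_forall _).mpr hcon)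
  have hw2 := (Subgroup.mem_inf.mp hw).2
  obtain ⟨b, hb, hbw⟩ := (hmem w).mp hw2
  have hord : ∃ k, orderOf w = 2 ^ k := by
    obtain ⟨k, hk⟩ := IsPGroup.iff_orderOf.1 hQ.1 b
    refine ⟨k, ?_⟩
    rw [← hbw, Subgroup.orderOf_coe, Subgroup.orderOf_coe, hk]
  obtain ⟨k, hk⟩ := hord
  have hk0 : k ≠ 0 := by
    rintro rfl
    rw [pow_zero] at hk
    exact hw1 (orderOf_eq_one_iff.mp hk)
  obtain ⟨j, rfl⟩ := Nat.exists_eq_succ_of_ne_zero hk0
  have hy2 : (w ^ 2 ^ j) ^ 2 = 1 := by rw [← pow_mul, ← pow_succ, ← hk, pow_orderOf_eq_one]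
  have hy1 : w ^ 2 ^ j ≠ 1 := by
    intro h
    have h1 := orderOf_dvd_of_pow_eq_one h
    rw [hk] at h1
    have := (Nat.pow_dvd_pow_iff_le_right (by norm_num : 1 < 2)).mp h1
    omega
  have hyz := hinv _ (BG.pow_mem hw2 _) hy2 hy1
  have hyg : w ^ 2 ^ j ∈ BG.map (MulAut.conj g).toMonoidHom := Subgroup.pow_mem _ (Subgroup.mem_inf.mp hw).1 _
  rw [hyz] at hyg
  obtain ⟨v, hv, hvz⟩ := hyg
  have hvz' : g * v * g⁻¹ = z := hvz
  have hv' : v = g⁻¹ * z * g := by rw [← hvz']; group
  have hvzz := hinv v hv (by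
    have h1 : v ^ 2 = g⁻¹ * z ^ 2 * g := by rw [hv', pow_two, pow_two]; group
    rw [h1, hzz]; group) (by
    rintro rfl
    apply hz1
    rw [← hvz']; group)
  have hgC : g ∈ C := by
    rw [hC, Subgroup.mem_centralizer_singleton_iff]
    rw [hvzz] at hvz'
    calc g * z = (g * z * g⁻¹) * g := by group
      _ = z * g := by rw [hvz']
  apply le_antisymm
  · rintro _ ⟨y, hy, rfl⟩
    exact hconj g hgC y hy
  · intro y hy
    refine ⟨g⁻¹ * y * g, ?_, ?_⟩
    · have := hconj g⁻¹ (C.inv_mem hgC) y hy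
      rwa [inv_inv] at this
    · change g * (g⁻¹ * y * g) * g⁻¹ = y
      group

end Cfsg.Agent.S1755
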