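import Cfsg.Statements.S1756
import Cfsg.Agent.H4.ExtraCent
import Cfsg.Agent.H6.ExtraSplit

set_option autoImplicit false
open Cfsg

namespace Cfsg.Agent.S1756

/-- Let Q be an extraspecial 2-subgroup of the finite group G (special with centre of order 2) and t an involution of G normalizing Q such that the centralizer of t in Q has index at most 2 in Q. Then t lies in the product of Q with the centralizer of Q. -/
theorem result {G : Type*} [Group G] [Finite G] (Q : Subgroup G)
    (hQ : Cfsg.IsExtraspecial 2 ↥Q) (t : G) (ht : orderOf t = 2) (htN : t ∈ Subgroup.normalizer (Q : Set G))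
    (hi : (Subgroup.centralizer ({t} : Set G) ⊓ Q).relIndex Q ≤ 2) :
    t ∈ Q ⊔ Subgroup.centralizer (Q : Set G) := by
    classical
    haveI : Fact (Nat.Prime 2) := ⟨Nat.prime_two⟩
    obtain ⟨z, hz⟩ := H6.edata_of_extraspecial hQ
    have htt : t * t = 1 := by rw [← pow_two, ← ht, pow_orderOf_eq_one]
    have hti : t⁻¹ = t := inv_eq_of_mul_eq_one_left htt
    have htQ : ∀ q ∈ Q, t * q * t⁻¹ ∈ Q := fun q hq => (Subgroup.mem_normalizer_iff.mp htN q).mp hq
    -- centre of Q in G
    obtain ⟨ZQ, hZQ⟩ : ∃ ZQ : Subgroup G, ZQ = (Subgroup.center Q).map Q.subtype := ⟨_, rfl⟩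
    have hZmem : ∀ x ∈ Q, (∀ q ∈ Q, x * q = q * x) → x ∈ ZQ := by
      intro x hx h
      rw [hZQ]
      refine ⟨⟨x, hx⟩, ?_, rfl⟩
      rw [SetLike.mem_coe, Subgroup.mem_center_iff]
      intro q
      exact Subtype.ext (h q q.2).symm
    have hZc : ∀ x ∈ ZQ, x ∈ Q ∧ ∀ q ∈ Q, x * q = q * x := by
      intro x hx
      rw [hZQ] at hx
      obtain ⟨y, hy, rfl⟩ := hx
      refine ⟨y.2, fun q hq => ?_⟩
      exact (congrArg (fun s : Q => (s : G)) (Subgroup.mem_center_iff.mp hy ⟨q, hq⟩)).symm
    have hZ2 : ∀ x ∈ ZQ, x = 1 ∨ x = z := by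
      intro x hx
      obtain ⟨hxQ, hxc⟩ := hZc x hx
      rcases hz.cen ⟨x, hxQ⟩ (fun y => Subtype.ext (hxc y y.2)) with h | h
      · left; exact congrArg (fun s : Q => (s : G)) h
      · right; exact congrArg (fun s : Q => (s : G)) h
    have hzZ : (z : G) ∈ ZQ := hZmem z z.2 (fun q hq => (congrArg (fun s : Q => (s : G)) (hz.central ⟨q, hq⟩)).symm)
    have hzne : (z : G) ≠ 1 := fun h => hz.ne (Subtype.ext h)
    have htz : t * (z : G) * t⁻¹ = z := by
      have h1 : t * (z : G) * t⁻¹ ∈ ZQ := by
        apply hZmem _ (htQ z z.2)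
        intro q hq
        have h2 := (hZc z hzZ).2 (t * q * t⁻¹) (htQ q hq)
        have e : q = t * (t * q * t⁻¹) * t⁻¹ := by
          rw [hti]
          calc q = (t * t) * q * (t * t) := by rw [htt]; group
            _ = t * (t * q * t) * t := by group
        calc t * (z : G) * t⁻¹ * q = t * (z : G) * t⁻¹ * (t * (t * q * t⁻¹) * t⁻¹) := by rw [← e]
          _ = t * ((z : G) * (t * q * t⁻¹)) * t⁻¹ := by group
          _ = t * ((t * q * t⁻¹) * z) * t⁻¹ := by rw [h2]
          _ = (t * (t * q * t⁻¹) * t⁻¹) * (t * z * t⁻¹) := by group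
          _ = q * (t * z * t⁻¹) := by rw [← e]
      rcases hZ2 _ h1 with h2 | h2
      · exfalso
        apply hzne
        rw [mul_inv_eq_one, mul_eq_left] at h2
        exact h2
      · exact h2
    have hsq : ∀ x ∈ Q, x * x = 1 ∨ x * x = z := by
      intro x hx
      rcases hz.sq ⟨x, hx⟩ with h | h
      · left; exact congrArg (fun s : Q => (s : G)) h
      · right; exact congrArg (fun s : Q => (s : G)) h
    have htsq : ∀ x ∈ Q, t * (x * x) * t⁻¹ = x * x := by
      intro x hx
      rcases hsq x hx with h | h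
      · rw [h]; group
      · rw [h]; exact htz
    have hsqZ : ∀ x ∈ Q, x * x ∈ ZQ := by
      intro x hx
      rcases hsq x hx with h | h
      · rw [h]; exact one_mem _
      · rw [h]; exact hzZ
    -- key
    have hkey : ∀ y ∈ Q, t * y * t⁻¹ * y⁻¹ ∈ ZQ := by
      intro y hy
      by_cases hyC : t * y = y * t
      · have : t * y * t⁻¹ * y⁻¹ = 1 := by rw [hyC]; group
        rw [this]; exact one_mem _
      · -- index two
        have hC : ((Subgroup.centralizer ({t} : Set G) ⊓ Q).subgroupOf Q).index = 2 := by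
          have h0 : ((Subgroup.centralizer ({t} : Set G) ⊓ Q).subgroupOf Q).index ≤ 2 := hi
          have h1 : ((Subgroup.centralizer ({t} : Set G) ⊓ Q).subgroupOf Q).index ≠ 0 := Subgroup.index_ne_zero_of_finite
          have h2 : ((Subgroup.centralizer ({t} : Set G) ⊓ Q).subgroupOf Q).index ≠ 1 := by
            intro h3
            rw [Subgroup.index_eq_one] at h3
            apply hyC
            have h4 : (⟨y, hy⟩ : Q) ∈ (Subgroup.centralizer ({t} : Set G) ⊓ Q).subgroupOf Q := by rw [h3]; trivial
            rw [Subgroup.mem_subgroupOf] at h4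
            exact (Subgroup.mem_centralizer_singleton_iff.mp (Subgroup.mem_inf.mp h4).1).symm
          omega
        have hmem : ∀ x (hx : x ∈ Q), (⟨x, hx⟩ : Q) ∈ (Subgroup.centralizer ({t} : Set G) ⊓ Q).subgroupOf Q ↔ t * x = x * t := by
          intro x hx
          rw [Subgroup.mem_subgroupOf, Subgroup.mem_inf, Subgroup.mem_centralizer_singleton_iff]
          constructor
          · intro h; exact h.1.symm
          · intro h; exact ⟨h.symm, hx⟩
        have h2m : ∀ a (ha : a ∈ Q) b (hb : b ∈ Q), (t * (a * b) = (a * b) * t ↔ (t * a = a * t ↔ t * b = b * t)) := by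
          intro a ha b hb
          rw [← hmem a ha, ← hmem b hb, ← hmem (a * b) (mul_mem ha hb)]
          exact Subgroup.mul_mem_iff_of_index_two hC (a := (⟨a, ha⟩ : Q)) (b := (⟨b, hb⟩ : Q))
        obtain ⟨w, hw⟩ : ∃ w, w = y⁻¹ * (t * y * t⁻¹) := ⟨_, rfl⟩
        have hwQ : w ∈ Q := by rw [hw]; exact mul_mem (inv_mem hy) (htQ y hy)
        have hty : t * y * t⁻¹ = y * w := by rw [hw]; group
        have hwi : w * (t * w * t⁻¹) = 1 := by
          have h1 : y = y * (w * (t * w * t⁻¹)) := by
            calc y = (t * t) * y * (t * t)⁻¹ := by rw [htt]; group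
              _ = t * (t * y * t⁻¹) * t⁻¹ := by group
              _ = t * (y * w) * t⁻¹ := by rw [hty]
              _ = (t * y * t⁻¹) * (t * w * t⁻¹) := by group
              _ = y * w * (t * w * t⁻¹) := by rw [hty]
              _ = _ := by group
          exact (mul_eq_left.mp h1.symm)
        have hyi : ¬ t * y⁻¹ = y⁻¹ * t := by
          intro h
          apply hyC
          have h3 : Commute t y⁻¹ := h
          have h4 := h3.inv_right
          rw [inv_inv] at h4
          exact h4.eq
        have hwc : ∀ c ∈ Q, t * c = c * t → w * c = c * w := by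
          intro c hc htc
          have h1 : t * (y * c * y⁻¹) = (y * c * y⁻¹) * t := by
            rw [h2m (y * c) (mul_mem hy hc) y⁻¹ (inv_mem hy)]
            rw [h2m y hy c hc]
            constructor
            · intro h3; exact absurd (h3.mpr htc) hyC
            · intro h3; exact absurd h3 hyi
          have h2 : t * (y * c * y⁻¹) * t⁻¹ = y * c * y⁻¹ := by rw [h1]; group
          have htc' : t * c * t⁻¹ = c := by rw [htc]; group
          have h3 : t * (y * c * y⁻¹) * t⁻¹ = (y * w) * c * (y * w)⁻¹ := by
            calc t * (y * c * y⁻¹) * t⁻¹ = (t * y * t⁻¹) * (t * c * t⁻¹) * (t * y * t⁻¹)⁻¹ := by group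
              _ = _ := by rw [hty, htc']
          rw [h2] at h3
          have h4 : y * (w * c * w⁻¹) * y⁻¹ = y * c * y⁻¹ := by
            rw [h3]; group
          have h5 : w * c * w⁻¹ = c := mul_left_cancel (mul_right_cancel h4)
          calc w * c = (w * c * w⁻¹) * w := by group
            _ = c * w := by rw [h5]
        have htw : t * w * t⁻¹ = w⁻¹ := eq_inv_of_mul_eq_one_right hwi
        have hcalc : t * y * t⁻¹ * y⁻¹ = y * w * y⁻¹ := by rw [hty]
        by_cases hwC : t * w = w * t
        · have hww : w * w = 1 := by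
            have h1 : t * w * t⁻¹ = w := by rw [hwC]; group
            rw [h1] at hwi
            exact hwi
          have h1 : (y * w) * (y * w) = y * y := by
            calc (y * w) * (y * w) = (t * y * t⁻¹) * (t * y * t⁻¹) := by rw [hty]
              _ = t * (y * y) * t⁻¹ := by group
              _ = y * y := htsq y hy
          have h2 : w * y = y * w := by
            have h3 : w * y * w = y := by
              have h4 : y * (w * y * w) = y * y := by rw [← h1]; group
              exact mul_left_cancel h4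
            calc w * y = (w * y * w) * w⁻¹ := by group
              _ = y * w⁻¹ := by rw [h3]
              _ = y * w := by rw [inv_eq_of_mul_eq_one_left hww]
          have h3 : w ∈ ZQ := by
            apply hZmem w hwQ
            intro q hq
            by_cases hqC : t * q = q * t
            · exact hwc q hq hqC
            · have h4 : t * (y⁻¹ * q) = (y⁻¹ * q) * t := by
                rw [h2m y⁻¹ (inv_mem hy) q hq]
                constructor
                · intro h5; exact absurd h5 hyi
                · intro h5; exact absurd h5 hqC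
              have h5 := hwc _ (mul_mem (inv_mem hy) hq) h4
              calc w * q = w * y * (y⁻¹ * q) := by group
                _ = y * (w * (y⁻¹ * q)) := by rw [h2]; group
                _ = y * ((y⁻¹ * q) * w) := by rw [h5]
                _ = q * w := by group
          have h4 := (hZc w h3).2 y hy
          rw [hcalc, ← h4, mul_inv_cancel_right]
          exact h3
        · -- w not in C
          have h1 : t * (w⁻¹ * y) = (w⁻¹ * y) * t := by
            rw [h2m w⁻¹ (inv_mem hwQ) y hy]
            constructor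
            · intro h3
              exfalso
              apply hwC
              have h4 : Commute t w⁻¹ := h3
              have h5 := h4.inv_right
              rw [inv_inv] at h5
              exact h5.eq
            · intro h3; exact absurd h3 hyC
          have h2 : t * (w⁻¹ * y) * t⁻¹ = w⁻¹ * y := by rw [h1]; group
          have h3 : t * y * t⁻¹ = w⁻¹ * (w⁻¹ * y) := by
            calc t * y * t⁻¹ = (t * w * t⁻¹) * (t * (w⁻¹ * y) * t⁻¹) := by group
              _ = _ := by rw [htw, h2]
          have h4 : t * y * t⁻¹ * y⁻¹ = (w * w)⁻¹ := by rw [h3]; group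
          rw [h4]
          exact inv_mem (hsqZ w hwQ)
    -- the subgroup T
    have hQQ : ∀ g ∈ Q, ∀ q ∈ Q, g * q * g⁻¹ * q⁻¹ ∈ ZQ := by
      intro g hg q hq
      rw [hZQ]
      have h1 : (⟨g, hg⟩ : Q) * ⟨q, hq⟩ * (⟨g, hg⟩ : Q)⁻¹ * (⟨q, hq⟩ : Q)⁻¹ ∈ Subgroup.center Q := by
        rw [← hQ.1.2.2]
        exact Subgroup.commutator_mem_commutator (Subgroup.mem_top _) (Subgroup.mem_top _)
      exact ⟨_, h1, rfl⟩
    let T : Subgroup G :=
      { carrier := {g | g ∈ Subgroup.normalizer (Q : Set G) ∧ ∀ q ∈ Q, g * q * g⁻¹ * q⁻¹ ∈ ZQ}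
        one_mem' := ⟨one_mem _, fun q hq => by
          have : (1 : G) * q * 1⁻¹ * q⁻¹ = 1 := by group
          rw [this]; exact one_mem _⟩
        mul_mem' := by
          rintro g h ⟨hg1, hg2⟩ ⟨hh1, hh2⟩
          refine ⟨mul_mem hg1 hh1, fun q hq => ?_⟩
          have h1 : h * q * h⁻¹ ∈ Q := (Subgroup.mem_normalizer_iff.mp hh1 q).mp hq
          have e : g * h * q * (g * h)⁻¹ * q⁻¹ = (g * (h * q * h⁻¹) * g⁻¹ * (h * q * h⁻¹)⁻¹) * (h * q * h⁻¹ * q⁻¹) := by group
          rw [e]; exact mul_mem (hg2 _ h1) (hh2 q hq)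
        inv_mem' := by
          rintro g ⟨hg1, hg2⟩
          refine ⟨inv_mem hg1, fun q hq => ?_⟩
          have h1 : g⁻¹ * q * g ∈ Q := by
            have := (Subgroup.mem_normalizer_iff.mp (inv_mem hg1) q).mp hq
            rwa [inv_inv] at this
          have e : g⁻¹ * q * g⁻¹⁻¹ * q⁻¹ = (g * (g⁻¹ * q * g) * g⁻¹ * (g⁻¹ * q * g)⁻¹)⁻¹ := by group
          rw [e]; exact inv_mem (hg2 _ h1) }
    have hTmem : ∀ g, g ∈ T ↔ g ∈ Subgroup.normalizer (Q : Set G) ∧ ∀ q ∈ Q, g * q * g⁻¹ * q⁻¹ ∈ ZQ := fun _ => Iff.rfl
    have hQT : Q ≤ T := fun g hg => (hTmem g).mpr ⟨Subgroup.le_normalizer hg, hQQ g hg⟩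
    have htT : t ∈ T := (hTmem t).mpr ⟨htN, hkey⟩
    obtain ⟨e⟩ : Nonempty (Q.subgroupOf T ≃* Q) := ⟨Subgroup.subgroupOfEquivOfLe hQT⟩
    have hcard : Nat.card (Subgroup.center (Q.subgroupOf T)) = 2 := by
      rw [← hQ.2]
      exact Nat.card_congr (Subgroup.centerCongr e).toEquiv
    have hcc : commutator (Q.subgroupOf T) = Subgroup.center (Q.subgroupOf T) := by
      have h1 : (commutator (Q.subgroupOf T)).map e.toMonoidHom = commutator Q := by
        rw [commutator_def, commutator_def, Subgroup.map_commutator]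
        have : (⊤ : Subgroup (Q.subgroupOf T)).map e.toMonoidHom = ⊤ := by
          rw [← MonoidHom.range_eq_map]; exact MonoidHom.range_eq_top.mpr e.surjective
        rw [this]
      have h2 : (Subgroup.center (Q.subgroupOf T)).map e.toMonoidHom = Subgroup.center Q := by
        ext x
        constructor
        · rintro ⟨y, hy, rfl⟩
          rw [Subgroup.mem_center_iff]
          intro g
          have h3 := Subgroup.mem_center_iff.mp hy (e.symm g)
          have h4 := congrArg e h3
          rw [map_mul, map_mul, e.apply_symm_apply] at h4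
          exact h4
        · intro hx
          refine ⟨e.symm x, ?_, e.apply_symm_apply x⟩
          rw [SetLike.mem_coe, Subgroup.mem_center_iff]
          intro g
          apply e.injective
          rw [map_mul, map_mul, e.apply_symm_apply]
          exact Subgroup.mem_center_iff.mp hx (e g)
      apply Subgroup.map_injective (f := e.toMonoidHom) e.injective
      rw [h1, h2]; exact hQ.1.2.2
    have hfin := H4.extra_cent (G := T) (p := 2) (Q.subgroupOf T) hcard hcc (by
      rw [Subgroup.commutator_le]
      intro g _ q hq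
      have h1 := ((hTmem g).mp g.2).2 q hq
      obtain ⟨h2, h3⟩ := hZc _ h1
      refine Subgroup.mem_inf.mpr ⟨h2, ?_⟩
      rw [Subgroup.mem_centralizer_iff]
      intro x hx
      exact Subtype.ext (h3 x hx).symm)
    haveI hEn : (Q.subgroupOf T).Normal := Subgroup.normal_subgroupOf_of_le_normalizer (fun g hg => ((hTmem g).mp hg).1)
    have h1 : (⟨t, htT⟩ : T) ∈ (Q.subgroupOf T) ⊔ Subgroup.centralizer ((Q.subgroupOf T : Subgroup T) : Set T) := by
      rw [hfin]; trivial
    rw [Subgroup.mem_sup_of_normal_left] at h1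
    obtain ⟨q, hq, c, hc, hqc⟩ := h1
    have h2 : t = (q : G) * (c : G) := (congrArg (fun s : T => (s : G)) hqc).symm
    rw [h2]
    have hq' : (q : G) ∈ Q := hq
    apply Subgroup.mul_mem_sup hq'
    rw [Subgroup.mem_centralizer_iff]
    intro x hx
    exact congrArg (fun s : T => (s : G)) (Subgroup.mem_centralizer_iff.mp hc ⟨x, hQT hx⟩ hx)

end Cfsg.Agent.S1756
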