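import Cfsg.Statements.S1757
import Cfsg.Agent.L0.Coprime
-- import your own Cfsg.Agent.* helpers here

set_option autoImplicit false
open Cfsg commutatorElement

namespace Cfsg.Agent.S1757

/-- Let p be a prime and A, B p-subgroups of the finite group G, each of which meets every conjugate of itself other than itself trivially. Suppose the order of A is at most that of B, A and B intersect trivially, and B normalizes A. Then A and B commute elementwise. -/
theorem result {G : Type*} [Group G] [Finite G] (p : ℕ) [Fact p.Prime] (A B : Subgroup G)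
    (hA : IsPGroup p ↥A) (hB : IsPGroup p ↥B)
    (hAti : ∀ g : G, A.map (MulAut.conj g).toMonoidHom = A ∨ A.map (MulAut.conj g).toMonoidHom ⊓ A = ⊥)
    (hBti : ∀ g : G, B.map (MulAut.conj g).toMonoidHom = B ∨ B.map (MulAut.conj g).toMonoidHom ⊓ B = ⊥)
    (hle : Nat.card ↥A ≤ Nat.card ↥B) (hAB : A ⊓ B = ⊥) (hN : B ≤ Subgroup.normalizer (A : Set G)) : ⁅A, B⁆ = ⊥ := by
  classical
  have hTc : Nat.card (A ⊔ B : Subgroup G) = Nat.card A * Nat.card B := Cfsg.Agent.L0.card_sup_of_normalizes hN hAB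
  have hnorm : ∀ a ∈ A, B.map (MulAut.conj a).toMonoidHom = B := by
    intro a ha
    by_contra hne
    have h1 := (hBti a).resolve_left hne
    have hinj : Function.Injective (fun x : B × B => (⟨(x.1 : G) * (a * (x.2 : G) * a⁻¹), (A ⊔ B).mul_mem (Subgroup.mem_sup_right x.1.2) ((A ⊔ B).mul_mem ((A ⊔ B).mul_mem (Subgroup.mem_sup_left ha) (Subgroup.mem_sup_right x.2.2)) ((A ⊔ B).inv_mem (Subgroup.mem_sup_left ha)))⟩ : ↥(A ⊔ B))) := by
      rintro ⟨b1, b2⟩ ⟨c1, c2⟩ h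
      have h2 : (b1 : G) * (a * (b2 : G) * a⁻¹) = (c1 : G) * (a * (c2 : G) * a⁻¹) := congrArg Subtype.val h
      have h3 : (c1 : G)⁻¹ * b1 = a * ((c2 : G) * (b2 : G)⁻¹) * a⁻¹ := by
        calc (c1 : G)⁻¹ * b1 = (c1 : G)⁻¹ * ((b1 : G) * (a * (b2 : G) * a⁻¹)) * (a * (b2 : G)⁻¹ * a⁻¹) := by group
          _ = _ := by rw [h2]; group
      have h4 : (c1 : G)⁻¹ * b1 ∈ B.map (MulAut.conj a).toMonoidHom ⊓ B := by
        refine Subgroup.mem_inf.mpr ⟨?_, B.mul_mem (B.inv_mem c1.2) b1.2⟩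
        rw [h3]
        exact ⟨_, B.mul_mem c2.2 (B.inv_mem b2.2), rfl⟩
      rw [h1, Subgroup.mem_bot] at h4
      have h5 : (c1 : G) = b1 := (inv_mul_eq_one.mp h4)
      rw [h4] at h3
      have h6 : (c2 : G) = b2 := by
        have h7 : (c2 : G) * (b2 : G)⁻¹ = a⁻¹ * (a * ((c2 : G) * (b2 : G)⁻¹) * a⁻¹) * a := by group
        rw [← h3] at h7
        have h8 : (c2 : G) * (b2 : G)⁻¹ = 1 := by rw [h7]; group
        exact mul_inv_eq_one.mp h8
      exact Prod.ext (Subtype.ext h5.symm) (Subtype.ext h6.symm)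
    have hbij : Function.Bijective (fun x : B × B => (⟨(x.1 : G) * (a * (x.2 : G) * a⁻¹), (A ⊔ B).mul_mem (Subgroup.mem_sup_right x.1.2) ((A ⊔ B).mul_mem ((A ⊔ B).mul_mem (Subgroup.mem_sup_left ha) (Subgroup.mem_sup_right x.2.2)) ((A ⊔ B).inv_mem (Subgroup.mem_sup_left ha)))⟩ : ↥(A ⊔ B))) := by
      rw [Nat.bijective_iff_injective_and_card]
      refine ⟨hinj, ?_⟩
      apply le_antisymm (Nat.card_le_card_of_injective _ hinj)
      rw [hTc, Nat.card_prod]
      exact Nat.mul_le_mul_right _ hle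
    obtain ⟨⟨b1, b2⟩, hb⟩ := hbij.2 ⟨a⁻¹, (A ⊔ B).inv_mem (Subgroup.mem_sup_left ha)⟩
    have h2 : (b1 : G) * (a * (b2 : G) * a⁻¹) = a⁻¹ := congrArg Subtype.val hb
    have h3 : a = (b1 : G)⁻¹ * (b2 : G)⁻¹ := by
      have h4 : (b1 : G) * a * (b2 : G) = 1 := by
        calc (b1 : G) * a * (b2 : G) = ((b1 : G) * (a * (b2 : G) * a⁻¹)) * a := by group
          _ = 1 := by rw [h2]; group
      calc a = (b1 : G)⁻¹ * ((b1 : G) * a * (b2 : G)) * (b2 : G)⁻¹ := by group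
        _ = _ := by rw [h4]; group
    have h5 : a ∈ B := by rw [h3]; exact B.mul_mem (B.inv_mem b1.2) (B.inv_mem b2.2)
    have h6 : a ∈ A ⊓ B := Subgroup.mem_inf.mpr ⟨ha, h5⟩
    rw [hAB, Subgroup.mem_bot] at h6
    apply hne
    rw [h6]
    ext y
    simp
  rw [eq_bot_iff, ← hAB]
  refine le_inf ?_ ?_
  · rw [Subgroup.commutator_le]
    intro a ha b hb
    have h1 := (Subgroup.mem_set_normalizer_iff.mp (hN hb) a⁻¹).mp (A.inv_mem ha)
    have h2 : ⁅a, b⁆ = a * (b * a⁻¹ * b⁻¹) := by rw [commutatorElement_def]; group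
    rw [h2]; exact A.mul_mem ha h1
  · rw [Subgroup.commutator_le]
    intro a ha b hb
    have h1 : a * b * a⁻¹ ∈ B := by
      rw [← hnorm a ha]; exact ⟨b, hb, rfl⟩
    have h2 : ⁅a, b⁆ = (a * b * a⁻¹) * b⁻¹ := by rw [commutatorElement_def]
    rw [h2]; exact B.mul_mem h1 (B.inv_mem hb)

end Cfsg.Agent.S1757
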