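import Cfsg.Statements.S1780

-- import your own Cfsg.Agent.* helpers here

set_option autoImplicit false
open Cfsg

namespace Cfsg.Agent.S1780

/-- Let A be a finite abelian 2-group and t an automorphism of A whose order is a power of 2. If every element of A fixed by t² is fixed by t, then t fixes every element of A. -/
theorem result {A : Type*} [CommGroup A] [Finite A]
    (hA : IsPGroup 2 A) (t : MulAut A) (ht : ∃ k : ℕ, orderOf t = 2 ^ k) (hC : ∀ a : A, t (t a) = a → t a = a) :
    ∀ a : A, t a = a := by
  have hm : ∀ (m : ℕ) (s : MulAut A), (∀ a : A, a * a = 1 → s (s a) = a → s a = a) → ∀ a : A, a * a = 1 → (s ^ (2 ^ m)) a = a → s a = a := by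
    intro m s hs
    induction m with
    | zero => intro a _ h; simpa using h
    | succ m ih =>
      intro a ha h
      rcases Nat.eq_zero_or_pos m with h0 | hpos
      · subst h0
        apply hs a ha
        have h2 : (s ^ (2 ^ (0 + 1))) = s * s := by norm_num [pow_two]
        rw [h2] at h
        exact h
      obtain ⟨j, rfl⟩ := Nat.exists_eq_succ_of_ne_zero hpos.ne'
      obtain ⟨w, hw⟩ : ∃ w, w = s ^ (2 ^ j) := ⟨_, rfl⟩
      obtain ⟨u, hu⟩ : ∃ u, u = s ^ (2 ^ (j + 1)) := ⟨_, rfl⟩
      have huw : ∀ x, u x = w (w x) := by
        intro x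
        have : u = w * w := by rw [hu, hw, ← pow_add]; congr 1; ring
        rw [this]; rfl
      have huu : u (u a) = a := by
        have : s ^ (2 ^ (j + 1 + 1)) = u * u := by rw [hu, ← pow_add]; congr 1; ring
        rw [this] at h
        exact h
      have hsw : ∀ x, s x = x → w x = x := by
        intro x hx
        have : ∀ n : ℕ, (s ^ n) x = x := by
          intro n
          induction n with
          | zero => simp
          | succ n ihn => rw [pow_succ]; change (s ^ n) (s x) = x; rw [hx, ihn]
        rw [hw]; exact this _
      have ih' : ∀ x : A, x * x = 1 → u x = x → s x = x := by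
        intro x hx h; exact ih x hx (by rw [← hu]; exact h)
      have hsq : ∀ (f : MulAut A) (x : A), x * x = 1 → f x * f x = 1 := by
        intro f x hx
        rw [← map_mul, hx, map_one]
      have hinv : ∀ x : A, x * x = 1 → x⁻¹ = x := fun x hx => inv_eq_of_mul_eq_one_left hx
      -- c
      have hc2 : (u a * a) * (u a * a) = 1 := by
        calc (u a * a) * (u a * a) = (u a * u a) * (a * a) := by rw [mul_mul_mul_comm]
          _ = 1 := by rw [hsq u a ha, ha, mul_one]
      have huc : u (u a * a) = u a * a := by
        rw [map_mul, huu, mul_comm]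
      have hsc := ih' _ hc2 huc
      have hwc := hsw _ hsc
      -- e
      have he2 : (w a * a) * (w a * a) = 1 := by
        calc (w a * a) * (w a * a) = (w a * w a) * (a * a) := by rw [mul_mul_mul_comm]
          _ = 1 := by rw [hsq w a ha, ha, mul_one]
      have hwe : w (w a * a) = (u a * a) * (w a * a) := by
        rw [map_mul, ← huw]
        calc u a * w a = u a * w a * (a * a) := by rw [ha, mul_one]
          _ = (u a * a) * (w a * a) := by rw [mul_mul_mul_comm]
      have hue : u (w a * a) = w a * a := by
        rw [huw, hwe, map_mul, hwc, hwe, ← mul_assoc, hc2, one_mul]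
      have hse := ih' _ he2 hue
      have hwe2 := hsw _ hse
      rw [hwe] at hwe2
      have hc1 : u a * a = 1 := mul_eq_right.mp hwe2
      have hua : u a = a := by
        rw [mul_eq_one_iff_eq_inv.mp hc1]; exact hinv a ha
      exact ih' a ha hua
  obtain ⟨k, hk⟩ := ht
  have h1 : ∀ a : A, a * a = 1 → t a = a := by
    intro a ha
    refine hm k t (fun a _ h => hC a h) a ha ?_
    rw [← hk, pow_orderOf_eq_one]; rfl
  have hmain : ∀ n : ℕ, ∀ a : A, a ^ 2 ^ n = 1 → t a = a := by
    intro n
    induction n with
    | zero =>
      intro a ha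
      rw [pow_zero, pow_one] at ha
      rw [ha, map_one]
    | succ n ih =>
      intro a ha
      have h2 : t (a * a) = a * a := by
        apply ih
        rw [← pow_two, ← pow_mul, ← pow_succ']; exact ha
      have hv : (t a * a⁻¹) * (t a * a⁻¹) = 1 := by
        rw [mul_mul_mul_comm, ← map_mul, h2, ← mul_inv_rev, mul_inv_cancel]
      have hv2 := h1 _ hv
      apply hC
      have h3 : t a = (t a * a⁻¹) * a := by rw [inv_mul_cancel_right]
      calc t (t a) = t ((t a * a⁻¹) * a) := by rw [← h3]
        _ = (t a * a⁻¹) * t a := by rw [map_mul, hv2]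
        _ = (t a * a⁻¹) * ((t a * a⁻¹) * a) := by rw [← h3]
        _ = a := by rw [← mul_assoc, hv, one_mul]
  intro a
  obtain ⟨n, hn⟩ := hA a
  exact hmain n a hn

end Cfsg.Agent.S1780
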