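import Cfsg.Statements.S1967
import Cfsg.Agent.H6.Control

set_option autoImplicit false
open Cfsg

namespace Cfsg.Agent.S1967

/-- Let p be a prime, G a finite group with Sylow p-subgroup S and W a conjugacy functor for p on G. Then W controls strong fusion in G if and only if, whenever T ≤ S and g ∈ G satisfy gTg⁻¹ ≤ S, one can write g = n c with n ∈ N_G(W(S)) and c ∈ C_G(T). -/
theorem result {G : Type*} [Group G] [Finite G] {p : ℕ} [Fact p.Prime] (S : Sylow p G) (W : Subgroup G → Subgroup G) (hW : Cfsg.IsConjugacyFunctor p W) : Cfsg.ControlsStrongFusionIn p W ⊤ ↔ ∀ (T : Subgroup G) (g : G), T ≤ (S : Subgroup G) → T.map (MulAut.conj g).toMonoidHom ≤ (S : Subgroup G) → ∃ n ∈ Subgroup.normalizer ((W (S : Subgroup G) : Subgroup G) : Set G), ∃ c ∈ Subgroup.centralizer (T : Set G), g = n * c := by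
  constructor
  · intro h T g hT hgT
    have hc := H6.controls_sylow hW h (H6.sylow_sylIn_top S)
    obtain ⟨y, hy, hya⟩ := hc (T : Set G) g⁻¹ (Subgroup.mem_top _) hT (by
      rw [H6.rc_subgroup, inv_inv]; exact hgT)
    refine ⟨y⁻¹, Subgroup.inv_mem _ hy.2, y * g, ?_, by group⟩
    rw [Subgroup.mem_centralizer_iff]
    intro a ha
    have := hya a ha
    rw [inv_inv] at this
    calc a * (y * g) = y * (y⁻¹ * a * y) * g := by group
      _ = y * (g * a * g⁻¹) * g := by rw [this]
      _ = y * g * a := by group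
  · intro h
    rw [H6.controls_iff]
    refine ⟨(S : Subgroup G), H6.sylow_sylIn_top S, ?_⟩
    intro A x _ hA hxA
    obtain ⟨n, hn, c, hc, hnc⟩ := h (Subgroup.closure A) x⁻¹ ((Subgroup.closure_le _).2 hA) (by
      rw [Subgroup.map_le_iff_le_comap, Subgroup.closure_le]
      intro a ha
      have := hxA ⟨a, ha, rfl⟩
      simpa [MulAut.conj_apply] using this)
    refine ⟨n⁻¹, Subgroup.inv_mem _ ⟨Subgroup.mem_top _, hn⟩, ?_⟩
    intro a ha
    rw [Subgroup.mem_centralizer_iff] at hc
    have h1 := hc a (Subgroup.subset_closure ha)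
    have h2 : c * a * c⁻¹ = a := by rw [← h1]; group
    calc n⁻¹⁻¹ * a * n⁻¹ = n * a * n⁻¹ := by group
      _ = n * (c * a * c⁻¹) * n⁻¹ := by rw [h2]
      _ = (n * c) * a * (n * c)⁻¹ := by group
      _ = x⁻¹ * a * x := by rw [← hnc, inv_inv]

end Cfsg.Agent.S1967
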