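import Cfsg.Statements.S1968
import Cfsg.Agent.H6.WeakClosure

set_option autoImplicit false
open Cfsg

namespace Cfsg.Agent.S1968

open Cfsg.Agent.H6

/-- Let p be a prime, G a finite group with Sylow p-subgroup S and W a conjugacy functor for p on G with Z(P) ≤ W(P) for every p-subgroup P. Let A be a subgroup of Z(S) normalized by N_G(W(S)) that is not weakly closed in S with respect to G. Then there is a subgroup T of S, well placed in S with respect to W, such that: A ≤ T; N_G(W(N_S(T))) normalizes A; N_S(T) is a Sylow p-subgroup of N_G(T); A ≤ Z(N_S(T)); and A is not weakly closed in N_S(T) with respect to N_G(T), that is, some N_G(T)-conjugate of A other than A lies in N_S(T). -/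
theorem result {G : Type*} [Group G] [Finite G] {p : ℕ} [Fact p.Prime] (S : Sylow p G) (W : Subgroup G → Subgroup G) (hW : Cfsg.IsConjugacyFunctor p W) (hWZ : ∀ P : Subgroup G, IsPGroup p ↥P → P ⊓ Subgroup.centralizer (P : Set G) ≤ W P) (A : Subgroup G) (hAZ : A ≤ (S : Subgroup G) ⊓ Subgroup.centralizer ((S : Subgroup G) : Set G)) (hAN : Subgroup.normalizer ((W (S : Subgroup G) : Subgroup G) : Set G) ≤ Subgroup.normalizer ((A : Subgroup G) : Set G)) (hnwc : ¬ Cfsg.IsWeaklyClosed A (S : Subgroup G)) : ∃ T : Subgroup G, Cfsg.IsWellPlaced p W (S : Subgroup G) T ∧ A ≤ T ∧ Subgroup.normalizer ((W ((S : Subgroup G) ⊓ Subgroup.normalizer ((T : Subgroup G) : Set G)) : Subgroup G) : Set G) ≤ Subgroup.normalizer ((A : Subgroup G) : Set G) ∧ ¬ p ∣ ((S : Subgroup G) ⊓ Subgroup.normalizer ((T : Subgroup G) : Set G)).relIndex (Subgroup.normalizer ((T : Subgroup G) : Set G)) ∧ A ≤ Subgroup.centralizer (((S : Subgroup G) ⊓ Subgroup.normalizer ((T : Subgroup G) : Set G) : Subgroup G)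 : Set G) ∧ ∃ g ∈ Subgroup.normalizer ((T : Subgroup G) : Set G), A.map (MulAut.conj g).toMonoidHom ≤ (S : Subgroup G) ⊓ Subgroup.normalizer ((T : Subgroup G) : Set G) ∧ A.map (MulAut.conj g).toMonoidHom ≠ A := by
  obtain ⟨g, hg1, hg2⟩ : ∃ g : G, A.map (MulAut.conj g).toMonoidHom ≤ (S : Subgroup G) ∧ A.map (MulAut.conj g).toMonoidHom ≠ A := by
    unfold Cfsg.IsWeaklyClosed at hnwc
    push Not at hnwc
    exact hnwc (hAZ.trans inf_le_left)
  have hg3 : rc g⁻¹ (A : Set G) ⊆ (S : Subgroup G) := by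
    rw [rc_subgroup, inv_inv]
    exact hg1
  have hg4 : g⁻¹ ∉ Subgroup.normalizer (A : Set G) := by
    intro h
    apply hg2
    have := Subgroup.inv_mem _ h
    rw [inv_inv] at this
    exact mem_norm.1 this
  obtain ⟨T, hT, hAT, h1, h2⟩ := exists_wp_not_le S hW hWZ hAZ le_rfl hAN hg3 hg4
  obtain ⟨x, hx, hxA⟩ := SetLike.not_le_iff_exists.1 h2
  refine ⟨T, hT, hAT, h1, hT.2 0, ?_, x, hx, ?_, ?_⟩
  · exact (hAZ.trans inf_le_right).trans (Subgroup.centralizer_le (SetLike.coe_subset_coe.2 inf_le_left))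
  · have h3 : A.map (MulAut.conj x).toMonoidHom ≤ T := by
      have h4 := cj_mono (g := x) hAT
      rwa [cj_of_mem_norm hx] at h4
    exact h3.trans (le_inf hT.1 Subgroup.le_normalizer)
  · intro h
    exact hxA (mem_norm.2 h)

end Cfsg.Agent.S1968
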