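import Cfsg.Statements.S1970
import Cfsg.Agent.H6.SecTransfer2

set_option autoImplicit false
universe u
open Cfsg

namespace Cfsg.Agent.S1970

/-- Let p be a prime, G a finite group and W an isomorphism-invariant p-group functor (W assigns to every group Q a subgroup W(Q), nontrivial whenever Q is a nontrivial finite p-group, and every isomorphism from a finite p-group Q onto a group R carries W(Q) onto W(R)). Suppose that for every section G* = K/R of G with C_{G*}(O_p(G*)) ≤ O_p(G*) and every Sylow p-subgroup S* of G*, one has O_p(G*) ∩ (G*)' = O_p(G*) ∩ (N_{G*}(W(S*)))'. Then W controls transfer in every section G* of G: S* ∩ (G*)' = S* ∩ (N_{G*}(W(S*)))' for a Sylow p-subgroup S* of G*. -/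
theorem result {G : Type u} [Group G] [Finite G] {p : ℕ} [Fact p.Prime] (W : ∀ (Q : Type u) [Group Q], Subgroup Q) (hW : Cfsg.IsCharPFunctor.{u} p W) (hloc : ∀ (K R : Subgroup G) [hR : (R.subgroupOf K).Normal], Subgroup.centralizer ((Cfsg.pCore p (↥K ⧸ R.subgroupOf K) : Subgroup (↥K ⧸ R.subgroupOf K)) : Set (↥K ⧸ R.subgroupOf K)) ≤ Cfsg.pCore p (↥K ⧸ R.subgroupOf K) → ∀ T : Sylow p (↥K ⧸ R.subgroupOf K), Cfsg.pCore p (↥K ⧸ R.subgroupOf K) ⊓ commutator (↥K ⧸ R.subgroupOf K) = Cfsg.pCore p (↥K ⧸ R.subgroupOf K) ⊓ ⁅Subgroup.normalizer ((Cfsg.inducedFunctor (G := (↥K ⧸ R.subgroupOf K)) W ((T : Subgroup (↥K ⧸ R.subgroupOf K))) : Subgroup (↥K ⧸ R.subgroupOf K)) : Set (↥K ⧸ R.subgroupOf K)), Subgroup.normalizer ((Cfsg.inducedFunctor (G := (↥K ⧸ R.subgroupOf K)) W ((T : Subgroup (↥K ⧸ R.subgroupOf K))) : Subgroup (↥K ⧸ R.subgroupOf K)) : Set (↥K ⧸ R.subgroupOf K))⁆) : ∀ (K R : Subgroup G) [hR : (R.subgroupOf K).Normal], Cfsg.ControlsTransferIn p (Cfsg.inducedFunctor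 (G := (↥K ⧸ R.subgroupOf K)) W) ⊤ := by
  have key : ∀ (H : Type u) [Group H] [Finite H], H6.Sec H G → FamilyControlsTransferIn p (H6.iw {W} H) ⊤ := by
    refine H6.tr_of_sections' (G := G) (H6.single_h𝓦 hW) ?_
    intro H _ _ hs hc ih
    refine H6.controlsTransfer_of_pCore hW hc ih ?_
    refine H6.sec_hyp (G := G) (P := fun H _ _ => H6.Cons p H → ∀ T : Sylow p H, pCore p H ⊓ commutator H ≤
      ⁅Subgroup.normalizer ((inducedFunctor (G := H) W (T : Subgroup H) : Subgroup H) : Set H),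
        Subgroup.normalizer ((inducedFunctor (G := H) W (T : Subgroup H) : Subgroup H) : Set H)⁆) ?_ ?_ H hs hc
    · intro H K _ _ _ _ e h hK
      exact H6.pCore_hyp_equiv hW e (h (hK.equiv e.symm))
    · intro K R hR hc T
      exact (hloc K R hc T).le.trans inf_le_right
  intro K R hR
  rw [← H6.famTr_single_iff]
  exact key _ (H6.Sec.section K R)

end Cfsg.Agent.S1970
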