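import Cfsg.Statements.S1981
import Cfsg.Agent.H6.KInf

set_option autoImplicit false
open Cfsg

namespace Cfsg.Agent.S1981

/-- Let P be a finite p-group generated by its abelian normal subgroups. Then both K-infinity subgroups of P equal P. -/
theorem result {P : Type*} [Group P] [Finite P] {p : ℕ} [Fact p.Prime] (hP : IsPGroup p P) (hgen : ⨆ A ∈ {A : Subgroup P | A.Normal ∧ IsMulCommutative ↥A}, A = ⊤) : Cfsg.kInfLower P = ⊤ ∧ Cfsg.kInfUpper P = ⊤ := by
  have key : ∀ 𝒦 : Set (Subgroup P), (∀ A : Subgroup P, A.Normal → IsMulCommutative ↥A → A ∈ 𝒦) → sSup 𝒦 = ⊤ := by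
    intro 𝒦 h
    rw [eq_top_iff, ← hgen]
    exact iSup₂_le fun A hA => le_sSup (h A hA.1 hA.2)
  have hE : ∀ n, kSeqEven P n = ⊤ := fun n => key _ fun A hA hc => by
    haveI := hA
    exact (H6.normal_abelian_mem A hc _).2.1
  have hO : ∀ n, kSeqOdd P n = ⊤ := by
    intro n
    cases n with
    | zero => rfl
    | succ n =>
      exact key _ fun A hA hc => by
        haveI := hA
        exact (H6.normal_abelian_mem A hc _).2.2
  constructor
  · rw [eq_top_iff]; exact (hE 0).ge.trans (le_iSup (kSeqEven P) 0)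
  · exact eq_top_iff.2 (le_iInf fun n => (hO n).ge)

end Cfsg.Agent.S1981
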