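import Cfsg.Statements.S1986
import Cfsg.Agent.H6.KWeak

set_option autoImplicit false
universe u
open Cfsg

namespace Cfsg.Agent.S1986

open Cfsg.Agent.H6

/-- Let p be a prime, G a finite group with Sylow p-subgroup S, K the lower K-infinity subgroup of S, and Z the subgroup of p-th powers of elements of Z(S). Then every element of Z commuting with all of N_G(K) is weakly closed in S with respect to G, and every subgroup of Z that is normal in N_G(K) is weakly closed in S with respect to G. -/
theorem result {G : Type u} [Group G] [Finite G] {p : ℕ} [Fact p.Prime] (S : Sylow p G) (Z : Subgroup G) (hZ : Z = Subgroup.closure ((fun z : G => z ^ p) '' (((S : Subgroup G) ⊓ Subgroup.centralizer (((S : Subgroup G) : Subgroup G) : Set G) : Subgroup G) : Set G))) : (∀ x ∈ Z ⊓ Subgroup.centralizer ((Subgroup.normalizer ((Cfsg.inducedFunctor Cfsg.kInfLower (S : Subgroup G) : Subgroup G) : Set G) : Subgroup G) : Set G), ∀ g : G, g * x * g⁻¹ ∈ (S : Subgroup G) → g * x * g⁻¹ = x) ∧ ∀ A : Subgroup G, A ≤ Z → Subgroup.normalizer ((Cfsg.inducedFunctor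 Cfsg.kInfLower (S : Subgroup G) : Subgroup G) : Set G) ≤ Subgroup.normalizer ((A : Subgroup G) : Set G) → Cfsg.IsWeaklyClosed A (S : Subgroup G) := by
  subst hZ
  have hW : IsConjugacyFunctor p (inducedFunctor (G := G) kInfLower) := inducedFunctor_isConj (klike_lower.char) G
  have hWZ : ∀ P : Subgroup G, IsPGroup p ↥P → zc P ≤ inducedFunctor kInfLower P := fun P hP => klike_lower.zc_le' hP
  have hloc : PowLoc p (inducedFunctor (G := G) kInfLower) := by
    intro H T h1 h2 h3 h4
    exact klike_lower.quad_sub ⟨h1, h2, h3⟩ h4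
  constructor
  · intro x hx g hg
    exact powers_fixed S hW hWZ hloc (Subgroup.mem_inf.1 hx).1 (Subgroup.mem_inf.1 hx).2 hg
  · intro A hA hAN
    exact powers_weaklyClosed S hW hWZ hloc hA hAN

end Cfsg.Agent.S1986
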