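import Cfsg.Statements.S2795
import Cfsg.Agent.H2.QdSec
import Mathlib

set_option autoImplicit false
open Cfsg

namespace Cfsg.Agent.S2795

open Cfsg.Agent.H2
open Cfsg.Agent

/-- For an odd prime p and a finite group G, the group Qd(p) is not involved in G if and only if every section of G is p-stable in the normalizer form (for every p-subgroup P of the section and every g in its normalizer acting quadratically on P, the image of g in N(P)/C(P) lies in O_p(N(P)/C(P))). -/
theorem result {G : Type*} [Group G] [Finite G] {p : ℕ} [Fact p.Prime] (hp : p ≠ 2) : ¬ Cfsg.Involves ↥(Cfsg.qd p) G ↔ ∀ (K R : Subgroup G) [hR : (R.subgroupOf K).Normal], Cfsg.IsNormalizerPStable p (K ⧸ R.subgroupOf K) := by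
  constructor
  · intro h K R hR
    by_contra hcon
    apply h
    rw [H6.normalizerPStable_iff] at hcon
    push Not at hcon
    obtain ⟨P, hP, g, hg, hq, hn⟩ := hcon
    have h1 := (nat2_of_not_npw hp hP hg hq hn).sec_qd hp
    have h2 : H6.Sec ↥(Subgroup.normalizer (P : Set (K ⧸ R.subgroupOf K))) (K ⧸ R.subgroupOf K) :=
      ⟨_, MonoidHom.id _, fun x => ⟨x, rfl⟩⟩
    exact (h1.trans (h2.trans (H6.Sec.section K R))).involves
  · rintro h ⟨K, R, hR, ⟨e⟩⟩
    exact qd_not_pstable hp (H6.IsNormalizerPStable.equiv' e (h K R))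

end Cfsg.Agent.S2795
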