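import Cfsg.Statements.S1990
import Cfsg.Agent.H6.XStable

set_option autoImplicit false
universe u
open Cfsg

namespace Cfsg.Agent.S1990

theorem normal_of_control {p : ℕ} [Fact p.Prime] {W : ∀ (Q : Type u) [Group Q], Subgroup Q} (hW : IsCharPFunctor.{u} p W)
    {H : Type u} [Group H] [Finite H] (hc : H6.Cons p H) (S : Sylow p H)
    (h : ControlsStrongFusion p (inducedFunctor (G := H) W (S : Subgroup H))) :
    (inducedFunctor (G := H) W (S : Subgroup H)).Normal := by
  have hWc := H6.inducedFunctor_isConj hW H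
  set U := inducedFunctor (G := H) W (S : Subgroup H) with hU
  have hSU : (S : Subgroup H) ≤ Subgroup.normalizer ((U : Subgroup H) : Set H) := H6.cf_self_norm hWc S.2
  obtain ⟨T, -, hT⟩ := h
  have hAT : pCore p H ≤ (T : Subgroup H) := L0.pCore_le_sylow T
  have hAS : pCore p H ≤ (S : Subgroup H) := L0.pCore_le_sylow S
  apply H6.normal_of_norm
  intro g _
  obtain ⟨x, hx, hxa⟩ := (hT (pCore p H : Set H) hAT).2 g (by
    rintro _ ⟨a, ha, rfl⟩
    exact hAT ((inferInstance : (pCore p H).Normal).conj_mem a ha g))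
  have h1 : x⁻¹ * g ∈ Subgroup.centralizer ((pCore p H : Subgroup H) : Set H) := by
    rw [Subgroup.mem_centralizer_iff]
    intro a ha
    have := hxa a ha
    calc a * (x⁻¹ * g) = x⁻¹ * (x * a * x⁻¹) * g := by group
      _ = x⁻¹ * (g * a * g⁻¹) * g := by rw [this]
      _ = x⁻¹ * g * a := by group
  have h2 : x⁻¹ * g ∈ Subgroup.normalizer ((U : Subgroup H) : Set H) := hSU (hAS (hc h1))
  have := Subgroup.mul_mem _ hx h2
  rwa [mul_inv_cancel_left] at this

/-- Let p be an odd prime, G a finite group with Sylow p-subgroup S, and W an isomorphism-invariant p-group functor (W assigns to every group Q a subgroup W(Q), nontrivial whenever Q is a nontrivial finite p-group, and every isomorphism from a finite p-group Q onto a group R carries W(Q) onto W(R)). Suppose N_G(W(S)) has a normal p-complement, and W(T) controls strong fusion in every section G* = K/R of G all of whose sections are p-stable in the normalizer form, for every Sylow p-subgroup T of G*. Then G has a normal p-complement. -/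
theorem result {G : Type u} [Group G] [Finite G] {p : ℕ} [Fact p.Prime] (hp : p ≠ 2) (W : ∀ (Q : Type u) [Group Q], Subgroup Q) (hW : Cfsg.IsCharPFunctor.{u} p W) (S : Sylow p G) (hN : Cfsg.HasNormalPComplement p ↥(Subgroup.normalizer ((Cfsg.inducedFunctor (G := G) W (S : Subgroup G) : Subgroup G) : Set G))) (hctl : ∀ (K R : Subgroup G) [hR : (R.subgroupOf K).Normal], (∀ (K' R' : Subgroup (↥K ⧸ R.subgroupOf K)) [hR' : (R'.subgroupOf K').Normal], Cfsg.IsNormalizerPStable p (↥K' ⧸ R'.subgroupOf K')) → ∀ T : Sylow p (↥K ⧸ R.subgroupOf K), Cfsg.ControlsStrongFusion p (Cfsg.inducedFunctor (G := (↥K ⧸ R.subgroupOf K)) W (T : Subgroup (↥K ⧸ R.subgroupOf K)))) : Cfsg.HasNormalPComplement p G := by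
  rw [H6.npc_iff]
  rw [H6.npc_iff'] at hN
  refine H6.thompson_functor hW (G := G) ?_ _ G rfl (H6.Sec.refl G) S hN
  intro H _ _ hs hc hq T hT
  have hx := H6.xx_of_coatom hq T hT
  refine H6.sec_hyp (G := G) (P := fun H _ _ => H6.Cons p H → H6.XX p (⊤ : Subgroup H) →
      ∀ S : Sylow p H, (inducedFunctor (G := H) W (S : Subgroup H)).Normal) ?_ ?_ H hs hc hx T
  · intro H K _ _ _ _ e h hK hx T
    exact H6.normal_inducedFunctor_sylow_equiv hW e T (h (hK.equiv e.symm) (hx.equiv e.symm) (H6.sylowSymm e T))
  · intro K R hR hc hx T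
    refine normal_of_control hW hc T (hctl K R ?_ T)
    intro K' R' hR'
    exact H6.xstable (H6.xx_sections hx K' R') hp

end Cfsg.Agent.S1990
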