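import Cfsg.Statements.S2004
import Cfsg.Agent.H2.QdSec
import Mathlib

set_option autoImplicit false
open Cfsg

namespace Cfsg.Agent.S2004

open Cfsg.Agent.H2
open Cfsg.Agent
universe u'
/-- lifting normalizers through a surjection -/
theorem exists_lift {K Q : Type*} [Group K] [Group Q] [Finite K] {p : ℕ} [Fact p.Prime] (f : K →* Q)
    (hf : Function.Surjective f) (P : Subgroup Q) (hP : IsPGroup p P) :
    ∃ P0 : Subgroup K, IsPGroup p P0 ∧ P0.map f = P ∧
      ∀ n ∈ Subgroup.normalizer (P : Set Q), ∃ k ∈ Subgroup.normalizer (P0 : Set K), f k = n := by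
  classical
  haveI : Finite Q := Finite.of_surjective f hf
  obtain ⟨P0, hP0⟩ := H6.exists_sylIn (p := p) (P.comap f)
  have hmap : P0.map f = P := by
    have hle : P0.map f ≤ P := by
      rw [Subgroup.map_le_iff_le_comap]; exact hP0.le
    have h1 : (P0.map f).relIndex P ∣ P0.relIndex (P.comap f) := by
      have h2 : (P0.map f).relIndex ((P.comap f).map f) ∣ P0.relIndex (P.comap f) := by
        rw [Subgroup.relIndex_map_map, sup_eq_left.mpr (Subgroup.ker_le_comap f P)]
        exact Subgroup.relIndex_dvd_of_le_left _ le_sup_left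
      rwa [Subgroup.map_comap_eq_self_of_surjective hf] at h2
    obtain ⟨k, hk⟩ := IsPGroup.iff_card.mp hP
    have h3 : (P0.map f).relIndex P ∣ p ^ k := hk ▸ Subgroup.relIndex_dvd_card _ _
    obtain ⟨j, -, hj⟩ := (Nat.dvd_prime_pow (Fact.out : p.Prime)).mp h3
    have h4 : j = 0 := by
      by_contra hj0
      apply hP0.2.2
      exact (dvd_pow_self p hj0).trans (hj ▸ h1)
    rw [h4, pow_zero, Subgroup.relIndex_eq_one] at hj
    exact le_antisymm hle hj
  refine ⟨P0, hP0.isPGroup, hmap, ?_⟩
  intro n hn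
  obtain ⟨k, rfl⟩ := hf n
  have hcT : H6.cj k (P.comap f) = P.comap f := by
    apply H6.cj_of_mem_norm
    rw [Subgroup.mem_normalizer_iff] at hn ⊢
    intro x
    rw [Subgroup.mem_comap, Subgroup.mem_comap]
    have := hn (f x)
    rw [map_mul, map_mul, map_inv]
    exact this
  have h5 : H6.SylIn p (H6.cj k P0) (P.comap f) := by
    have := hP0.cj k
    rwa [hcT] at this
  obtain ⟨t, ht, hte⟩ := hP0.conj h5
  have h6 : t⁻¹ * k ∈ Subgroup.normalizer (P0 : Set K) := by
    have : H6.cj (t⁻¹ * k) P0 = P0 := by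
      rw [H6.cj_mul, ← hte]; simp
    exact H6.mem_norm.2 this
  rw [Subgroup.mem_comap, ← hmap] at ht
  obtain ⟨x, hx, hxt⟩ := ht
  refine ⟨x * (t⁻¹ * k), Subgroup.mul_mem _ (Subgroup.le_normalizer hx) h6, ?_⟩
  rw [map_mul, map_mul, map_inv, hxt]; group


/-- Let p be an odd prime and G a finite group such that SL₂(p) is not involved in N_G(P) for any nonidentity p-subgroup P of G. Then every section of G is p-stable in the normalizer form: in each section, whenever an element of the normalizer of a p-subgroup Q acts quadratically on Q, its image in N(Q)/C(Q) lies in O_p(N(Q)/C(Q)). -/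
theorem result {G : Type*} [Group G] [Finite G] {p : ℕ} [Fact p.Prime] (hp : p ≠ 2) (h : ∀ P : Subgroup G, IsPGroup p ↥P → P ≠ ⊥ → ¬ Cfsg.Involves (Matrix.SpecialLinearGroup (Fin 2) (ZMod p)) ↥(Subgroup.normalizer ((P : Subgroup G) : Set G))) : ∀ (K R : Subgroup G) [hR : (R.subgroupOf K).Normal], Cfsg.IsNormalizerPStable p (↥K ⧸ R.subgroupOf K) := by
  intro K R hR
  by_contra hcon
  rw [H6.normalizerPStable_iff] at hcon
  push Not at hcon
  obtain ⟨P, hP, g, hg, hq, hn⟩ := hcon
  have h1 := (nat2_of_not_npw hp hP hg hq hn).sec_sl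
  have hP1 : P ≠ ⊥ := by
    rintro rfl
    apply hn
    refine ⟨⊤, le_top, ?_, ?_, ?_, trivial⟩
    · intro x _
      rw [Subgroup.mem_normalizer_iff]
      intro y; simp [Subgroup.mem_bot, mul_inv_eq_one]
    · intro x _
      rw [Subgroup.mem_normalizer_iff]
      intro y; simp
    · intro d _
      refine ⟨0, ?_⟩
      rw [Subgroup.mem_centralizer_iff]
      intro x hx
      rw [SetLike.mem_coe, Subgroup.mem_bot] at hx
      rw [hx]; simp
  obtain ⟨P0, hP0, hmap, hlift⟩ := exists_lift (QuotientGroup.mk' (R.subgroupOf K)) (QuotientGroup.mk'_surjective _) P hP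
  have hP01 : P0 ≠ ⊥ := by
    rintro rfl
    rw [Subgroup.map_bot] at hmap
    exact hP1 hmap.symm
  have h2 : H6.Sec ↥(Subgroup.normalizer (P : Set (K ⧸ R.subgroupOf K))) ↥(Subgroup.normalizer ((P0.map K.subtype : Subgroup G) : Set G)) := by
    have hle : ∀ k : ↥(Subgroup.normalizer (P0 : Set K)), (K.subtype k) ∈ Subgroup.normalizer ((P0.map K.subtype : Subgroup G) : Set G) := by
      intro k
      rw [Subgroup.mem_normalizer_iff]
      have hk := Subgroup.mem_normalizer_iff.mp k.2
      intro y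
      constructor
      · rintro ⟨x, hx, rfl⟩
        exact ⟨_, (hk x).mp hx, by simp⟩
      · rintro ⟨x, hx, hxy⟩
        refine ⟨(k : K)⁻¹ * x * k, ?_, ?_⟩
        · apply (hk _).mpr
          have : (k : K) * ((k : K)⁻¹ * x * k) * (k : K)⁻¹ = x := by group
          rwa [this]
        · rw [map_mul, map_mul, hxy, map_inv]; group
    let i : ↥(Subgroup.normalizer (P0 : Set K)) →* ↥(Subgroup.normalizer ((P0.map K.subtype : Subgroup G) : Set G)) :=
      (K.subtype.comp (Subgroup.subtype _)).codRestrict _ hle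
    have hi : Function.Injective i := by
      intro a b hab
      apply Subtype.ext
      apply Subtype.ext
      exact congrArg (fun z : ↥(Subgroup.normalizer ((P0.map K.subtype : Subgroup G) : Set G)) => (z : G)) hab
    have hs0 : ∀ k : ↥(Subgroup.normalizer (P0 : Set K)), QuotientGroup.mk' (R.subgroupOf K) k ∈ Subgroup.normalizer (P : Set (K ⧸ R.subgroupOf K)) := by
      intro k
      rw [Subgroup.mem_normalizer_iff, ← hmap]
      have hk := Subgroup.mem_normalizer_iff.mp k.2
      intro y
      constructor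
      · rintro ⟨x, hx, rfl⟩
        exact ⟨_, (hk x).mp hx, by simp⟩
      · rintro ⟨x, hx, hxy⟩
        refine ⟨(k : K)⁻¹ * x * k, ?_, ?_⟩
        · apply (hk _).mpr
          have : (k : K) * ((k : K)⁻¹ * x * k) * (k : K)⁻¹ = x := by group
          rwa [this]
        · rw [map_mul, map_mul, hxy, map_inv]; group
    let s : ↥(Subgroup.normalizer (P0 : Set K)) →* ↥(Subgroup.normalizer (P : Set (K ⧸ R.subgroupOf K))) :=
      ((QuotientGroup.mk' (R.subgroupOf K)).comp (Subgroup.subtype _)).codRestrict _ hs0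
    apply sec_of_hom i hi s
    rintro ⟨n, hn⟩
    obtain ⟨k, hk, hkn⟩ := hlift n hn
    exact ⟨⟨k, hk⟩, Subtype.ext hkn⟩
  refine h (P0.map K.subtype) (hP0.map _) ?_ (h1.trans h2).involves
  intro h0
  exact hP01 ((Subgroup.map_eq_bot_iff_of_injective _ (Subgroup.subtype_injective K)).mp h0)

end Cfsg.Agent.S2004
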