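import Cfsg.Statements.S2005
import Cfsg.Agent.H6.PNil3

set_option autoImplicit false
universe u
open Cfsg

namespace Cfsg.Agent.S2005

/-- Thompson's normal p-complement criterion in functor form. Let p be a prime, G a finite group with Sylow p-subgroup S, and W an isomorphism-invariant p-group functor (W assigns to every group Q a subgroup W(Q), nontrivial whenever Q is a nontrivial finite p-group, and every isomorphism from a finite p-group Q onto a group R carries W(Q) onto W(R)). Suppose N_G(W(S)) has a normal p-complement, and that W(S*) is normal in G* whenever G* = K/R is a section of G with C_{G*}(O_p(G*)) ≤ O_p(G*) such that G*/O_p(G*) has a normal p-complement, and S* is a Sylow p-subgroup of G* that is a maximal subgroup of G*. Then G has a normal p-complement. -/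
theorem result {G : Type u} [Group G] [Finite G] {p : ℕ} [Fact p.Prime] (W : ∀ (Q : Type u) [Group Q], Subgroup Q) (hW : Cfsg.IsCharPFunctor.{u} p W) (S : Sylow p G) (hN : Cfsg.HasNormalPComplement p ↥(Subgroup.normalizer ((Cfsg.inducedFunctor (G := G) W (S : Subgroup G) : Subgroup G) : Set G))) (hloc : ∀ (K R : Subgroup G) [hR : (R.subgroupOf K).Normal], Subgroup.centralizer ((Cfsg.pCore p (↥K ⧸ R.subgroupOf K) : Subgroup (↥K ⧸ R.subgroupOf K)) : Set (↥K ⧸ R.subgroupOf K)) ≤ Cfsg.pCore p (↥K ⧸ R.subgroupOf K) → Cfsg.HasNormalPComplement p ((↥K ⧸ R.subgroupOf K) ⧸ Cfsg.pCore p (↥K ⧸ R.subgroupOf K)) → ∀ T : Sylow p (↥K ⧸ R.subgroupOf K), IsCoatom (T : Subgroup (↥K ⧸ R.subgroupOf K)) → (Cfsg.inducedFunctor (G := (↥K ⧸ R.subgroupOf K)) W ((T : Subgroup (↥K ⧸ R.subgroupOf K)))).Normal) : Cfsg.HasNormalPComplement p G := by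
  rw [H6.npc_iff]
  rw [H6.npc_iff'] at hN
  refine H6.thompson_functor hW (G := G) ?_ _ G rfl (H6.Sec.refl G) S hN
  intro H _ _ hs hc hq T hT
  refine H6.sec_hyp (G := G) (P := fun H _ _ => H6.Cons p H → H6.PN p (⊤ : Subgroup (H ⧸ pCore p H)) →
      ∀ S : Sylow p H, IsCoatom (S : Subgroup H) → (inducedFunctor (G := H) W (S : Subgroup H)).Normal) ?_ ?_ H hs hc hq T hT
  · intro H K _ _ _ _ e h hK hq T hT
    have hT' := h (hK.equiv e.symm) (H6.pn_quot_equiv e.symm hq) (H6.sylowSymm e T) (H6.isCoatom_sylowSymm e hT)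
    exact H6.normal_inducedFunctor_sylow_equiv hW e T hT'
  · intro K R hR hc hq T hT
    exact hloc K R hc (H6.npc_iff.2 hq) T hT

end Cfsg.Agent.S2005
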