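import Cfsg.Statements.S2301
import Mathlib
import Cfsg.Agent.H8.SL2d

set_option autoImplicit false
open Cfsg

namespace Cfsg.Agent.S2301

open Cfsg.Agent.H8.SL2

/-- Over a finite field with q elements of odd characteristic p, the elements of order p of SL₂ (the non-identity unipotent elements) fall into exactly two conjugacy classes, each of size (q² − 1)/2; two upper unitriangular matrices with non-zero off-diagonal entries b and b′ are conjugate exactly when bb′ is a square. -/
theorem result {F : Type*} [Field F] [Fintype F] (p : ℕ) [Fact p.Prime] [CharP F p] (hp : p ≠ 2) :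
    Nat.card {C : ConjClasses (Matrix.SpecialLinearGroup (Fin 2) F) // ∃ g : Matrix.SpecialLinearGroup (Fin 2) F, orderOf g = p ∧ ConjClasses.mk g = C} = 2 ∧
    (∀ g : Matrix.SpecialLinearGroup (Fin 2) F, orderOf g = p → Nat.card (ConjClasses.mk g).carrier = (Fintype.card F ^ 2 - 1) / 2) ∧
    ∀ g h : Matrix.SpecialLinearGroup (Fin 2) F, (g : Matrix (Fin 2) (Fin 2) F) 0 0 = 1 → (g : Matrix (Fin 2) (Fin 2) F) 1 1 = 1 → (g : Matrix (Fin 2) (Fin 2) F) 1 0 = 0 → (g : Matrix (Fin 2) (Fin 2) F) 0 1 ≠ 0 →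
      (h : Matrix (Fin 2) (Fin 2) F) 0 0 = 1 → (h : Matrix (Fin 2) (Fin 2) F) 1 1 = 1 → (h : Matrix (Fin 2) (Fin 2) F) 1 0 = 0 → (h : Matrix (Fin 2) (Fin 2) F) 0 1 ≠ 0 →
      (IsConj g h ↔ IsSquare ((g : Matrix (Fin 2) (Fin 2) F) 0 1 * (h : Matrix (Fin 2) (Fin 2) F) 0 1)) := by
  classical
  have h2 : ringChar F ≠ 2 := by
    rw [ringChar.eq F p]; exact hp
  obtain ⟨ν, hν0, hν, hcl, hne⟩ := class_trace_two (F := F) h2
  refine ⟨?_, ?_, ?_⟩
  · have e : {C : ConjClasses (Matrix.SpecialLinearGroup (Fin 2) F) // ∃ g : Matrix.SpecialLinearGroup (Fin 2) F, orderOf g = p ∧ ConjClasses.mk g = C} ≃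
        ({ConjClasses.mk (u 1), ConjClasses.mk (u ν)} : Finset (ConjClasses (Matrix.SpecialLinearGroup (Fin 2) F))) := by
      refine Equiv.subtypeEquivRight ?_
      intro C
      rw [Finset.mem_insert, Finset.mem_singleton]
      constructor
      · rintro ⟨g, hg, rfl⟩
        obtain ⟨h3, h4⟩ := (order_p_iff p g).1 hg
        rw [ConjClasses.mk_eq_mk_iff_isConj, ConjClasses.mk_eq_mk_iff_isConj]
        rcases hcl g h4 with h | h | h
        · exact absurd h h3
        · left; exact h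
        · right; exact h
      · rintro (h | h)
        · exact ⟨u 1, (order_p_iff p _).2 ⟨u_ne_one one_ne_zero, u_trace _⟩, h.symm⟩
        · exact ⟨u ν, (order_p_iff p _).2 ⟨u_ne_one hν0, u_trace _⟩, h.symm⟩
    rw [Nat.card_congr e, Nat.card_eq_fintype_card, Fintype.card_coe, Finset.card_pair]
    rw [Ne, ConjClasses.mk_eq_mk_iff_isConj]; exact hne
  · intro g hg
    obtain ⟨h3, h4⟩ := (order_p_iff p g).1 hg
    have hgn := ns_of_trace_two g h3 h4
    have h5 := class_card_mul g
    rw [card_cent_unip g hgn (Or.inl h4), if_neg h2, card_SL2] at h5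
    rw [← Nat.card_eq_fintype_card]
    have h6 : Nat.card F * (Nat.card (ConjClasses.mk g).carrier * 2) = Nat.card F * (Nat.card F ^ 2 - 1) := by rw [← h5]; ring
    have h7 := Nat.eq_of_mul_eq_mul_left Nat.card_pos h6
    omega
  · intro g h hg1 hg2 hg3 hg4 hh1 hh2 hh3 hh4
    have key : ∀ g : Matrix.SpecialLinearGroup (Fin 2) F, (g : Matrix (Fin 2) (Fin 2) F) 0 0 = 1 → (g : Matrix (Fin 2) (Fin 2) F) 1 1 = 1 → (g : Matrix (Fin 2) (Fin 2) F) 1 0 = 0 →
        g = u ((g : Matrix (Fin 2) (Fin 2) F) 0 1) := by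
      intro g h1 h2 h3
      apply Subtype.ext
      rw [u_val]
      ext i j
      fin_cases i <;> fin_cases j
      · exact h1
      · rfl
      · exact h3
      · exact h2
    rw [key g hg1 hg2 hg3, key h hh1 hh2 hh3]
    exact u_conj_iff _ _ hg4 hh4

end Cfsg.Agent.S2301
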