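import Cfsg.Statements.S2302
import Mathlib
import Cfsg.Agent.H8.SL2d

set_option autoImplicit false
open Cfsg

namespace Cfsg.Agent.S2302

open Cfsg.Agent.H8.SL2

/-- Over a finite field with q elements of characteristic 2, the involutions of SL₂ (the non-identity unipotent elements) form a single conjugacy class, of size q² − 1. -/
theorem result {F : Type*} [Field F] [Fintype F] [CharP F 2] (g h : Matrix.SpecialLinearGroup (Fin 2) F) (hg : orderOf g = 2) (hh : orderOf h = 2) :
    IsConj g h ∧ Nat.card (ConjClasses.mk g).carrier = Fintype.card F ^ 2 - 1 := by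
  haveI : Fact (Nat.Prime 2) := ⟨Nat.prime_two⟩
  have h2 : ringChar F = 2 := ringChar.eq F 2
  obtain ⟨hg1, hg2⟩ := (order_p_iff 2 g).1 hg
  obtain ⟨hh1, hh2⟩ := (order_p_iff 2 h).1 hh
  have hgn := ns_of_trace_two g hg1 hg2
  have hhn := ns_of_trace_two h hh1 hh2
  refine ⟨sl_conj g h hgn hhn (by rw [hg2, hh2]) (Or.inr h2), ?_⟩
  have h3 := class_card_mul g
  rw [card_cent_unip g hgn (Or.inl hg2), if_pos h2, card_SL2, one_mul, mul_comm] at h3
  rw [← Nat.card_eq_fintype_card]
  exact Nat.eq_of_mul_eq_mul_left Nat.card_pos h3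

end Cfsg.Agent.S2302
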