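import Cfsg.Statements.S2303
import Mathlib
import Cfsg.Agent.H8.SL2e

set_option autoImplicit false
open Cfsg

namespace Cfsg.Agent.S2303

open Cfsg.Agent.H8.SL2 Polynomial

/-- Over a finite field with q elements: a diagonal element of GL₂ with two distinct diagonal entries has centralizer of order (q − 1)² (so q(q + 1) conjugates), and an element of GL₂ with no eigenvector in F² has centralizer of order q² − 1 (so q(q − 1) conjugates). -/
theorem result {F : Type*} [Field F] [Fintype F] (g : Matrix.GeneralLinearGroup (Fin 2) F) :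
    ((g : Matrix (Fin 2) (Fin 2) F) 0 1 = 0 → (g : Matrix (Fin 2) (Fin 2) F) 1 0 = 0 → (g : Matrix (Fin 2) (Fin 2) F) 0 0 ≠ (g : Matrix (Fin 2) (Fin 2) F) 1 1 →
      Nat.card (Subgroup.centralizer ({g} : Set (Matrix.GeneralLinearGroup (Fin 2) F))) = (Fintype.card F - 1) ^ 2) ∧
    ((∀ (c : F) (v : Fin 2 → F), v ≠ 0 → (g : Matrix (Fin 2) (Fin 2) F).mulVec v ≠ c • v) →
      Nat.card (Subgroup.centralizer ({g} : Set (Matrix.GeneralLinearGroup (Fin 2) F))) = Fintype.card F ^ 2 - 1) := by
  classical
  have hq1 : 1 < Fintype.card F := Fintype.one_lt_card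
  set A := (g : Matrix (Fin 2) (Fin 2) F) with hA
  constructor
  · intro h01 h10 hne
    have hns : NS A := Or.inr (Or.inr hne)
    have e : Subgroup.centralizer ({g} : Set (Matrix.GeneralLinearGroup (Fin 2) F)) ≃ Fˣ × Fˣ := by
      have hdiag : ∀ M : Matrix.GeneralLinearGroup (Fin 2) F, M ∈ Subgroup.centralizer ({g} : Set (Matrix.GeneralLinearGroup (Fin 2) F)) → (M : Matrix (Fin 2) (Fin 2) F) 0 1 = 0 ∧ (M : Matrix (Fin 2) (Fin 2) F) 1 0 = 0 := by
        intro M hM
        rw [Subgroup.mem_centralizer_singleton_iff] at hM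
        obtain ⟨x, y, hxy⟩ := commutant A M hns (congrArg Units.val hM)
        rw [hxy]
        simp [h01, h10]
      have hnz : ∀ M : Matrix.GeneralLinearGroup (Fin 2) F, M ∈ Subgroup.centralizer ({g} : Set (Matrix.GeneralLinearGroup (Fin 2) F)) → (M : Matrix (Fin 2) (Fin 2) F) 0 0 ≠ 0 ∧ (M : Matrix (Fin 2) (Fin 2) F) 1 1 ≠ 0 := by
        intro M hM
        have h1 := (Matrix.isUnit_iff_isUnit_det _).1 M.isUnit
        rw [Matrix.det_fin_two, (hdiag M hM).1, zero_mul, sub_zero, isUnit_iff_ne_zero] at h1
        exact mul_ne_zero_iff.1 h1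
      let ψ : Fˣ × Fˣ → Matrix.GeneralLinearGroup (Fin 2) F := fun z => Matrix.GeneralLinearGroup.mkOfDetNeZero !![(z.1 : F), 0; 0, (z.2 : F)] (by
        rw [Matrix.det_fin_two_of]; simp)
      have hψ : ∀ z, ψ z ∈ Subgroup.centralizer ({g} : Set (Matrix.GeneralLinearGroup (Fin 2) F)) := by
        intro z
        rw [Subgroup.mem_centralizer_singleton_iff]
        apply Units.ext
        show !![(z.1 : F), 0; 0, (z.2 : F)] * A = A * !![(z.1 : F), 0; 0, (z.2 : F)]
        ext i j
        fin_cases i <;> fin_cases j <;> simp [Matrix.mul_apply, Fin.sum_univ_two, h01, h10, mul_comm]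
      exact
        { toFun := fun M => (Units.mk0 _ (hnz M.1 M.2).1, Units.mk0 _ (hnz M.1 M.2).2)
          invFun := fun z => ⟨ψ z, hψ z⟩
          left_inv := by
            intro M
            apply Subtype.ext
            apply Units.ext
            show !![(M.1 : Matrix (Fin 2) (Fin 2) F) 0 0, 0; 0, (M.1 : Matrix (Fin 2) (Fin 2) F) 1 1] = (M.1 : Matrix (Fin 2) (Fin 2) F)
            have := hdiag M.1 M.2
            ext i j
            fin_cases i <;> fin_cases j <;> simp [this.1, this.2]
          right_inv := by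
            intro z
            apply Prod.ext
            · apply Units.ext; rfl
            · apply Units.ext; rfl }
    rw [Nat.card_congr e, Nat.card_prod, Nat.card_eq_fintype_card, Fintype.card_units, sq]
  · intro h
    have hirr : ∀ c : F, c ^ 2 - A.trace * c + A.det ≠ 0 := by
      intro c hc
      have h0 : (A - c • (1 : Matrix (Fin 2) (Fin 2) F)).det = 0 := by
        rw [← hc]
        simp only [Matrix.det_fin_two, Matrix.sub_apply, Matrix.smul_apply, Matrix.one_apply, smul_eq_mul, Matrix.trace_fin_two]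
        simp
        ring
      obtain ⟨v, hv, hv2⟩ := Matrix.exists_mulVec_eq_zero_iff.2 h0
      apply h c v hv
      rw [Matrix.sub_mulVec, Matrix.smul_mulVec, Matrix.one_mulVec, sub_eq_zero] at hv2
      exact hv2
    set μ : F[X] := X ^ 2 - C A.trace * X + C A.det with hμ
    have hd : μ.natDegree = 2 := by rw [hμ]; compute_degree!
    have hμi : Irreducible μ := by
      apply Polynomial.irreducible_of_degree_le_three_of_not_isRoot
      · rw [hd]; decide
      · intro c hc
        apply hirr c
        simpa [IsRoot.def, hμ] using hc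
    have haev : aeval A μ = 0 := by
      rw [hμ, map_add, map_sub, map_pow, map_mul, aeval_X, aeval_C, aeval_C, Matrix.algebraMap_eq_diagonal, Matrix.algebraMap_eq_diagonal]
      ext i j
      fin_cases i <;> fin_cases j <;>
        simp [sq, Matrix.mul_apply, Fin.sum_univ_two, Matrix.trace_fin_two, Matrix.diagonal_apply, Matrix.det_fin_two] <;> ring
    obtain ⟨e⟩ := Cfsg.Agent.H8.irr_centralizer (n := 2) (by norm_num) g μ hμi hd haev
    rw [← Nat.card_congr e.toEquiv, Cfsg.Agent.H8.card_adjoinRoot μ hμi, hd, Nat.card_eq_fintype_card]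

end Cfsg.Agent.S2303
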