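import Cfsg.Statements.S2304
import Mathlib
import Cfsg.Agent.H8.PS2

set_option autoImplicit false
open Cfsg

namespace Cfsg.Agent.S2304

open Cfsg.Agent.H8.PS

/-- Over a finite field F with q elements, for multiplicative characters α ≠ β of F, the function induced to GL₂ from the linear character b ↦ α(b₁₁) β(b₂₂) of the upper triangular subgroup B is an irreducible character (of degree q + 1). -/
theorem result {F : Type*} [Field F] [Fintype F] [DecidableEq F] (α β : MulChar F ℂ) (hαβ : α ≠ β) :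
    Cfsg.IsIrrCharacter (Matrix.GeneralLinearGroup (Fin 2) F) (Cfsg.indFun (Cfsg.upperTriangularGL 2 F) (fun b => α (((b : Matrix.GeneralLinearGroup (Fin 2) F) : Matrix (Fin 2) (Fin 2) F) 0 0) * β (((b : Matrix.GeneralLinearGroup (Fin 2) F) : Matrix (Fin 2) (Fin 2) F) 1 1))) := by
  have h := inner_gl α β α β
  rw [if_pos ⟨rfl, rfl⟩, if_neg (fun h => hαβ h.1), add_zero] at h
  rw [Cfsg.Agent.H5.isIrrCharacter_iff_inner]
  refine ⟨?_, h⟩
  exact Cfsg.Agent.H4.IsChar.induce _ _ (Cfsg.Agent.H4.IsIrr.isCharacter (Cfsg.Agent.H4.isIrr_hom (lam α β)))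

end Cfsg.Agent.S2304
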