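import Cfsg.Statements.S2305
import Mathlib
import Cfsg.Agent.H8.PS2

set_option autoImplicit false
open Cfsg

namespace Cfsg.Agent.S2305

open Cfsg.Agent.H8.PS

/-- Over a finite field F, for multiplicative characters α, β, α′, β′ of F, the characters of GL₂ induced from the linear characters b ↦ α(b₁₁) β(b₂₂) and b ↦ α′(b₁₁) β′(b₂₂) of the upper triangular subgroup coincide exactly when {α, β} = {α′, β′} as unordered pairs. -/
theorem result {F : Type*} [Field F] [Fintype F] [DecidableEq F] (α β α' β' : MulChar F ℂ) :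
    Cfsg.indFun (Cfsg.upperTriangularGL 2 F) (fun b => α (((b : Matrix.GeneralLinearGroup (Fin 2) F) : Matrix (Fin 2) (Fin 2) F) 0 0) * β (((b : Matrix.GeneralLinearGroup (Fin 2) F) : Matrix (Fin 2) (Fin 2) F) 1 1)) = Cfsg.indFun (Cfsg.upperTriangularGL 2 F) (fun b => α' (((b : Matrix.GeneralLinearGroup (Fin 2) F) : Matrix (Fin 2) (Fin 2) F) 0 0) * β' (((b : Matrix.GeneralLinearGroup (Fin 2) F) : Matrix (Fin 2) (Fin 2) F) 1 1)) ↔
      (α = α' ∧ β = β') ∨ (α = β' ∧ β = α') := by
  classical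
  have e : ∀ α β : MulChar F ℂ, (fun b : Cfsg.upperTriangularGL 2 F => α (((b : Matrix.GeneralLinearGroup (Fin 2) F) : Matrix (Fin 2) (Fin 2) F) 0 0) * β (((b : Matrix.GeneralLinearGroup (Fin 2) F) : Matrix (Fin 2) (Fin 2) F) 1 1)) = (fun b => (lam α β b : ℂ)) := fun α β => rfl
  rw [e, e]
  have h12 := inner_gl α β α' β'
  have h11 := inner_gl α β α β
  have h22 := inner_gl α' β' α' β'
  have h21 := inner_gl α' β' α β
  constructor
  · intro heq
    rw [← heq, h11, if_pos ⟨rfl, rfl⟩] at h12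
    by_contra hne
    push Not at hne
    rw [if_neg (fun hh : α = α' ∧ β = β' => (hne.1 hh.1) hh.2), if_neg (fun hh : α = β' ∧ β = α' => (hne.2 hh.1) hh.2)] at h12
    by_cases hc : α = β ∧ β = α
    · rw [if_pos hc] at h12; norm_num at h12
    · rw [if_neg hc] at h12; norm_num at h12
  · rintro (⟨rfl, rfl⟩ | ⟨rfl, rfl⟩)
    · rfl
    · by_cases hab : α = β
      · subst hab; rfl
      · rw [if_pos ⟨rfl, rfl⟩, if_neg (fun h => hab h.1)] at h11
        rw [if_pos ⟨rfl, rfl⟩, if_neg (fun h => hab h.2)] at h22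
        rw [if_neg (fun h => hab h.1), if_pos ⟨rfl, rfl⟩] at h12
        rw [if_neg (fun h => hab h.2), if_pos ⟨rfl, rfl⟩] at h21
        rw [← sub_eq_zero]
        apply Cfsg.Agent.H5.classInner_self_eq_zero
        rw [Cfsg.Agent.H5.classInner_sub_left, Cfsg.Agent.H5.classInner_sub_right, Cfsg.Agent.H5.classInner_sub_right,
          h11, h12, h21, h22]
        norm_num

end Cfsg.Agent.S2305
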