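import Cfsg.Statements.S2306
import Mathlib
import Cfsg.Agent.H8.PS2

set_option autoImplicit false
open Cfsg

namespace Cfsg.Agent.S2306

open Cfsg.Agent.H8.PS

/-- Over a finite field F, for a multiplicative character α of F, the function induced to SL₂ from the linear character b ↦ α(b₁₁) of the upper triangular subgroup is an irreducible character if and only if α² ≠ 1. -/
theorem result {F : Type*} [Field F] [Fintype F] [DecidableEq F] (α : MulChar F ℂ) :
    Cfsg.IsIrrCharacter (Matrix.SpecialLinearGroup (Fin 2) F) (Cfsg.indFun ((Cfsg.upperTriangularGL 2 F).comap Matrix.SpecialLinearGroup.toGL) (fun b => α (((b : Matrix.SpecialLinearGroup (Fin 2) F) : Matrix (Fin 2) (Fin 2) F) 0 0))) ↔ α ^ 2 ≠ 1 := by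
  classical
  have h := inner_sl α α
  rw [if_pos rfl] at h
  rw [Cfsg.Agent.H5.isIrrCharacter_iff_inner]
  have h2 : α = α⁻¹ ↔ α ^ 2 = 1 := by
    rw [eq_inv_iff_mul_eq_one, pow_two]
  constructor
  · rintro ⟨-, h1⟩ h3
    rw [if_pos (h2.mpr h3)] at h
    have h4 : (1 : ℂ) = 1 + 1 := h1.symm.trans h
    norm_num at h4
  · intro h3
    rw [if_neg (fun h4 => h3 (h2.mp h4)), add_zero] at h
    exact ⟨Cfsg.Agent.H4.IsChar.induce _ _ (Cfsg.Agent.H4.IsIrr.isCharacter (Cfsg.Agent.H4.isIrr_hom (las α))), h⟩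

end Cfsg.Agent.S2306
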