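import Cfsg.Statements.S2307
import Mathlib
import Cfsg.Agent.H8.PS5

set_option autoImplicit false
open Cfsg

namespace Cfsg.Agent.S2307

open Cfsg.Agent.H8.PS Cfsg.Agent.H4 Matrix

/-- Over a finite field F with q elements, q odd, let α be the multiplicative character of F of order 2. The character of SL₂ induced from the linear character b ↦ α(b₁₁) of the upper triangular subgroup is the sum of two distinct irreducible characters, each of degree (q + 1)/2, which are conjugate under GL₂: some fixed element of GL₂ conjugates the one into the other. -/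
theorem result {F : Type*} [Field F] [Fintype F] [DecidableEq F] (hodd : Odd (Fintype.card F)) (α : MulChar F ℂ)
    (hα : α ^ 2 = 1) (hα1 : α ≠ 1) :
    ∃ χ₁ χ₂ : Matrix.SpecialLinearGroup (Fin 2) F → ℂ, Cfsg.IsIrrCharacter (Matrix.SpecialLinearGroup (Fin 2) F) χ₁ ∧ Cfsg.IsIrrCharacter (Matrix.SpecialLinearGroup (Fin 2) F) χ₂ ∧ χ₁ ≠ χ₂ ∧
      Cfsg.indFun ((Cfsg.upperTriangularGL 2 F).comap Matrix.SpecialLinearGroup.toGL) (fun b => α (((b : Matrix.SpecialLinearGroup (Fin 2) F) : Matrix (Fin 2) (Fin 2) F) 0 0)) = χ₁ + χ₂ ∧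
      χ₁ 1 = (((Fintype.card F + 1) / 2 : ℕ) : ℂ) ∧ χ₂ 1 = (((Fintype.card F + 1) / 2 : ℕ) : ℂ) ∧
      ∃ x : Matrix.GeneralLinearGroup (Fin 2) F, ∀ g h : Matrix.SpecialLinearGroup (Fin 2) F,
        Matrix.SpecialLinearGroup.toGL h = x * Matrix.SpecialLinearGroup.toGL g * x⁻¹ → χ₂ h = χ₁ g := by
  classical
  have h2 : ringChar F ≠ 2 := by
    intro h
    have h3 := FiniteField.even_card_iff_char_two.mp h
    exact (Nat.not_even_iff_odd.mpr hodd) (Nat.even_iff.mpr h3)
  obtain ⟨e0, he0⟩ := FiniteField.exists_nonsquare h2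
  have he00 : e0 ≠ 0 := by rintro rfl; exact he0 (IsSquare.zero)
  let e : Fˣ := Units.mk0 e0 he00
  have he : ¬ IsSquare (e : F) := he0
  have hRc : Cfsg.IsCharacter _ (RR α) := IsChar.induce _ _ (IsIrr.isCharacter (isIrr_hom (las α)))
  have hR2 : Cfsg.classInner (RR α) (RR α) = 2 := by
    have h := inner_sl α α
    rw [if_pos rfl, if_pos (by rw [eq_inv_iff_mul_eq_one, ← pow_two]; exact hα)] at h
    have h' : Cfsg.classInner (RR α) (RR α) = 1 + 1 := h
    rw [h']; norm_num
  obtain ⟨a, b, hab, hR⟩ := char_norm_two _ hRc hR2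
  have hRab : RR α = a.1 + b.1 := by funext g; exact hR g
  have hirr : ∀ c : Cfsg.IrrCharacter (Matrix.SpecialLinearGroup (Fin 2) F), Cfsg.IsIrrCharacter _ (fun g => c.1 (sg e g)) :=
    fun c => Cfsg.Agent.H5.isIrrCharacter_comp_surjective (sg e) (sg_surj e) c.2
  let a' : Cfsg.IrrCharacter (Matrix.SpecialLinearGroup (Fin 2) F) := ⟨_, hirr a⟩
  let b' : Cfsg.IrrCharacter (Matrix.SpecialLinearGroup (Fin 2) F) := ⟨_, hirr b⟩
  have hsum' : a'.1 + b'.1 = a.1 + b.1 := by
    funext g
    show a.1 (sg e g) + b.1 (sg e g) = a.1 g + b.1 g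
    rw [← hR, ← hR, RR_sg]
  have hin := congrArg (fun f => Cfsg.classInner f a.1) hsum'
  simp only [Cfsg.Agent.H5.classInner_add_left] at hin
  rw [Cfsg.Agent.H5.classInner_irr, Cfsg.Agent.H5.classInner_irr, Cfsg.Agent.H5.classInner_irr, Cfsg.Agent.H5.classInner_irr,
    if_pos rfl, if_neg hab.symm, add_zero] at hin
  have hRa : Cfsg.classInner (RR α) a.1 = 1 := by
    rw [hRab, Cfsg.Agent.H5.classInner_add_left, Cfsg.Agent.H5.classInner_irr, Cfsg.Agent.H5.classInner_irr, if_pos rfl,
      if_neg hab.symm, add_zero]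
  have hRb : Cfsg.classInner (RR α) b.1 = 1 := by
    rw [hRab, Cfsg.Agent.H5.classInner_add_left, Cfsg.Agent.H5.classInner_irr, Cfsg.Agent.H5.classInner_irr, if_pos rfl,
      if_neg hab, zero_add]
  by_cases hb'a : b' = a
  · -- good case
    have hba : ∀ g, b.1 (sg e g) = a.1 g := fun g => congrFun (congrArg Subtype.val hb'a) g
    have h1 : b.1 1 = a.1 1 := by
      rw [← hba 1, map_one]
    have h3 : RR α 1 = (Fintype.card F : ℂ) + 1 := by
      have := val_scalar α 1 (by simp) (by simp) (by simp)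
      show Cfsg.indFun (BS F) (fun b => α (b.1 0 0)) 1 = _
      rw [this]; simp
    have h4 : a.1 1 = (((Fintype.card F + 1) / 2 : ℕ) : ℂ) := by
      have h5 := hR 1
      rw [h3, h1] at h5
      obtain ⟨k, hk⟩ := hodd
      rw [hk] at h5 ⊢
      have h6 : (2 * k + 1 + 1) / 2 = k + 1 := by omega
      rw [h6]
      push_cast at h5 ⊢
      linear_combination (-1/2 : ℂ) * h5
    refine ⟨a.1, b.1, a.2, b.2, fun h => hab (Subtype.ext h), hRab, h4, h1.trans h4, ?_⟩
    refine ⟨Matrix.GeneralLinearGroup.mkOfDetNeZero !![(e : F), 0; 0, 1] (by rw [Matrix.det_fin_two_of]; simp), ?_⟩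
    intro g h hgh
    have hh : h = sg e g := by
      have h5 : Matrix.SpecialLinearGroup.toGL h * Matrix.GeneralLinearGroup.mkOfDetNeZero !![(e : F), 0; 0, 1] (by rw [Matrix.det_fin_two_of]; simp) =
        Matrix.GeneralLinearGroup.mkOfDetNeZero !![(e : F), 0; 0, 1] (by rw [Matrix.det_fin_two_of]; simp) * Matrix.SpecialLinearGroup.toGL g := by
        rw [hgh]; group
      have h6 : (h : Matrix (Fin 2) (Fin 2) F) * !![(e : F), 0; 0, 1] = !![(e : F), 0; 0, 1] * (g : Matrix (Fin 2) (Fin 2) F) := congrArg Units.val h5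
      have h00 := congrFun (congrFun h6 0) 0
      have h01 := congrFun (congrFun h6 0) 1
      have h10 := congrFun (congrFun h6 1) 0
      have h11 := congrFun (congrFun h6 1) 1
      simp only [Matrix.mul_apply, Fin.sum_univ_two, Matrix.of_apply, Matrix.cons_val', Matrix.cons_val_zero, Matrix.cons_val_one,
        Matrix.cons_val_fin_one, Matrix.empty_val', mul_zero, zero_mul, add_zero, zero_add, mul_one, one_mul] at h00 h01 h10 h11
      have hee : (e : F) * ((e⁻¹ : Fˣ) : F) = 1 := by simp
      apply Subtype.ext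
      ext i j
      fin_cases i <;> fin_cases j
      · show h 0 0 = g 0 0
        have : (h : Matrix (Fin 2) (Fin 2) F) 0 0 * e = (g : Matrix (Fin 2) (Fin 2) F) 0 0 * e := by rw [h00, mul_comm]
        exact mul_right_cancel₀ e.ne_zero this
      · exact h01
      · show h 1 0 = ((e⁻¹ : Fˣ) : F) * g 1 0
        rw [← h10]
        linear_combination - (h : Matrix (Fin 2) (Fin 2) F) 1 0 * hee
      · exact h11
    rw [hh, hba]
  · exfalso
    have ha'a : a' = a := by
      by_contra hne
      rw [if_neg hne, if_neg hb'a] at hin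
      norm_num at hin
    have hb'b : b' = b := by
      apply Subtype.ext
      have := hsum'
      rw [ha'a] at this
      exact add_left_cancel this
    have hca : ∀ g, a.1 (sg e g) = a.1 g := fun g => congrFun (congrArg Subtype.val ha'a) g
    have hcb : ∀ g, b.1 (sg e g) = b.1 g := fun g => congrFun (congrArg Subtype.val hb'b) g
    have hua := const_unip (IsChar.isClassFunction (IsIrr.isCharacter a.2)) e he hca
    have hub := const_unip (IsChar.isClassFunction (IsIrr.isCharacter b.2)) e he hcb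
    obtain ⟨ma, hma⟩ := mult_unip (IsIrr.isCharacter a.2) _ hua
    obtain ⟨mb, hmb⟩ := mult_unip (IsIrr.isCharacter b.2) _ hub
    have h3 : RR α 1 = (Fintype.card F : ℂ) + 1 := by
      have := val_scalar α 1 (by simp) (by simp) (by simp)
      show Cfsg.indFun (BS F) (fun b => α (b.1 0 0)) 1 = _
      rw [this]; simp
    have h4 : RR α (uu (Multiplicative.ofAdd 1)) = 1 := by
      have := val_unip α (uu (Multiplicative.ofAdd 1)) rfl rfl (show (1 : F) ≠ 0 from one_ne_zero)
      show Cfsg.indFun (BS F) (fun b => α (b.1 0 0)) _ = _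
      rw [this]
      show α 1 = 1
      simp
    have h5 : (Fintype.card F : ℂ) * (ma + mb) = Fintype.card F := by
      rw [mul_add, hma, hmb]
      have e1 := hR 1
      have e2 := hR (uu (Multiplicative.ofAdd 1))
      rw [h3] at e1
      rw [h4] at e2
      linear_combination e2 - e1
    have hne : (Fintype.card F : ℂ) ≠ 0 := by exact_mod_cast Fintype.card_ne_zero
    have h6 : ((ma + mb : ℕ) : ℂ) = (1 : ℕ) := by
      push_cast
      exact mul_left_cancel₀ hne (by rw [h5, mul_one])
    have h7 : ma + mb = 1 := by exact_mod_cast h6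
    have h8 : ma = 0 ∨ mb = 0 := by omega
    rcases h8 with h8 | h8
    · rw [h8, Nat.cast_zero, mul_zero, eq_comm, sub_eq_zero] at hma
      apply not_triv α hα1 a hRa
      intro t
      by_cases ht : t = 0
      · subst ht
        have h9 : (uu (Multiplicative.ofAdd (0 : F)) : Matrix.SpecialLinearGroup (Fin 2) F) = 1 := map_one uu
        rw [h9]
      · rw [hua t ht, hma]
    · rw [h8, Nat.cast_zero, mul_zero, eq_comm, sub_eq_zero] at hmb
      apply not_triv α hα1 b hRb
      intro t
      by_cases ht : t = 0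
      · subst ht
        have h9 : (uu (Multiplicative.ofAdd (0 : F)) : Matrix.SpecialLinearGroup (Fin 2) F) = 1 := map_one uu
        rw [h9]
      · rw [hub t ht, hmb]

end Cfsg.Agent.S2307
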