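import Cfsg.Statements.S2308
import Mathlib
import Cfsg.Agent.H8.PS3

set_option autoImplicit false
open Cfsg

namespace Cfsg.Agent.S2308

open Cfsg.Agent.H8.PS

/-- Values of the permutation character of GL₂ over a finite field F with q elements on the cosets of its upper triangular subgroup (equivalently, the number of lines of F² that an element maps to themselves): q + 1 at a scalar matrix, 2 at a diagonal matrix with two different diagonal entries, 0 at an element with no eigenvector in F², and 1 at an upper triangular matrix with equal diagonal entries and non-zero upper right entry. -/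
theorem result {F : Type*} [Field F] [Fintype F] (g : Matrix.GeneralLinearGroup (Fin 2) F) :
    ((∃ a : F, (g : Matrix (Fin 2) (Fin 2) F) = a • (1 : Matrix (Fin 2) (Fin 2) F)) → Cfsg.fixedPointCharacter (Cfsg.upperTriangularGL 2 F) g = Fintype.card F + 1) ∧
    ((g : Matrix (Fin 2) (Fin 2) F) 0 1 = 0 → (g : Matrix (Fin 2) (Fin 2) F) 1 0 = 0 → (g : Matrix (Fin 2) (Fin 2) F) 0 0 ≠ (g : Matrix (Fin 2) (Fin 2) F) 1 1 →
      Cfsg.fixedPointCharacter (Cfsg.upperTriangularGL 2 F) g = 2) ∧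
    ((∀ (c : F) (v : Fin 2 → F), v ≠ 0 → (g : Matrix (Fin 2) (Fin 2) F).mulVec v ≠ c • v) → Cfsg.fixedPointCharacter (Cfsg.upperTriangularGL 2 F) g = 0) ∧
    ((g : Matrix (Fin 2) (Fin 2) F) 1 0 = 0 → (g : Matrix (Fin 2) (Fin 2) F) 0 0 = (g : Matrix (Fin 2) (Fin 2) F) 1 1 → (g : Matrix (Fin 2) (Fin 2) F) 0 1 ≠ 0 →
      Cfsg.fixedPointCharacter (Cfsg.upperTriangularGL 2 F) g = 1) := by
  classical
  have hdet : ∀ x : Matrix.GeneralLinearGroup (Fin 2) F, ¬ ((x : Matrix (Fin 2) (Fin 2) F) 0 0 = 0 ∧ (x : Matrix (Fin 2) (Fin 2) F) 1 0 = 0) := by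
    rintro x ⟨h1, h2⟩
    have hd : (x : Matrix (Fin 2) (Fin 2) F).det ≠ 0 := (Matrix.isUnit_iff_isUnit_det _).mp x.isUnit |>.ne_zero
    rw [Matrix.det_fin_two, h1, h2, zero_mul, mul_zero, sub_zero] at hd
    exact hd rfl
  refine ⟨?_, ?_, ?_, ?_⟩
  · rintro ⟨a, ha⟩
    rw [fpc_eq]
    have e00 : (g : Matrix (Fin 2) (Fin 2) F) 0 0 = a := by rw [ha]; simp
    have e01 : (g : Matrix (Fin 2) (Fin 2) F) 0 1 = 0 := by rw [ha]; simp
    have e10 : (g : Matrix (Fin 2) (Fin 2) F) 1 0 = 0 := by rw [ha]; simp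
    have e11 : (g : Matrix (Fin 2) (Fin 2) F) 1 1 = a := by rw [ha]; simp
    rw [e00, e01, e10, e11]
    have key : ∀ x : Matrix.GeneralLinearGroup (Fin 2) F, (if
      (x : Matrix (Fin 2) (Fin 2) F) 0 0 * (0 * (x : Matrix (Fin 2) (Fin 2) F) 0 0 + a * (x : Matrix (Fin 2) (Fin 2) F) 1 0) =
    (x : Matrix (Fin 2) (Fin 2) F) 1 0 * (a * (x : Matrix (Fin 2) (Fin 2) F) 0 0 + 0 * (x : Matrix (Fin 2) (Fin 2) F) 1 0)
      then (1 : ℂ) else 0) = 1 := by
      intro x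
      rw [if_pos (by ring)]
    rw [Finset.sum_congr rfl (fun x _ => key x), Finset.sum_const, nsmul_eq_mul, mul_one]
    have h4 : ((Finset.univ : Finset (Matrix.GeneralLinearGroup (Fin 2) F)).card : ℂ) = Nat.card (Matrix.GeneralLinearGroup (Fin 2) F) := by
      rw [Nat.card_eq_fintype_card, Finset.card_univ]
    rw [h4, gcard_ratio]
    have := gB_ne (F := F)
    field_simp
  · intro h1 h2 h3
    rw [fpc_eq, h1, h2]
    have key : ∀ x : Matrix.GeneralLinearGroup (Fin 2) F, (if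
      (x : Matrix (Fin 2) (Fin 2) F) 0 0 * (0 * (x : Matrix (Fin 2) (Fin 2) F) 0 0 + (g : Matrix (Fin 2) (Fin 2) F) 1 1 * (x : Matrix (Fin 2) (Fin 2) F) 1 0) =
    (x : Matrix (Fin 2) (Fin 2) F) 1 0 * ((g : Matrix (Fin 2) (Fin 2) F) 0 0 * (x : Matrix (Fin 2) (Fin 2) F) 0 0 + 0 * (x : Matrix (Fin 2) (Fin 2) F) 1 0)
      then (1 : ℂ) else 0) = (if (x : Matrix (Fin 2) (Fin 2) F) 1 0 = 0 then 1 else 0) + (if (x : Matrix (Fin 2) (Fin 2) F) 0 0 = 0 then 1 else 0) := by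
      intro x
      by_cases hx1 : (x : Matrix (Fin 2) (Fin 2) F) 1 0 = 0
      · rw [if_pos (by rw [hx1]; ring), if_pos hx1, if_neg (fun h => hdet x ⟨h, hx1⟩), add_zero]
      · by_cases hx0 : (x : Matrix (Fin 2) (Fin 2) F) 0 0 = 0
        · rw [if_pos (by rw [hx0]; ring), if_neg hx1, if_pos hx0, zero_add]
        · rw [if_neg, if_neg hx1, if_neg hx0, add_zero]
          intro h
          apply h3
          have : (x : Matrix (Fin 2) (Fin 2) F) 0 0 * (x : Matrix (Fin 2) (Fin 2) F) 1 0 * ((g : Matrix (Fin 2) (Fin 2) F) 1 1 - (g : Matrix (Fin 2) (Fin 2) F) 0 0) = 0 := by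
            linear_combination h
          rcases mul_eq_zero.mp this with h5 | h5
          · rcases mul_eq_zero.mp h5 with h6 | h6
            · exact absurd h6 hx0
            · exact absurd h6 hx1
          · exact (sub_eq_zero.mp h5).symm
    rw [Finset.sum_congr rfl (fun x _ => key x), Finset.sum_add_distrib, gsum_x10, gsum_x00]
    have := gB_ne (F := F)
    field_simp
    norm_num
  · intro h
    rw [fpc_eq, Finset.sum_eq_zero, mul_zero]
    intro x _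
    rw [if_neg]
    intro hx
    have hv : (fun i => (x : Matrix (Fin 2) (Fin 2) F) i 0 : Fin 2 → F) ≠ 0 := by
      intro hv
      exact hdet x ⟨congrFun hv 0, congrFun hv 1⟩
    by_cases hx0 : (x : Matrix (Fin 2) (Fin 2) F) 0 0 = 0
    · have hx1 : (x : Matrix (Fin 2) (Fin 2) F) 1 0 ≠ 0 := fun h1 => hdet x ⟨hx0, h1⟩
      apply h (((g : Matrix (Fin 2) (Fin 2) F) 1 0 * (x : Matrix (Fin 2) (Fin 2) F) 0 0 + (g : Matrix (Fin 2) (Fin 2) F) 1 1 * (x : Matrix (Fin 2) (Fin 2) F) 1 0) / (x : Matrix (Fin 2) (Fin 2) F) 1 0) _ hv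
      have h0 : (g : Matrix (Fin 2) (Fin 2) F) 0 0 * (x : Matrix (Fin 2) (Fin 2) F) 0 0 + (g : Matrix (Fin 2) (Fin 2) F) 0 1 * (x : Matrix (Fin 2) (Fin 2) F) 1 0 = 0 := by
        rw [hx0, zero_mul] at hx
        rcases mul_eq_zero.mp hx.symm with h5 | h5
        · exact absurd h5 hx1
        · rw [hx0]; exact h5
      funext i
      show ∑ j, (g : Matrix (Fin 2) (Fin 2) F) i j * (x : Matrix (Fin 2) (Fin 2) F) j 0 = _ * (x : Matrix (Fin 2) (Fin 2) F) i 0
      rw [Fin.sum_univ_two]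
      fin_cases i
      · show (g : Matrix (Fin 2) (Fin 2) F) 0 0 * (x : Matrix (Fin 2) (Fin 2) F) 0 0 + (g : Matrix (Fin 2) (Fin 2) F) 0 1 * (x : Matrix (Fin 2) (Fin 2) F) 1 0 = _ * (x : Matrix (Fin 2) (Fin 2) F) 0 0
        rw [h0, hx0, mul_zero]
      · show (g : Matrix (Fin 2) (Fin 2) F) 1 0 * (x : Matrix (Fin 2) (Fin 2) F) 0 0 + (g : Matrix (Fin 2) (Fin 2) F) 1 1 * (x : Matrix (Fin 2) (Fin 2) F) 1 0 = _ * (x : Matrix (Fin 2) (Fin 2) F) 1 0
        rw [div_mul_cancel₀ _ hx1]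
    · apply h (((g : Matrix (Fin 2) (Fin 2) F) 0 0 * (x : Matrix (Fin 2) (Fin 2) F) 0 0 + (g : Matrix (Fin 2) (Fin 2) F) 0 1 * (x : Matrix (Fin 2) (Fin 2) F) 1 0) / (x : Matrix (Fin 2) (Fin 2) F) 0 0) _ hv
      funext i
      show ∑ j, (g : Matrix (Fin 2) (Fin 2) F) i j * (x : Matrix (Fin 2) (Fin 2) F) j 0 = _ * (x : Matrix (Fin 2) (Fin 2) F) i 0
      rw [Fin.sum_univ_two]
      fin_cases i
      · show (g : Matrix (Fin 2) (Fin 2) F) 0 0 * (x : Matrix (Fin 2) (Fin 2) F) 0 0 + (g : Matrix (Fin 2) (Fin 2) F) 0 1 * (x : Matrix (Fin 2) (Fin 2) F) 1 0 = _ * (x : Matrix (Fin 2) (Fin 2) F) 0 0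
        rw [div_mul_cancel₀ _ hx0]
      · show (g : Matrix (Fin 2) (Fin 2) F) 1 0 * (x : Matrix (Fin 2) (Fin 2) F) 0 0 + (g : Matrix (Fin 2) (Fin 2) F) 1 1 * (x : Matrix (Fin 2) (Fin 2) F) 1 0 = _ * (x : Matrix (Fin 2) (Fin 2) F) 1 0
        rw [div_mul_eq_mul_div, eq_div_iff hx0]
        linear_combination hx
  · intro h1 h2 h3
    rw [fpc_eq, h1, ← h2]
    have key : ∀ x : Matrix.GeneralLinearGroup (Fin 2) F, (if
      (x : Matrix (Fin 2) (Fin 2) F) 0 0 * (0 * (x : Matrix (Fin 2) (Fin 2) F) 0 0 + (g : Matrix (Fin 2) (Fin 2) F) 0 0 * (x : Matrix (Fin 2) (Fin 2) F) 1 0) =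
    (x : Matrix (Fin 2) (Fin 2) F) 1 0 * ((g : Matrix (Fin 2) (Fin 2) F) 0 0 * (x : Matrix (Fin 2) (Fin 2) F) 0 0 + (g : Matrix (Fin 2) (Fin 2) F) 0 1 * (x : Matrix (Fin 2) (Fin 2) F) 1 0)
      then (1 : ℂ) else 0) = (if (x : Matrix (Fin 2) (Fin 2) F) 1 0 = 0 then 1 else 0) := by
      intro x
      by_cases hx1 : (x : Matrix (Fin 2) (Fin 2) F) 1 0 = 0
      · rw [if_pos (by rw [hx1]; ring), if_pos hx1]
      · rw [if_neg, if_neg hx1]
        intro h
        have : (x : Matrix (Fin 2) (Fin 2) F) 1 0 * (x : Matrix (Fin 2) (Fin 2) F) 1 0 * (g : Matrix (Fin 2) (Fin 2) F) 0 1 = 0 := by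
          linear_combination - h
        rcases mul_eq_zero.mp this with h5 | h5
        · exact hx1 (mul_self_eq_zero.mp h5)
        · exact h3 h5
    rw [Finset.sum_congr rfl (fun x _ => key x), gsum_x10]
    have := gB_ne (F := F)
    field_simp

end Cfsg.Agent.S2308
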