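import Cfsg.Statements.S2317
import Mathlib
import Cfsg.Agent.H8.GLType
import Cfsg.Agent.H8.Mat

set_option autoImplicit false
open Cfsg

namespace Cfsg.Agent.S2317

open Cfsg.Agent.H8 Cfsg.Agent.H8.RCF Polynomial

/-- Over a finite field of characteristic p, the conjugacy classes of GL_n consisting of elements of p-power order (the unipotent classes) are as many as the partitions of n. -/
theorem result {F : Type*} [Field F] [Fintype F] (p : ℕ) [Fact p.Prime] [CharP F p] (n : ℕ) :
    Nat.card {C : ConjClasses (Matrix.GeneralLinearGroup (Fin n) F) //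
      ∃ g : Matrix.GeneralLinearGroup (Fin n) F, (∃ k : ℕ, orderOf g = p ^ k) ∧ ConjClasses.mk g = C} =
      Fintype.card (Nat.Partition n) := by
  classical
  have hp : p.Prime := Fact.out
  have hex : ∀ μ : Nat.Partition n, ∃ x : GL (Fin n) F, (∃ k : ℕ, orderOf x = p ^ k) ∧ ∃ f : Fin μ.parts.toList.length → F[X],
      IsDec (x : Matrix (Fin n) (Fin n) F).mulVecLin f ∧ (∀ i, IsPP (f i)) ∧ (Finset.univ : Finset (Fin μ.parts.toList.length)).val.map f = μ.parts.map (fun e => (X - 1) ^ e) := by
    intro μ
    let f : Fin μ.parts.toList.length → F[X] := fun i => (X - 1) ^ (μ.parts.toList.get i)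
    have hpos : ∀ i, 1 ≤ μ.parts.toList.get i := fun i => μ.parts_pos (Multiset.mem_toList.1 (List.get_mem _ _))
    have hlei : ∀ i, μ.parts.toList.get i ≤ n := by
      intro i
      have h1 : μ.parts.toList.get i ∈ μ.parts := Multiset.mem_toList.1 (List.get_mem _ _)
      have h2 := Multiset.le_sum_of_mem h1
      rwa [μ.parts_sum] at h2
    have hmap : (Finset.univ : Finset (Fin μ.parts.toList.length)).val.map f = μ.parts.map (fun e => (X - 1) ^ e) := by
      have h1 : (Finset.univ : Finset (Fin μ.parts.toList.length)).val.map μ.parts.toList.get = μ.parts := by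
        rw [Fin.univ_val_map, List.ofFn_get, Multiset.coe_toList]
      conv_rhs => rw [← h1]
      rw [Multiset.map_map]
      rfl
    have hsum : ∑ i, (f i).natDegree = n := by
      have h1 : ∀ i, (f i).natDegree = μ.parts.toList.get i := by
        intro i
        rw [natDegree_pow, X_sub_one_natDegree, mul_one]
      rw [Finset.sum_congr rfl (fun i _ => h1 i)]
      have h2 : (List.ofFn μ.parts.toList.get).sum = ∑ i, μ.parts.toList.get i := List.sum_ofFn
      rw [← h2, List.ofFn_get, Multiset.sum_toList, μ.parts_sum]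
    obtain ⟨A, hA⟩ := exists_of_type f (fun i => X_sub_one_monic.pow _) hsum
    have hAp : (A - 1) ^ n = 0 := by
      rw [← mulVecLin_eq_zero, ← aeval_X_sub_one_pow, aeval_eq_zero_iff hA]
      intro i
      exact pow_dvd_pow _ (hlei i)
    have hA1 : A ^ (p ^ n) = 1 := by
      rw [← sub_eq_zero, ← sub_one_pow p]
      exact pow_eq_zero_of_le (Nat.lt_pow_self hp.one_lt).le hAp
    have hu : IsUnit A := by
      apply IsUnit.of_mul_eq_one (A ^ (p ^ n - 1))
      rw [← pow_succ', Nat.sub_add_cancel (Nat.one_le_pow _ _ hp.pos), hA1]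
    refine ⟨hu.unit, ?_, f, hA, fun i => ⟨X - 1, _, X_sub_one_monic, X_sub_one_irr, hpos i, rfl⟩, hmap⟩
    have h1 : orderOf hu.unit ∣ p ^ n := by
      apply orderOf_dvd_of_pow_eq_one
      apply Units.ext
      exact hA1
    obtain ⟨k, -, hk⟩ := (Nat.dvd_prime_pow hp).1 h1
    exact ⟨k, hk⟩
  choose x hx1 f hf1 hf2 hf3 using hex
  let Φ : Nat.Partition n → {C : ConjClasses (GL (Fin n) F) // ∃ g : GL (Fin n) F, (∃ k : ℕ, orderOf g = p ^ k) ∧ ConjClasses.mk g = C} :=
    fun μ => ⟨ConjClasses.mk (x μ), x μ, hx1 μ, rfl⟩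
  have hinjpow : Function.Injective (fun e : ℕ => ((X - 1 : F[X]) ^ e)) := by
    intro a b h
    have := congrArg natDegree h
    simp only [natDegree_pow, X_sub_one_natDegree] at this
    omega
  have hΦ : Function.Bijective Φ := by
    constructor
    · intro μ ν h
      have h1 : ConjClasses.mk (x μ) = ConjClasses.mk (x ν) := congrArg Subtype.val h
      rw [ConjClasses.mk_eq_mk_iff_isConj] at h1
      have h2 := multiset_eq_of_gl_conj (hf1 μ) (hf1 ν) (hf2 μ) (hf2 ν) h1
      rw [hf3, hf3] at h2
      exact Nat.Partition.ext (Multiset.map_injective hinjpow h2)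
    · rintro ⟨c, g, ⟨k, hg⟩, rfl⟩
      have hgp : ((g : Matrix (Fin n) (Fin n) F) - 1) ^ (p ^ k) = 0 := by
        rw [sub_one_pow p, sub_eq_zero, ← Units.val_pow_eq_pow_val, ← hg, pow_orderOf_eq_one, Units.val_one]
      obtain ⟨k', f', hdf, hf⟩ := exists_isDec (g : Matrix (Fin n) (Fin n) F).mulVecLin
      have hty := unip_type hgp hdf hf
      choose e he1 he2 he3 using hty
      have hn : ∑ i, e i = n := by
        have := finrank_of_isDec hdf
        rw [Module.finrank_fintype_fun_eq_card, Fintype.card_fin] at this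
        conv_rhs => rw [this]
        apply Finset.sum_congr rfl
        intro i _
        rw [he3, natDegree_pow, X_sub_one_natDegree, mul_one]
      let μ : Nat.Partition n := ⟨(Finset.univ : Finset (Fin k')).val.map e, by
        intro a ha; obtain ⟨i, -, rfl⟩ := Multiset.mem_map.1 ha; exact he1 i, hn⟩
      refine ⟨μ, ?_⟩
      apply Subtype.ext
      show ConjClasses.mk (x _) = ConjClasses.mk g
      rw [ConjClasses.mk_eq_mk_iff_isConj]
      apply gl_conj_of_multiset (hf1 _) hdf
      rw [hf3]
      show ((Finset.univ : Finset (Fin k')).val.map e).map (fun e => ((X - 1 : F[X]) ^ e)) = _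
      rw [Multiset.map_map]
      apply Multiset.map_congr rfl
      intro i _
      rw [he3]; rfl
  rw [← Nat.card_congr (Equiv.ofBijective Φ hΦ), Nat.card_eq_fintype_card]

end Cfsg.Agent.S2317
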