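import Cfsg.Statements.S2329
import Mathlib
import Cfsg.Agent.H8.SL2d

set_option autoImplicit false
open Cfsg

namespace Cfsg.Agent.S2329

open Cfsg.Agent.H8.SL2

/-- Over a finite field of characteristic p, any two elements of order p of GL₂ are conjugate: there is a single conjugacy class of non-identity unipotent elements. -/
theorem result {F : Type*} [Field F] [Fintype F] (p : ℕ) [Fact p.Prime] [CharP F p] (g h : Matrix.GeneralLinearGroup (Fin 2) F)
    (hg : orderOf g = p) (hh : orderOf h = p) : IsConj g h := by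
  have hp : p.Prime := Fact.out
  have key : ∀ g : Matrix.GeneralLinearGroup (Fin 2) F, orderOf g = p → NS (g : Matrix (Fin 2) (Fin 2) F) ∧ (g : Matrix (Fin 2) (Fin 2) F).trace = 2 ∧ (g : Matrix (Fin 2) (Fin 2) F).det = 1 := by
    intro g hg
    have h0 : (g : Matrix (Fin 2) (Fin 2) F) ^ p = 1 := by
      rw [← Units.val_pow_eq_pow_val, ← hg, pow_orderOf_eq_one, Units.val_one]
    have h1 : ((g : Matrix (Fin 2) (Fin 2) F) - 1) ^ p = 0 := by
      haveI : CharP (Matrix (Fin 2) (Fin 2) F) p := inferInstance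
      rw [sub_pow_char_of_commute (p := p) (Commute.one_right (g : Matrix (Fin 2) (Fin 2) F)), one_pow, sub_eq_zero, h0]
    have h2 : IsNilpotent ((g : Matrix (Fin 2) (Fin 2) F) - 1) := ⟨p, h1⟩
    have h3 : ((g : Matrix (Fin 2) (Fin 2) F) - 1).trace = 0 := (Matrix.isNilpotent_trace_of_isNilpotent h2).eq_zero
    have h4 : (g : Matrix (Fin 2) (Fin 2) F).trace = 2 := by
      rw [Matrix.trace_sub, Matrix.trace_one] at h3
      simp only [Fintype.card_fin] at h3
      push_cast at h3
      exact sub_eq_zero.1 h3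
    have h5 : (g : Matrix (Fin 2) (Fin 2) F).det = 1 := by
      have h6 : (g : Matrix (Fin 2) (Fin 2) F).det ^ p = 1 := by rw [← Matrix.det_pow, h0, Matrix.det_one]
      have h7 : ((g : Matrix (Fin 2) (Fin 2) F).det - 1) ^ p = 0 := by
        rw [sub_pow_char, one_pow, h6, sub_self]
      exact sub_eq_zero.1 (pow_eq_zero_iff hp.ne_zero |>.1 h7)
    refine ⟨?_, h4, h5⟩
    rw [ns_iff]
    rintro ⟨c, hc⟩
    have hc1 : c = 1 := by
      rw [hc] at h0
      rw [smul_pow, one_pow] at h0
      have h6 := congrFun (congrFun h0 0) 0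
      simp at h6
      have h7 : (c - 1) ^ p = 0 := by rw [sub_pow_char, one_pow, h6, sub_self]
      exact sub_eq_zero.1 (pow_eq_zero_iff hp.ne_zero |>.1 h7)
    rw [hc1, one_smul] at hc
    have : g = 1 := Units.ext hc
    rw [this, orderOf_one] at hg
    exact hp.one_lt.ne hg
  obtain ⟨h1, h2, h3⟩ := key g hg
  obtain ⟨h1', h2', h3'⟩ := key h hh
  obtain ⟨P, hP⟩ := gl_conj _ _ h1 h1' (by rw [h2, h2']) (by rw [h3, h3'])
  rw [isConj_iff]
  refine ⟨P, ?_⟩
  rw [mul_inv_eq_iff_eq_mul]
  apply Units.ext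
  exact hP

end Cfsg.Agent.S2329
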