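import Cfsg.Statements.S2367
import Mathlib

set_option autoImplicit false
open Cfsg

namespace Cfsg.Agent.S2367

theorem key_num (N v : ℕ) (L : List ℕ) (hN : N ≠ 0) (hL : N ∣ (2 * L.prod) ^ 50) (h2 : 2 ^ v ∣ N)
    (hLp : ∀ x ∈ L, x.Prime) (hall : ∀ x ∈ L, x ^ 3 < 2 ^ v ∨ ¬ x ^ 3 ∣ N ∨ x ^ 4 ∣ N) (p : ℕ) (hp : p.Prime) (hodd : p ≠ 2)
    (h3 : N.factorization p = 3) : p ^ 3 < 2 ^ N.factorization 2 := by
  have hpN : p ^ 3 ∣ N := (hp.pow_dvd_iff_le_factorization hN).2 (by rw [h3])
  have h1 : p ∣ 2 * L.prod := hp.dvd_of_dvd_pow ((dvd_trans (dvd_pow_self p (by norm_num)) hpN).trans hL)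
  rcases (Nat.Prime.dvd_mul hp).1 h1 with h | h
  · exact absurd ((Nat.prime_dvd_prime_iff_eq hp Nat.prime_two).1 h) hodd
  · obtain ⟨x, hx, hpx⟩ := (Prime.dvd_prod_iff (Nat.prime_iff.1 hp)).1 h
    have hpx' : p = x := (Nat.prime_dvd_prime_iff_eq hp (hLp x hx)).1 hpx
    subst hpx'
    rcases hall p hx with h4 | h4 | h4
    · refine lt_of_lt_of_le h4 (Nat.pow_le_pow_right (by norm_num) ?_)
      exact (Nat.prime_two.pow_dvd_iff_le_factorization hN).1 h2
    · exact absurd hpN h4
    · have := (hp.pow_dvd_iff_le_factorization hN).1 h4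
      omega

theorem four_pow_gt (p : ℕ) (hp : 5 ≤ p) : p ^ 3 < 4 ^ (p - 1) := by
  induction p, hp using Nat.le_induction with
  | base => norm_num
  | succ p hp ih =>
    obtain ⟨c, rfl⟩ : ∃ c, p = c + 1 := ⟨p - 1, by omega⟩
    simp only [Nat.add_sub_cancel] at ih ⊢
    have h1 : (c + 1 + 1) ^ 3 ≤ 4 * (c + 1) ^ 3 := by
      obtain ⟨d, rfl⟩ : ∃ d, c = d + 4 := ⟨c - 4, by omega⟩
      ring_nf
      nlinarith [sq_nonneg d]
    rw [pow_succ 4 c]
    omega

/-- Let G be an alternating group of degree at least 5 or a simple group with the order of one of the 26 sporadic groups, and let p be an odd prime such that p³ is the exact power of p dividing the order of G. Then p³ is less than the 2-part of the order of G. -/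
theorem result {G : Type*} [Group G] [Finite G] (hG : Cfsg.IsAlternating G ∨ Cfsg.IsSporadic G)
    (p : ℕ) (hp : p.Prime) (hodd : p ≠ 2) (h3 : (Nat.card G).factorization p = 3) :
    p ^ 3 < 2 ^ (Nat.card G).factorization 2 := by
  rcases hG with ⟨n, hn, ⟨e⟩⟩ | hG
  · rw [Nat.card_congr e.toEquiv] at h3 ⊢
    haveI : Nontrivial (Fin n) := Fin.nontrivial_iff_two_le.2 (by omega)
    have hcard : 2 * Nat.card (alternatingGroup (Fin n)) = n.factorial := by
      rw [two_mul_nat_card_alternatingGroup, Nat.card_perm, Nat.card_fin]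
    set A := Nat.card (alternatingGroup (Fin n)) with hA
    have hA0 : A ≠ 0 := by
      intro h; rw [h] at hcard; exact (Nat.factorial_ne_zero n) hcard.symm
    have hp3 : p ^ 3 ∣ n.factorial := by
      rw [← hcard]; exact Dvd.dvd.mul_left ((hp.pow_dvd_iff_le_factorization hA0).2 (by rw [h3])) 2
    have hp3' : 3 ≤ p := by have := hp.two_le; omega
    have hn3 : 3 * p ≤ n := by
      by_contra hcon
      push Not at hcon
      have hlt : n < p ^ 2 := by nlinarith
      have hlog : Nat.log p n < 2 := Nat.log_lt_of_lt_pow (by omega) hlt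
      rw [hp.pow_dvd_factorial_iff hlog] at hp3
      simp at hp3
      have : n / p < 3 := Nat.div_lt_of_lt_mul (by linarith)
      omega
    have h2v : 2 ^ (3 * p / 2 + 3 * p / 4) ∣ n.factorial := by
      refine dvd_trans ?_ (Nat.factorial_dvd_factorial hn3)
      rw [Nat.prime_two.pow_dvd_factorial_iff (b := Nat.log 2 (3 * p) + 3) (by omega)]
      have : ∑ i ∈ Finset.Ico 1 3, 3 * p / 2 ^ i ≤ ∑ i ∈ Finset.Ico 1 (Nat.log 2 (3 * p) + 3), 3 * p / 2 ^ i := by
        apply Finset.sum_le_sum_of_subset
        intro i hi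
        rw [Finset.mem_Ico] at *
        omega
      simpa [Finset.sum_Ico_succ_top] using this
    have h2A : 2 ^ (3 * p / 2 + 3 * p / 4 - 1) ∣ A := by
      have h5 : 2 ^ (3 * p / 2 + 3 * p / 4) = 2 * 2 ^ (3 * p / 2 + 3 * p / 4 - 1) := by
        rw [← pow_succ']; congr 1; omega
      rw [h5, ← hcard] at h2v
      exact Nat.dvd_of_mul_dvd_mul_left (by norm_num) h2v
    have h6 := (Nat.prime_two.pow_dvd_iff_le_factorization hA0).1 h2A
    refine lt_of_lt_of_le ?_ (Nat.pow_le_pow_right (by norm_num) h6)
    rcases Nat.lt_or_ge p 5 with h7 | h7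
    · have : p = 3 ∨ p = 4 := by omega
      rcases this with rfl | rfl <;> norm_num
    · have h8 := four_pow_gt p h7
      refine lt_of_lt_of_le h8 ?_
      rw [show (4 : ℕ) = 2 ^ 2 by norm_num, ← pow_mul]
      apply Nat.pow_le_pow_right (by norm_num)
      omega
  · rcases hG with h | h | h | h | h | h | h | h | h | h | h | h | h | h | h | h | h | h | h | h | h | h | h | h | h | h
    all_goals
      rw [h.2] at h3 ⊢
    · exact key_num _ 4 [3, 5, 11] (by norm_num) (by decide +kernel) (by decide +kernel) (by norm_num) (by decide +kernel) p hp hodd h3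
    · exact key_num _ 6 [3, 5, 11] (by norm_num) (by decide +kernel) (by decide +kernel) (by norm_num) (by decide +kernel) p hp hodd h3
    · exact key_num _ 7 [3, 5, 7, 11] (by norm_num) (by decide +kernel) (by decide +kernel) (by norm_num) (by decide +kernel) p hp hodd h3
    · exact key_num _ 7 [3, 5, 7, 11, 23] (by norm_num) (by decide +kernel) (by decide +kernel) (by norm_num) (by decide +kernel) p hp hodd h3
    · exact key_num _ 10 [3, 5, 7, 11, 23] (by norm_num) (by decide +kernel) (by decide +kernel) (by norm_num) (by decide +kernel) p hp hodd h3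
    · exact key_num _ 3 [3, 5, 7, 11, 19] (by norm_num) (by decide +kernel) (by decide +kernel) (by norm_num) (by decide +kernel) p hp hodd h3
    · exact key_num _ 7 [3, 5, 7] (by norm_num) (by decide +kernel) (by decide +kernel) (by norm_num) (by decide +kernel) p hp hodd h3
    · exact key_num _ 7 [3, 5, 17, 19] (by norm_num) (by decide +kernel) (by decide +kernel) (by norm_num) (by decide +kernel) p hp hodd h3
    · exact key_num _ 21 [3, 5, 7, 11, 23, 29, 31, 37, 43] (by norm_num) (by decide +kernel) (by decide +kernel) (by norm_num) (by decide +kernel) p hp hodd h3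
    · exact key_num _ 21 [3, 5, 7, 11, 13, 23] (by norm_num) (by decide +kernel) (by decide +kernel) (by norm_num) (by decide +kernel) p hp hodd h3
    · exact key_num _ 18 [3, 5, 7, 11, 23] (by norm_num) (by decide +kernel) (by decide +kernel) (by norm_num) (by decide +kernel) p hp hodd h3
    · exact key_num _ 10 [3, 5, 7, 11, 23] (by norm_num) (by decide +kernel) (by decide +kernel) (by norm_num) (by decide +kernel) p hp hodd h3
    · exact key_num _ 17 [3, 5, 7, 11, 13] (by norm_num) (by decide +kernel) (by decide +kernel) (by norm_num) (by decide +kernel) p hp hodd h3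
    · exact key_num _ 18 [3, 5, 7, 11, 13, 17, 23] (by norm_num) (by decide +kernel) (by decide +kernel) (by norm_num) (by decide +kernel) p hp hodd h3
    · exact key_num _ 21 [3, 5, 7, 11, 13, 17, 23, 29] (by norm_num) (by decide +kernel) (by decide +kernel) (by norm_num) (by decide +kernel) p hp hodd h3
    · exact key_num _ 9 [3, 5, 7, 11] (by norm_num) (by decide +kernel) (by decide +kernel) (by norm_num) (by decide +kernel) p hp hodd h3
    · exact key_num _ 7 [3, 5, 7, 11] (by norm_num) (by decide +kernel) (by decide +kernel) (by norm_num) (by decide +kernel) p hp hodd h3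
    · exact key_num _ 10 [3, 5, 7, 17] (by norm_num) (by decide +kernel) (by decide +kernel) (by norm_num) (by decide +kernel) p hp hodd h3
    · exact key_num _ 14 [3, 5, 7, 13, 29] (by norm_num) (by decide +kernel) (by decide +kernel) (by norm_num) (by decide +kernel) p hp hodd h3
    · exact key_num _ 13 [3, 5, 7, 11, 13] (by norm_num) (by decide +kernel) (by decide +kernel) (by norm_num) (by decide +kernel) p hp hodd h3
    · exact key_num _ 9 [3, 5, 7, 11, 19, 31] (by norm_num) (by decide +kernel) (by decide +kernel) (by norm_num) (by decide +kernel) p hp hodd h3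
    · exact key_num _ 14 [3, 5, 7, 11, 19] (by norm_num) (by decide +kernel) (by decide +kernel) (by norm_num) (by decide +kernel) p hp hodd h3
    · exact key_num _ 8 [3, 5, 7, 11, 31, 37, 67] (by norm_num) (by decide +kernel) (by decide +kernel) (by norm_num) (by decide +kernel) p hp hodd h3
    · exact key_num _ 15 [3, 5, 7, 13, 19, 31] (by norm_num) (by decide +kernel) (by decide +kernel) (by norm_num) (by decide +kernel) p hp hodd h3
    · exact key_num _ 41 [3, 5, 7, 11, 13, 17, 19, 23, 31, 47] (by norm_num) (by decide +kernel) (by decide +kernel) (by norm_num) (by decide +kernel) p hp hodd h3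
    · exact key_num _ 46 [3, 5, 7, 11, 13, 17, 19, 23, 29, 31, 41, 47, 59, 71] (by norm_num) (by decide +kernel) (by decide +kernel) (by norm_num) (by decide +kernel) p hp hodd h3

end Cfsg.Agent.S2367
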