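import Cfsg.Statements.S2368
import Mathlib
import Cfsg.Agent.H8.Mat

set_option autoImplicit false
open Cfsg

namespace Cfsg.Agent.S2368



/-- Let F be a finite field of characteristic p and m ≥ 1. Every element of GL(m, F) of p-power order has order less than p·m, and GL(m, F) has an element of p-power order at least m; so the largest order of a p-element of GL(m, F) is the least power of p that is at least m. -/
theorem result {F : Type*} [Field F] [Fintype F] (p : ℕ) [Fact p.Prime] [CharP F p] (m : ℕ) (hm : 1 ≤ m) :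
    (∀ g : Matrix.GeneralLinearGroup (Fin m) F, (∃ j : ℕ, orderOf g = p ^ j) → orderOf g < p * m) ∧
      ∃ g : Matrix.GeneralLinearGroup (Fin m) F, (∃ j : ℕ, orderOf g = p ^ j) ∧ m ≤ orderOf g := by
  have hp : p.Prime := Fact.out
  constructor
  · rintro g ⟨j, hj⟩
    have hu : IsNilpotent ((g : Matrix (Fin m) (Fin m) F) - 1) := by
      refine ⟨p ^ j, ?_⟩
      rw [Cfsg.Agent.H8.sub_one_pow p, ← Units.val_pow_eq_pow_val, ← hj, pow_orderOf_eq_one]
      simp
    obtain ⟨h1, -⟩ := Cfsg.Agent.H8.unip_order p m g hu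
    have h2 := Nat.le_of_dvd (pow_pos hp.pos _) h1
    refine lt_of_le_of_lt h2 ?_
    rcases Nat.lt_or_ge 1 m with h3 | h3
    · have h4 := Nat.pow_pred_clog_lt_self hp.one_lt h3
      have h5 : 0 < Nat.clog p m := Nat.clog_pos hp.one_lt h3
      obtain ⟨c, hc⟩ : ∃ c, Nat.clog p m = c + 1 := ⟨Nat.clog p m - 1, by omega⟩
      rw [hc] at h4 ⊢
      simp only [Nat.pred_succ] at h4
      rw [pow_succ, mul_comm]
      exact Nat.mul_lt_mul_of_pos_left h4 hp.pos
    · rw [Nat.clog_of_right_le_one h3]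
      have := hp.one_lt
      nlinarith
  · have hnil : IsNilpotent (Cfsg.Agent.H8.shift F m) := ⟨m, Cfsg.Agent.H8.shift_pow_self F m⟩
    refine ⟨Cfsg.Agent.H8.unipOf _ hnil, ?_⟩
    have hu : IsNilpotent (((Cfsg.Agent.H8.unipOf _ hnil : GL (Fin m) F) : Matrix (Fin m) (Fin m) F) - 1) := by
      simpa using hnil
    obtain ⟨h1, h2⟩ := Cfsg.Agent.H8.unip_order p m _ hu
    have h3 := h2 (by simpa using Cfsg.Agent.H8.shift_pow_pred F m hm)
    exact ⟨⟨_, h3⟩, h3 ▸ Nat.le_pow_clog hp.one_lt m⟩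

end Cfsg.Agent.S2368
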