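import Cfsg.Statements.S2384
import Mathlib
import Cfsg.Agent.H8.SemiSimple
import Cfsg.Agent.H8.MonicCount

set_option autoImplicit false
open Cfsg

namespace Cfsg.Agent.S2384

open Polynomial Cfsg.Agent.H8

/-- In `SL_n(q)`, `q` a power of the prime `p`, the number of conjugacy classes of elements of order prime to `p` (the semisimple classes) is `q^(n-1)`. -/
theorem result {F : Type*} [Field F] [Fintype F] {q : ℕ} (hq : Fintype.card F = q) (p : ℕ) [Fact p.Prime] [CharP F p] (n : ℕ) (hn : 1 ≤ n) :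
    Nat.card {c : ConjClasses (Matrix.SpecialLinearGroup (Fin n) F) //
      ∃ g : Matrix.SpecialLinearGroup (Fin n) F, ConjClasses.mk g = c ∧ (orderOf g).Coprime p} = q ^ (n - 1) := by
  classical
  obtain ⟨m, rfl⟩ : ∃ m, n = m + 1 := ⟨n - 1, by omega⟩
  have hinj : Function.Injective (Matrix.SpecialLinearGroup.toGL : Matrix.SpecialLinearGroup (Fin (m + 1)) F →* GL (Fin (m + 1)) F) := by
    intro a b h
    apply Subtype.ext
    exact congrArg Units.val h
  have hcp : ∀ x y : Matrix.SpecialLinearGroup (Fin (m + 1)) F, IsConj x y → (x : Matrix (Fin (m + 1)) (Fin (m + 1)) F).charpoly = (y : Matrix (Fin (m + 1)) (Fin (m + 1)) F).charpoly := by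
    intro x y h
    exact charpoly_eq_of_sl_conj h
  have hne : ∀ x : Matrix.SpecialLinearGroup (Fin (m + 1)) F, (x : Matrix (Fin (m + 1)) (Fin (m + 1)) F).charpoly.coeff 0 = (-1) ^ (m + 1) := by
    intro x
    have h1 := Matrix.det_eq_sign_charpoly_coeff (x : Matrix (Fin (m + 1)) (Fin (m + 1)) F)
    rw [x.2, Fintype.card_fin] at h1
    have h2 : ((-1 : F) ^ (m + 1)) * (-1) ^ (m + 1) = 1 := by
      rw [← mul_pow]; simp
    calc _ = (((-1 : F) ^ (m + 1)) * (-1) ^ (m + 1)) * (x : Matrix (Fin (m + 1)) (Fin (m + 1)) F).charpoly.coeff 0 := by rw [h2, one_mul]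
      _ = (-1) ^ (m + 1) := by rw [mul_assoc, ← h1, mul_one]
  have hex : ∀ g : {g : F[X] // (g.Monic ∧ g.natDegree = m + 1) ∧ g.coeff 0 = (-1) ^ (m + 1)}, ∃ x : Matrix.SpecialLinearGroup (Fin (m + 1)) F, (orderOf x).Coprime p ∧ (x : Matrix (Fin (m + 1)) (Fin (m + 1)) F).charpoly = g.1 := by
    intro g
    obtain ⟨x, hx1, hx2⟩ := exists_semisimple p g.1 g.2.1.1 g.2.1.2 (by rw [g.2.2]; exact pow_ne_zero _ (neg_ne_zero.2 one_ne_zero))
    have hdet : (x : Matrix (Fin (m + 1)) (Fin (m + 1)) F).det = 1 := by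
      rw [Matrix.det_eq_sign_charpoly_coeff, hx2, g.2.2, Fintype.card_fin, ← mul_pow]
      simp
    let y : Matrix.SpecialLinearGroup (Fin (m + 1)) F := ⟨_, hdet⟩
    refine ⟨y, ?_, hx2⟩
    have h1 : Matrix.SpecialLinearGroup.toGL y = x := Units.ext rfl
    rw [← orderOf_injective _ hinj y, h1]
    exact hx1
  choose X hX1 hX2 using hex
  let Φ : {g : F[X] // (g.Monic ∧ g.natDegree = m + 1) ∧ g.coeff 0 = (-1) ^ (m + 1)} → {c : ConjClasses (Matrix.SpecialLinearGroup (Fin (m + 1)) F) // ∃ g : Matrix.SpecialLinearGroup (Fin (m + 1)) F, ConjClasses.mk g = c ∧ (orderOf g).Coprime p} :=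
    fun g => ⟨ConjClasses.mk (X g), X g, rfl, hX1 g⟩
  have hΦ : Function.Bijective Φ := by
    constructor
    · intro g g' h
      have h1 : ConjClasses.mk (X g) = ConjClasses.mk (X g') := congrArg Subtype.val h
      rw [ConjClasses.mk_eq_mk_iff_isConj] at h1
      have h2 := hcp _ _ h1
      rw [hX2, hX2] at h2
      exact Subtype.ext h2
    · rintro ⟨c, x, rfl, hx⟩
      refine ⟨⟨(x : Matrix (Fin (m + 1)) (Fin (m + 1)) F).charpoly, ⟨Matrix.charpoly_monic _, ?_⟩, hne x⟩, ?_⟩
      · rw [Matrix.charpoly_natDegree_eq_dim, Fintype.card_fin]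
      · apply Subtype.ext
        show ConjClasses.mk (X _) = ConjClasses.mk x
        rw [ConjClasses.mk_eq_mk_iff_isConj]
        apply sl_conj_of_gl_conj p _ _ (hX1 _)
        apply gl_conj_of_charpoly_eq p _ _ (by rw [orderOf_injective _ hinj]; exact hX1 _) (by rw [orderOf_injective _ hinj]; exact hx)
        show ((X _ : Matrix.SpecialLinearGroup (Fin (m + 1)) F) : Matrix (Fin (m + 1)) (Fin (m + 1)) F).charpoly = _
        rw [hX2]
        rfl
  rw [← Nat.card_congr (Equiv.ofBijective Φ hΦ), card_monic_coeff m (fun a => a = (-1) ^ (m + 1)), Nat.card_eq_fintype_card (α := F), hq]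
  simp

end Cfsg.Agent.S2384
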