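import Cfsg.Statements.S2387
import Mathlib
import Cfsg.Agent.H8.SemiSimple
import Cfsg.Agent.H8.MonicCount

set_option autoImplicit false
open scoped MatrixGroups
open Cfsg

namespace Cfsg.Agent.S2387

open Polynomial Cfsg.Agent.H8

/-- In `GL_n(q)` with `n ≥ 1`, `q` a power of the prime `p`, the number of conjugacy classes of elements of order prime to `p` (diagonalisable over the algebraic closure; determined by the characteristic polynomial) is `(q - 1) q^(n-1)`. -/
theorem result {F : Type*} [Field F] [Fintype F] {q : ℕ} (hq : Fintype.card F = q) (p : ℕ) [Fact p.Prime] [CharP F p] (n : ℕ) (hn : 1 ≤ n) :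
    Nat.card {c : ConjClasses (GL (Fin n) F) // ∃ g : GL (Fin n) F, ConjClasses.mk g = c ∧ (orderOf g).Coprime p} = (q - 1) * q ^ (n - 1) := by
  classical
  obtain ⟨m, rfl⟩ : ∃ m, n = m + 1 := ⟨n - 1, by omega⟩
  have hcp : ∀ x y : GL (Fin (m + 1)) F, IsConj x y → (x : Matrix (Fin (m + 1)) (Fin (m + 1)) F).charpoly = (y : Matrix (Fin (m + 1)) (Fin (m + 1)) F).charpoly := by
    intro x y h
    exact charpoly_eq_of_gl_conj h
  have hne : ∀ x : GL (Fin (m + 1)) F, (x : Matrix (Fin (m + 1)) (Fin (m + 1)) F).charpoly.coeff 0 ≠ 0 := by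
    intro x h
    have h1 := Matrix.det_eq_sign_charpoly_coeff (x : Matrix (Fin (m + 1)) (Fin (m + 1)) F)
    rw [h, mul_zero] at h1
    have h2 : IsUnit (x : Matrix (Fin (m + 1)) (Fin (m + 1)) F).det := (Matrix.isUnit_iff_isUnit_det _).1 x.isUnit
    rw [h1] at h2
    exact not_isUnit_zero h2
  have hex : ∀ g : {g : F[X] // (g.Monic ∧ g.natDegree = m + 1) ∧ g.coeff 0 ≠ 0}, ∃ x : GL (Fin (m + 1)) F, (orderOf x).Coprime p ∧ (x : Matrix (Fin (m + 1)) (Fin (m + 1)) F).charpoly = g.1 :=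
    fun g => exists_semisimple p g.1 g.2.1.1 g.2.1.2 g.2.2
  choose X hX1 hX2 using hex
  let Φ : {g : F[X] // (g.Monic ∧ g.natDegree = m + 1) ∧ g.coeff 0 ≠ 0} → {c : ConjClasses (GL (Fin (m + 1)) F) // ∃ g : GL (Fin (m + 1)) F, ConjClasses.mk g = c ∧ (orderOf g).Coprime p} :=
    fun g => ⟨ConjClasses.mk (X g), X g, rfl, hX1 g⟩
  have hΦ : Function.Bijective Φ := by
    constructor
    · intro g g' h
      have h1 : ConjClasses.mk (X g) = ConjClasses.mk (X g') := congrArg Subtype.val h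
      rw [ConjClasses.mk_eq_mk_iff_isConj] at h1
      have h2 := hcp _ _ h1
      rw [hX2, hX2] at h2
      exact Subtype.ext h2
    · rintro ⟨c, x, rfl, hx⟩
      refine ⟨⟨(x : Matrix (Fin (m + 1)) (Fin (m + 1)) F).charpoly, ⟨Matrix.charpoly_monic _, ?_⟩, hne x⟩, ?_⟩
      · rw [Matrix.charpoly_natDegree_eq_dim, Fintype.card_fin]
      · apply Subtype.ext
        show ConjClasses.mk (X _) = ConjClasses.mk x
        rw [ConjClasses.mk_eq_mk_iff_isConj]
        apply gl_conj_of_charpoly_eq p _ _ (hX1 _) hx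
        rw [hX2]
  rw [← Nat.card_congr (Equiv.ofBijective Φ hΦ), card_monic_coeff m (fun a => a ≠ 0), card_ne_zero, Nat.card_eq_fintype_card, hq]
  simp

end Cfsg.Agent.S2387
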