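import Cfsg.Statements.S2402
import Mathlib
import Cfsg.Agent.H8.SLGen

set_option autoImplicit false
open Cfsg

namespace Cfsg.Agent.S2402

open Cfsg.Agent.H8.SLn

theorem add_top {K : Type*} [Field K] [Fintype K] (A : AddSubgroup K) (c : K) (hc : c ≠ 0) (h : ∀ s : K, s ≠ 0 → s * s * c ∈ A) : A = ⊤ := by
  rw [eq_top_iff]
  intro t _
  have h' : ∀ s : K, s * s * c ∈ A := by
    intro s
    by_cases hs : s = 0
    · rw [hs, zero_mul, zero_mul]; exact A.zero_mem
    · exact h s hs
  by_cases h2 : ringChar K = 2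
  · obtain ⟨s, hs⟩ := FiniteField.isSquare_of_char_two h2 (t / c)
    have := h' s
    rwa [← hs, div_mul_cancel₀ _ hc] at this
  · obtain ⟨a, b, hab⟩ := FiniteField.exists_root_sum_quadratic (R := K) (f := Polynomial.X ^ 2) (g := Polynomial.X ^ 2 - Polynomial.C (t / c))
      (by simp) (by rw [Polynomial.degree_X_pow_sub_C (by norm_num)]; rfl) (FiniteField.odd_card_of_char_ne_two h2)
    simp only [Polynomial.eval_pow, Polynomial.eval_X, Polynomial.eval_sub, Polynomial.eval_C] at hab
    have h3 : t = a * a * c + b * b * c := by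
      field_simp at hab
      linear_combination -hab
    rw [h3]
    exact A.add_mem (h' a) (h' b)

theorem diag_conj {K : Type*} [Field K] {ι : Type*} [Fintype ι] [DecidableEq ι] (d : Matrix.SpecialLinearGroup ι K) (δ : ι → K) (hd : (d : Matrix ι ι K) = Matrix.diagonal δ)
    {i j : ι} (hij : i ≠ j) (a b : K) (h : δ i * a = b * δ j) :
    d * Matrix.SpecialLinearGroup.transvection hij a * d⁻¹ = Matrix.SpecialLinearGroup.transvection hij b := by
  apply conj_transv d hij hij (δ i) (δ j) a b _ _ h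
  · intro k
    rw [hd, Matrix.diagonal_apply]
    by_cases hk : k = i
    · subst hk; simp
    · simp [hk]
  · intro l
    rw [hd, Matrix.diagonal_apply]
    by_cases hk : l = j
    · subst hk; simp
    · simp [hk, Ne.symm hk]

/-- Explicit two-element generation of `PSL_{n+1}(K)` for a finite field `K` with more than three elements: let `k` generate the multiplicative group of `K`, `h = diag(k, k⁻¹, 1, …, 1)`, `x = 1 + E₁₂` (the elementary transvection) and `w` the monomial matrix with entries `1` in positions `(i, i+1)` and `(−1)^n` in position `(n+1, 1)`. Then `h` and `x·w` generate `SL_{n+1}(K)` modulo its centre: the subgroup they generate together with the centre is everything. -/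
theorem result {K : Type*} [Field K] [Fintype K] (hK : 3 < Fintype.card K) (n : ℕ) (hn : 1 ≤ n)
    (k : Kˣ) (hk : ∀ u : Kˣ, u ∈ Subgroup.zpowers k)
    (h x w : Matrix.SpecialLinearGroup (Fin (n + 1)) K)
    (hh : (h : Matrix (Fin (n + 1)) (Fin (n + 1)) K) =
      Matrix.diagonal (fun i => if i.val = 0 then (k : K) else if i.val = 1 then ((k⁻¹ : Kˣ) : K) else 1))
    (hx : (x : Matrix (Fin (n + 1)) (Fin (n + 1)) K) = Matrix.transvection (0 : Fin (n + 1)) (1 : Fin (n + 1)) 1)
    (hw : (w : Matrix (Fin (n + 1)) (Fin (n + 1)) K) =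
      Matrix.of (fun i j => if j.val = i.val + 1 then 1 else if i.val = n ∧ j.val = 0 then (-1) ^ n else 0)) :
    Subgroup.closure ({h, x * w} : Set (Matrix.SpecialLinearGroup (Fin (n + 1)) K)) ⊔
      Subgroup.center (Matrix.SpecialLinearGroup (Fin (n + 1)) K) = ⊤ := by
  classical
  have h01 : (0 : Fin (n + 1)) ≠ 1 := by
    intro h
    have := congrArg Fin.val h
    rw [Fin.val_one', Fin.val_zero, Nat.mod_eq_of_lt (by omega)] at this
    omega
  have hv1 : (1 : Fin (n + 1)).val = 1 := by
    rw [Fin.val_one', Nat.mod_eq_of_lt (by omega)]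
  have hx1 : x = Matrix.SpecialLinearGroup.transvection h01 1 := by
    apply Subtype.ext
    rw [hx, Matrix.SpecialLinearGroup.transvection_coe]
    rfl
  have hk0 : (k : K) ≠ 0 := k.ne_zero
  have hcardK : orderOf k = Fintype.card K - 1 := by
    rw [← Fintype.card_units]
    have h1 : Subgroup.zpowers k = ⊤ := by
      rw [eq_top_iff]; intro u _; exact hk u
    rw [← Nat.card_zpowers, h1, Subgroup.card_top, Nat.card_eq_fintype_card]
  have hk1 : (k : K) ≠ 1 := by
    intro h
    have : k = 1 := Units.ext h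
    rw [this, orderOf_one] at hcardK
    omega
  have hk2 : (k : K) * k ≠ 1 := by
    intro h
    have h1 : k ^ 2 = 1 := Units.ext (by rw [sq]; exact h)
    have h2 := orderOf_dvd_of_pow_eq_one h1
    rw [hcardK] at h2
    have := Nat.le_of_dvd (by norm_num) h2
    omega
  set G := Subgroup.closure ({h, x * w} : Set (Matrix.SpecialLinearGroup (Fin (n + 1)) K)) with hG
  have hhG : h ∈ G := Subgroup.subset_closure (by simp)
  have hzG : x * w ∈ G := Subgroup.subset_closure (by simp)
  let δ : Fin (n + 1) → K := fun i => if i.val = 0 then (k : K) else if i.val = 1 then ((k⁻¹ : Kˣ) : K) else 1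
  let δ' : Fin (n + 1) → K := fun i => if i.val = n then (k : K) else if i.val = 0 then ((k⁻¹ : Kˣ) : K) else 1
  -- w h w⁻¹ is diagonal
  have hd : ((w * h * w⁻¹ : Matrix.SpecialLinearGroup (Fin (n + 1)) K) : Matrix (Fin (n + 1)) (Fin (n + 1)) K) = Matrix.diagonal δ' := by
    have h1 : (w : Matrix (Fin (n + 1)) (Fin (n + 1)) K) * (h : Matrix (Fin (n + 1)) (Fin (n + 1)) K) = Matrix.diagonal δ' * (w : Matrix (Fin (n + 1)) (Fin (n + 1)) K) := by
      rw [hh]
      ext i j
      rw [Matrix.mul_diagonal, Matrix.diagonal_mul, hw, Matrix.of_apply]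
      have hi := i.2
      have hj := j.2
      simp only [δ']
      by_cases c1 : j.val = i.val + 1
      · rw [if_pos c1]
        have e1 : i.val ≠ n := by omega
        have e2 : j.val ≠ 0 := by omega
        rw [if_neg e2, if_neg e1]
        by_cases e3 : i.val = 0
        · rw [if_pos (by omega), if_pos e3]; ring
        · rw [if_neg (by omega), if_neg e3]
      · rw [if_neg c1]
        by_cases c2 : i.val = n ∧ j.val = 0
        · rw [if_pos c2, if_pos c2.2, if_pos c2.1, mul_comm]
        · rw [if_neg c2, zero_mul, mul_zero]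
    rw [Matrix.SpecialLinearGroup.coe_mul, Matrix.SpecialLinearGroup.coe_mul, h1, mul_assoc, ← Matrix.SpecialLinearGroup.coe_mul, mul_inv_cancel, Matrix.SpecialLinearGroup.coe_one, mul_one]
  obtain ⟨d, hddef⟩ : ∃ d, d = w * h * w⁻¹ := ⟨_, rfl⟩
  rw [← hddef] at hd
  have hδ0 : δ 0 = k := by simp [δ]
  have hδ1 : δ 1 = ((k⁻¹ : Kˣ) : K) := by
    simp only [δ]
    rw [if_neg (by omega), if_pos hv1]
  have hδ'0 : δ' 0 = ((k⁻¹ : Kˣ) : K) := by
    simp only [δ', Fin.val_zero]
    rw [if_neg (by omega)]; simp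
  have hδ'1 : δ' 1 = 1 ∨ δ' 1 = k := by
    simp only [δ', hv1]
    by_cases h1 : 1 = n
    · right; simp [h1]
    · left; simp [h1]
  have hδ'1ne : δ' 1 ≠ 0 := by
    rcases hδ'1 with h1 | h1 <;> rw [h1]
    · exact one_ne_zero
    · exact hk0
  have hkinv : ((k⁻¹ : Kˣ) : K) * k = 1 := Units.inv_mul k
  have hkinv0 : ((k⁻¹ : Kˣ) : K) ≠ 0 := (k⁻¹).ne_zero
  -- conjugation by h
  have hconjh : ∀ t : K, h * Matrix.SpecialLinearGroup.transvection h01 t * h⁻¹ = Matrix.SpecialLinearGroup.transvection h01 (k * k * t) := by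
    intro t
    apply diag_conj h δ hh h01
    rw [hδ0, hδ1]
    linear_combination -((k : K) * t) * hkinv
  have hconjd : ∀ t : K, d * Matrix.SpecialLinearGroup.transvection h01 t * d⁻¹ = Matrix.SpecialLinearGroup.transvection h01 (((k⁻¹ : Kˣ) : K) * (δ' 1)⁻¹ * t) := by
    intro t
    apply diag_conj d δ' hd h01
    rw [hδ'0]
    field_simp
  have hcommhd : h * d = d * h := by
    apply Subtype.ext
    rw [Matrix.SpecialLinearGroup.coe_mul, Matrix.SpecialLinearGroup.coe_mul, hd, hh, Matrix.diagonal_mul_diagonal, Matrix.diagonal_mul_diagonal]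
    congr 1
    funext i
    ring
  let T : K → Matrix.SpecialLinearGroup (Fin (n + 1)) K := fun t => Matrix.SpecialLinearGroup.transvection h01 t
  have hT0 : T 0 = 1 := by
    apply Subtype.ext
    show (Matrix.SpecialLinearGroup.transvection h01 (0 : K)).1 = 1
    rw [Matrix.SpecialLinearGroup.transvection_coe]
    simp
  have hTadd : ∀ a b, T (a + b) = T a * T b := fun a b => transvection_add h01 a b
  have hTinv : ∀ a, (T a)⁻¹ = T (-a) := fun a => Matrix.SpecialLinearGroup.transvection_inv h01 a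
  have hconjd' : ∀ t : K, d⁻¹ * T t * d = T ((k : K) * δ' 1 * t) := by
    intro t
    have := hconjd ((k : K) * δ' 1 * t)
    have e : ((k⁻¹ : Kˣ) : K) * (δ' 1)⁻¹ * ((k : K) * δ' 1 * t) = t := by
      calc _ = (((k⁻¹ : Kˣ) : K) * k) * ((δ' 1)⁻¹ * δ' 1) * t := by ring
        _ = t := by rw [hkinv, inv_mul_cancel₀ hδ'1ne]; ring
    rw [e] at this
    show d⁻¹ * Matrix.SpecialLinearGroup.transvection h01 t * d = Matrix.SpecialLinearGroup.transvection h01 _
    rw [← this]; group
  -- the element y = z h z⁻¹ = d * T c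
  let c : K := (k : K) * δ' 1 - 1
  have hc0 : c ≠ 0 := by
    intro h0
    have h1 : (k : K) * δ' 1 = 1 := sub_eq_zero.1 h0
    rcases hδ'1 with h2 | h2
    · rw [h2, mul_one] at h1; exact hk1 h1
    · rw [h2] at h1; exact hk2 h1
  have hy : (x * w) * h * (x * w)⁻¹ = d * T c := by
    have h1 : (x * w) * h * (x * w)⁻¹ = d * (d⁻¹ * T 1 * d) * (T 1)⁻¹ := by
      have : x = T 1 := hx1
      rw [← this, hddef]; group
    rw [h1, hconjd', hTinv, mul_assoc, ← hTadd]
    congr 2
    show (k : K) * δ' 1 * 1 + -1 = (k : K) * δ' 1 - 1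
    ring
  have hyG : d * T c ∈ G := by
    rw [← hy]
    exact G.mul_mem (G.mul_mem hzG hhG) (G.inv_mem hzG)
  have hcomm : h * (d * T c) * h⁻¹ * (d * T c)⁻¹ = T (((k⁻¹ : Kˣ) : K) * (δ' 1)⁻¹ * ((k * k - 1) * c)) := by
    have h1 : h * (d * T c) * h⁻¹ * (d * T c)⁻¹ = d * ((h * T c * h⁻¹) * (T c)⁻¹) * d⁻¹ := by
      have h2 : h * (d * T c) = d * (h * T c) := by rw [← mul_assoc, hcommhd, mul_assoc]
      rw [h2]; group
    rw [h1]
    have h3 : h * T c * h⁻¹ = T (k * k * c) := hconjh c
    rw [h3, hTinv, ← hTadd]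
    have h4 := hconjd ((k : K) * k * c + -c)
    have h5 : (k : K) * k * c + -c = (k * k - 1) * c := by ring
    rw [h5] at h4 ⊢
    exact h4
  have hTG : T (((k⁻¹ : Kˣ) : K) * (δ' 1)⁻¹ * ((k * k - 1) * c)) ∈ G := by
    rw [← hcomm]
    exact G.mul_mem (G.mul_mem (G.mul_mem hhG hyG) (G.inv_mem hhG)) (G.inv_mem hyG)
  set c' : K := ((k⁻¹ : Kˣ) : K) * (δ' 1)⁻¹ * ((k * k - 1) * c) with hc'
  have hc'0 : c' ≠ 0 := by
    rw [hc']
    exact mul_ne_zero (mul_ne_zero hkinv0 (inv_ne_zero hδ'1ne)) (mul_ne_zero (sub_ne_zero.2 hk2) hc0)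
  let A : AddSubgroup K :=
    { carrier := {t | T t ∈ G}
      add_mem' := by
        intro a b ha hb
        show T (a + b) ∈ G
        rw [hTadd]
        exact G.mul_mem ha hb
      zero_mem' := by
        show T 0 ∈ G
        rw [hT0]
        exact G.one_mem
      neg_mem' := by
        intro a ha
        show T (-a) ∈ G
        rw [← hTinv]
        exact G.inv_mem ha }
  have hpow : ∀ m : ℕ, ∀ t : K, h ^ m * T t * (h ^ m)⁻¹ = T ((k : K) ^ m * (k : K) ^ m * t) := by
    intro m
    induction m with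
    | zero => intro t; simp
    | succ m ih =>
      intro t
      have h1 : h ^ (m + 1) * T t * (h ^ (m + 1))⁻¹ = h * (h ^ m * T t * (h ^ m)⁻¹) * h⁻¹ := by
        rw [pow_succ']; group
      rw [h1, ih]
      have := hconjh ((k : K) ^ m * (k : K) ^ m * t)
      have e : (k : K) ^ (m + 1) * (k : K) ^ (m + 1) * t = k * k * ((k : K) ^ m * (k : K) ^ m * t) := by ring
      rw [e]
      exact this
  have hA : A = ⊤ := by
    apply add_top A c' hc'0
    intro s hs
    have h1 : Units.mk0 s hs ∈ Subgroup.zpowers k := hk _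
    rw [mem_zpowers_iff_mem_range_orderOf] at h1
    obtain ⟨m, -, hm⟩ := Finset.mem_image.1 h1
    have h2 : (k : K) ^ m = s := by
      have := congrArg Units.val hm
      rwa [Units.val_pow_eq_pow_val] at this
    show T (s * s * c') ∈ G
    rw [← h2, ← hpow]
    exact G.mul_mem (G.mul_mem (G.pow_mem hhG _) hTG) (G.inv_mem (G.pow_mem hhG _))
  have hTall : ∀ t, T t ∈ G := by
    intro t
    have : t ∈ A := by rw [hA]; exact AddSubgroup.mem_top t
    exact this
  have hxG : x ∈ G := by rw [hx1]; exact hTall 1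
  have hwG : w ∈ G := by
    have : w = x⁻¹ * (x * w) := by group
    rw [this]
    exact G.mul_mem (G.inv_mem hxG) hzG
  have htop := gen_of_w n hn w hw G hwG h01 hTall
  rw [htop]
  simp

end Cfsg.Agent.S2402
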