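import Cfsg.Statements.S2403
import Mathlib
import Cfsg.Agent.H8.SLGen

set_option autoImplicit false
open Cfsg

namespace Cfsg.Agent.S2403

open Cfsg.Agent.H8.SLn

/-- Explicit two-element generation of `PSL_{n+1}(K)` over the fields with two or three elements: with `x = 1 + E₁₂` and `w` the monomial matrix with entries `1` in positions `(i, i+1)` and `(−1)^n` in position `(n+1, 1)`, the elements `x` and `w` generate `SL_{n+1}(K)` modulo its centre. -/
theorem result {K : Type*} [Field K] [Fintype K] (hK : Fintype.card K ≤ 3) (n : ℕ) (hn : 1 ≤ n)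
    (x w : Matrix.SpecialLinearGroup (Fin (n + 1)) K)
    (hx : (x : Matrix (Fin (n + 1)) (Fin (n + 1)) K) = Matrix.transvection (0 : Fin (n + 1)) (1 : Fin (n + 1)) 1)
    (hw : (w : Matrix (Fin (n + 1)) (Fin (n + 1)) K) =
      Matrix.of (fun i j => if j.val = i.val + 1 then 1 else if i.val = n ∧ j.val = 0 then (-1) ^ n else 0)) :
    Subgroup.closure ({x, w} : Set (Matrix.SpecialLinearGroup (Fin (n + 1)) K)) ⊔
      Subgroup.center (Matrix.SpecialLinearGroup (Fin (n + 1)) K) = ⊤ := by
  have h01 : (0 : Fin (n + 1)) ≠ 1 := by
    intro h
    have := congrArg Fin.val h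
    rw [Fin.val_one', Fin.val_zero, Nat.mod_eq_of_lt (by omega)] at this
    omega
  have hx1 : x = Matrix.SpecialLinearGroup.transvection h01 1 := by
    apply Subtype.ext
    rw [hx, Matrix.SpecialLinearGroup.transvection_coe]
    rfl
  have hprime : (Nat.card K).Prime := by
    rw [Nat.card_eq_fintype_card]
    have h1 : 1 < Fintype.card K := Fintype.one_lt_card
    rcases (by omega : Fintype.card K = 2 ∨ Fintype.card K = 3) with h | h
    · rw [h]; exact Nat.prime_two
    · rw [h]; exact Nat.prime_three
  set G := Subgroup.closure ({x, w} : Set (Matrix.SpecialLinearGroup (Fin (n + 1)) K)) with hG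
  let A : AddSubgroup K :=
    { carrier := {t | Matrix.SpecialLinearGroup.transvection h01 t ∈ G}
      add_mem' := by
        intro a b ha hb
        show Matrix.SpecialLinearGroup.transvection h01 (a + b) ∈ G
        rw [transvection_add]
        exact Subgroup.mul_mem _ ha hb
      zero_mem' := by
        show Matrix.SpecialLinearGroup.transvection h01 (0 : K) ∈ G
        have : Matrix.SpecialLinearGroup.transvection h01 (0 : K) = 1 := by
          apply Subtype.ext
          rw [Matrix.SpecialLinearGroup.transvection_coe]
          simp
        rw [this]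
        exact Subgroup.one_mem _
      neg_mem' := by
        intro a ha
        show Matrix.SpecialLinearGroup.transvection h01 (-a) ∈ G
        rw [← Matrix.SpecialLinearGroup.transvection_inv]
        exact Subgroup.inv_mem _ ha }
  have h1A : (1 : K) ∈ A := by
    show Matrix.SpecialLinearGroup.transvection h01 (1 : K) ∈ G
    rw [← hx1]
    exact Subgroup.subset_closure (by simp)
  have hA : A = ⊤ := by
    haveI : Fact (Nat.card K).Prime := ⟨hprime⟩
    rcases AddSubgroup.eq_bot_or_eq_top_of_prime_card A with h | h
    · exfalso
      rw [h] at h1A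
      exact one_ne_zero (AddSubgroup.mem_bot.1 h1A)
    · exact h
  have htop := gen_of_w n hn w hw G (Subgroup.subset_closure (by simp)) h01
    (fun t => by
      have : t ∈ A := by rw [hA]; exact AddSubgroup.mem_top t
      exact this)
  rw [htop]
  simp

end Cfsg.Agent.S2403
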