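import Cfsg.Statements.S2410
import Mathlib
import Cfsg.Agent.H8.SzN
open Cfsg.Agent.H8.Suz
open scoped Pointwise

set_option autoImplicit false
open Cfsg

namespace Cfsg.Agent.S2410



/-- The Suzuki group over the field with `2^(2m+1)` elements, `m ≥ 1` (realised as the stabiliser in `SL₄` of the Suzuki–Tits ovoid), is generated by two of its elements. -/
theorem result {F : Type*} [Field F] [Fintype F] {m : ℕ} (hm : 1 ≤ m) (hF : Fintype.card F = 2 ^ (2 * m + 1)) :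
    ∃ a b : ↥(Cfsg.Sz F m), Subgroup.closure ({a, b} : Set ↥(Cfsg.Sz F m)) = ⊤ := by
  haveI : Cfsg.Agent.H8.Suz.Hyp F m := ⟨hm, hF⟩
  obtain ⟨k₀, hk₀⟩ := IsCyclic.exists_generator (α := Fˣ)
  refine ⟨T m k₀, U m 1 0 * W F m, ?_⟩
  set M := Subgroup.closure ({T m k₀, U m 1 0 * W F m} : Set ↥(Cfsg.Sz F m)) with hM
  have hT : ∀ k : Fˣ, T m k ∈ M := by
    intro k
    obtain ⟨n, rfl⟩ := hk₀ k
    show T m (k₀ ^ n) ∈ M
    rw [map_zpow]
    exact M.zpow_mem (Subgroup.subset_closure (by simp)) n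
  have hb : U m 1 0 * W F m ∈ M := Subgroup.subset_closure (by simp)
  have h1 : ∀ k : Fˣ, U m 1 0 * T m k * (U m 1 0)⁻¹ ∈ M := by
    intro k
    have h2 := M.mul_mem (M.mul_mem hb (hT k⁻¹)) (M.inv_mem hb)
    have h3 : U m 1 0 * W F m * T m k⁻¹ * (U m 1 0 * W F m)⁻¹ = U m 1 0 * (W F m * T m k⁻¹ * (W F m)⁻¹) * (U m 1 0)⁻¹ := by group
    rw [h3, T_conj_W, ← map_inv, inv_inv] at h2
    exact h2
  -- first coordinates
  have h5 : ∀ k : Fˣ, ∃ e, U m (1 + (k : F)) e ∈ M := by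
    intro k
    have h6 := M.mul_mem (h1 k) (M.inv_mem (hT k))
    have h7 : U m 1 0 * T m k * (U m 1 0)⁻¹ * (T m k)⁻¹ = U m 1 0 * (T m k * (U m 1 0)⁻¹ * (T m k)⁻¹) := by group
    rw [h7, U_inv, T_conj_U, U_mul, mul_one] at h6
    exact ⟨_, h6⟩
  have h8 : ∀ a : F, a ≠ 1 → ∃ e, U m a e ∈ M := by
    intro a ha
    have h9 : a + 1 ≠ 0 := fun h => ha (eq_of_add_zero m h)
    obtain ⟨e, he⟩ := h5 (Units.mk0 _ h9)
    refine ⟨e, ?_⟩
    convert he using 2
    rw [Units.val_mk0]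
    linear_combination (-1) * (two0 m : (2 : F) = 0)
  have h4 : ∀ a : F, ∃ e, U m a e ∈ M := by
    intro a
    by_cases ha : a = 1
    · obtain ⟨y, hy0, hy1⟩ := exists_ne01 (F := F) (by have := card_ge (F := F) m; omega)
      obtain ⟨e, he⟩ := h8 y hy1
      obtain ⟨f, hf⟩ := h8 (y + 1) (by
        intro h
        apply hy0
        linear_combination h)
      have := M.mul_mem he hf
      rw [U_mul] at this
      have e1 : y + (y + 1) = a := by
        rw [ha]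
        linear_combination (y) * (two0 m : (2 : F) = 0)
      rw [e1] at this
      exact ⟨_, this⟩
    · exact h8 a ha
  have hQ : Q F m ≤ M := Q_le_of m h4
  apply over_Q m hQ
  refine ⟨_, hb, ?_⟩
  rw [mul_smul, W_oi, U_op0]
  exact op_ne_oi m _ _

end Cfsg.Agent.S2410
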