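import Cfsg.Statements.S2428
import Mathlib
import Cfsg.Agent.H8.SL2h
open Cfsg.Agent.H8.SL2

set_option autoImplicit false
open Cfsg

namespace Cfsg.Agent.S2428



/-- Let F be a finite field with q elements, q odd, and let d be a diagonal element of SL₂ over F whose diagonal entry a has a² ≠ 1 (such d exist exactly when q > 3). Then the centraliser of d is precisely the diagonal subgroup T; the normaliser of T has order 2(q − 1) and exactly (q + 5)/2 conjugacy classes; and every element of that normaliser outside T has square equal to −1. -/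
theorem result {F : Type*} [Field F] [Fintype F] (hodd : Odd (Fintype.card F))
    (d : Matrix.SpecialLinearGroup (Fin 2) F) (hd01 : (d : Matrix (Fin 2) (Fin 2) F) 0 1 = 0) (hd10 : (d : Matrix (Fin 2) (Fin 2) F) 1 0 = 0) (hda : (d : Matrix (Fin 2) (Fin 2) F) 0 0 ^ 2 ≠ 1) :
    (∀ g : Matrix.SpecialLinearGroup (Fin 2) F, g ∈ Subgroup.centralizer ({d} : Set (Matrix.SpecialLinearGroup (Fin 2) F)) ↔ ((g : Matrix (Fin 2) (Fin 2) F) 0 1 = 0 ∧ (g : Matrix (Fin 2) (Fin 2) F) 1 0 = 0)) ∧
    Nat.card (Subgroup.normalizer ((Subgroup.centralizer ({d} : Set (Matrix.SpecialLinearGroup (Fin 2) F))) : Set (Matrix.SpecialLinearGroup (Fin 2) F))) = 2 * (Fintype.card F - 1) ∧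
    Nat.card (ConjClasses (Subgroup.normalizer ((Subgroup.centralizer ({d} : Set (Matrix.SpecialLinearGroup (Fin 2) F))) : Set (Matrix.SpecialLinearGroup (Fin 2) F)))) = (Fintype.card F + 5) / 2 ∧
    ∀ g : Matrix.SpecialLinearGroup (Fin 2) F, g ∈ Subgroup.normalizer ((Subgroup.centralizer ({d} : Set (Matrix.SpecialLinearGroup (Fin 2) F))) : Set (Matrix.SpecialLinearGroup (Fin 2) F)) →
      g ∉ Subgroup.centralizer ({d} : Set (Matrix.SpecialLinearGroup (Fin 2) F)) → ((g * g) : Matrix (Fin 2) (Fin 2) F) = -1 := by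
  have h2 := ringChar_ne_two_of_odd hodd
  have hdet := det_eq d
  rw [hd01, zero_mul, sub_zero] at hdet
  set a := d.1 0 0 with ha
  have ha0 : a ≠ 0 := by intro h; rw [h, zero_mul] at hdet; exact zero_ne_one hdet
  have hd11 : d.1 1 1 = a⁻¹ := eq_inv_of_mul_eq_one_right hdet
  have hdd : d = dg (Units.mk0 a ha0) := by
    apply Subtype.ext
    rw [dg_val]
    ext i j
    fin_cases i <;> fin_cases j
    · rfl
    · exact hd01
    · exact hd10
    · exact hd11
  have hda' : ((Units.mk0 a ha0 : Fˣ) : F) ^ 2 ≠ 1 := hda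
  have hns := dg_ns hda'
  have htr : (dg (Units.mk0 a ha0)).1.trace ^ 2 ≠ 4 := by
    rw [dg_trace]
    intro h
    apply hda
    have h3 : a * (↑(Units.mk0 a ha0)⁻¹ : F) = 1 := by rw [Units.val_inv_eq_inv_val]; exact mul_inv_cancel₀ ha0
    have h4 : (a ^ 2 - 1) ^ 2 = 0 := by
      have h5 : ((a : F) + (↑(Units.mk0 a ha0)⁻¹ : F)) ^ 2 = 4 := h
      generalize (↑(Units.mk0 a ha0)⁻¹ : F) = b at h3 h5
      linear_combination a ^ 2 * h5 + (-(a * b + 1) - 2 * a ^ 2) * h3
    exact sub_eq_zero.1 (pow_eq_zero_iff (two_ne_zero)|>.1 h4)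
  obtain ⟨k1, k2, k3⟩ := norm_struct h2 (dg (Units.mk0 a ha0)) hns htr
  have hc := card_cent_dg (Units.mk0 a ha0) hda'
  rw [Nat.card_eq_fintype_card (α := F)] at hc
  have hq : 1 < Fintype.card F := Fintype.one_lt_card
  refine ⟨?_, ?_, ?_, ?_⟩
  · intro g
    rw [hdd, cent_dg _ hda']
    constructor
    · rintro ⟨b, rfl⟩
      show (dg b).1 0 1 = 0 ∧ (dg b).1 1 0 = 0
      rw [dg_val]; simp
    · rintro ⟨h01, h10⟩
      have h6 := det_eq g
      have h01' : g.1 0 1 = 0 := h01
      have h10' : g.1 1 0 = 0 := h10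
      rw [h01', zero_mul, sub_zero] at h6
      have h0 : g.1 0 0 ≠ 0 := by intro h; rw [h, zero_mul] at h6; exact zero_ne_one h6
      refine ⟨Units.mk0 _ h0, ?_⟩
      apply Subtype.ext
      show (dg (Units.mk0 _ h0)).1 = g.1
      rw [dg_val]
      ext i j
      fin_cases i <;> fin_cases j
      · rfl
      · exact h01'.symm
      · exact h10'.symm
      · exact (eq_inv_of_mul_eq_one_right h6).symm
  · rw [hdd, k1, hc]
  · rw [hdd]
    rw [hc] at k2
    omega
  · intro g hg hg2
    rw [hdd] at hg hg2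
    exact congrArg Subtype.val (k3 g hg hg2)

end Cfsg.Agent.S2428
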