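import Cfsg.Statements.S2429
import Mathlib
import Cfsg.Agent.H8.SL2h
open Cfsg.Agent.H8.SL2

set_option autoImplicit false
open Cfsg

namespace Cfsg.Agent.S2429



/-- Let F be a finite field with q elements, q odd. Then SL₂ over F contains a cyclic subgroup T′ of order q + 1 (a non-split torus) with the following properties: T′ is its own centraliser, and indeed the centraliser of each element of T′ other than 1 and −1 is exactly T′; every element of SL₂ having no eigenvector in F² is conjugate to an element of T′; the normaliser of T′ has order 2(q + 1) and exactly (q + 7)/2 conjugacy classes; and every element of that normaliser outside T′ has square −1. -/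
theorem result {F : Type*} [Field F] [Fintype F] (hodd : Odd (Fintype.card F)) :
    ∃ T' : Subgroup (Matrix.SpecialLinearGroup (Fin 2) F), IsCyclic T' ∧ Nat.card T' = Fintype.card F + 1 ∧
      Subgroup.centralizer ((T' : Set (Matrix.SpecialLinearGroup (Fin 2) F))) = T' ∧
      (∀ g : Matrix.SpecialLinearGroup (Fin 2) F, g ∈ T' → (g : Matrix (Fin 2) (Fin 2) F) ≠ 1 → (g : Matrix (Fin 2) (Fin 2) F) ≠ -1 → Subgroup.centralizer ({g} : Set (Matrix.SpecialLinearGroup (Fin 2) F)) = T') ∧
      (∀ g : Matrix.SpecialLinearGroup (Fin 2) F, (∀ (c : F) (v : Fin 2 → F), v ≠ 0 → (g : Matrix (Fin 2) (Fin 2) F).mulVec v ≠ c • v) → ∃ h : Matrix.SpecialLinearGroup (Fin 2) F, h * g * h⁻¹ ∈ T') ∧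
      Nat.card (Subgroup.normalizer (T' : Set (Matrix.SpecialLinearGroup (Fin 2) F))) = 2 * (Fintype.card F + 1) ∧
      Nat.card (ConjClasses (Subgroup.normalizer (T' : Set (Matrix.SpecialLinearGroup (Fin 2) F)))) = (Fintype.card F + 7) / 2 ∧
      ∀ g : Matrix.SpecialLinearGroup (Fin 2) F, g ∈ Subgroup.normalizer (T' : Set (Matrix.SpecialLinearGroup (Fin 2) F)) → g ∉ T' → ((g * g) : Matrix (Fin 2) (Fin 2) F) = -1 := by
  have h2 := ringChar_ne_two_of_odd hodd
  obtain ⟨g0, h0⟩ := exists_nonsplit F
  have hns0 := nonsplit_ns g0 h0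
  have ht0 : g0.1.trace ^ 2 ≠ 4 := (nonsplit_ne _ h0).resolve_right h2
  obtain ⟨hcyc, hcard⟩ := cent_nonsplit g0 h0
  obtain ⟨k1, k2, k3⟩ := norm_struct h2 g0 hns0 ht0
  rw [Nat.card_eq_fintype_card (α := F)] at hcard
  refine ⟨Subgroup.centralizer ({g0} : Set (Matrix.SpecialLinearGroup (Fin 2) F)), hcyc, hcard, ?_, ?_, ?_, ?_, ?_, ?_⟩
  · apply le_antisymm
    · apply Subgroup.centralizer_le
      intro y hy
      rw [Set.mem_singleton_iff.1 hy]
      exact Subgroup.mem_centralizer_singleton_iff.2 rfl
    · intro y hy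
      rw [Subgroup.mem_centralizer_iff]
      intro z hz
      exact cent_comm g0 hns0 z y hz hy
  · intro g hg h1 hm1
    have hns : NS g.1 := by
      rw [ns_iff']
      rintro (h | h)
      · exact h1 (congrArg Subtype.val h)
      · exact hm1 (congrArg Subtype.val h)
    exact cent_eq g0 g hns0 hns (Subgroup.mem_centralizer_singleton_iff.1 hg)
  · intro g hg
    apply conj_into h2 g0 g h0
    intro c hc
    obtain ⟨v, hv, hgv⟩ := exists_eig g c hc
    exact hg c v hv hgv
  · rw [k1, hcard]
  · rw [hcard] at k2; omega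
  · intro g hg hg2
    exact congrArg Subtype.val (k3 g hg hg2)

end Cfsg.Agent.S2429
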