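import Cfsg.Statements.S2430
import Mathlib
import Cfsg.Agent.H8.SL2h
open Cfsg.Agent.H8.SL2

set_option autoImplicit false
open Cfsg

namespace Cfsg.Agent.S2430



/-- Let F be a finite field with q elements, q odd, ℓ an odd prime, and P a Sylow ℓ-subgroup of SL₂ over F. If ℓ divides q − 1, the centraliser of P is cyclic of order q − 1 (a split torus) and the normaliser of P has order 2(q − 1); if ℓ divides q + 1, the centraliser of P is cyclic of order q + 1 (a non-split torus) and the normaliser of P has order 2(q + 1). -/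
theorem result {F : Type*} [Field F] [Fintype F] (hodd : Odd (Fintype.card F)) (ℓ : ℕ) [Fact ℓ.Prime] (hℓ : ℓ ≠ 2)
    (P : Sylow ℓ (Matrix.SpecialLinearGroup (Fin 2) F)) :
    (ℓ ∣ Fintype.card F - 1 →
      Nat.card (Subgroup.centralizer ((P : Subgroup (Matrix.SpecialLinearGroup (Fin 2) F)) : Set (Matrix.SpecialLinearGroup (Fin 2) F))) = Fintype.card F - 1 ∧
      IsCyclic (Subgroup.centralizer ((P : Subgroup (Matrix.SpecialLinearGroup (Fin 2) F)) : Set (Matrix.SpecialLinearGroup (Fin 2) F))) ∧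
      Nat.card (Subgroup.normalizer ((P : Subgroup (Matrix.SpecialLinearGroup (Fin 2) F)) : Set (Matrix.SpecialLinearGroup (Fin 2) F))) = 2 * (Fintype.card F - 1)) ∧
    (ℓ ∣ Fintype.card F + 1 →
      Nat.card (Subgroup.centralizer ((P : Subgroup (Matrix.SpecialLinearGroup (Fin 2) F)) : Set (Matrix.SpecialLinearGroup (Fin 2) F))) = Fintype.card F + 1 ∧
      IsCyclic (Subgroup.centralizer ((P : Subgroup (Matrix.SpecialLinearGroup (Fin 2) F)) : Set (Matrix.SpecialLinearGroup (Fin 2) F))) ∧
      Nat.card (Subgroup.normalizer ((P : Subgroup (Matrix.SpecialLinearGroup (Fin 2) F)) : Set (Matrix.SpecialLinearGroup (Fin 2) F))) = 2 * (Fintype.card F + 1)) := by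
  classical
  have h2 := ringChar_ne_two_of_odd hodd
  have h20 : (2 : F) ≠ 0 := Ring.two_ne_zero h2
  have hq : 1 < Fintype.card F := Fintype.one_lt_card
  have hℓp : ℓ.Prime := Fact.out
  have hℓ3 : 3 ≤ ℓ := by
    have := hℓp.two_le; omega
  have hnd : (ℓ ∣ Fintype.card F - 1 ∨ ℓ ∣ Fintype.card F + 1) → ¬ ℓ ∣ 2 * Fintype.card F := by
    intro h h3
    rcases (Nat.Prime.dvd_mul hℓp).1 h3 with h4 | h4
    · have := Nat.le_of_dvd (by norm_num) h4; omega
    · rcases h with h | h
      · have h5 := Nat.dvd_sub h4 h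
        have : Fintype.card F - (Fintype.card F - 1) = 1 := by omega
        rw [this] at h5
        have := Nat.le_of_dvd (by norm_num) h5; omega
      · have h5 := Nat.dvd_sub h h4
        have : Fintype.card F + 1 - (Fintype.card F) = 1 := by omega
        rw [this] at h5
        have := Nat.le_of_dvd (by norm_num) h5; omega
  have main : (ℓ ∣ Fintype.card F - 1 ∨ ℓ ∣ Fintype.card F + 1) → ∃ g : Matrix.SpecialLinearGroup (Fin 2) F, g ∈ (P : Subgroup (Matrix.SpecialLinearGroup (Fin 2) F)) ∧ (∀ y ∈ (P : Subgroup (Matrix.SpecialLinearGroup (Fin 2) F)), y * g = g * y) ∧ orderOf g = ℓ := by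
    intro hdiv
    have hdvd : ℓ ∣ Nat.card (Matrix.SpecialLinearGroup (Fin 2) F) := by
      rw [card_SL2, Nat.card_eq_fintype_card (α := F)]
      have h5 : Fintype.card F ^ 2 - 1 = (Fintype.card F + 1) * (Fintype.card F - 1) := by
        have := Nat.sq_sub_sq (Fintype.card F) 1
        rwa [one_pow] at this
      rw [h5]
      rcases hdiv with h | h
      · exact (h.mul_left _).mul_left _
      · exact (h.mul_right _).mul_left _
    have hPnt : Nontrivial P := (Subgroup.nontrivial_iff_ne_bot _).2 (P.ne_bot_of_dvd_card hdvd)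
    haveI := P.2.center_nontrivial
    have hcp : ℓ ∣ Nat.card (Subgroup.center P) := by
      obtain ⟨n, hn⟩ := IsPGroup.iff_card.1 (P.2.to_subgroup (Subgroup.center P))
      rw [hn]
      apply dvd_pow_self
      rintro rfl
      rw [pow_zero] at hn
      have := Finite.one_lt_card (α := Subgroup.center P)
      omega
    obtain ⟨z, hz⟩ := exists_prime_orderOf_dvd_card' ℓ hcp
    refine ⟨z.1.1, z.1.2, ?_, ?_⟩
    · intro y hy
      have := Subgroup.mem_center_iff.1 z.2 ⟨y, hy⟩
      exact congrArg Subtype.val this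
    · rw [Subgroup.orderOf_coe, Subgroup.orderOf_coe]; exact hz
  have main2 : (ℓ ∣ Fintype.card F - 1 ∨ ℓ ∣ Fintype.card F + 1) → ∀ g : Matrix.SpecialLinearGroup (Fin 2) F, orderOf g = ℓ → NS g.1 ∧ g.1.trace ^ 2 ≠ 4 := by
    intro hdiv g hg
    have hns : NS g.1 := by
      rw [ns_iff']
      rintro (h | h)
      · rw [h, orderOf_one] at hg; omega
      · have : orderOf g ∣ 2 := by
          rw [orderOf_dvd_iff_pow_eq_one, h, sq, neg_mul_neg, one_mul]
        rw [hg] at this
        have := Nat.le_of_dvd (by norm_num) this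
        omega
    refine ⟨hns, ?_⟩
    intro h4
    have h5 : g.1.trace = 2 ∨ g.1.trace = -2 := by
      have : (g.1.trace - 2) * (g.1.trace + 2) = 0 := by linear_combination h4
      rcases mul_eq_zero.1 this with h | h
      · left; exact sub_eq_zero.1 h
      · right; exact eq_neg_of_add_eq_zero_left h
    have h6 := card_cent_unip g hns h5
    rw [if_neg h2, Nat.card_eq_fintype_card (α := F)] at h6
    apply hnd hdiv
    rw [← h6, ← hg]
    have h7 : (⟨g, Subgroup.mem_centralizer_singleton_iff.2 rfl⟩ : Subgroup.centralizer ({g} : Set (Matrix.SpecialLinearGroup (Fin 2) F))) ^ (Nat.card (Subgroup.centralizer ({g} : Set (Matrix.SpecialLinearGroup (Fin 2) F)))) = 1 := pow_card_eq_one'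
    exact orderOf_dvd_of_pow_eq_one (congrArg Subtype.val h7)
  have hordC : ∀ g : Matrix.SpecialLinearGroup (Fin 2) F, orderOf g ∣ Nat.card (Subgroup.centralizer ({g} : Set (Matrix.SpecialLinearGroup (Fin 2) F))) := by
    intro g
    have h7 : (⟨g, Subgroup.mem_centralizer_singleton_iff.2 rfl⟩ : Subgroup.centralizer ({g} : Set (Matrix.SpecialLinearGroup (Fin 2) F))) ^ (Nat.card (Subgroup.centralizer ({g} : Set (Matrix.SpecialLinearGroup (Fin 2) F)))) = 1 := pow_card_eq_one'
    exact orderOf_dvd_of_pow_eq_one (congrArg Subtype.val h7)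
  have h2not : ¬ (ℓ ∣ Fintype.card F - 1 ∧ ℓ ∣ Fintype.card F + 1) := by
    rintro ⟨h, h'⟩
    have h5 := Nat.dvd_sub h' h
    have : Fintype.card F + 1 - (Fintype.card F - 1) = 2 := by omega
    rw [this] at h5
    have := Nat.le_of_dvd (by norm_num) h5; omega
  have tri : ∀ g : Matrix.SpecialLinearGroup (Fin 2) F, NS g.1 → g.1.trace ^ 2 ≠ 4 →
      (IsCyclic (Subgroup.centralizer ({g} : Set (Matrix.SpecialLinearGroup (Fin 2) F))) ∧ Nat.card (Subgroup.centralizer ({g} : Set (Matrix.SpecialLinearGroup (Fin 2) F))) = Fintype.card F - 1) ∨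
      (IsCyclic (Subgroup.centralizer ({g} : Set (Matrix.SpecialLinearGroup (Fin 2) F))) ∧ Nat.card (Subgroup.centralizer ({g} : Set (Matrix.SpecialLinearGroup (Fin 2) F))) = Fintype.card F + 1) := by
    intro g hg h4
    rcases trichotomy g hg with ⟨a, ha, hga⟩ | h | h
    · left
      refine ⟨isCyclic_cent_split g a ha hga, ?_⟩
      rw [card_cent_conj hga, card_cent_dg a ha, Nat.card_eq_fintype_card (α := F)]
    · exfalso
      apply h4
      rcases h with h | h <;> rw [h] <;> norm_num
    · right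
      have := cent_nonsplit g h
      rwa [Nat.card_eq_fintype_card (α := F)] at this
  constructor
  · intro hdiv
    obtain ⟨g, hgP, hc, hord⟩ := main (Or.inl hdiv)
    obtain ⟨hns, h4⟩ := main2 (Or.inl hdiv) g hord
    obtain ⟨e1, e2⟩ := sylow_struct (P : Subgroup (Matrix.SpecialLinearGroup (Fin 2) F)) g hgP hc hns h4
    obtain ⟨k1, k2, k3⟩ := norm_struct h2 g hns h4
    rcases tri g hns h4 with h | h
    · rw [e1, e2, k1, h.2]
      exact ⟨rfl, h.1, rfl⟩
    · exfalso
      apply h2not
      refine ⟨hdiv, ?_⟩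
      rw [← h.2, ← hord]; exact hordC g
  · intro hdiv
    obtain ⟨g, hgP, hc, hord⟩ := main (Or.inr hdiv)
    obtain ⟨hns, h4⟩ := main2 (Or.inr hdiv) g hord
    obtain ⟨e1, e2⟩ := sylow_struct (P : Subgroup (Matrix.SpecialLinearGroup (Fin 2) F)) g hgP hc hns h4
    obtain ⟨k1, k2, k3⟩ := norm_struct h2 g hns h4
    rcases tri g hns h4 with h | h
    · exfalso
      apply h2not
      refine ⟨?_, hdiv⟩
      rw [← h.2, ← hord]; exact hordC g
    · rw [e1, e2, k1, h.2]
      exact ⟨rfl, h.1, rfl⟩

end Cfsg.Agent.S2430
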