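import Cfsg.Statements.S2437
import Mathlib
import Cfsg.Agent.H8.PS3
import Cfsg.Agent.H8.SL2b

set_option autoImplicit false
open Cfsg

namespace Cfsg.Agent.S2437

open Cfsg.Agent.H8.PS Cfsg.Agent.H8.SL2

theorem lin_count {F : Type*} [Field F] [Fintype F] (A C : F) (h : ¬ (A = 0 ∧ C = 0)) :
    Nat.card {p : F × F // p.2 * A = p.1 * C} = Fintype.card F := by
  rw [← Nat.card_eq_fintype_card]
  by_cases hA : A = 0
  · have hC : C ≠ 0 := fun h2 => h ⟨hA, h2⟩
    exact Nat.card_congr
      { toFun := fun p => p.1.2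
        invFun := fun x => ⟨(x * A / C, x), by field_simp⟩
        left_inv := fun p => by
          apply Subtype.ext
          have := p.2
          show (p.1.2 * A / C, p.1.2) = p.1
          rw [this]
          apply Prod.ext
          · show p.1.1 * C / C = p.1.1
            field_simp
          · rfl
        right_inv := fun x => rfl }
  · exact Nat.card_congr
      { toFun := fun p => p.1.1
        invFun := fun x => ⟨(x, x * C / A), by field_simp⟩
        left_inv := fun p => by
          apply Subtype.ext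
          have := p.2
          show (p.1.1, p.1.1 * C / A) = p.1
          rw [← this]
          apply Prod.ext
          · rfl
          · show p.1.2 * A / A = p.1.2
            field_simp
        right_inv := fun x => rfl }

theorem BS_inv {F : Type*} [Field F] (b : BS F) : ∃ a : Fˣ, (b.1 0 0 = a) ∧ b.1 1 1 = ((a⁻¹ : Fˣ) : F) := by
  have h := det2 b.1
  rw [mem_BS.mp b.2, mul_zero, sub_zero] at h
  refine ⟨Units.mk0 (b.1 0 0) (left_ne_zero_of_mul_eq_one h), rfl, ?_⟩
  show b.1 1 1 = (b.1 0 0)⁻¹
  exact (inv_eq_of_mul_eq_one_right h).symm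

noncomputable def toU {F : Type*} [Field F] (b : BS F) : Fˣ := (BS_inv b).choose

theorem toU0 {F : Type*} [Field F] (b : BS F) : b.1 0 0 = toU b := (BS_inv b).choose_spec.1
theorem toU1 {F : Type*} [Field F] (b : BS F) : b.1 1 1 = ((toU b)⁻¹ : Fˣ) := (BS_inv b).choose_spec.2

def mkB {F : Type*} [Field F] (a : Fˣ) (x : F) : BS F := ⟨⟨!![(a : F), x; 0, ((a⁻¹ : Fˣ) : F)], by rw [Matrix.det_fin_two_of]; simp⟩, mem_BS.mpr rfl⟩

theorem mkB_toU {F : Type*} [Field F] (a : Fˣ) (x : F) : toU (mkB a x) = a := by
  apply Units.ext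
  rw [← toU0]; rfl

theorem B_ext {F : Type*} [Field F] {b c : BS F} (h0 : toU b = toU c) (h1 : b.1 0 1 = c.1 0 1) : b = c := by
  apply Subtype.ext
  apply Subtype.ext
  ext i j
  fin_cases i <;> fin_cases j
  · show b.1 0 0 = c.1 0 0
    rw [toU0, toU0, h0]
  · exact h1
  · show b.1 1 0 = c.1 1 0
    rw [mem_BS.mp b.2, mem_BS.mp c.2]
  · show b.1 1 1 = c.1 1 1
    rw [toU1, toU1, h0]

theorem comm_iff {F : Type*} [Field F] (b c : BS F) : Commute b c ↔
    c.1 0 1 * ((toU b : F) - ((toU b)⁻¹ : Fˣ)) = b.1 0 1 * ((toU c : F) - ((toU c)⁻¹ : Fˣ)) := by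
  have h01 : ∀ b c : BS F, (b * c).1 0 1 = (toU b : F) * c.1 0 1 + b.1 0 1 * ((toU c)⁻¹ : Fˣ) := by
    intro b c
    rw [Subgroup.coe_mul, Matrix.SpecialLinearGroup.coe_mul, Matrix.mul_apply, Fin.sum_univ_two, toU0, toU1]
  have h00 : ∀ b c : BS F, toU (b * c) = toU b * toU c := by
    intro b c
    apply Units.ext
    rw [← toU0, BS_mul00, Units.val_mul, toU0, toU0]
  constructor
  · intro h
    have h2 := congrArg (fun x : BS F => x.1 0 1) h.eq
    simp only [h01] at h2
    linear_combination h2
  · intro h
    apply B_ext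
    · rw [h00, h00, mul_comm]
    · rw [h01, h01]
      linear_combination h

/-- Over a finite field F with q elements, q odd, the upper triangular subgroup of SL₂ (a Borel subgroup, of order q(q − 1)) has exactly q + 3 conjugacy classes. -/
theorem result {F : Type*} [Field F] [Fintype F] (hodd : Odd (Fintype.card F)) :
    Nat.card (ConjClasses ((Cfsg.upperTriangularGL 2 F).comap Matrix.SpecialLinearGroup.toGL)) = Fintype.card F + 3 := by
  classical
  haveI : DecidableEq F := Classical.decEq F
  have h2 : ringChar F ≠ 2 := by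
    intro h
    have h3 := FiniteField.even_card_iff_char_two.mp h
    exact (Nat.not_even_iff_odd.mpr hodd) (Nat.even_iff.mpr h3)
  have h := card_comm_eq_card_conjClasses_mul_card (BS F)
  let A : Fˣ → F := fun a => (a : F) - ((a⁻¹ : Fˣ) : F)
  have e : {p : BS F × BS F // Commute p.1 p.2} ≃ (Σ ac : Fˣ × Fˣ, {p : F × F // p.2 * A ac.1 = p.1 * A ac.2}) :=
    { toFun := fun p => ⟨(toU p.1.1, toU p.1.2), ⟨(p.1.1.1 0 1, p.1.2.1 0 1), (comm_iff _ _).mp p.2⟩⟩
      invFun := fun x => ⟨(mkB x.1.1 x.2.1.1, mkB x.1.2 x.2.1.2), by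
        rw [comm_iff, mkB_toU, mkB_toU]
        exact x.2.2⟩
      left_inv := fun p => by
        apply Subtype.ext
        apply Prod.ext
        · apply B_ext
          · exact mkB_toU _ _
          · rfl
        · apply B_ext
          · exact mkB_toU _ _
          · rfl
      right_inv := fun x => by
        obtain ⟨⟨a, c⟩, ⟨⟨x, y⟩, hxy⟩⟩ := x
        have ha : toU (mkB a x) = a := mkB_toU a x
        have hc : toU (mkB c y) = c := mkB_toU c y
        apply Sigma.ext
        · exact Prod.ext ha hc
        · apply (Subtype.heq_iff_coe_eq _).mpr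
          · rfl
          · intro p
            show p.2 * A (toU (mkB a x)) = p.1 * A (toU (mkB c y)) ↔ p.2 * A a = p.1 * A c
            rw [ha, hc] }
  rw [Nat.card_congr e, Nat.card_sigma] at h
  have hterm : ∀ ac : Fˣ × Fˣ, Nat.card {p : F × F // p.2 * A ac.1 = p.1 * A ac.2} =
      Fintype.card F + (if A ac.1 = 0 then 1 else 0) * (if A ac.2 = 0 then 1 else 0) * (Fintype.card F * Fintype.card F - Fintype.card F) := by
    intro ac
    by_cases h1 : A ac.1 = 0
    · by_cases h3 : A ac.2 = 0
      · rw [if_pos h1, if_pos h3, h1, h3]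
        have : Nat.card {p : F × F // p.2 * (0:F) = p.1 * 0} = Fintype.card F * Fintype.card F := by
          rw [← Fintype.card_prod, ← Nat.card_eq_fintype_card]
          apply Nat.card_congr
          exact Equiv.subtypeUnivEquiv (fun p => by rw [mul_zero, mul_zero])
        rw [this]
        have : Fintype.card F ≤ Fintype.card F * Fintype.card F := Nat.le_mul_of_pos_left _ Fintype.card_pos
        omega
      · rw [if_neg h3, lin_count _ _ (fun hh => h3 hh.2)]; simp
    · rw [if_neg h1, lin_count _ _ (fun hh => h1 hh.1)]; simp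
  have hA : (∑ a : Fˣ, if A a = 0 then 1 else 0) = 2 := by
    rw [Finset.sum_boole, ← card_sq_one_odd h2, Nat.cast_id, ← Fintype.card_subtype, ← Nat.card_eq_fintype_card]
    apply Nat.card_congr
    exact
      { toFun := fun a => ⟨a.1, by
          have h3 : (a.1 : F) - ((a.1⁻¹ : Fˣ) : F) = 0 := a.2
          have h4 : (a.1 : F) * ((a.1⁻¹ : Fˣ) : F) = 1 := by simp
          linear_combination (a.1 : F) * h3 + h4⟩
        invFun := fun w => ⟨Units.mk0 w.1 (by
            intro h0
            have := w.2
            rw [h0] at this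
            simp at this), by
          show w.1 - (w.1)⁻¹ = 0
          have := w.2
          have hw : w.1 ≠ 0 := by
            intro h0
            rw [h0] at this
            simp at this
          field_simp
          rw [this, sub_self, mul_zero]⟩
        left_inv := fun a => by
          apply Subtype.ext
          apply Units.ext; rfl
        right_inv := fun w => rfl }
  have hAA : (∑ ac : Fˣ × Fˣ, (if A ac.1 = 0 then 1 else 0) * (if A ac.2 = 0 then 1 else 0)) = 4 := by
    rw [Fintype.sum_prod_type]
    have := Finset.sum_mul_sum (Finset.univ : Finset Fˣ) (Finset.univ : Finset Fˣ) (fun a => if A a = 0 then 1 else 0) (fun a => if A a = 0 then 1 else 0)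
    rw [hA] at this
    exact this.symm
  rw [Finset.sum_congr rfl (fun ac _ => hterm ac), Finset.sum_add_distrib, ← Finset.sum_mul, hAA] at h
  simp only [Finset.sum_const, Finset.card_univ, Fintype.card_prod, smul_eq_mul] at h
  rw [card_BS] at h
  have hu : Fintype.card Fˣ = Fintype.card F - 1 := Fintype.card_units F
  rw [hu] at h
  obtain ⟨c, hc⟩ : ∃ c, Fintype.card F = c + 2 := ⟨Fintype.card F - 2, by have := Fintype.one_lt_card (α := F); omega⟩
  rw [hc] at h ⊢
  have h5 : (c + 2) * (c + 2) - (c + 2) = (c + 2) * (c + 1) := by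
    have : (c + 2) * (c + 2) = (c + 2) * (c + 1) + (c + 2) := by ring
    omega
  rw [h5, show c + 2 - 1 = c + 1 from rfl] at h
  have h6 : (c + 5) * ((c + 1) * (c + 2)) = Nat.card (ConjClasses (BS F)) * ((c + 1) * (c + 2)) := by
    rw [← h]; ring
  have h7 := Nat.eq_of_mul_eq_mul_right (by positivity) h6
  show Nat.card (ConjClasses (BS F)) = _
  omega

end Cfsg.Agent.S2437
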