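import Cfsg.Statements.S2532
import Cfsg.Agent.H9.PermCopies

set_option autoImplicit false
open Cfsg

namespace Cfsg.Agent.S2532

/-- There is a function `f` of two natural-number arguments such that, whenever `m ≥ f(n, r)`, every subgroup of order `n` of the alternating group of degree `m` centralizes some subgroup of that alternating group isomorphic to the alternating group of degree `r`. -/
theorem result :
    ∃ f : ℕ → ℕ → ℕ, ∀ (m r : ℕ) (H : Subgroup ↥(alternatingGroup (Fin m))), f (Nat.card H) r ≤ m →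
      ∃ K : Subgroup ↥(alternatingGroup (Fin m)), Nonempty (↥K ≃* ↥(alternatingGroup (Fin r))) ∧
        K ≤ Subgroup.centralizer (H : Set ↥(alternatingGroup (Fin m))) := by
  classical
  refine ⟨fun n r => n * (r * 2 ^ n) + 1, ?_⟩
  intro m r H hm
  have hfin : Fintype H := Fintype.ofFinite _
  rw [Nat.card_eq_fintype_card] at hm
  obtain ⟨x, hx1, hx2⟩ := Cfsg.Agent.H9.PermCopies.points_exist (H := H) (X := Fin m) (r := r) (by rw [Fintype.card_fin]; exact hm)
  obtain ⟨φ, hφ1, hφ2⟩ := Cfsg.Agent.H9.PermCopies.hom_exists x hx1 hx2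
  have hs : alternatingGroup (Fin r) ≤ ((Equiv.Perm.sign).comp φ).ker := by
    rw [← Equiv.Perm.closure_three_cycles_eq_alternating, Subgroup.closure_le]
    intro σ hσ
    have h3 : σ ^ 3 = 1 := by
      have : σ.IsThreeCycle := hσ
      rw [← this.orderOf]; exact pow_orderOf_eq_one σ
    show Equiv.Perm.sign (φ σ) = 1
    have h4 : (Equiv.Perm.sign (φ σ)) ^ 3 = 1 := by rw [← map_pow, ← map_pow, h3, map_one, map_one]
    rcases Int.units_eq_one_or (Equiv.Perm.sign (φ σ)) with h | h
    · exact h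
    · rw [h] at h4; exact absurd h4 (by decide)
  have hmem : ∀ σ : alternatingGroup (Fin r), φ σ ∈ alternatingGroup (Fin m) := by
    intro σ
    rw [Equiv.Perm.mem_alternatingGroup]
    exact hs σ.2
  let ψ : alternatingGroup (Fin r) →* alternatingGroup (Fin m) := (φ.comp (alternatingGroup (Fin r)).subtype).codRestrict _ hmem
  have hψ : ∀ σ, ((ψ σ : alternatingGroup (Fin m)) : Equiv.Perm (Fin m)) = φ σ := fun σ => rfl
  have hinj : Function.Injective ψ := by
    intro σ τ h
    apply Subtype.ext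
    ext1 i
    have h1 : φ (σ : Equiv.Perm (Fin r)) (x i) = φ (τ : Equiv.Perm (Fin r)) (x i) := by rw [← hψ, ← hψ, h]
    rw [hφ1, hφ1] at h1
    exact hx2 1 1 _ _ (by rw [one_smul, one_smul]; exact h1)
  refine ⟨ψ.range, ⟨(MonoidHom.ofInjective hinj).symm⟩, ?_⟩
  rintro _ ⟨σ, rfl⟩
  rw [Subgroup.mem_centralizer_iff]
  intro h hh
  apply Subtype.ext
  ext1 y
  have := hφ2 (σ : Equiv.Perm (Fin r)) ⟨h, hh⟩ y
  exact this.symm

end Cfsg.Agent.S2532
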