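import Cfsg.Statements.S2540
import Mathlib
import Cfsg.Agent.S0249

set_option autoImplicit false
open Cfsg

namespace Cfsg.Agent.S2540

open scoped commutatorElement
open Matrix in
theorem nsub {F : Type*} [Field F] (n : ℕ) (hn : 2 ≤ n) (hperf : commutator (SpecialLinearGroup (Fin n) F) = ⊤)
    (hs : IsSimpleGroup (ProjectiveSpecialLinearGroup (Fin n) F)) (K : Subgroup (SpecialLinearGroup (Fin n) F)) (hK : K.Normal) :
    K ≤ Subgroup.center _ ∨ K = ⊤ := by
  have h1 : (K.map (QuotientGroup.mk' (Subgroup.center (SpecialLinearGroup (Fin n) F)))).Normal :=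
    hK.map _ (QuotientGroup.mk'_surjective _)
  rcases hs.eq_bot_or_eq_top_of_normal _ h1 with h2 | h2
  · left
    rw [Subgroup.map_eq_bot_iff, QuotientGroup.ker_mk'] at h2
    exact h2
  · right
    have h3 : ∀ s : SpecialLinearGroup (Fin n) F, ∃ k ∈ K, ∃ z ∈ Subgroup.center (SpecialLinearGroup (Fin n) F), s = k * z := by
      intro s
      have h4 : QuotientGroup.mk' (Subgroup.center (SpecialLinearGroup (Fin n) F)) s ∈ K.map (QuotientGroup.mk' (Subgroup.center (SpecialLinearGroup (Fin n) F))) := by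
        rw [h2]; trivial
      obtain ⟨k, hk, hks⟩ := h4
      refine ⟨k, hk, k⁻¹ * s, ?_, by group⟩
      exact QuotientGroup.eq.1 hks
    rw [eq_top_iff, ← hperf, commutator_def, Subgroup.commutator_le]
    intro s _ t _
    obtain ⟨k, hk, z, hz, rfl⟩ := h3 s
    obtain ⟨k', hk', z', hz', rfl⟩ := h3 t
    have e1 := Subgroup.mem_center_iff.1 hz
    have e2 := Subgroup.mem_center_iff.1 hz'
    have e3 : ⁅k * z, k' * z'⁆ = ⁅k, k'⁆ := by
      rw [commutatorElement_def, commutatorElement_def]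
      calc k * z * (k' * z') * (k * z)⁻¹ * (k' * z')⁻¹ = k * (z * k') * (z' * (k * z)⁻¹) * z'⁻¹ * k'⁻¹ := by group
        _ = k * (k' * z) * ((k * z)⁻¹ * z') * z'⁻¹ * k'⁻¹ := by rw [← e1, ← e2]
        _ = k * k' * (z * z⁻¹) * k⁻¹ * k'⁻¹ := by group
        _ = _ := by group
    rw [e3]
    rw [commutatorElement_def]
    exact K.mul_mem (K.mul_mem (K.mul_mem hk hk') (K.inv_mem hk)) (K.inv_mem hk')

theorem fcond {F : Type*} [Field F] (hF : 4 ≤ Nat.card F) : ∃ a : F, a ≠ 0 ∧ a ^ 2 ≠ 1 := by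
  have : Finite F := (Nat.card_pos_iff.1 (by omega)).2
  obtain ⟨x, hx⟩ : IsCyclic Fˣ := by infer_instance
  refine ⟨x, Units.ne_zero x, fun h ↦ ?_⟩
  grw [Nat.card_eq_card_units_add_one F, ← orderOf_eq_card_of_forall_mem_zpowers hx,
    orderOf_le_of_pow_eq_one zero_lt_two (Units.ext <| by simpa using h)] at hF
  omega

/-- Let F be a finite field and n ≥ 1, excluding the case n = 2 with #F ≤ 3. A subgroup of GL_n(F) that is normalized by every element of SL_n(F) either consists of scalar matrices or contains SL_n(F). -/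
theorem result {F : Type*} [Field F] [Fintype F] (n : ℕ) (hn : 1 ≤ n) (hex : ¬ (n = 2 ∧ Fintype.card F ≤ 3)) (G : Subgroup (Matrix.GeneralLinearGroup (Fin n) F)) (hG : ∀ s : Matrix.SpecialLinearGroup (Fin n) F, ∀ g ∈ G, (Matrix.SpecialLinearGroup.toGL s) * g * (Matrix.SpecialLinearGroup.toGL s)⁻¹ ∈ G) : (∀ g ∈ G, ∃ c : F, (g : Matrix (Fin n) (Fin n) F) = c • (1 : Matrix (Fin n) (Fin n) F)) ∨ (Matrix.SpecialLinearGroup.toGL : Matrix.SpecialLinearGroup (Fin n) F →* _).range ≤ G := by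
  classical
  rcases Nat.lt_or_ge n 2 with h2 | h2
  · left
    obtain rfl : n = 1 := by omega
    intro g _
    refine ⟨(g : Matrix (Fin 1) (Fin 1) F) 0 0, ?_⟩
    ext i j
    rw [Subsingleton.elim i 0, Subsingleton.elim j 0]
    simp
  obtain ⟨hperf, hsimp⟩ : commutator (Matrix.SpecialLinearGroup (Fin n) F) = ⊤ ∧ IsSimpleGroup (Matrix.ProjectiveSpecialLinearGroup (Fin n) F) := by
    rcases Nat.lt_or_ge n 3 with h3 | h3
    · obtain rfl : n = 2 := by omega
      have h4 : 4 ≤ Nat.card F := by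
        rw [Nat.card_eq_fintype_card]
        by_contra hcon
        exact hex ⟨rfl, by omega⟩
      refine ⟨?_, Matrix.ProjectiveSpecialLinearGroup.rank_two_simple h4⟩
      obtain ⟨a, ha, ha2⟩ := fcond h4
      exact Matrix.SL2.commutator_eq_top ha ha2
    · exact ⟨Cfsg.Agent.H7.Tv.sl_commutator_eq_top (by simpa using h3), Cfsg.Agent.S0249.result n h3⟩
  by_contra hcon
  push Not at hcon
  obtain ⟨⟨g0, hg0, hns⟩, hnle⟩ := hcon
  have hdet : ∀ s : Matrix.SpecialLinearGroup (Fin n) F, ∃ k : Matrix.SpecialLinearGroup (Fin n) F, Matrix.SpecialLinearGroup.toGL k = g0 * Matrix.SpecialLinearGroup.toGL s * g0⁻¹ * (Matrix.SpecialLinearGroup.toGL s)⁻¹ := by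
    intro s
    refine ⟨⟨((g0 * Matrix.SpecialLinearGroup.toGL s * g0⁻¹ * (Matrix.SpecialLinearGroup.toGL s)⁻¹ : Matrix.GeneralLinearGroup (Fin n) F) : Matrix (Fin n) (Fin n) F), ?_⟩, Units.ext rfl⟩
    have h5 : Matrix.GeneralLinearGroup.det (g0 * Matrix.SpecialLinearGroup.toGL s * g0⁻¹ * (Matrix.SpecialLinearGroup.toGL s)⁻¹) = 1 := by
      rw [map_mul, map_mul, map_mul, map_inv, map_inv, mul_right_comm (Matrix.GeneralLinearGroup.det g0), mul_inv_cancel, one_mul, mul_inv_cancel]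
    exact congrArg Units.val h5
  rcases nsub n h2 hperf hsimp (G.comap Matrix.SpecialLinearGroup.toGL) ⟨by
    intro k hk s
    rw [Subgroup.mem_comap, map_mul, map_mul, map_inv]
    exact hG s _ hk⟩ with h3 | h3
  · have h4 : (Subgroup.centralizer ({g0} : Set (Matrix.GeneralLinearGroup (Fin n) F))).comap Matrix.SpecialLinearGroup.toGL = ⊤ := by
      have key : ∀ s : Matrix.SpecialLinearGroup (Fin n) F, ∃ z ∈ Subgroup.center (Matrix.SpecialLinearGroup (Fin n) F), g0 * Matrix.SpecialLinearGroup.toGL s * g0⁻¹ = Matrix.SpecialLinearGroup.toGL (z * s) := by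
        intro s
        obtain ⟨k, hk⟩ := hdet s
        refine ⟨k, h3 ?_, ?_⟩
        · show Matrix.SpecialLinearGroup.toGL k ∈ G
          rw [hk]
          have := G.mul_mem hg0 (hG s _ (G.inv_mem hg0))
          rwa [← mul_assoc, ← mul_assoc] at this
        · rw [map_mul, hk]; group
      rw [eq_top_iff, ← hperf, commutator_def, Subgroup.commutator_le]
      intro s _ t _
      obtain ⟨z, hz, hzs⟩ := key s
      obtain ⟨z', hz', hzt⟩ := key t
      have e1 := Subgroup.mem_center_iff.1 hz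
      have e2 := Subgroup.mem_center_iff.1 hz'
      have e3 : ⁅z * s, z' * t⁆ = ⁅s, t⁆ := by
        rw [commutatorElement_def, commutatorElement_def]
        calc z * s * (z' * t) * (z * s)⁻¹ * (z' * t)⁻¹ = (z * (s * z')) * t * s⁻¹ * (z⁻¹ * t⁻¹ * z'⁻¹) := by group
          _ = (z * (s * z')) * t * s⁻¹ * (t⁻¹ * z⁻¹ * z'⁻¹) := by
            have : z⁻¹ * t⁻¹ = t⁻¹ * z⁻¹ := by
              have := e1 (t)
              rw [← _root_.mul_inv_rev, ← _root_.mul_inv_rev, this]
            rw [this]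
          _ = (z * (z' * s)) * t * s⁻¹ * (t⁻¹ * z⁻¹ * z'⁻¹) := by rw [e2]
          _ = (z * (z' * (s * t * s⁻¹ * t⁻¹))) * z⁻¹ * z'⁻¹ := by group
          _ = (z' * (s * t * s⁻¹ * t⁻¹)) * z * z⁻¹ * z'⁻¹ := by rw [e1]
          _ = z' * (s * t * s⁻¹ * t⁻¹) * z'⁻¹ := by group
          _ = (s * t * s⁻¹ * t⁻¹) * z' * z'⁻¹ := by rw [e2]
          _ = _ := by group
      rw [Subgroup.mem_comap, Subgroup.mem_centralizer_singleton_iff]
      have e4 : g0 * Matrix.SpecialLinearGroup.toGL ⁅s, t⁆ * g0⁻¹ = Matrix.SpecialLinearGroup.toGL ⁅s, t⁆ := by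
        conv_rhs => rw [← e3, map_commutatorElement, ← hzs, ← hzt]
        rw [map_commutatorElement, commutatorElement_def, commutatorElement_def]
        group
      rw [mul_inv_eq_iff_eq_mul] at e4
      exact e4.symm
    have h5 := Matrix.mem_range_scalar_of_commute_transvectionStruct (M := (g0 : Matrix (Fin n) (Fin n) F)) (fun t => by
      have h6 : t.toSpecialLinearGroup ∈ (Subgroup.centralizer ({g0} : Set (Matrix.GeneralLinearGroup (Fin n) F))).comap Matrix.SpecialLinearGroup.toGL := by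
        rw [h4]; trivial
      rw [Subgroup.mem_comap, Subgroup.mem_centralizer_singleton_iff] at h6
      exact (congrArg Units.val h6 : t.toMatrix * (g0 : Matrix (Fin n) (Fin n) F) = (g0 : Matrix (Fin n) (Fin n) F) * t.toMatrix))
    obtain ⟨c, hc⟩ : ∃ c : F, Matrix.scalar (Fin n) c = (g0 : Matrix (Fin n) (Fin n) F) := h5
    refine hns c ?_
    rw [← hc, Matrix.scalar_apply, Matrix.smul_one_eq_diagonal]
  · apply hnle
    rintro _ ⟨s, rfl⟩
    have : s ∈ G.comap Matrix.SpecialLinearGroup.toGL := by rw [h3]; trivial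
    exact this

end Cfsg.Agent.S2540
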