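import Cfsg.Statements.S2541
import Mathlib
import Cfsg.Agent.H8.Alt

set_option autoImplicit false
open Cfsg

namespace Cfsg.Agent.S2541



/-- Let F be a field with 9 elements. The symmetric group S_6 is not isomorphic to PGL_2(F) (although both have index-2 subgroups isomorphic to A_6: PGL_2(F) has an element of order 8 and S_6 has none). -/
theorem result {F : Type*} [Field F] [Fintype F] (hF : Fintype.card F = 9) : ¬ Nonempty (Equiv.Perm (Fin 6) ≃* Matrix.ProjGenLinGroup (Fin 2) F) := by
  classical
  rintro ⟨e⟩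
  -- generator of Fˣ, order 8
  obtain ⟨g, hg⟩ := IsCyclic.exists_generator (α := Fˣ)
  have hcard : Nat.card Fˣ = 8 := by
    rw [Nat.card_eq_fintype_card, Fintype.card_units, hF]
  have hord : orderOf g = 8 := by rw [← hcard]; exact orderOf_eq_card_of_forall_mem_zpowers hg
  let D : Fˣ →* GL (Fin 2) F :=
    { toFun := fun u => ⟨Matrix.diagonal ![(u : F), 1], Matrix.diagonal ![((u⁻¹ : Fˣ) : F), 1], by
        rw [Matrix.diagonal_mul_diagonal, ← Matrix.diagonal_one]; congr 1; ext i; fin_cases i <;> simp, by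
        rw [Matrix.diagonal_mul_diagonal, ← Matrix.diagonal_one]; congr 1; ext i; fin_cases i <;> simp⟩
      map_one' := by
        apply Units.ext
        show Matrix.diagonal ![((1 : Fˣ) : F), 1] = 1
        rw [← Matrix.diagonal_one]; congr 1; ext i; fin_cases i <;> simp
      map_mul' := by
        intro a b
        apply Units.ext
        show Matrix.diagonal ![((a * b : Fˣ) : F), 1] = Matrix.diagonal ![(a : F), 1] * Matrix.diagonal ![(b : F), 1]
        rw [Matrix.diagonal_mul_diagonal]; congr 1; ext i; fin_cases i <;> simp }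
  let π : GL (Fin 2) F →* Matrix.ProjGenLinGroup (Fin 2) F := QuotientGroup.mk' _
  have hπ : ∀ y, π y = 1 ↔ y ∈ Subgroup.center (GL (Fin 2) F) := fun y => QuotientGroup.eq_one_iff y
  let x : Matrix.ProjGenLinGroup (Fin 2) F := π (D g)
  have hx : orderOf x = 8 := by
    rw [← hord]
    apply Nat.dvd_antisymm
    · rw [orderOf_dvd_iff_pow_eq_one]
      show (π (D g)) ^ _ = 1
      rw [← map_pow, ← map_pow, pow_orderOf_eq_one, map_one, map_one]
    · rw [orderOf_dvd_iff_pow_eq_one]
      have h1 : π (D g ^ orderOf x) = 1 := by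
        rw [map_pow]; exact pow_orderOf_eq_one x
      rw [hπ, ← map_pow] at h1
      rw [Matrix.GeneralLinearGroup.center_eq_range_scalar] at h1
      obtain ⟨a, ha⟩ := h1
      have h2 := congrArg (fun M : GL (Fin 2) F => (M : Matrix (Fin 2) (Fin 2) F)) ha
      have h00 := congrFun (congrFun h2 0) 0
      have h11 := congrFun (congrFun h2 1) 1
      have e0 : ((D (g ^ orderOf x) : GL (Fin 2) F) : Matrix (Fin 2) (Fin 2) F) 0 0 = ((g ^ orderOf x : Fˣ) : F) := rfl
      have e1 : ((D (g ^ orderOf x) : GL (Fin 2) F) : Matrix (Fin 2) (Fin 2) F) 1 1 = 1 := rfl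
      simp only [e0, e1] at h00 h11
      apply Units.ext
      rw [← h00, Units.val_one, ← h11]
      simp [Matrix.GeneralLinearGroup.scalar]
  have hy : orderOf (e.symm x) = 8 := by rw [← hx]; exact orderOf_injective e.symm.toMonoidHom e.symm.injective x
  obtain ⟨a, ha, h8⟩ := Cfsg.Agent.H8.exists_cycle_dvd_pow (e.symm x) Nat.prime_two (k := 3) (h := by rw [hy]; norm_num)
  have h1 : a ≤ (e.symm x).cycleType.sum := Multiset.le_sum_of_mem ha
  have h2 := Cfsg.Agent.H8.sum_cycleType_fin_le (e.symm x)
  have h3 := Equiv.Perm.two_le_of_mem_cycleType ha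
  have h4 := Nat.le_of_dvd (by omega) h8
  omega

end Cfsg.Agent.S2541
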