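import Cfsg.Statements.S2552

set_option autoImplicit false
open Cfsg

namespace Cfsg.Agent.S2552



/-- Let F be a finite field and n ≥ 1. For every k, the special linear group SL_n(F) acts transitively on the set of k-dimensional subspaces of F^n: any two subspaces of the same dimension are carried onto each other by some matrix of determinant 1. -/
theorem result {F : Type*} [Field F] [Fintype F] (n : ℕ) (hn : 1 ≤ n) (U₁ U₂ : Submodule F (Fin n → F)) (h : Module.finrank F U₁ = Module.finrank F U₂) : ∃ g : Matrix.SpecialLinearGroup (Fin n) F, U₁.map ((Matrix.SpecialLinearGroup.toLin' g : (Fin n → F) ≃ₗ[F] (Fin n → F)) : (Fin n → F) →ₗ[F] (Fin n → F)) = U₂ := by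
  classical
  by_cases hU : U₁ = ⊥
  · subst hU
    have hU2 : U₂ = ⊥ := by
      rw [finrank_bot] at h
      exact Submodule.finrank_eq_zero.1 h.symm
    refine ⟨1, ?_⟩
    rw [hU2, Submodule.map_bot]
  obtain ⟨W₁, hW₁⟩ := U₁.exists_isCompl
  obtain ⟨W₂, hW₂⟩ := U₂.exists_isCompl
  have e1 : U₁ ≃ₗ[F] U₂ := LinearEquiv.ofFinrankEq _ _ h
  have hW : Module.finrank F W₁ = Module.finrank F W₂ := by
    have h1 := Submodule.finrank_add_eq_of_isCompl hW₁
    have h2 := Submodule.finrank_add_eq_of_isCompl hW₂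
    omega
  have e2 : W₁ ≃ₗ[F] W₂ := LinearEquiv.ofFinrankEq _ _ hW
  let g0 : (Fin n → F) ≃ₗ[F] (Fin n → F) :=
    (Submodule.prodEquivOfIsCompl U₁ W₁ hW₁).symm ≪≫ₗ (LinearEquiv.prodCongr e1 e2) ≪≫ₗ
      (Submodule.prodEquivOfIsCompl U₂ W₂ hW₂)
  have hg0 : ∀ u ∈ U₁, g0 u ∈ U₂ := by
    intro u hu
    have : (Submodule.prodEquivOfIsCompl U₁ W₁ hW₁).symm u = (⟨u, hu⟩, 0) := by
      rw [LinearEquiv.symm_apply_eq]; simp
    simp only [g0, LinearEquiv.trans_apply, this]
    simp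
  obtain ⟨v, hvU, hv0⟩ := Submodule.exists_mem_ne_zero_of_ne_bot hU
  obtain ⟨i0, hi0⟩ : ∃ i, v i ≠ 0 := by
    by_contra hcon; push Not at hcon; exact hv0 (funext hcon)
  set δ := LinearMap.det (g0 : (Fin n → F) →ₗ[F] (Fin n → F)) with hδ
  have hδ0 : δ ≠ 0 := (LinearEquiv.isUnit_det' g0).ne_zero
  set w : Fin n → F := Pi.single i0 ((δ⁻¹ - 1) * (v i0)⁻¹) with hw
  set M : Matrix (Fin n) (Fin n) F := 1 + Matrix.replicateCol Unit v * Matrix.replicateRow Unit w with hM
  have hMdet : M.det = δ⁻¹ := by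
    rw [hM, Matrix.det_one_add_replicateCol_mul_replicateRow]
    simp only [hw, single_dotProduct]
    field_simp
    ring
  have hMU : ∀ u ∈ U₁, M.mulVec u ∈ U₁ := by
    intro u hu
    rw [hM, Matrix.add_mulVec, Matrix.one_mulVec, ← Matrix.mulVec_mulVec]
    refine U₁.add_mem hu ?_
    have : (Matrix.replicateCol Unit v).mulVec ((Matrix.replicateRow Unit w).mulVec u) = (w ⬝ᵥ u) • v := by
      ext i
      simp [Matrix.mulVec, dotProduct, Matrix.replicateCol, Matrix.replicateRow, mul_comm]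
    rw [this]
    exact U₁.smul_mem _ hvU
  set G : Matrix (Fin n) (Fin n) F := LinearMap.toMatrix' (g0 : (Fin n → F) →ₗ[F] (Fin n → F)) with hG
  have hdet : (G * M).det = 1 := by
    rw [Matrix.det_mul, hMdet, hG, LinearMap.det_toMatrix', ← hδ, mul_inv_cancel₀ hδ0]
  refine ⟨⟨G * M, hdet⟩, ?_⟩
  apply Submodule.eq_of_le_of_finrank_eq
  · rintro x ⟨u, hu, rfl⟩
    show (G * M).mulVec u ∈ U₂
    rw [← Matrix.mulVec_mulVec, hG, ← Matrix.toLin'_apply, Matrix.toLin'_toMatrix']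
    exact hg0 _ (hMU u hu)
  · rw [← h]
    exact LinearEquiv.finrank_map_eq _ _

end Cfsg.Agent.S2552
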