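import Cfsg.Statements.S2617
import Mathlib
import Cfsg.Agent.S0287
import Cfsg.Agent.S0288

set_option autoImplicit false
open Cfsg

namespace Cfsg.Agent.S2617

open Matrix in
/-- the isometry group as a set of linear equivalences -/
noncomputable def isoE {ι : Type} [Fintype ι] [DecidableEq ι] {F : Type*} [Field F] (Q : (ι → F) → F) :
    Cfsg.isometryGroup F Q ≃ {f : (ι → F) ≃ₗ[F] (ι → F) // ∀ v, Q (f v) = Q v} :=
  Equiv.subtypeEquiv ((Matrix.GeneralLinearGroup.toLin (n := ι) (R := F)).trans (LinearMap.GeneralLinearGroup.generalLinearEquiv F (ι → F))).toEquiv (by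
    intro a
    constructor
    · intro h v
      exact h v v
    · intro h u _
      exact h u)

noncomputable def conjE {ι κ : Type} [Fintype ι] [DecidableEq ι] [Fintype κ] [DecidableEq κ] {F : Type*} [Field F] (Q : (ι → F) → F) (Q' : (κ → F) → F)
    (g : (ι → F) ≃ₗ[F] (κ → F)) (hg : ∀ v, Q' (g v) = Q v) :
    {f : (ι → F) ≃ₗ[F] (ι → F) // ∀ v, Q (f v) = Q v} ≃ {f : (κ → F) ≃ₗ[F] (κ → F) // ∀ v, Q' (f v) = Q' v} where
  toFun f := ⟨(g.symm.trans f.1).trans g, fun v => by
    show Q' (g (f.1 (g.symm v))) = Q' v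
    rw [hg, f.2, ← hg, g.apply_symm_apply]⟩
  invFun f := ⟨(g.trans f.1).trans g.symm, fun v => by
    show Q (g.symm (f.1 (g v))) = Q v
    rw [← hg, g.apply_symm_apply, f.2, hg]⟩
  left_inv f := by
    apply Subtype.ext
    ext v
    simp
  right_inv f := by
    apply Subtype.ext
    ext v
    simp

/-- The two standard quadratic forms of even dimension 2m over a finite field are not isometric: there is no linear isomorphism carrying the elliptic form Σ_(i<m−1) x_i y_i + z₁² + z₁z₂ + ζ z₂² (t² + t + ζ without roots) to the hyperbolic form Σ_(i<m) x_i y_i (they have different Witt index). -/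
theorem result {F : Type*} [Field F] [Finite F] {m : ℕ} (hm : 1 ≤ m) (ζ : F) (hζ : ∀ t : F, t ^ 2 + t + ζ ≠ 0) (g : (Fin m ⊕ Fin m → F) ≃ₗ[F] ((Fin (m - 1) ⊕ Fin (m - 1)) ⊕ Fin 2 → F)) : ¬ (∀ v : Fin m ⊕ Fin m → F, Cfsg.quadFormMinus (m - 1) F 1 ζ (g v) = Cfsg.quadFormPlus m F v) := by
  intro hg
  haveI := Fintype.ofFinite F
  have hab : ∀ z₁ z₂ : F, z₁ ^ 2 + 1 * z₁ * z₂ + ζ * z₂ ^ 2 = 0 → z₁ = 0 ∧ z₂ = 0 := by
    intro z₁ z₂ h
    have h2 : z₂ = 0 := by
      by_contra hne
      apply hζ (z₁ / z₂)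
      field_simp
      linear_combination h
    subst h2
    refine ⟨?_, rfl⟩
    simpa using h
  have e1 := Nat.card_congr (((isoE (Cfsg.quadFormPlus m F)).trans (conjE _ _ g hg)).trans (isoE (Cfsg.quadFormMinus (m - 1) F 1 ζ)).symm)
  rw [Cfsg.Agent.S0287.result rfl m hm, Cfsg.Agent.S0288.result rfl m hm 1 ζ hab] at e1
  have hq : 1 < Fintype.card F := Fintype.one_lt_card
  have hpos : 0 < ∏ i ∈ Finset.range (m - 1), (Fintype.card F ^ (2 * (i + 1)) - 1) := by
    apply Finset.prod_pos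
    intro i _
    have := Nat.one_lt_pow (n := 2 * (i + 1)) (by omega) hq
    omega
  have hpos2 : 0 < 2 * Fintype.card F ^ (m * (m - 1)) := by positivity
  have e2 := Nat.eq_of_mul_eq_mul_right hpos e1
  have e3 := Nat.eq_of_mul_eq_mul_left hpos2 e2
  omega

end Cfsg.Agent.S2617
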