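import Cfsg.Statements.S2561
import Mathlib
import Cfsg.Agent.H8.F2F
import Cfsg.Agent.S2617
import Cfsg.Agent.H7.Quad3
open Cfsg.Agent.H8.F2F Cfsg.Agent.H7 Cfsg.Agent.H7.Tv Cfsg.Agent.H7.Orth Cfsg.Agent.H7.Orth.Qf Cfsg.Agent.H7.Witt

set_option autoImplicit false
open Cfsg

namespace Cfsg.Agent.S2561

open Module

theorem classify (m : ℕ) (hm : 1 ≤ m) {q : (Fin m ⊕ Fin m → ZMod 2) → ZMod 2} {B} (hQ : Qf q B) :
      (∃ g : (Fin m ⊕ Fin m → ZMod 2) ≃ₗ[ZMod 2] (Fin m ⊕ Fin m → ZMod 2), ∀ v, q v = Cfsg.quadFormPlus m (ZMod 2) (g v)) ∨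
      (∃ g : (Fin m ⊕ Fin m → ZMod 2) ≃ₗ[ZMod 2] ((Fin (m - 1) ⊕ Fin (m - 1)) ⊕ Fin 2 → ZMod 2), ∀ v, q v = Cfsg.quadFormMinus (m - 1) (ZMod 2) 1 1 (g v)) := by
  let Q : QuadraticForm (ZMod 2) (Fin m ⊕ Fin m → ZMod 2) := ⟨q, fun a x => hQ.smul a x, ⟨B, fun x y => hQ.add x y⟩⟩
  have hQq : ∀ v, Q v = q v := fun v => rfl
  have hp : ∀ x y, QuadraticMap.polar ⇑Q x y = B x y := by
    intro x y
    show Q (x + y) - Q x - Q y = B x y
    rw [hQq, hQq, hQq, hQ.add]; ring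
  have hp2 : ∀ x y, QuadraticMap.polarBilin Q x y = B x y := by
    intro x y
    exact hp x y
  have hnd : (QuadraticMap.polarBilin Q).Nondegenerate := by
    refine ⟨fun x hx => hQ.nd x (fun y => by rw [← hp2]; exact hx y), fun y hy => hQ.nd y (fun x => by rw [hQ.symm, ← hp2]; exact hy x)⟩
  rcases Cfsg.Agent.S2616.result hm (by rw [Module.finrank_fintype_fun_eq_card]; simp; omega) Q hnd with ⟨b, h1, h2, h3⟩ | ⟨b, ζ, hζ, h1, h2, h3, h4, h5, h6, h7⟩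
  · left
    obtain ⟨B', hB'⟩ := exists_qf_plus (F := ZMod 2) m
    refine ⟨b.equivFun, compare hQ hB' b ?_ ?_⟩
    · rintro (i | i)
      · rw [← hQq, (h1 i).1]
        simp [Cfsg.quadFormPlus]
      · rw [← hQq, (h1 i).2]
        simp [Cfsg.quadFormPlus]
    · have hpol : ∀ u v, B' u v = Cfsg.quadFormPlus m (ZMod 2) (u + v) - Cfsg.quadFormPlus m (ZMod 2) u - Cfsg.quadFormPlus m (ZMod 2) v := by
        intro u v
        rw [hB'.add]; ring
      rintro (i | i) (j | j)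
      · rw [← hp, (h3 i j).1, hpol]
        simp [Cfsg.quadFormPlus]
      · rw [← hp, h2 i j, hpol]
        simp [Cfsg.quadFormPlus, Pi.single_apply, Finset.sum_ite_eq, eq_comm]
      · rw [hQ.symm, ← hp, h2 j i, hpol]
        simp [Cfsg.quadFormPlus, Pi.single_apply, Finset.sum_ite_eq, eq_comm]
      · rw [← hp, (h3 i j).2, hpol]
        simp [Cfsg.quadFormPlus]
  · right
    obtain rfl : ζ = 1 := by
      clear h7
      revert ζ; decide
    have hab : ∀ z₁ z₂ : ZMod 2, z₁ ^ 2 + 1 * z₁ * z₂ + 1 * z₂ ^ 2 = 0 → z₁ = 0 ∧ z₂ = 0 := by decide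
    obtain ⟨B', hB'⟩ := exists_qf_minus (F := ZMod 2) (m - 1) hab
    have hpol : ∀ u v, B' u v = Cfsg.quadFormMinus (m - 1) (ZMod 2) 1 1 (u + v) - Cfsg.quadFormMinus (m - 1) (ZMod 2) 1 1 u - Cfsg.quadFormMinus (m - 1) (ZMod 2) 1 1 v := by
      intro u v
      rw [hB'.add]; ring
    refine ⟨b.equivFun, compare hQ hB' b ?_ ?_⟩
    · rintro ((i | i) | k)
      · rw [← hQq, (h1 i).1]
        simp [Cfsg.quadFormMinus]
      · rw [← hQq, (h1 i).2]
        simp [Cfsg.quadFormMinus]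
      · fin_cases k
        · show q (b (Sum.inr 0)) = _
          rw [← hQq, h5]
          simp [Cfsg.quadFormMinus]
        · show q (b (Sum.inr 1)) = _
          rw [← hQq, h7]
          simp [Cfsg.quadFormMinus]
    · have h20 : (2 : ZMod 2) = 0 := rfl
      rintro ((i | i) | k) ((j | j) | l)
      · rw [← hp, (h3 i j).1, hpol]
        simp [Cfsg.quadFormMinus]
      · rw [← hp, h2 i j, hpol]
        simp [Cfsg.quadFormMinus, Pi.single_apply, Finset.sum_ite_eq, eq_comm]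
      · rw [← hp, (h4 i l).1, hpol]
        fin_cases l <;> simp [Cfsg.quadFormMinus]
      · rw [hQ.symm, ← hp, h2 j i, hpol]
        simp [Cfsg.quadFormMinus, Pi.single_apply, Finset.sum_ite_eq, eq_comm]
      · rw [← hp, (h3 i j).2, hpol]
        simp [Cfsg.quadFormMinus]
      · rw [← hp, (h4 i l).2, hpol]
        fin_cases l <;> simp [Cfsg.quadFormMinus]
      · rw [hQ.symm, ← hp, (h4 j k).1, hpol]
        fin_cases k <;> simp [Cfsg.quadFormMinus]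
      · rw [hQ.symm, ← hp, (h4 j k).2, hpol]
        fin_cases k <;> simp [Cfsg.quadFormMinus]
      · have h01 : B (b (Sum.inr 0)) (b (Sum.inr 1)) = B' (Pi.single (Sum.inr 0) 1) (Pi.single (Sum.inr 1) 1) := by
          rw [← hp, h6, hpol]
          simp [Cfsg.quadFormMinus]
        fin_cases k <;> fin_cases l
        · show B (b (Sum.inr 0)) (b (Sum.inr 0)) = B' (Pi.single (Sum.inr 0) 1) (Pi.single (Sum.inr 0) 1)
          rw [hQ.self, hB'.self, h20, zero_mul, zero_mul]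
        · exact h01
        · show B (b (Sum.inr 1)) (b (Sum.inr 0)) = B' (Pi.single (Sum.inr 1) 1) (Pi.single (Sum.inr 0) 1)
          rw [hQ.symm, hB'.symm]
          exact h01
        · show B (b (Sum.inr 1)) (b (Sum.inr 1)) = B' (Pi.single (Sum.inr 1) 1) (Pi.single (Sum.inr 1) 1)
          rw [hQ.self, hB'.self, h20, zero_mul, zero_mul]

theorem card_tw {ι : Type} [Fintype ι] [DecidableEq ι] {q : (ι → ZMod 2) → ZMod 2} {B : (ι → ZMod 2) →ₗ[ZMod 2] (ι → ZMod 2) →ₗ[ZMod 2] ZMod 2}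
    (hQ : Qf q B) (P : ((ι → ZMod 2) → ZMod 2) → Prop) :
    Nat.card {r : (ι → ZMod 2) → ZMod 2 // (∀ u v, r (u + v) = r u + r v + B u v) ∧ P r} = Nat.card {w // P (fun v => q v + B v w)} :=
  (Nat.card_congr (((Equiv.ofBijective _ (pol_equiv hQ)).subtypeEquiv (fun w => Iff.rfl)).trans
    (Equiv.subtypeSubtypeEquivSubtypeInter (fun r : (ι → ZMod 2) → ZMod 2 => ∀ u v, r (u + v) = r u + r v + B u v) P))).symm

/-- Fix the non-singular alternating form on the 2m-dimensional space over the field of two elements obtained by polarizing the plus-type form Σ xᵢyᵢ (m ≥ 1). The functions q on the space with q(u + v) = q(u) + q(v) + f(u, v) (the quadratic forms polarizing to f) number 2^(2m); each is equivalent under an invertible linear map either to the plus-type form or to the minus-type form Σ xᵢyᵢ + (z₁² + z₁z₂ + z₂²); and those of plus type number 2^(2m−1) + 2^(m−1), those of minus type 2^(2m−1)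 − 2^(m−1). -/
theorem result (m : ℕ) (hm : 1 ≤ m) :
    Nat.card {q : (Fin m ⊕ Fin m → ZMod 2) → ZMod 2 // (∀ u v : (Fin m ⊕ Fin m → ZMod 2), q (u + v) = q u + q v + (Cfsg.quadFormPlus m (ZMod 2) (u + v) - Cfsg.quadFormPlus m (ZMod 2) u - Cfsg.quadFormPlus m (ZMod 2) v))} = 2 ^ (2 * m) ∧
    (∀ q : (Fin m ⊕ Fin m → ZMod 2) → ZMod 2, (∀ u v : (Fin m ⊕ Fin m → ZMod 2), q (u + v) = q u + q v + (Cfsg.quadFormPlus m (ZMod 2) (u + v) - Cfsg.quadFormPlus m (ZMod 2) u - Cfsg.quadFormPlus m (ZMod 2) v)) →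
      (∃ g : (Fin m ⊕ Fin m → ZMod 2) ≃ₗ[ZMod 2] (Fin m ⊕ Fin m → ZMod 2), ∀ v, q v = Cfsg.quadFormPlus m (ZMod 2) (g v)) ∨
      (∃ g : (Fin m ⊕ Fin m → ZMod 2) ≃ₗ[ZMod 2] ((Fin (m - 1) ⊕ Fin (m - 1)) ⊕ Fin 2 → ZMod 2), ∀ v, q v = Cfsg.quadFormMinus (m - 1) (ZMod 2) 1 1 (g v))) ∧
    Nat.card {q : (Fin m ⊕ Fin m → ZMod 2) → ZMod 2 // (∀ u v : (Fin m ⊕ Fin m → ZMod 2), q (u + v) = q u + q v + (Cfsg.quadFormPlus m (ZMod 2) (u + v) - Cfsg.quadFormPlus m (ZMod 2) u - Cfsg.quadFormPlus m (ZMod 2) v)) ∧ ∃ g : (Fin m ⊕ Fin m → ZMod 2) ≃ₗ[ZMod 2] (Fin m ⊕ Fin m → ZMod 2), ∀ v, q v = Cfsg.quadFormPlus m (ZMod 2) (g v)} = 2 ^ (2 * m - 1) + 2 ^ (m - 1) ∧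
    Nat.card {q : (Fin m ⊕ Fin m → ZMod 2) → ZMod 2 // (∀ u v : (Fin m ⊕ Fin m → ZMod 2), q (u + v) = q u + q v + (Cfsg.quadFormPlus m (ZMod 2) (u + v) - Cfsg.quadFormPlus m (ZMod 2) u - Cfsg.quadFormPlus m (ZMod 2) v)) ∧ ∃ g : (Fin m ⊕ Fin m → ZMod 2) ≃ₗ[ZMod 2] ((Fin (m - 1) ⊕ Fin (m - 1)) ⊕ Fin 2 → ZMod 2), ∀ v, q v = Cfsg.quadFormMinus (m - 1) (ZMod 2) 1 1 (g v)} = 2 ^ (2 * m - 1) - 2 ^ (m - 1) := by
  obtain ⟨B, hB⟩ := exists_qf_plus (F := ZMod 2) m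
  have hpol : ∀ u v, Cfsg.quadFormPlus m (ZMod 2) (u + v) - Cfsg.quadFormPlus m (ZMod 2) u - Cfsg.quadFormPlus m (ZMod 2) v = B u v := by
    intro u v
    rw [hB.add]; ring
  simp only [hpol]
  have hex : ∀ r : (Fin m ⊕ Fin m → ZMod 2) → ZMod 2, (∃ g : (Fin m ⊕ Fin m → ZMod 2) ≃ₗ[ZMod 2] (Fin m ⊕ Fin m → ZMod 2), ∀ v, r v = Cfsg.quadFormPlus m (ZMod 2) (g v)) →
      (∃ g : (Fin m ⊕ Fin m → ZMod 2) ≃ₗ[ZMod 2] ((Fin (m - 1) ⊕ Fin (m - 1)) ⊕ Fin 2 → ZMod 2), ∀ v, r v = Cfsg.quadFormMinus (m - 1) (ZMod 2) 1 1 (g v)) → False := by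
    rintro r ⟨g, hg⟩ ⟨g', hg'⟩
    refine Cfsg.Agent.S2617.result hm (1 : ZMod 2) (by decide) (g.symm.trans g') (fun v => ?_)
    show Cfsg.quadFormMinus (m - 1) (ZMod 2) 1 1 (g' (g.symm v)) = _
    rw [← hg', hg, g.apply_symm_apply]
  obtain ⟨n, rfl⟩ : ∃ n, m = n + 1 := ⟨m - 1, by omega⟩
  refine ⟨?_, fun q hq => classify (n + 1) hm (qf_of_add hq hB.nd), ?_, ?_⟩
  · rw [← Nat.card_congr (Equiv.ofBijective _ (pol_equiv hB))]
    simp
    ring
  · rw [card_tw hB, Nat.card_congr (Equiv.subtypeEquivRight (fun w => twist hB w)), Cfsg.Agent.H7.Quad.card_plus_zero (ZMod.card 2) (n + 1) hm]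
    rw [show 2 * (n + 1) - 1 = 2 * n + 1 by omega, show n + 1 - 1 = n by omega, pow_succ 2 n]
    generalize 2 ^ (2 * n + 1) = A
    generalize 2 ^ n = C
    omega
  · rw [card_tw hB, Nat.card_congr (Equiv.subtypeEquivRight (q := fun w => Cfsg.quadFormPlus (n + 1) (ZMod 2) w = 1) (fun w => ?_)), card_plus_one (ZMod.card 2) (n + 1)]
    · rw [show 2 * (n + 1) - 1 = 2 * n + 1 by omega, show n + 1 - 1 = n by omega, Nat.sub_mul, one_mul, ← pow_add]
      congr 2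
      omega
    · have hQ' : Qf (fun v => Cfsg.quadFormPlus (n + 1) (ZMod 2) v + B v w) B := qf_of_add (fun u v => by
        beta_reduce
        rw [hB.add, map_add, LinearMap.add_apply]; ring) hB.nd
      have h1 := twist hB w
      have h2 := classify (n + 1) hm hQ'
      have h3 := hex (fun v => Cfsg.quadFormPlus (n + 1) (ZMod 2) v + B v w)
      have h4 : ∀ a : ZMod 2, a = 1 ↔ ¬ a = 0 := by decide
      rw [h4, ← h1]
      constructor
      · intro hm' hp'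
        exact h3 hp' hm'
      · intro hnp
        exact h2.resolve_left hnp

end Cfsg.Agent.S2561
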