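import Cfsg.Statements.S2562
import Mathlib
import Cfsg.Agent.H8.F2F
open Cfsg.Agent.H8.F2F Cfsg.Agent.H7 Cfsg.Agent.H7.Tv Cfsg.Agent.H7.Orth Cfsg.Agent.H7.Orth.Qf Cfsg.Agent.H7.Witt
open Module

set_option autoImplicit false
open Cfsg

namespace Cfsg.Agent.S2562

/-- functions supported on a subset of the coordinates -/
def supp {ι : Type} (S : Set ι) : Submodule (ZMod 2) (ι → ZMod 2) where
  carrier := {v | ∀ i ∉ S, v i = 0}
  zero_mem' := fun i _ => rfl
  add_mem' := fun {a b} ha hb i hi => by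
    show a i + b i = 0
    rw [ha i hi, hb i hi, add_zero]
  smul_mem' := fun c {a} ha i hi => by
    show c * a i = 0
    rw [ha i hi, mul_zero]

theorem finrank_inj {κ ι : Type} [Fintype κ] [Fintype ι] [DecidableEq κ] [DecidableEq ι] (f : κ → ι) (hf : Function.Injective f) :
    finrank (ZMod 2) (supp (Set.range f)) = Fintype.card κ := by
  let φ : (supp (Set.range f)) ≃ₗ[ZMod 2] (κ → ZMod 2) := LinearEquiv.ofBijective
    ((LinearMap.funLeft (ZMod 2) (ZMod 2) f).comp (supp (Set.range f)).subtype) (by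
      constructor
      · intro v w h
        apply Subtype.ext
        funext i
        by_cases hi : i ∈ Set.range f
        · obtain ⟨k, rfl⟩ := hi
          exact congrFun h k
        · rw [v.2 i hi, w.2 i hi]
      · intro w
        refine ⟨⟨Function.extend f w 0, fun i hi => ?_⟩, ?_⟩
        · rw [Function.extend_apply' _ _ _ (fun ⟨k, hk⟩ => hi ⟨k, hk⟩)]; rfl
        · funext k
          show Function.extend f w 0 (f k) = w k
          rw [hf.extend_apply])
  rw [φ.finrank_eq, Module.finrank_fintype_fun_eq_card]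

/-- Witt indices over the field of two elements, m ≥ 1: for the plus-type form Σ xᵢyᵢ in dimension 2m some m-dimensional subspace is totally singular and no totally singular subspace has larger dimension; for the minus-type form Σ xᵢyᵢ + (z₁² + z₁z₂ + z₂²) in dimension 2m the maximal dimension of a totally singular subspace is m − 1. -/
theorem result (m : ℕ) (hm : 1 ≤ m) :
    (∃ U : Submodule (ZMod 2) (Fin m ⊕ Fin m → ZMod 2), (∀ u ∈ U, Cfsg.quadFormPlus m (ZMod 2) u = 0) ∧ Module.finrank (ZMod 2) ↥U = m) ∧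
    (∀ U : Submodule (ZMod 2) (Fin m ⊕ Fin m → ZMod 2), (∀ u ∈ U, Cfsg.quadFormPlus m (ZMod 2) u = 0) → Module.finrank (ZMod 2) ↥U ≤ m) ∧
    (∃ U : Submodule (ZMod 2) ((Fin (m - 1) ⊕ Fin (m - 1)) ⊕ Fin 2 → ZMod 2), (∀ u ∈ U, Cfsg.quadFormMinus (m - 1) (ZMod 2) 1 1 u = 0) ∧ Module.finrank (ZMod 2) ↥U = m - 1) ∧
    (∀ U : Submodule (ZMod 2) ((Fin (m - 1) ⊕ Fin (m - 1)) ⊕ Fin 2 → ZMod 2), (∀ u ∈ U, Cfsg.quadFormMinus (m - 1) (ZMod 2) 1 1 u = 0) → Module.finrank (ZMod 2) ↥U ≤ m - 1) := by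
  obtain ⟨B, hB⟩ := exists_qf_plus (F := ZMod 2) m
  refine ⟨⟨supp (Set.range Sum.inl), ?_, ?_⟩, ?_, ⟨supp (Set.range (fun i : Fin (m - 1) => Sum.inl (Sum.inl i))), ?_, ?_⟩, ?_⟩
  · intro u hu
    rw [Cfsg.quadFormPlus]
    refine Finset.sum_eq_zero (fun i _ => ?_)
    rw [hu (Sum.inr i) (by simp), mul_zero]
  · rw [finrank_inj _ Sum.inl_injective, Fintype.card_fin]
  · intro U hU
    have := ts_dim hB hU
    simp at this
    omega
  · intro u hu
    rw [Cfsg.quadFormMinus, Finset.sum_eq_zero (fun i _ => ?_), hu (Sum.inr 0) (by simp), hu (Sum.inr 1) (by simp)]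
    · ring
    · rw [hu (Sum.inl (Sum.inr i)) (by simp), mul_zero]
  · rw [finrank_inj _ (fun a b h => by simpa using h), Fintype.card_fin]
  · intro U hU
    have hab : ∀ z₁ z₂ : ZMod 2, z₁ ^ 2 + 1 * z₁ * z₂ + 1 * z₂ ^ 2 = 0 → z₁ = 0 ∧ z₂ = 0 := by decide
    obtain ⟨B', hB'⟩ := exists_qf_minus (F := ZMod 2) (m - 1) hab
    have h1 := ts_dim hB' hU
    simp only [Fintype.card_sum, Fintype.card_fin] at h1
    by_contra hcon
    have hUm : finrank (ZMod 2) U = m := by omega
    obtain ⟨Y, hYdef⟩ : ∃ Y : Submodule (ZMod 2) ((Fin (m - 1) ⊕ Fin (m - 1)) ⊕ Fin 2 → ZMod 2), Y = supp (Set.range (fun i : Fin (m - 1) => Sum.inl (Sum.inr i))) := ⟨_, rfl⟩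
    have hYd : finrank (ZMod 2) Y = m - 1 := by
      rw [hYdef, finrank_inj _ (fun a b h => by simpa using h), Fintype.card_fin]
    have hP := hB'.finrank_prp Y
    simp only [Fintype.card_sum, Fintype.card_fin] at hP
    have hle : U ⊓ prp B' Y ≤ U ⊓ Y := by
      rintro v ⟨hv1, hv2⟩
      refine ⟨hv1, ?_⟩
      have hx : ∀ i, v (Sum.inl (Sum.inl i)) = 0 := by
        intro i
        have h2 : B' (Pi.single (Sum.inl (Sum.inr i)) 1) v = 0 := hv2 _ (by
          rw [hYdef]
          intro j hj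
          exact Pi.single_eq_of_ne (fun h => hj ⟨i, h.symm⟩) _)
        have h3 := hB'.add (Pi.single (Sum.inl (Sum.inr i)) 1) v
        rw [h2] at h3
        simp [Cfsg.quadFormMinus, Pi.single_apply, mul_add, Finset.sum_add_distrib, Finset.sum_ite_eq] at h3
        exact h3
      have hq := hU v hv1
      rw [Cfsg.quadFormMinus, Finset.sum_eq_zero (fun i _ => by rw [hx, zero_mul]), zero_add] at hq
      obtain ⟨hz0, hz1⟩ := hab _ _ hq
      rw [hYdef]
      rintro ((i | i) | k) hi
      · exact hx i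
      · exact absurd ⟨i, rfl⟩ hi
      · fin_cases k
        · exact hz0
        · exact hz1
    have h4 := Submodule.finrank_sup_add_finrank_inf_eq U (prp B' Y)
    have h5 : U ⊔ prp B' Y ≤ prp B' (U ⊓ Y) := by
      refine sup_le ?_ ?_
      · intro x hx y hy
        have := hB'.add y x
        rw [hU y hy.1, hU x hx, hU _ (U.add_mem hy.1 hx)] at this
        linear_combination -this
      · intro x hx y hy
        exact hx y hy.2
    have h6 := Submodule.finrank_mono h5
    have h7 := hB'.finrank_prp (U ⊓ Y)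
    simp only [Fintype.card_sum, Fintype.card_fin] at h7
    have h8 := Submodule.finrank_mono hle
    omega

end Cfsg.Agent.S2562
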