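import Cfsg.Statements.S2563
import Mathlib
import Cfsg.Agent.H8.F2F
import Cfsg.Agent.S2561
import Cfsg.Agent.H7.Quad3
open Cfsg.Agent.H8.F2F Cfsg.Agent.H7 Cfsg.Agent.H7.Tv Cfsg.Agent.H7.Orth Cfsg.Agent.H7.Orth.Qf Cfsg.Agent.H7.Witt
open Module

set_option autoImplicit false
open Cfsg

namespace Cfsg.Agent.S2563

theorem emb {G : Type*} [Group G] {F : Type*} [Field F] {V : Type*} [AddCommGroup V] [Module F V] {ι : Type} [Fintype ι] [DecidableEq ι]
    (T : G →* (V ≃ₗ[F] V)) (hT : Function.Injective T) (q : V → F) (hq : ∀ g v, q (T g v) = q v) (Ψ : V ≃ₗ[F] (ι → F))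
    (Q : (ι → F) → F) (hΨ : ∀ v, Q (Ψ v) = q v) : ∃ φ : G →* ↥(Cfsg.isometryGroup F Q), Function.Injective φ := by
  let e := (Matrix.GeneralLinearGroup.toLin (n := ι) (R := F)).trans (LinearMap.GeneralLinearGroup.generalLinearEquiv F (ι → F))
  let c : (V ≃ₗ[F] V) →* ((ι → F) ≃ₗ[F] (ι → F)) := MonoidHom.mk' (fun f => (Ψ.symm.trans f).trans Ψ) (by
    intro f g
    ext v i
    show Ψ (f (g (Ψ.symm v))) i = Ψ (f (Ψ.symm (Ψ (g (Ψ.symm v))))) i
    rw [Ψ.symm_apply_apply])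
  have hc : Function.Injective c := by
    intro f g h
    ext v
    have := congrArg (fun (t : (ι → F) ≃ₗ[F] (ι → F)) => t (Ψ v)) h
    simp only [c, MonoidHom.coe_mk, MonoidHom.mk', OneHom.coe_mk, LinearEquiv.trans_apply, Ψ.symm_apply_apply] at this
    exact Ψ.injective this
  let φ0 : G →* Matrix.GeneralLinearGroup ι F := e.symm.toMonoidHom.comp (c.comp T)
  have hmem : ∀ g, φ0 g ∈ Cfsg.isometryGroup F Q := by
    intro g
    intro u _
    have h1 : ∀ w, (e (φ0 g)) w = (Matrix.mulVec ((φ0 g : Matrix.GeneralLinearGroup ι F) : Matrix ι ι F) w) := fun w => rfl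
    have h2 : e (φ0 g) = c (T g) := e.apply_symm_apply _
    show Q (Matrix.mulVec ((φ0 g : Matrix.GeneralLinearGroup ι F) : Matrix ι ι F) u) = Q u
    rw [← h1, h2]
    show Q (Ψ (T g (Ψ.symm u))) = Q u
    rw [hΨ, hq, ← hΨ, Ψ.apply_symm_apply]
  refine ⟨φ0.codRestrict _ hmem, fun a b h => ?_⟩
  have h1 : φ0 a = φ0 b := congrArg Subtype.val h
  exact hT (hc (e.symm.injective h1))

section act
variable {N : ℕ}

/-- extension by zero -/
def ext (w : Fin N → ZMod 2) : Fin (N + 1) → ZMod 2 := Fin.cons 0 w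
/-- reduction modulo the all-one vector -/
def res (v : Fin (N + 1) → ZMod 2) : Fin N → ZMod 2 := fun i => v i.succ + v 0

theorem res_ext (w : Fin N → ZMod 2) : res (ext w) = w := by
  funext i
  show (Fin.cons 0 w : Fin (N + 1) → ZMod 2) i.succ + (Fin.cons 0 w : Fin (N + 1) → ZMod 2) 0 = w i
  rw [Fin.cons_succ, Fin.cons_zero, add_zero]

theorem ext_res (v : Fin (N + 1) → ZMod 2) (j : Fin (N + 1)) : ext (res v) j = v j + v 0 := by
  refine Fin.cases ?_ (fun i => ?_) j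
  · show (Fin.cons 0 (res v) : Fin (N + 1) → ZMod 2) 0 = _
    rw [Fin.cons_zero, CharTwo.add_self_eq_zero]
  · show (Fin.cons 0 (res v) : Fin (N + 1) → ZMod 2) i.succ = _
    rw [Fin.cons_succ]; rfl

/-- the action -/
def act (σ : Equiv.Perm (Fin (N + 1))) (w : Fin N → ZMod 2) : Fin N → ZMod 2 := res (fun j => ext w (σ⁻¹ j))

theorem act_res (σ : Equiv.Perm (Fin (N + 1))) (v : Fin (N + 1) → ZMod 2) : act σ (res v) = res (fun j => v (σ⁻¹ j)) := by
  funext i
  show ext (res v) (σ⁻¹ i.succ) + ext (res v) (σ⁻¹ 0) = v (σ⁻¹ i.succ) + v (σ⁻¹ 0)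
  rw [ext_res, ext_res]
  have : v 0 + v 0 = 0 := CharTwo.add_self_eq_zero _
  linear_combination this

theorem act_mul (σ τ : Equiv.Perm (Fin (N + 1))) (w : Fin N → ZMod 2) : act (σ * τ) w = act σ (act τ w) := by
  have : act τ w = res (fun j => ext w (τ⁻¹ j)) := rfl
  rw [this, act_res]
  show res (fun j => ext w ((σ * τ)⁻¹ j)) = _
  rw [mul_inv_rev]
  rfl

theorem act_one (w : Fin N → ZMod 2) : act 1 w = w := by
  show res (fun j => ext w ((1 : Equiv.Perm (Fin (N + 1)))⁻¹ j)) = w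
  rw [inv_one]
  exact res_ext w

theorem ext_add (v w : Fin N → ZMod 2) (j) : ext (v + w) j = ext v j + ext w j := by
  refine Fin.cases ?_ (fun i => ?_) j
  · show (0 : ZMod 2) = 0 + 0
    rw [add_zero]
  · rfl

theorem ext_smul (c : ZMod 2) (w : Fin N → ZMod 2) (j) : ext (c • w) j = c * ext w j := by
  refine Fin.cases ?_ (fun i => ?_) j
  · show (0 : ZMod 2) = c * 0
    rw [mul_zero]
  · rfl

def actL : Equiv.Perm (Fin (N + 1)) →* ((Fin N → ZMod 2) →ₗ[ZMod 2] (Fin N → ZMod 2)) where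
  toFun σ :=
    { toFun := act σ
      map_add' := fun v w => by
        funext i
        show ext (v + w) (σ⁻¹ i.succ) + ext (v + w) (σ⁻¹ 0) = (ext v (σ⁻¹ i.succ) + ext v (σ⁻¹ 0)) + (ext w (σ⁻¹ i.succ) + ext w (σ⁻¹ 0))
        rw [ext_add, ext_add]; ring
      map_smul' := fun c w => by
        funext i
        show ext (c • w) (σ⁻¹ i.succ) + ext (c • w) (σ⁻¹ 0) = c * (ext w (σ⁻¹ i.succ) + ext w (σ⁻¹ 0))
        rw [ext_smul, ext_smul]; ring }
  map_one' := LinearMap.ext act_one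
  map_mul' σ τ := LinearMap.ext (act_mul σ τ)

/-- sum of coordinates -/
def sm (N : ℕ) : (Fin N → ZMod 2) →ₗ[ZMod 2] ZMod 2 := ∑ i, LinearMap.proj i

noncomputable instance instFKer (N : ℕ) : Fintype (LinearMap.ker (sm N)) := Fintype.ofFinite _

theorem sm_apply (w : Fin N → ZMod 2) : sm N w = ∑ i, w i := by
  rw [sm, LinearMap.sum_apply]; rfl

theorem sum_act (hN : (N : ZMod 2) = 1) (σ : Equiv.Perm (Fin (N + 1))) (w : Fin N → ZMod 2) : ∑ i, act σ w i = ∑ i, w i := by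
  have h1 : ∑ j, ext w (σ⁻¹ j) = ∑ i, w i := by
    rw [Equiv.sum_comp (σ⁻¹) (ext w), Fin.sum_univ_succ]
    show (0 : ZMod 2) + ∑ i, w i = _
    rw [zero_add]
  have h2 : ∑ i, act σ w i = ∑ i : Fin N, (ext w (σ⁻¹ i.succ) + ext w (σ⁻¹ 0)) := rfl
  rw [h2, Finset.sum_add_distrib, ← h1, Fin.sum_univ_succ, Finset.sum_const, Finset.card_univ, Fintype.card_fin, nsmul_eq_mul, hN]
  ring

/-- weight -/
def wt {n : ℕ} (w : Fin n → ZMod 2) : ℕ := ∑ i, (w i).val

theorem wt_cast {n : ℕ} (w : Fin n → ZMod 2) : (wt w : ZMod 2) = ∑ i, w i := by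
  rw [wt, Nat.cast_sum]
  refine Finset.sum_congr rfl (fun i _ => ?_)
  exact ZMod.natCast_zmod_val _

theorem wt_act (σ : Equiv.Perm (Fin (N + 1))) (w : Fin N → ZMod 2) : wt (act σ w) = wt w ∨ wt (act σ w) + wt w = N + 1 := by
  have h1 : ∑ j, (ext w (σ⁻¹ j)).val = wt w := by
    rw [Equiv.sum_comp (σ⁻¹) (fun j => (ext w j).val), Fin.sum_univ_succ]
    show (0 : ZMod 2).val + ∑ i, (w i).val = _
    rw [ZMod.val_zero, zero_add]; rfl
  rw [Fin.sum_univ_succ] at h1
  have h2 : wt (act σ w) = ∑ i : Fin N, (ext w (σ⁻¹ i.succ) + ext w (σ⁻¹ 0)).val := rfl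
  obtain h0 | h0 : ext w (σ⁻¹ 0) = 0 ∨ ext w (σ⁻¹ 0) = 1 := by
    generalize ext w (σ⁻¹ 0) = a
    revert a; decide
  · left
    rw [h2, ← h1, h0, ZMod.val_zero, zero_add]
    simp only [add_zero]
  · right
    rw [h2, ← h1, h0]
    have h3 : ∀ a : ZMod 2, (a + 1).val + a.val = 1 := by decide
    have h4 : ∑ i : Fin N, ((ext w (σ⁻¹ i.succ) + 1).val + (ext w (σ⁻¹ i.succ)).val) = N := by
      simp only [h3]
      simp
    rw [Finset.sum_add_distrib] at h4
    have h5 : (1 : ZMod 2).val = 1 := rfl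
    rw [h5]
    omega

theorem mem_H {w : Fin N → ZMod 2} : w ∈ LinearMap.ker (sm N) ↔ ∑ i, w i = 0 := by
  rw [LinearMap.mem_ker, sm_apply]

def actH (hN : (N : ZMod 2) = 1) : Equiv.Perm (Fin (N + 1)) →* (LinearMap.ker (sm N) ≃ₗ[ZMod 2] LinearMap.ker (sm N)) :=
  MonoidHom.mk' (fun σ => LinearEquiv.ofLinear
    ((actL σ).restrict (p := LinearMap.ker (sm N)) (q := LinearMap.ker (sm N)) (fun w hw => mem_H.2 ((sum_act hN σ w).trans (mem_H.1 hw))))
    ((actL σ⁻¹).restrict (p := LinearMap.ker (sm N)) (q := LinearMap.ker (sm N)) (fun w hw => mem_H.2 ((sum_act hN σ⁻¹ w).trans (mem_H.1 hw))))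
    (LinearMap.ext fun v => Subtype.ext (by
      show act σ (act σ⁻¹ v.1) = v.1
      rw [← act_mul, mul_inv_cancel, act_one]))
    (LinearMap.ext fun v => Subtype.ext (by
      show act σ⁻¹ (act σ v.1) = v.1
      rw [← act_mul, inv_mul_cancel, act_one])))
  (fun σ τ => LinearEquiv.ext fun v => Subtype.ext (act_mul σ τ v.1))

theorem actH_val (hN : (N : ZMod 2) = 1) (σ) (w : LinearMap.ker (sm N)) : (actH hN σ w : Fin N → ZMod 2) = act σ w.1 := rfl

theorem wt_even {w : Fin N → ZMod 2} (hw : w ∈ LinearMap.ker (sm N)) : wt w % 2 = 0 := by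
  have h1 : ((wt w : ℕ) : ZMod 2) = 0 := by rw [wt_cast]; exact mem_H.1 hw
  have := (ZMod.natCast_eq_zero_iff _ _).1 h1
  omega

/-- half the weight -/
def hf (w : Fin N → ZMod 2) : ZMod 2 := ((wt w / 2 : ℕ) : ZMod 2)

theorem hf_act (hN4 : N % 4 = 3) (hN : (N : ZMod 2) = 1) (σ) (w : LinearMap.ker (sm N)) : hf (actH hN σ w).1 = hf w.1 := by
  rw [actH_val, hf, hf, ZMod.natCast_eq_natCast_iff']
  have h1 := wt_even w.2
  have h2 := wt_even (actH hN σ w).2
  rw [actH_val] at h2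
  rcases wt_act σ w.1 with h | h <;> omega

theorem hf_add {u v : Fin N → ZMod 2} (hu : u ∈ LinearMap.ker (sm N)) (hv : v ∈ LinearMap.ker (sm N)) :
    hf (u + v) = hf u + hf v + ∑ i, u i * v i := by
  have h0 : ∀ a b : ZMod 2, (a + b).val + 2 * (a * b).val = a.val + b.val := by decide
  have h1 : wt (u + v) + 2 * ∑ i, (u i * v i).val = wt u + wt v := by
    rw [wt, wt, wt, Finset.mul_sum, ← Finset.sum_add_distrib, ← Finset.sum_add_distrib]
    exact Finset.sum_congr rfl (fun i _ => h0 _ _)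
  have h2 := wt_even hu
  have h3 := wt_even hv
  have h4 : wt (u + v) / 2 + ∑ i, (u i * v i).val = wt u / 2 + wt v / 2 := by omega
  have h5 : ((∑ i, (u i * v i).val : ℕ) : ZMod 2) = ∑ i, u i * v i := by
    rw [Nat.cast_sum]
    exact Finset.sum_congr rfl (fun i _ => ZMod.natCast_zmod_val _)
  have h6 := congrArg (fun t : ℕ => (t : ZMod 2)) h4
  simp only [Nat.cast_add, h5] at h6
  have h7 : (∑ i, u i * v i) + (∑ i, u i * v i) = 0 := CharTwo.add_self_eq_zero _
  rw [hf, hf, hf]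
  linear_combination h6 - h7

theorem pair_mem (i j : Fin N) : (Pi.single i 1 + Pi.single j 1 : Fin N → ZMod 2) ∈ LinearMap.ker (sm N) := by
  rw [mem_H]
  simp only [Pi.add_apply, Finset.sum_add_distrib, Finset.sum_pi_single', Finset.mem_univ, if_true]
  rfl

theorem hf_nd (hN : (N : ZMod 2) = 1) {u : Fin N → ZMod 2} (hu : u ∈ LinearMap.ker (sm N)) (h : ∀ v ∈ LinearMap.ker (sm N), ∑ i, u i * v i = 0) : u = 0 := by
  have h1 : ∀ i j, u i = u j := by
    intro i j
    have := h _ (pair_mem i j)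
    simp only [Pi.add_apply, mul_add, Finset.sum_add_distrib, Pi.single_apply, mul_ite, mul_one, mul_zero, Finset.sum_ite_eq', Finset.mem_univ, if_true] at this
    have h2 : u j + u j = 0 := CharTwo.add_self_eq_zero _
    linear_combination this - h2
  funext i
  have h3 := mem_H.1 hu
  rw [Finset.sum_congr rfl (fun j _ => h1 j i), Finset.sum_const, Finset.card_univ, Fintype.card_fin, nsmul_eq_mul, hN, one_mul] at h3
  exact h3

theorem actH_inj (hN : (N : ZMod 2) = 1) (hN4 : 4 ≤ N) : Function.Injective (actH hN) := by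
  rw [injective_iff_map_eq_one]
  intro σ hσ
  have h1 : ∀ w : Fin N → ZMod 2, ∑ i, w i = 0 → act σ w = w := by
    intro w hw
    have := congrArg (fun t : (LinearMap.ker (sm N) ≃ₗ[ZMod 2] LinearMap.ker (sm N)) => (t ⟨w, mem_H.2 hw⟩).1) hσ
    exact this
  have h2 : ∀ v : Fin (N + 1) → ZMod 2, ∑ i, v i = 0 → ∀ j, v (σ⁻¹ j) + v (σ⁻¹ 0) = v j + v 0 := by
    intro v hv j
    have h3 : ∑ i, res v i = 0 := by
      show ∑ i : Fin N, (v i.succ + v 0) = 0
      rw [Finset.sum_add_distrib, Finset.sum_const, Finset.card_univ, Fintype.card_fin, nsmul_eq_mul, hN]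
      rw [Fin.sum_univ_succ] at hv
      linear_combination hv
    have h4 := h1 _ h3
    rw [act_res] at h4
    have h5 := congrArg (fun t => ext t j) h4
    simp only [ext_res] at h5
    exact h5
  ext i
  congr 1
  by_contra hne
  have hne' : σ i ≠ i := hne
  obtain ⟨j, hj⟩ : ∃ j, j ∉ ({i, σ i} : Finset (Fin (N + 1))) := by
    by_contra hcon
    push Not at hcon
    have h3 : (Finset.univ : Finset (Fin (N + 1))) ⊆ {i, σ i} := fun j _ => hcon j
    have h4 := Finset.card_le_card h3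
    have h5 := Finset.card_le_two (a := i) (b := σ i)
    rw [Finset.card_univ, Fintype.card_fin] at h4
    omega
  obtain ⟨l, hl⟩ : ∃ l, l ∉ ({i, j, σ i, σ j} : Finset (Fin (N + 1))) := by
    by_contra hcon
    push Not at hcon
    have h3 : (Finset.univ : Finset (Fin (N + 1))) ⊆ {i, j, σ i, σ j} := fun j _ => hcon j
    have h4 := Finset.card_le_card h3
    have h5 := Finset.card_le_four (a := i) (b := j) (c := σ i) (d := σ j)
    rw [Finset.card_univ, Fintype.card_fin] at h4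
    omega
  simp only [Finset.mem_insert, Finset.mem_singleton, not_or] at hj hl
  have h3 := h2 (Pi.single i 1 + Pi.single j 1) (by
    simp only [Pi.add_apply, Finset.sum_add_distrib, Finset.sum_pi_single', Finset.mem_univ, if_true]
    rfl)
  have h4 := h3 l
  have h5 := h3 (σ i)
  have a1 : ∀ x, σ (σ⁻¹ x) = x := fun x => σ.apply_symm_apply x
  have a2 : ∀ x, σ⁻¹ (σ x) = x := fun x => σ.symm_apply_apply x
  have e1 : σ⁻¹ l ≠ i := fun h => hl.2.2.1 (by rw [← h, a1])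
  have e2 : σ⁻¹ l ≠ j := fun h => hl.2.2.2 (by rw [← h, a1])
  rw [a2] at h5
  simp only [Pi.add_apply, Pi.single_eq_same, Pi.single_eq_of_ne e1, Pi.single_eq_of_ne e2, Pi.single_eq_of_ne hl.1, Pi.single_eq_of_ne hl.2.1,
    Pi.single_eq_of_ne (Ne.symm hj.1), Pi.single_eq_of_ne hne', Pi.single_eq_of_ne (Ne.symm hj.2), add_zero, zero_add] at h4 h5
  rw [h4] at h5
  have : (1 : ZMod 2) = 0 := by linear_combination h5
  exact one_ne_zero this
end act

section gauss
open Complex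

theorem sum_om (N : ℕ) : ∑ w : Fin N → ZMod 2, I ^ (wt w) = (1 + I) ^ N := by
  have h1 : ∀ w : Fin N → ZMod 2, I ^ (wt w) = ∏ i, I ^ (w i).val := fun w => (Finset.prod_pow_eq_pow_sum _ _ _).symm
  simp only [h1]
  have h2 := Finset.prod_univ_sum (fun _ : Fin N => (Finset.univ : Finset (ZMod 2))) (fun _ a => I ^ a.val)
  rw [Fintype.piFinset_univ] at h2
  rw [← h2]
  have h3 : ∑ a : ZMod 2, I ^ a.val = 1 + I := by
    rw [show (Finset.univ : Finset (ZMod 2)) = {0, 1} from rfl, Finset.sum_pair (by decide)]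
    show I ^ 0 + I ^ 1 = _
    rw [pow_zero, pow_one]
  rw [Finset.prod_const, h3]; simp

theorem chi_cast (t : ℕ) : chi (t : ZMod 2) = (-1) ^ t := by
  rcases Nat.even_or_odd t with h | h
  · rw [h.neg_one_pow]
    have : (t : ZMod 2) = 0 := (ZMod.natCast_eq_zero_iff _ _).2 h.two_dvd
    rw [this]; decide
  · rw [h.neg_one_pow]
    obtain ⟨s, rfl⟩ := h
    have h20 : (2 : ZMod 2) = 0 := rfl
    have : ((2 * s + 1 : ℕ) : ZMod 2) = 1 := by push_cast; rw [h20]; ring
    rw [this]; decide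

theorem re_pow {N : ℕ} (w : Fin N → ZMod 2) : (I ^ (wt w)).re = ((if ∑ i, w i = 0 then chi (hf w) else 0 : ℤ) : ℝ) := by
  have hc := wt_cast w
  rcases Nat.even_or_odd (wt w) with h | h
  · have h0 : ∑ i, w i = 0 := by rw [← hc]; exact (ZMod.natCast_eq_zero_iff _ _).2 h.two_dvd
    rw [if_pos h0, hf, chi_cast]
    obtain ⟨t, ht⟩ := h
    rw [ht, ← two_mul, pow_mul, I_sq, Nat.mul_div_cancel_left _ (by norm_num)]
    have : ((-1 : ℂ)) ^ t = (((-1 : ℝ) ^ t : ℝ) : ℂ) := by push_cast; rfl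
    rw [this, ofReal_re]
    push_cast; rfl
  · obtain ⟨t, ht⟩ := h
    have h20 : (2 : ZMod 2) = 0 := rfl
    have h0 : ∑ i, w i ≠ 0 := by
      rw [← hc, ht]; push_cast; rw [h20, zero_mul, zero_add]; exact one_ne_zero
    rw [if_neg h0, ht, pow_succ, pow_mul, I_sq]
    have : ((-1 : ℂ)) ^ t = (((-1 : ℝ) ^ t : ℝ) : ℂ) := by push_cast; rfl
    rw [this, re_ofReal_mul, I_re]; simp

theorem gauss_val (k : ℕ) : ∑ w : LinearMap.ker (sm (4 * k + 3)), chi (hf w.1) = -2 * (-4) ^ k := by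
  have h1 : (∑ w : Fin (4 * k + 3) → ZMod 2, I ^ (wt w)).re = -2 * (-4) ^ k := by
    rw [sum_om, pow_add, pow_mul]
    have h2 : (1 + I) ^ 2 = 2 * I := by
      have : (1 + I) ^ 2 = 1 + 2 * I + I ^ 2 := by ring
      rw [this, I_sq]; ring
    have h3 : (1 + I) ^ 3 = 2 * I - 2 := by
      have : (1 + I) ^ 3 = (1 + I) ^ 2 * (1 + I) := by ring
      rw [this, h2]
      have : 2 * I * (1 + I) = 2 * I + 2 * I ^ 2 := by ring
      rw [this, I_sq]; ring
    have h4 : (1 + I) ^ 4 = -4 := by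
      have : (1 + I) ^ 4 = ((1 + I) ^ 2) ^ 2 := by ring
      rw [this, h2, mul_pow, I_sq]; ring
    rw [h3, h4]
    have : ((-4 : ℂ)) ^ k = (((-4 : ℝ) ^ k : ℝ) : ℂ) := by push_cast; rfl
    rw [this, re_ofReal_mul]
    simp
    ring
  rw [re_sum, Finset.sum_congr rfl (fun w _ => re_pow w), ← Int.cast_sum, ← Finset.sum_filter,
    Finset.sum_subtype (p := fun w => w ∈ LinearMap.ker (sm (4 * k + 3))) _ (fun w => by rw [mem_H]; simp)] at h1
  exact_mod_cast h1
end gauss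

theorem chi_count {ι : Type} [Fintype ι] [DecidableEq ι] (f : (ι → ZMod 2) → ZMod 2) :
    ∑ v, chi (f v) = (Nat.card {v // f v = 0} : ℤ) - Nat.card {v // f v = 1} := by
  have h1 : ∀ a : ZMod 2, chi a = (if a = 0 then 1 else 0) - (if a = 1 then 1 else 0) := by decide
  simp only [h1]
  rw [Finset.sum_sub_distrib, Finset.sum_boole, Finset.sum_boole, Nat.card_eq_fintype_card, Nat.card_eq_fintype_card, Fintype.card_subtype, Fintype.card_subtype]

theorem plus_pos (k : ℕ) : 0 < ∑ v, chi (Cfsg.quadFormPlus (2 * k + 1) (ZMod 2) v) := by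
  rw [chi_count, Cfsg.Agent.H7.Quad.card_plus_zero (ZMod.card 2) (2 * k + 1) (by omega), card_plus_one (ZMod.card 2) (2 * k + 1)]
  rw [show 2 * (2 * k + 1) - 1 = 2 * k + (2 * k + 1) by omega, show 2 * k + 1 - 1 = 2 * k by omega, pow_add 2 (2 * k) (2 * k + 1), pow_succ 2 (2 * k)]
  have h : 1 ≤ 2 ^ (2 * k) := Nat.one_le_two_pow
  generalize 2 ^ (2 * k) = A at h
  obtain ⟨a, rfl⟩ : ∃ a, A = a + 1 := ⟨A - 1, by omega⟩
  have e1 : (a + 1) * ((a + 1) * 2) + (a + 1) * 2 - (a + 1) = (a + 1) * ((a + 1) * 2) + (a + 1) := by omega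
  have e2 : (a + 1) * 2 - 1 = 2 * a + 1 := by omega
  rw [e1, e2]
  push_cast
  nlinarith

theorem minus_neg (k : ℕ) : ∑ v, chi (Cfsg.quadFormMinus (2 * k) (ZMod 2) 1 1 v) < 0 := by
  have hab : ∀ z₁ z₂ : ZMod 2, z₁ ^ 2 + 1 * z₁ * z₂ + 1 * z₂ ^ 2 = 0 → z₁ = 0 ∧ z₂ = 0 := by decide
  have h0 := Cfsg.Agent.H7.Quad.card_minus_zero (F := ZMod 2) (ZMod.card 2) (2 * k + 1) (by omega) 1 1 hab
  rw [Nat.add_sub_cancel] at h0
  rw [chi_count, h0, card_minus_one (ZMod.card 2) (2 * k) 1 1 hab]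
  rw [show 2 * (2 * k + 1) - 1 = 2 * k + (2 * k + 1) by omega, pow_add 2 (2 * k) (2 * k + 1), pow_succ 2 (2 * k)]
  have h : 1 ≤ 2 ^ (2 * k) := Nat.one_le_two_pow
  generalize 2 ^ (2 * k) = A at h
  obtain ⟨a, rfl⟩ : ∃ a, A = a + 1 := ⟨A - 1, by omega⟩
  have e1 : (a + 1) * ((a + 1) * 2) + (a + 1) - (a + 1) * 2 = (a + 1) * (2 * a + 1) := by
    have : (a + 1) * ((a + 1) * 2) + (a + 1) = (a + 1) * (2 * a + 1) + (a + 1) * 2 := by ring
    omega
  rw [e1]
  push_cast
  nlinarith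

/-- For k ≥ 1 the symmetric group of degree 4k + 4 embeds in a full orthogonal group in dimension 4k + 2 over the field of two elements: in the isometry group of the plus-type form Σ xᵢyᵢ when k is odd, and in that of the minus-type form Σ xᵢyᵢ + (z₁² + z₁z₂ + z₂²) when k is even (through its action on even partitions of a (4k+4)-set, with the form 'half the size of a part, modulo 2'). -/
theorem result (k : ℕ) (hk : 1 ≤ k) :
    (Odd k → ∃ φ : Equiv.Perm (Fin (4 * k + 4)) →* ↥(Cfsg.isometryGroup (ZMod 2) (Cfsg.quadFormPlus (2 * k + 1) (ZMod 2))), Function.Injective φ) ∧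
    (Even k → ∃ φ : Equiv.Perm (Fin (4 * k + 4)) →* ↥(Cfsg.isometryGroup (ZMod 2) (Cfsg.quadFormMinus (2 * k) (ZMod 2) 1 1)), Function.Injective φ) := by
  have hNk : ((4 * k + 3 : ℕ) : ZMod 2) = 1 := by
    have h40 : (4 : ZMod 2) = 0 := rfl
    push_cast; rw [h40, zero_mul, zero_add]; rfl
  obtain ⟨H, hH⟩ : ∃ H, H = LinearMap.ker (sm (4 * k + 3)) := ⟨_, rfl⟩
  have hfin : finrank (ZMod 2) (LinearMap.ker (sm (4 * k + 3))) = 4 * k + 2 := by
    have h1 : sm (4 * k + 3) ≠ 0 := by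
      intro h
      have h2 := congrArg (fun t => t (Pi.single 0 1)) h
      simp [sm_apply] at h2
    have h3 := Module.Dual.finrank_ker_add_one_of_ne_zero (f := sm (4 * k + 3)) h1
    rw [Module.finrank_fintype_fun_eq_card, Fintype.card_fin] at h3
    omega
  obtain ⟨ψ⟩ : Nonempty (LinearMap.ker (sm (4 * k + 3)) ≃ₗ[ZMod 2] (Fin (2 * k + 1) ⊕ Fin (2 * k + 1) → ZMod 2)) :=
    ⟨LinearEquiv.ofFinrankEq _ _ (by rw [hfin, Module.finrank_fintype_fun_eq_card]; simp; omega)⟩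
  let dot : (Fin (4 * k + 3) → ZMod 2) →ₗ[ZMod 2] (Fin (4 * k + 3) → ZMod 2) →ₗ[ZMod 2] ZMod 2 :=
    LinearMap.mk₂ (ZMod 2) (fun v w => ∑ i, v i * w i) (fun a b c => by simp [add_mul, Finset.sum_add_distrib])
      (fun a b c => by simp [mul_assoc, Finset.mul_sum]) (fun a b c => by simp [mul_add, Finset.sum_add_distrib])
      (fun a b c => by simp [mul_left_comm, Finset.mul_sum])
  have hdot : ∀ v w, dot v w = ∑ i, v i * w i := fun v w => rfl
  have hQ : Qf (fun x => hf (ψ.symm x).1) (dot.compl₁₂ ((LinearMap.ker (sm (4 * k + 3))).subtype.comp (ψ.symm : _ →ₗ[ZMod 2] _)) ((LinearMap.ker (sm (4 * k + 3))).subtype.comp (ψ.symm : _ →ₗ[ZMod 2] _))) := by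
    refine qf_of_add (fun x y => ?_) (fun x hx => ?_)
    · show hf (ψ.symm (x + y)).1 = hf (ψ.symm x).1 + hf (ψ.symm y).1 + dot (ψ.symm x).1 (ψ.symm y).1
      rw [map_add]
      exact hf_add (ψ.symm x).2 (ψ.symm y).2
    · have h1 : (ψ.symm x).1 = 0 := hf_nd hNk (ψ.symm x).2 (fun v hv => by
        have h2 := hx (ψ ⟨v, hv⟩)
        have h3 : dot (ψ.symm x).1 (ψ.symm (ψ ⟨v, hv⟩)).1 = 0 := h2
        rw [ψ.symm_apply_apply] at h3
        exact h3)
      have h2 : ψ.symm x = 0 := Subtype.ext h1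
      exact (LinearEquiv.map_eq_zero_iff _).1 h2
  have key := Cfsg.Agent.S2561.classify (2 * k + 1) (by omega) hQ
  rw [Nat.add_sub_cancel] at key
  have G := gauss_val k
  have hinj := actH_inj (N := 4 * k + 3) hNk (by omega)
  have hact : ∀ (σ : Equiv.Perm (Fin (4 * k + 4))) (w : LinearMap.ker (sm (4 * k + 3))), hf (actH hNk σ w).1 = hf w.1 :=
    fun σ w => hf_act (by omega) hNk σ w
  constructor
  · intro hodd
    rcases key with ⟨g, hg⟩ | ⟨g, hg⟩
    · refine emb (actH hNk) hinj (fun w => hf w.1) hact (ψ.trans g) _ (fun w => ?_)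
      show _ = hf w.1
      have := hg (ψ w)
      rw [ψ.symm_apply_apply] at this
      exact this.symm
    · exfalso
      have h1 := minus_neg k
      have h2 : ∑ v, chi (Cfsg.quadFormMinus (2 * k) (ZMod 2) 1 1 v) = ∑ w : LinearMap.ker (sm (4 * k + 3)), chi (hf w.1) := by
        refine (Fintype.sum_equiv (ψ.trans g).toEquiv _ _ (fun w => ?_)).symm
        have := hg (ψ w)
        rw [ψ.symm_apply_apply] at this
        rw [this]; rfl
      rw [h2, G, hodd.neg_pow] at h1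
      have : (0 : ℤ) < 4 ^ k := by positivity
      linarith
  · intro heven
    rcases key with ⟨g, hg⟩ | ⟨g, hg⟩
    · exfalso
      have h1 := plus_pos k
      have h2 : ∑ v, chi (Cfsg.quadFormPlus (2 * k + 1) (ZMod 2) v) = ∑ w : LinearMap.ker (sm (4 * k + 3)), chi (hf w.1) := by
        refine (Fintype.sum_equiv (ψ.trans g).toEquiv _ _ (fun w => ?_)).symm
        have := hg (ψ w)
        rw [ψ.symm_apply_apply] at this
        rw [this]; rfl
      rw [h2, G, heven.neg_pow] at h1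
      have : (0 : ℤ) < 4 ^ k := by positivity
      linarith
    · refine emb (actH hNk) hinj (fun w => hf w.1) hact (ψ.trans g) _ (fun w => ?_)
      show _ = hf w.1
      have := hg (ψ w)
      rw [ψ.symm_apply_apply] at this
      exact this.symm

end Cfsg.Agent.S2563
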