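import Cfsg.Statements.S2566
import Mathlib
import Cfsg.Agent.S2563
import Cfsg.Agent.S0287
import Cfsg.Agent.S0250

set_option autoImplicit false
open Cfsg

namespace Cfsg.Agent.S2566

section
open Matrix

abbrev W2 := Matrix (Fin 2) (Fin 2) (ZMod 2)
abbrev S2 := Matrix.SpecialLinearGroup (Fin 2) (ZMod 2)

/-- linear maps preserving the determinant -/
def Hd : Subgroup (W2 ≃ₗ[ZMod 2] W2) where
  carrier := {f | ∀ M : W2, (f M).det = M.det}
  one_mem' := fun M => rfl
  mul_mem' := fun {f g} hf hg M => (hf (g M)).trans (hg M)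
  inv_mem' := fun {f} hf M => by
    have h1 := hf (f⁻¹ M)
    have h2 : f (f⁻¹ M) = M := f.apply_symm_apply M
    rw [h2] at h1
    exact h1.symm

def Lh : S2 →* Hd := MonoidHom.mk' (fun s => ⟨LinearEquiv.ofLinear
    (LinearMap.mulLeft (ZMod 2) (s : W2)) (LinearMap.mulLeft (ZMod 2) ((s⁻¹ : S2) : W2))
    (LinearMap.ext fun M => by
      show (s : W2) * (((s⁻¹ : S2) : W2) * M) = M
      rw [← mul_assoc, ← Matrix.SpecialLinearGroup.coe_mul, mul_inv_cancel, Matrix.SpecialLinearGroup.coe_one, one_mul])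
    (LinearMap.ext fun M => by
      show ((s⁻¹ : S2) : W2) * ((s : W2) * M) = M
      rw [← mul_assoc, ← Matrix.SpecialLinearGroup.coe_mul, inv_mul_cancel, Matrix.SpecialLinearGroup.coe_one, one_mul]), fun M => by
      show ((s : W2) * M).det = M.det
      rw [Matrix.det_mul, s.2, one_mul]⟩) (fun s t => by
      apply Subtype.ext
      apply LinearEquiv.ext
      intro M
      show ((s * t : S2) : W2) * M = (s : W2) * ((t : W2) * M)
      rw [Matrix.SpecialLinearGroup.coe_mul, mul_assoc])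

def Rh : S2 →* Hd := MonoidHom.mk' (fun s => ⟨LinearEquiv.ofLinear
    (LinearMap.mulRight (ZMod 2) ((s⁻¹ : S2) : W2)) (LinearMap.mulRight (ZMod 2) (s : W2))
    (LinearMap.ext fun M => by
      show (M * (s : W2)) * ((s⁻¹ : S2) : W2) = M
      rw [mul_assoc, ← Matrix.SpecialLinearGroup.coe_mul, mul_inv_cancel, Matrix.SpecialLinearGroup.coe_one, mul_one])
    (LinearMap.ext fun M => by
      show (M * ((s⁻¹ : S2) : W2)) * (s : W2) = M
      rw [mul_assoc, ← Matrix.SpecialLinearGroup.coe_mul, inv_mul_cancel, Matrix.SpecialLinearGroup.coe_one, mul_one]), fun M => by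
      show (M * ((s⁻¹ : S2) : W2)).det = M.det
      rw [Matrix.det_mul, (s⁻¹ : S2).2, mul_one]⟩) (fun s t => by
      apply Subtype.ext
      apply LinearEquiv.ext
      intro M
      show M * (((s * t)⁻¹ : S2) : W2) = (M * ((t⁻¹ : S2) : W2)) * ((s⁻¹ : S2) : W2)
      rw [_root_.mul_inv_rev, Matrix.SpecialLinearGroup.coe_mul, mul_assoc])

def Th : Hd := ⟨LinearEquiv.ofLinear (Matrix.transposeLinearEquiv (Fin 2) (Fin 2) (ZMod 2) (ZMod 2) : W2 →ₗ[ZMod 2] W2)
    (Matrix.transposeLinearEquiv (Fin 2) (Fin 2) (ZMod 2) (ZMod 2) : W2 →ₗ[ZMod 2] W2) (LinearMap.ext fun M => Matrix.transpose_transpose M)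
    (LinearMap.ext fun M => Matrix.transpose_transpose M), fun M => Matrix.det_transpose M⟩

theorem Lh_apply (s : S2) (M : W2) : (Lh s : W2 ≃ₗ[ZMod 2] W2) M = (s : W2) * M := rfl
theorem Rh_apply (s : S2) (M : W2) : (Rh s : W2 ≃ₗ[ZMod 2] W2) M = M * ((s⁻¹ : S2) : W2) := rfl
theorem Th_apply (M : W2) : (Th : W2 ≃ₗ[ZMod 2] W2) M = Mᵀ := rfl

theorem ext_Hd {f g : Hd} (h : ∀ M : W2, (f : W2 ≃ₗ[ZMod 2] W2) M = (g : W2 ≃ₗ[ZMod 2] W2) M) : f = g :=
  Subtype.ext (LinearEquiv.ext h)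

theorem Th_conj (s : S2) : Th * Lh s = Rh (s.transpose)⁻¹ * Th := by
  apply ext_Hd
  intro M
  show ((s : W2) * M)ᵀ = Mᵀ * ((((s.transpose)⁻¹)⁻¹ : S2) : W2)
  rw [inv_inv, Matrix.transpose_mul, Matrix.SpecialLinearGroup.coe_transpose]

theorem LR_comm (s t : S2) : Lh s * Rh t = Rh t * Lh s := by
  apply ext_Hd
  intro M
  show (s : W2) * (M * ((t⁻¹ : S2) : W2)) = ((s : W2) * M) * ((t⁻¹ : S2) : W2)
  rw [mul_assoc]

theorem Lh_inj : Function.Injective Lh := by
  intro s t h
  have h1 := congrArg (fun f : Hd => (f : W2 ≃ₗ[ZMod 2] W2) 1) h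
  simp only [Lh_apply, mul_one] at h1
  exact Subtype.ext h1

theorem Rh_inj : Function.Injective Rh := by
  intro s t h
  have h1 := congrArg (fun f : Hd => (f : W2 ≃ₗ[ZMod 2] W2) 1) h
  simp only [Rh_apply, one_mul] at h1
  exact inv_injective (Subtype.ext h1)

theorem LR_disj (s t : S2) (h : Lh s = Rh t) : s = 1 := by
  have h1 : ∀ M : W2, (s : W2) * M = M * ((t⁻¹ : S2) : W2) := fun M => congrArg (fun f : Hd => (f : W2 ≃ₗ[ZMod 2] W2) M) h
  have h2 := h1 1
  rw [mul_one, one_mul] at h2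
  rw [← h2] at h1
  have h3 : s ∈ Subgroup.center S2 := by
    rw [Subgroup.mem_center_iff]
    intro g
    apply Subtype.ext
    rw [Matrix.SpecialLinearGroup.coe_mul, Matrix.SpecialLinearGroup.coe_mul]
    exact (h1 g).symm
  obtain ⟨r, hr, hrs⟩ := Matrix.SpecialLinearGroup.mem_center_iff.1 h3
  have hr1 : r = 1 := by
    revert hr; clear hrs; revert r; decide
  apply Subtype.ext
  rw [← hrs, hr1, map_one]; rfl
end

/-- The full orthogonal group of the plus-type form x₁y₁ + x₂y₂ in dimension 4 over the field of two elements has order 72 and is isomorphic to the wreath product of the symmetric group of degree 3 by a group of order 2: it has a normal subgroup isomorphic to the direct product of two symmetric groups of degree 3, of index 2, whose two direct factors are interchanged by conjugation by some element. -/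
theorem result :
    Nat.card ↥(Cfsg.isometryGroup (ZMod 2) (Cfsg.quadFormPlus 2 (ZMod 2))) = 72 ∧
    ∃ (A B : Subgroup ↥(Cfsg.isometryGroup (ZMod 2) (Cfsg.quadFormPlus 2 (ZMod 2)))),
      Nonempty (↥A ≃* Equiv.Perm (Fin 3)) ∧ Nonempty (↥B ≃* Equiv.Perm (Fin 3)) ∧ A ⊓ B = ⊥ ∧ (∀ a ∈ A, ∀ b ∈ B, a * b = b * a) ∧
      (A ⊔ B).index = 2 ∧ ∃ g : ↥(Cfsg.isometryGroup (ZMod 2) (Cfsg.quadFormPlus 2 (ZMod 2))), A.map (MulAut.conj g).toMonoidHom = B := by
  have hcard : Nat.card ↥(Cfsg.isometryGroup (ZMod 2) (Cfsg.quadFormPlus 2 (ZMod 2))) = 72 := by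
    rw [Cfsg.Agent.S0287.result (ZMod.card 2) 2 (by norm_num)]
    simp
  refine ⟨hcard, ?_⟩
  let Ψ : W2 ≃ₗ[ZMod 2] (Fin 2 ⊕ Fin 2 → ZMod 2) :=
    { toFun := fun M => Sum.elim ![M 0 0, M 0 1] ![M 1 1, M 1 0]
      invFun := fun v => !![v (Sum.inl 0), v (Sum.inl 1); v (Sum.inr 1), v (Sum.inr 0)]
      map_add' := fun M N => by
        funext i
        rcases i with i | i <;> fin_cases i <;> rfl
      map_smul' := fun c M => by
        funext i
        rcases i with i | i <;> fin_cases i <;> rfl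
      left_inv := fun M => by
        ext i j
        fin_cases i <;> fin_cases j <;> rfl
      right_inv := fun v => by
        funext i
        rcases i with i | i <;> fin_cases i <;> rfl }
  obtain ⟨φ, hφ⟩ := Cfsg.Agent.S2563.emb (Hd.subtype) Hd.subtype_injective (fun M : W2 => M.det) (fun f M => f.2 M) Ψ
    (Cfsg.quadFormPlus 2 (ZMod 2)) (fun M => by
      have h20 : ∀ a b c d : ZMod 2, a * d + b * c = a * d - b * c := by decide
      show _ = M.det
      rw [Matrix.det_fin_two, ← h20]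
      rw [Cfsg.quadFormPlus, Fin.sum_univ_two]
      rfl)
  let L := φ.comp Lh
  let R := φ.comp Rh
  have hL : Function.Injective L := hφ.comp Lh_inj
  have hR : Function.Injective R := hφ.comp Rh_inj
  obtain ⟨e⟩ := Cfsg.Agent.S0250.result (F := ZMod 2) (ZMod.card 2)
  have hS : Nat.card S2 = 6 := by
    rw [Nat.card_congr e.toEquiv, Nat.card_eq_fintype_card, Fintype.card_perm]; rfl
  have hcomm : ∀ s t, Commute (L s) (R t) := by
    intro s t
    show φ (Lh s) * φ (Rh t) = φ (Rh t) * φ (Lh s)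
    rw [← map_mul, LR_comm, map_mul]
  have hdisj : ∀ s t, L s = R t → s = 1 := fun s t h => LR_disj s t (hφ h)
  refine ⟨L.range, R.range, ⟨(MonoidHom.ofInjective hL).symm.trans e⟩, ⟨(MonoidHom.ofInjective hR).symm.trans e⟩, ?_, ?_, ?_, φ Th, ?_⟩
  · rw [eq_bot_iff]
    rintro _ ⟨⟨s, rfl⟩, ⟨t, ht⟩⟩
    rw [Subgroup.mem_bot, hdisj s t ht.symm, map_one]
  · rintro _ ⟨s, rfl⟩ _ ⟨t, rfl⟩
    exact hcomm s t
  · let P : S2 × S2 →* ↥(Cfsg.isometryGroup (ZMod 2) (Cfsg.quadFormPlus 2 (ZMod 2))) := L.noncommCoprod R hcomm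
    have hP : Function.Injective P := by
      rw [injective_iff_map_eq_one]
      rintro ⟨s, t⟩ h
      have h1 : L s * R t = 1 := h
      have h2 : L s = R t⁻¹ := by rw [map_inv]; exact eq_inv_of_mul_eq_one_left h1
      have h3 := hdisj _ _ h2
      rw [h3, map_one, one_mul] at h1
      have h4 : t = 1 := hR (h1.trans (map_one R).symm)
      rw [h3, h4]; rfl
    have hr : L.range ⊔ R.range = P.range := by
      rw [MonoidHom.noncommCoprod_range]
    have h5 : Nat.card (L.range ⊔ R.range : Subgroup _) = 36 := by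
      rw [hr, ← Nat.card_congr (MonoidHom.ofInjective hP).toEquiv, Nat.card_prod, hS]
    have h6 := Subgroup.card_mul_index (L.range ⊔ R.range)
    rw [h5, hcard] at h6
    omega
  · have hT : ∀ s : S2, (MulAut.conj (φ Th)).toMonoidHom (L s) = R (s.transpose)⁻¹ := by
      intro s
      have h1 : φ Th * φ (Lh s) = φ (Rh (s.transpose)⁻¹) * φ Th := by rw [← map_mul, Th_conj, map_mul]
      have h2 : φ Th * φ (Lh s) * (φ Th)⁻¹ = φ (Rh (s.transpose)⁻¹) := by rw [h1, mul_inv_cancel_right]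
      exact h2
    ext x
    constructor
    · rintro ⟨_, ⟨s, rfl⟩, rfl⟩
      exact ⟨(s.transpose)⁻¹, (hT s).symm⟩
    · rintro ⟨t, rfl⟩
      obtain ⟨t', ht'⟩ : ∃ t', t' = (t⁻¹ : S2).transpose := ⟨_, rfl⟩
      have h3 : (t'.transpose)⁻¹ = t := by
        have : ((t⁻¹ : S2).transpose).transpose = t⁻¹ := by
          apply Subtype.ext
          rw [Matrix.SpecialLinearGroup.coe_transpose, Matrix.SpecialLinearGroup.coe_transpose, Matrix.transpose_transpose]
        rw [ht', this, inv_inv]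
      refine ⟨L t', ⟨t', rfl⟩, ?_⟩
      rw [hT t', h3]

end Cfsg.Agent.S2566
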