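import Cfsg.Statements.S2567

set_option autoImplicit false
open Cfsg

namespace Cfsg.Agent.S2567



/-- Lifting elements of prime order from PGL to GL: let F be a finite field with q elements, r a prime not dividing q − 1, and x an element of order r in GL_n(F) modulo its centre (the scalar matrices). Then x has exactly one preimage in GL_n(F) of order r. -/
theorem result {F : Type*} [Field F] [Fintype F] {q n r : ℕ} (hF : Fintype.card F = q) (hr : r.Prime) (hdiv : ¬ r ∣ q - 1) (x : GL (Fin n) F ⧸ Subgroup.center (GL (Fin n) F)) (hx : orderOf x = r) : ∃! g : GL (Fin n) F, (QuotientGroup.mk g : GL (Fin n) F ⧸ Subgroup.center (GL (Fin n) F)) = x ∧ orderOf g = r := by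
  classical
  have hq : ∀ z ∈ Subgroup.center (GL (Fin n) F), z ^ (q - 1) = 1 := by
    intro z hz
    rw [Matrix.GeneralLinearGroup.center_eq_range_scalar] at hz
    obtain ⟨a, rfl⟩ := hz
    rw [← map_pow]
    have : a ^ (q - 1) = 1 := by
      rw [← hF, ← Fintype.card_units]
      exact pow_card_eq_one
    rw [this, map_one]
  have hcop : Nat.Coprime r (q - 1) := (Nat.Prime.coprime_iff_not_dvd hr).2 hdiv
  obtain ⟨g0, rfl⟩ := QuotientGroup.mk_surjective x
  have hg0r : g0 ^ r ∈ Subgroup.center (GL (Fin n) F) := by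
    rw [← QuotientGroup.eq_one_iff]
    rw [QuotientGroup.mk_pow, ← hx]
    exact pow_orderOf_eq_one _
  -- Bezout: exists a with r * a ≡ 1 mod (q-1)
  have hroot : ∀ z ∈ Subgroup.center (GL (Fin n) F), ∃ w ∈ Subgroup.center (GL (Fin n) F), w ^ r = z := by
    intro z hz
    refine ⟨z ^ (Nat.gcdA r (q - 1)), Subgroup.zpow_mem _ hz _, ?_⟩
    rw [← zpow_natCast, ← zpow_mul]
    have h1 := Nat.gcd_eq_gcd_ab r (q - 1)
    rw [Nat.coprime_iff_gcd_eq_one.1 hcop] at h1
    have h2 : Nat.gcdA r (q - 1) * (r : ℤ) = 1 - ((q - 1 : ℕ) : ℤ) * Nat.gcdB r (q - 1) := by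
      push_cast at h1
      linarith
    rw [h2, zpow_sub, zpow_mul, zpow_one, zpow_natCast, hq z hz]
    simp
  have huniq : ∀ z ∈ Subgroup.center (GL (Fin n) F), z ^ r = 1 → z = 1 := by
    intro z hz h1
    have h2 := hq z hz
    have h3 := Nat.dvd_gcd (orderOf_dvd_of_pow_eq_one h1) (orderOf_dvd_of_pow_eq_one h2)
    rw [Nat.coprime_iff_gcd_eq_one.1 hcop] at h3
    exact orderOf_eq_one_iff.1 (Nat.dvd_one.1 h3)
  obtain ⟨w, hw, hwr⟩ := hroot _ hg0r
  have hcomm : ∀ z ∈ Subgroup.center (GL (Fin n) F), ∀ g, Commute g z := by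
    intro z hz g
    exact (Subgroup.mem_center_iff.1 hz g)
  have hr1 : (g0 * w⁻¹) ^ r = 1 := by
    rw [(hcomm _ (Subgroup.inv_mem _ hw) g0).mul_pow, inv_pow, hwr, mul_inv_cancel]
  have hmk : (QuotientGroup.mk (g0 * w⁻¹) : GL (Fin n) F ⧸ Subgroup.center (GL (Fin n) F)) = QuotientGroup.mk g0 := by
    rw [QuotientGroup.mk_mul]
    have : (QuotientGroup.mk w⁻¹ : GL (Fin n) F ⧸ Subgroup.center (GL (Fin n) F)) = 1 := by
      rw [QuotientGroup.eq_one_iff]; exact Subgroup.inv_mem _ hw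
    rw [this, mul_one]
  refine ⟨g0 * w⁻¹, ⟨hmk, ?_⟩, ?_⟩
  · refine (Nat.dvd_prime hr).1 (orderOf_dvd_of_pow_eq_one hr1) |>.resolve_left ?_
    intro h1
    rw [orderOf_eq_one_iff] at h1
    rw [h1, QuotientGroup.mk_one] at hmk
    rw [← hmk, orderOf_one] at hx
    exact hr.one_lt.ne hx
  · rintro g ⟨hg1, hg2⟩
    rw [← hmk, QuotientGroup.eq] at hg1
    have h1 : (g⁻¹ * (g0 * w⁻¹)) ^ r = 1 := by
      have h2 : g0 * w⁻¹ = g * (g⁻¹ * (g0 * w⁻¹)) := by group
      have h3 := hr1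
      rw [h2, (hcomm _ hg1 g).mul_pow, ← hg2, pow_orderOf_eq_one, one_mul, hg2] at h3
      exact h3
    have h4 := huniq _ hg1 h1
    exact (inv_mul_eq_one.1 h4)

end Cfsg.Agent.S2567
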