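import Cfsg.Statements.S2568
import Mathlib
import Cfsg.Agent.H8.GLType

set_option autoImplicit false
open Cfsg

namespace Cfsg.Agent.S2568

open Cfsg.Agent.H8 Cfsg.Agent.H8.RCF Polynomial

theorem sum_multichoose (t m : ℕ) : ∑ k ∈ Finset.range (m + 1), Nat.multichoose t k = Nat.multichoose (t + 1) m := by
  induction m with
  | zero => simp
  | succ m ih => rw [Finset.sum_range_succ, ih, Nat.multichoose_succ_succ, add_comm]

theorem card_multiset_le (J : Type*) [Fintype J] [DecidableEq J] (m : ℕ) :
    Nat.card {S : Multiset J // Multiset.card S ≤ m} = Nat.choose (m + Fintype.card J) (Fintype.card J) := by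
  let e : {S : Multiset J // Multiset.card S ≤ m} ≃ (Σ k : Fin (m + 1), Sym J k) :=
    { toFun := fun S => ⟨⟨Multiset.card S.1, by have := S.2; omega⟩, ⟨S.1, rfl⟩⟩
      invFun := fun x => ⟨x.2.1, by have h1 := x.2.2; have h2 := x.1.2; omega⟩
      left_inv := fun S => rfl
      right_inv := by
        rintro ⟨⟨k, hk⟩, ⟨s, hs⟩⟩
        have hs' : Multiset.card s = k := hs
        subst hs'
        rfl }
  rw [Nat.card_congr e, Nat.card_eq_fintype_card, Fintype.card_sigma]
  have h1 : ∀ k : Fin (m + 1), Fintype.card (Sym J k) = Nat.multichoose (Fintype.card J) k := fun k => Sym.card_sym_eq_multichoose J k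
  rw [Finset.sum_congr rfl (fun k _ => h1 k), ← Finset.sum_range (fun k => Nat.multichoose (Fintype.card J) k), sum_multichoose,
    Nat.multichoose_eq]
  have : Fintype.card J + 1 + m - 1 = m + Fintype.card J := by omega
  rw [this, ← Nat.choose_symm_of_eq_add]
  omega

/-- Number of conjugacy classes of elements of a given prime order r, coprime to the characteristic, in GL_n(q): if i is the multiplicative order of q modulo r and t = (r − 1)/i, the classes correspond to the non-zero t-tuples of natural numbers (a_1, …, a_t) with i(a_1 + ⋯ + a_t) ≤ n (a_j is the multiplicity of the j-th Frobenius orbit of nontrivial r-th roots of unity among the eigenvalues), so there are exactly C(⌊n/i⌋ + t, t) − 1 of them. -/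
theorem result {F : Type*} [Field F] [Fintype F] {p q : ℕ} [Fact p.Prime] [CharP F p] (hF : Fintype.card F = q) (n r i t : ℕ) (hr : r.Prime) (hrp : r ≠ p) (hi : i = orderOf (q : ZMod r)) (ht : t * i = r - 1) : Nat.card {C : ConjClasses (GL (Fin n) F) // ∃ g : GL (Fin n) F, ConjClasses.mk g = C ∧ orderOf g = r} = Nat.choose (n / i + t) t - 1 := by
  classical
  haveI : Fact r.Prime := ⟨hr⟩
  obtain ⟨f0, hf0⟩ : ∃ f : ℕ, Fintype.card F = p ^ f := by
    obtain ⟨k, -, hk⟩ := FiniteField.card F p
    exact ⟨k, hk⟩
  have hpr : p.Coprime r := (Nat.coprime_primes Fact.out hr).2 (Ne.symm hrp)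
  have hr0 : (r : F) ≠ 0 := natCast_ne_zero_of_coprime p hpr.symm
  let J : Finset F[X] := (UniqueFactorizationMonoid.normalizedFactors (cyclotomic r F)).toFinset
  have hi' : orderOf (ZMod.unitOfCoprime _ (hpr.pow_left f0)) = i := by
    rw [hi, ← orderOf_units, ZMod.coe_unitOfCoprime, ← hf0, hF]
  have hi0 : 0 < i := by
    rw [← hi']; exact orderOf_pos _
  have hJc : J.card = t := by
    have h1 := Polynomial.normalizedFactors_cyclotomic_card hf0 hpr
    rw [hi', Nat.totient_prime hr, ← ht, Nat.mul_div_cancel _ hi0] at h1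
    exact h1
  have hJ : ∀ P ∈ J, P.Monic ∧ Irreducible P ∧ P.natDegree = i ∧ P ∣ cyclotomic r F ∧ P ≠ X - 1 := by
    intro P hP
    have hP' := Multiset.mem_toFinset.1 hP
    have h1 := UniqueFactorizationMonoid.irreducible_of_normalized_factor P hP'
    have h2 := UniqueFactorizationMonoid.normalize_normalized_factor P hP'
    have h3 := UniqueFactorizationMonoid.dvd_of_mem_normalizedFactors hP'
    refine ⟨?_, h1, ?_, h3, ?_⟩
    · rw [← h2]
      exact Polynomial.monic_normalize h1.ne_zero
    · rw [Polynomial.natDegree_of_mem_normalizedFactors_cyclotomic hf0 hpr hP', hi']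
    · rintro rfl
      obtain ⟨Q, hQ⟩ := h3
      have := congrArg (eval 1) hQ
      rw [Polynomial.eval_one_cyclotomic_prime] at this
      simp at this
      exact hr0 this
  have hJ' : ∀ P : F[X], P.Monic → Irreducible P → P ∣ X ^ r - 1 → P = X - 1 ∨ P ∈ J := by
    intro P hP hPi hd
    rw [← Polynomial.cyclotomic_prime_mul_X_sub_one] at hd
    rcases hPi.prime.dvd_or_dvd hd with h | h
    · right
      obtain ⟨Q, hQ, hPQ⟩ := UniqueFactorizationMonoid.exists_mem_normalizedFactors_of_dvd (cyclotomic_ne_zero r F) hPi h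
      have h2 := UniqueFactorizationMonoid.normalize_normalized_factor Q hQ
      have hQi := UniqueFactorizationMonoid.irreducible_of_normalized_factor Q hQ
      have hQm : Q.Monic := by
        rw [← h2]
        exact Polynomial.monic_normalize hQi.ne_zero
      have : P = Q := Polynomial.eq_of_monic_of_associated hP hQm hPQ
      rw [this]
      exact Multiset.mem_toFinset.2 hQ
    · left
      exact eq_of_dvd_irr hP X_sub_one_monic hPi X_sub_one_irr h
  have hdvd : ∀ P ∈ J, P ∣ X ^ r - 1 := by
    intro P hP
    rw [← Polynomial.cyclotomic_prime_mul_X_sub_one]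
    exact (hJ P hP).2.2.2.1.mul_right _
  let T : Multiset J → Multiset F[X] := fun S => S.map Subtype.val + Multiset.replicate (n - i * Multiset.card S) (X - 1)
  have hTmem : ∀ S, ∀ P ∈ T S, P.Monic ∧ Irreducible P ∧ P ∣ X ^ r - 1 := by
    intro S P hP
    rcases Multiset.mem_add.1 hP with h | h
    · obtain ⟨Q, -, rfl⟩ := Multiset.mem_map.1 h
      exact ⟨(hJ _ Q.2).1, (hJ _ Q.2).2.1, hdvd _ Q.2⟩
    · rw [Multiset.eq_of_mem_replicate h]
      exact ⟨X_sub_one_monic, X_sub_one_irr, sub_one_dvd_pow_sub_one X r⟩
  have hTinj : Function.Injective T := by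
    intro S S' h
    have h1 : ∀ S, (T S).filter (fun P => P ≠ X - 1) = S.map Subtype.val := by
      intro S
      rw [Multiset.filter_add]
      have e1 : Multiset.filter (fun P => P ≠ X - 1) (S.map Subtype.val) = S.map Subtype.val := by
        rw [Multiset.filter_eq_self]
        intro P hP
        obtain ⟨Q, -, rfl⟩ := Multiset.mem_map.1 hP
        exact (hJ _ Q.2).2.2.2.2
      have e2 : Multiset.filter (fun P => P ≠ X - 1) (Multiset.replicate (n - i * Multiset.card S) (X - 1 : F[X])) = 0 := by
        rw [Multiset.filter_eq_nil]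
        intro P hP
        rw [Multiset.eq_of_mem_replicate hP]
        simp
      rw [e1, e2, add_zero]
    have h2 := congrArg (Multiset.filter (fun P => P ≠ X - 1)) h
    rw [h1, h1] at h2
    exact Multiset.map_injective Subtype.val_injective h2
  have hex : ∀ S : {S : Multiset J // Multiset.card S ≤ n / i ∧ S ≠ 0}, ∃ x : GL (Fin n) F, orderOf x = r ∧ ∃ f : Fin (T S.1).toList.length → F[X],
      IsDec (x : Matrix (Fin n) (Fin n) F).mulVecLin f ∧ (∀ i, IsPP (f i)) ∧ (Finset.univ : Finset (Fin (T S.1).toList.length)).val.map f = T S.1 := by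
    rintro ⟨S, hS1, hS2⟩
    let f : Fin (T S).toList.length → F[X] := (T S).toList.get
    have hmap : (Finset.univ : Finset (Fin (T S).toList.length)).val.map f = T S := by
      rw [Fin.univ_val_map, List.ofFn_get, Multiset.coe_toList]
    have hfm : ∀ j, (f j).Monic ∧ Irreducible (f j) ∧ f j ∣ X ^ r - 1 := fun j => hTmem S _ (Multiset.mem_toList.1 (List.get_mem _ _))
    have hsum : ∑ j, (f j).natDegree = n := by
      have h1 : ∑ j, (f j).natDegree = ((T S).map natDegree).sum := by
        conv_rhs => rw [← hmap, Multiset.map_map]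
        rfl
      rw [h1, Multiset.map_add, Multiset.sum_add, Multiset.map_map]
      have h2 : S.map (natDegree ∘ Subtype.val) = Multiset.replicate (Multiset.card S) i := by
        rw [Multiset.eq_replicate]
        refine ⟨Multiset.card_map _ _, ?_⟩
        intro b hb
        obtain ⟨Q, -, rfl⟩ := Multiset.mem_map.1 hb
        exact (hJ _ Q.2).2.2.1
      rw [h2, Multiset.sum_replicate, Multiset.map_replicate, Multiset.sum_replicate, X_sub_one_natDegree]
      have h3 : i * Multiset.card S ≤ n := (Nat.mul_le_mul_left i hS1).trans (Nat.mul_div_le n i)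
      simp only [smul_eq_mul, mul_one]
      rw [mul_comm]
      omega
    obtain ⟨A, hA⟩ := exists_of_type f (fun j => (hfm j).1) hsum
    have hA1 : A ^ r = 1 := by
      have h1 : aeval A.mulVecLin (X ^ r - 1 : F[X]) = 0 := by
        rw [aeval_eq_zero_iff hA]
        exact fun j => (hfm j).2.2
      rw [map_sub, map_pow, aeval_X, map_one, mulVecLin_pow, sub_eq_zero] at h1
      have h2 : (A ^ r - 1).mulVecLin = 0 := by
        apply LinearMap.ext
        intro v
        have := LinearMap.congr_fun h1 v
        simpa [Matrix.sub_mulVec, sub_eq_zero] using this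
      exact sub_eq_zero.1 (mulVecLin_eq_zero.1 h2)
    have hu : IsUnit A := by
      apply IsUnit.of_mul_eq_one (A ^ (r - 1))
      rw [← pow_succ', Nat.sub_add_cancel hr.one_lt.le, hA1]
    refine ⟨hu.unit, ?_, f, hA, fun j => ⟨f j, 1, (hfm j).1, (hfm j).2.1, le_rfl, (pow_one _).symm⟩, hmap⟩
    apply orderOf_eq_prime
    · apply Units.ext
      exact hA1
    · intro h1
      have h2 : A = 1 := congrArg Units.val h1
      have h3 : aeval A.mulVecLin ((X - 1) ^ 1 : F[X]) = 0 := by
        rw [aeval_X_sub_one_pow, h2]; simp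
      have h4 := (aeval_eq_zero_iff hA _).1 h3
      obtain ⟨Q, hQ⟩ := Multiset.exists_mem_of_ne_zero hS2
      have h5 : (Q : F[X]) ∈ T S := Multiset.mem_add.2 (Or.inl (Multiset.mem_map_of_mem _ hQ))
      rw [← hmap] at h5
      obtain ⟨j, -, hj⟩ := Multiset.mem_map.1 h5
      have h6 := h4 j
      rw [pow_one, hj] at h6
      exact (hJ _ Q.2).2.2.2.2 (eq_of_dvd_irr (hJ _ Q.2).1 X_sub_one_monic (hJ _ Q.2).2.1 X_sub_one_irr h6)
  choose x hx1 f hf1 hf2 hf3 using hex
  let Φ : {S : Multiset J // Multiset.card S ≤ n / i ∧ S ≠ 0} → {C : ConjClasses (GL (Fin n) F) // ∃ g : GL (Fin n) F, ConjClasses.mk g = C ∧ orderOf g = r} :=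
    fun S => ⟨ConjClasses.mk (x S), x S, rfl, hx1 S⟩
  have hΦ : Function.Bijective Φ := by
    constructor
    · intro S S' h
      have h1 : ConjClasses.mk (x S) = ConjClasses.mk (x S') := congrArg Subtype.val h
      rw [ConjClasses.mk_eq_mk_iff_isConj] at h1
      have h2 := multiset_eq_of_gl_conj (hf1 S) (hf1 S') (hf2 S) (hf2 S') h1
      rw [hf3, hf3] at h2
      exact Subtype.ext (hTinj h2)
    · rintro ⟨c, g, rfl, hg⟩
      have hgr : (g : Matrix (Fin n) (Fin n) F) ^ r = 1 := by
        rw [← Units.val_pow_eq_pow_val, ← hg, pow_orderOf_eq_one, Units.val_one]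
      obtain ⟨k, f', hdf, hf⟩ := exists_isDec_of_pow_eq_one (g : Matrix (Fin n) (Fin n) F) r hr0 hgr
      have hfd : ∀ j, f' j ∣ X ^ r - 1 := by
        rw [← aeval_eq_zero_iff hdf, map_sub, map_pow, aeval_X, map_one, mulVecLin_pow, hgr, Matrix.mulVecLin_one]
        exact sub_self _
      have hfJ : ∀ j, f' j = X - 1 ∨ f' j ∈ J := fun j => hJ' _ (hdf.1 j) (hf j) (hfd j)
      set U : Multiset F[X] := (Finset.univ : Finset (Fin k)).val.map f' with hU
      let S : Multiset J := Multiset.pmap (fun P hP => (⟨P, hP⟩ : J)) (U.filter (· ∈ J)) (fun P hP => (Multiset.mem_filter.1 hP).2)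
      have hSmap : S.map Subtype.val = U.filter (· ∈ J) := by
        rw [Multiset.map_pmap]
        rw [Multiset.pmap_eq_map, Multiset.map_id']
      have hcard : Multiset.card S = Multiset.card (U.filter (· ∈ J)) := by
        rw [← hSmap, Multiset.card_map]
      have hrest : U.filter (¬ · ∈ J) = Multiset.replicate (Multiset.card (U.filter (¬ · ∈ J))) (X - 1) := by
        rw [Multiset.eq_replicate]
        refine ⟨rfl, ?_⟩
        intro P hP
        obtain ⟨h1, h2⟩ := Multiset.mem_filter.1 hP
        obtain ⟨j, -, rfl⟩ := Multiset.mem_map.1 h1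
        exact (hfJ j).resolve_right h2
      have hUadd : U.filter (· ∈ J) + U.filter (¬ · ∈ J) = U := Multiset.filter_add_not _ _
      have hdeg : i * Multiset.card S + Multiset.card (U.filter (¬ · ∈ J)) = n := by
        have h1 := finrank_of_isDec hdf
        rw [Module.finrank_fintype_fun_eq_card, Fintype.card_fin] at h1
        have h2 : (U.map natDegree).sum = n := by
          rw [hU, Multiset.map_map, h1]; rfl
        rw [← h2]
        conv_rhs => rw [← hUadd]
        rw [Multiset.map_add, Multiset.sum_add, hcard]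
        have e1 : (U.filter (· ∈ J)).map natDegree = Multiset.replicate (Multiset.card (U.filter (· ∈ J))) i := by
          rw [Multiset.eq_replicate]
          refine ⟨Multiset.card_map _ _, ?_⟩
          intro b hb
          obtain ⟨Q, hQ, rfl⟩ := Multiset.mem_map.1 hb
          exact (hJ _ (Multiset.mem_filter.1 hQ).2).2.2.1
        rw [e1, Multiset.sum_replicate]
        conv_rhs => rw [hrest]
        rw [Multiset.map_replicate, Multiset.sum_replicate, X_sub_one_natDegree]
        simp [mul_comm]
      have hTS : T S = U := by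
        show S.map Subtype.val + Multiset.replicate (n - i * Multiset.card S) (X - 1) = U
        have h1 : n - i * Multiset.card S = Multiset.card (U.filter (¬ · ∈ J)) := by omega
        rw [h1, ← hrest, hSmap, hUadd]
      have hSle : Multiset.card S ≤ n / i := by
        rw [Nat.le_div_iff_mul_le hi0, mul_comm]
        omega
      have hS0 : S ≠ 0 := by
        intro h0
        rw [h0] at hTS
        have h1 : ∀ j, f' j = X - 1 := by
          intro j
          have h2 : f' j ∈ U := Multiset.mem_map_of_mem _ (Finset.mem_univ j)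
          rw [← hTS] at h2
          simp only [T, Multiset.map_zero, zero_add] at h2
          exact Multiset.eq_of_mem_replicate h2
        have h3 : aeval (g : Matrix (Fin n) (Fin n) F).mulVecLin ((X - 1) ^ 1 : F[X]) = 0 := by
          rw [aeval_eq_zero_iff hdf]
          intro j
          rw [h1, pow_one]
        rw [aeval_X_sub_one_pow, mulVecLin_eq_zero, pow_one, sub_eq_zero] at h3
        have h4 : g = 1 := Units.ext h3
        rw [h4, orderOf_one] at hg
        exact hr.one_lt.ne hg
      refine ⟨⟨S, hSle, hS0⟩, ?_⟩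
      apply Subtype.ext
      show ConjClasses.mk (x _) = ConjClasses.mk g
      rw [ConjClasses.mk_eq_mk_iff_isConj]
      apply gl_conj_of_multiset (hf1 _) hdf
      rw [hf3]
      exact hTS
  rw [← Nat.card_congr (Equiv.ofBijective Φ hΦ)]
  have hc := card_multiset_le J (n / i)
  rw [Fintype.card_coe, hJc] at hc
  rw [← hc]
  haveI : Finite {S : Multiset J // Multiset.card S ≤ n / i} := by
    apply Nat.finite_of_card_ne_zero
    rw [hc]
    exact (Nat.choose_pos (Nat.le_add_left _ _)).ne'
  have h0 : Multiset.card (0 : Multiset J) ≤ n / i := by simp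
  have e : {S : Multiset J // Multiset.card S ≤ n / i ∧ S ≠ 0} ≃ {S : {S : Multiset J // Multiset.card S ≤ n / i} // S ≠ ⟨0, h0⟩} :=
    { toFun := fun S => ⟨⟨S.1, S.2.1⟩, fun h => S.2.2 (congrArg Subtype.val h)⟩
      invFun := fun S => ⟨S.1.1, S.1.2, fun h => S.2 (Subtype.ext h)⟩
      left_inv := fun S => rfl
      right_inv := fun S => rfl }
  rw [Nat.card_congr e]
  haveI := Fintype.ofFinite {S : Multiset J // Multiset.card S ≤ n / i}
  rw [Nat.card_eq_fintype_card, Nat.card_eq_fintype_card]
  have := Fintype.card_subtype_compl (fun a : {S : Multiset J // Multiset.card S ≤ n / i} => a = ⟨0, h0⟩)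
  rw [Fintype.card_subtype_eq] at this
  exact this

end Cfsg.Agent.S2568
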