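import Cfsg.Statements.S2569
import Mathlib
import Cfsg.Agent.H8.SemiSimple

set_option autoImplicit false
open Cfsg

namespace Cfsg.Agent.S2569



/-- In GL_n over a finite field of characteristic p, the conjugacy class of a semisimple element (an element of order prime to p) under the special linear group is its whole GL-conjugacy class: for every such x and every invertible g there is h of determinant one with h x h⁻¹ = g x g⁻¹. -/
theorem result {F : Type*} [Field F] [Fintype F] {p : ℕ} [Fact p.Prime] [CharP F p] {n : ℕ} (x g : GL (Fin n) F) (hx : (orderOf x).Coprime p) : ∃ h : GL (Fin n) F, (h : Matrix (Fin n) (Fin n) F).det = 1 ∧ h * x * h⁻¹ = g * x * g⁻¹ := by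
  classical
  rcases Nat.eq_zero_or_pos n with hn | hn
  · subst hn
    refine ⟨1, by simp, ?_⟩
    have h1 : x = 1 := by
      apply Units.ext
      exact Subsingleton.elim _ _
    rw [h1]; simp
  · obtain ⟨c, hc1, hc2⟩ := Cfsg.Agent.H8.exists_commuting_det p hn x hx (Matrix.GeneralLinearGroup.det g)⁻¹
    refine ⟨g * c, ?_, ?_⟩
    · have h1 : Matrix.GeneralLinearGroup.det (g * c) = 1 := by
        rw [map_mul, hc2, mul_inv_cancel]
      exact congrArg Units.val h1
    · rw [mul_assoc g c, hc1]
      group

end Cfsg.Agent.S2569
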