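import Cfsg.Statements.S2570
import Mathlib
import Cfsg.Agent.H8.GLType
import Cfsg.Agent.H8.Mat

set_option autoImplicit false
open Cfsg

namespace Cfsg.Agent.S2570

open Cfsg.Agent.H8 Cfsg.Agent.H8.RCF Polynomial

theorem pow_p {F : Type*} [Field F] {p : ℕ} [Fact p.Prime] [CharP F p] {n : ℕ} (A : Matrix (Fin n) (Fin n) F) :
    (A - 1) ^ p = A ^ p - 1 := by
  simpa using sub_one_pow p A 1

theorem parts_eq_replicate {n : ℕ} (μ : Nat.Partition n) (h : ∀ a ∈ μ.parts, a = 1) : μ.parts = Multiset.replicate n 1 := by
  rw [Multiset.eq_replicate]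
  refine ⟨?_, h⟩
  have h1 := Multiset.eq_replicate_card.2 h
  have h2 := μ.parts_sum
  rw [h1, Multiset.sum_replicate] at h2
  simpa using h2

/-- Number of conjugacy classes of elements of order p in GL_n over a finite field of characteristic p: they correspond to the Jordan types, that is, to the partitions of n with all parts at most p other than the partition into ones, so there are (number of partitions of n with parts ≤ p) − 1 of them. -/
theorem result {F : Type*} [Field F] [Fintype F] {p : ℕ} [Fact p.Prime] [CharP F p] (n : ℕ) : Nat.card {C : ConjClasses (GL (Fin n) F) // ∃ g : GL (Fin n) F, ConjClasses.mk g = C ∧ orderOf g = p} = (Finset.univ.filter (fun μ : Nat.Partition n => ∀ a ∈ μ.parts, a ≤ p)).card - 1 := by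
  classical
  have hp : p.Prime := Fact.out
  let ones : Nat.Partition n := ⟨Multiset.replicate n 1, by intro i hi; rw [Multiset.eq_of_mem_replicate hi]; exact one_pos, by simp⟩
  let S := (Finset.univ.filter (fun μ : Nat.Partition n => ∀ a ∈ μ.parts, a ≤ p)).erase ones
  have hones : ones ∈ Finset.univ.filter (fun μ : Nat.Partition n => ∀ a ∈ μ.parts, a ≤ p) := by
    rw [Finset.mem_filter]
    refine ⟨Finset.mem_univ _, ?_⟩
    intro a ha
    rw [Multiset.eq_of_mem_replicate ha]
    exact hp.one_lt.le
  rw [← Finset.card_erase_of_mem hones]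
  have hS : ∀ μ ∈ S, (∀ a ∈ μ.parts, a ≤ p) ∧ ∃ a ∈ μ.parts, a ≠ 1 := by
    intro μ hμ
    rw [Finset.mem_erase, Finset.mem_filter] at hμ
    refine ⟨hμ.2.2, ?_⟩
    by_contra hcon
    push Not at hcon
    exact hμ.1 (Nat.Partition.ext (parts_eq_replicate μ hcon))
  have hex : ∀ μ : S, ∃ x : GL (Fin n) F, orderOf x = p ∧ ∃ f : Fin μ.1.parts.toList.length → F[X],
      IsDec (x : Matrix (Fin n) (Fin n) F).mulVecLin f ∧ (∀ i, IsPP (f i)) ∧ (Finset.univ : Finset (Fin μ.1.parts.toList.length)).val.map f = μ.1.parts.map (fun e => (X - 1) ^ e) := by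
    rintro ⟨μ, hμ⟩
    obtain ⟨hle, a0, ha0, ha1⟩ := hS μ hμ
    let f : Fin μ.parts.toList.length → F[X] := fun i => (X - 1) ^ (μ.parts.toList.get i)
    have hpos : ∀ i, 1 ≤ μ.parts.toList.get i := fun i => μ.parts_pos (Multiset.mem_toList.1 (List.get_mem _ _))
    have hlei : ∀ i, μ.parts.toList.get i ≤ p := fun i => hle _ (Multiset.mem_toList.1 (List.get_mem _ _))
    have hmap : (Finset.univ : Finset (Fin μ.parts.toList.length)).val.map f = μ.parts.map (fun e => (X - 1) ^ e) := by
      have h1 : (Finset.univ : Finset (Fin μ.parts.toList.length)).val.map μ.parts.toList.get = μ.parts := by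
        rw [Fin.univ_val_map, List.ofFn_get, Multiset.coe_toList]
      conv_rhs => rw [← h1]
      rw [Multiset.map_map]
      rfl
    have hsum : ∑ i, (f i).natDegree = n := by
      have h1 : ∀ i, (f i).natDegree = μ.parts.toList.get i := by
        intro i
        rw [natDegree_pow, X_sub_one_natDegree, mul_one]
      rw [Finset.sum_congr rfl (fun i _ => h1 i)]
      have h2 : (List.ofFn μ.parts.toList.get).sum = ∑ i, μ.parts.toList.get i := List.sum_ofFn
      rw [← h2, List.ofFn_get, Multiset.sum_toList, μ.parts_sum]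
    obtain ⟨A, hA⟩ := exists_of_type f (fun i => X_sub_one_monic.pow _) hsum
    have hAp : (A - 1) ^ p = 0 := by
      rw [← mulVecLin_eq_zero, ← aeval_X_sub_one_pow, aeval_eq_zero_iff hA]
      intro i
      exact pow_dvd_pow _ (hlei i)
    have hA1 : A ^ p = 1 := by
      rw [pow_p, sub_eq_zero] at hAp; exact hAp
    have hu : IsUnit A := by
      apply IsUnit.of_mul_eq_one (A ^ (p - 1))
      rw [← pow_succ', Nat.sub_add_cancel hp.one_lt.le, hA1]
    refine ⟨hu.unit, ?_, f, hA, fun i => ⟨X - 1, _, X_sub_one_monic, X_sub_one_irr, hpos i, rfl⟩, hmap⟩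
    apply orderOf_eq_prime
    · apply Units.ext
      exact hA1
    · intro h1
      have h2 : A = 1 := congrArg Units.val h1
      have h3 : aeval A.mulVecLin ((X - 1) ^ 1 : F[X]) = 0 := by
        rw [aeval_X_sub_one_pow, h2]; simp
      have h4 := (aeval_eq_zero_iff hA _).1 h3
      obtain ⟨i, hi⟩ := List.get_of_mem (Multiset.mem_toList.2 ha0)
      have h5 := natDegree_le_of_dvd (h4 i) (pow_ne_zero _ X_sub_one_irr.ne_zero)
      rw [natDegree_pow, natDegree_pow, X_sub_one_natDegree] at h5
      have := hpos i
      omega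
  choose x hx1 f hf1 hf2 hf3 using hex
  let Φ : S → {C : ConjClasses (GL (Fin n) F) // ∃ g : GL (Fin n) F, ConjClasses.mk g = C ∧ orderOf g = p} :=
    fun μ => ⟨ConjClasses.mk (x μ), x μ, rfl, hx1 μ⟩
  have hinjpow : Function.Injective (fun e : ℕ => ((X - 1 : F[X]) ^ e)) := by
    intro a b h
    have := congrArg natDegree h
    simp only [natDegree_pow, X_sub_one_natDegree] at this
    omega
  have hΦ : Function.Bijective Φ := by
    constructor
    · intro μ ν h
      have h1 : ConjClasses.mk (x μ) = ConjClasses.mk (x ν) := congrArg Subtype.val h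
      rw [ConjClasses.mk_eq_mk_iff_isConj] at h1
      have h2 := multiset_eq_of_gl_conj (hf1 μ) (hf1 ν) (hf2 μ) (hf2 ν) h1
      rw [hf3, hf3] at h2
      exact Subtype.ext (Nat.Partition.ext (Multiset.map_injective hinjpow h2))
    · rintro ⟨c, g, rfl, hg⟩
      have hgp : ((g : Matrix (Fin n) (Fin n) F) - 1) ^ p = 0 := by
        rw [pow_p, sub_eq_zero, ← Units.val_pow_eq_pow_val, ← hg, pow_orderOf_eq_one, Units.val_one]
      obtain ⟨k, f', hdf, hf⟩ := exists_isDec (g : Matrix (Fin n) (Fin n) F).mulVecLin
      have hty := unip_type hgp hdf hf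
      choose e he1 he2 he3 using hty
      have hn : ∑ i, e i = n := by
        have := finrank_of_isDec hdf
        rw [Module.finrank_fintype_fun_eq_card, Fintype.card_fin] at this
        conv_rhs => rw [this]
        apply Finset.sum_congr rfl
        intro i _
        rw [he3, natDegree_pow, X_sub_one_natDegree, mul_one]
      let μ : Nat.Partition n := ⟨(Finset.univ : Finset (Fin k)).val.map e, by
        intro a ha; obtain ⟨i, -, rfl⟩ := Multiset.mem_map.1 ha; exact he1 i, hn⟩
      have hμ : μ ∈ S := by
        rw [Finset.mem_erase, Finset.mem_filter]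
        refine ⟨?_, Finset.mem_univ _, ?_⟩
        · intro h
          have h1 : ∀ i, e i = 1 := by
            intro i
            have h2 : e i ∈ μ.parts := by
              show e i ∈ (Finset.univ : Finset (Fin k)).val.map e
              exact Multiset.mem_map_of_mem e (Finset.mem_univ i)
            rw [h] at h2
            exact Multiset.eq_of_mem_replicate h2
          have h3 : aeval (g : Matrix (Fin n) (Fin n) F).mulVecLin ((X - 1) ^ 1 : F[X]) = 0 := by
            rw [aeval_eq_zero_iff hdf]
            intro i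
            rw [he3, h1]
          rw [aeval_X_sub_one_pow, mulVecLin_eq_zero, pow_one, sub_eq_zero] at h3
          have h4 : g = 1 := Units.ext h3
          rw [h4, orderOf_one] at hg
          exact hp.one_lt.ne hg
        · intro a ha
          have ha' : a ∈ (Finset.univ : Finset (Fin k)).val.map e := ha
          obtain ⟨i, -, rfl⟩ := Multiset.mem_map.1 ha'
          exact he2 i
      refine ⟨⟨μ, hμ⟩, ?_⟩
      apply Subtype.ext
      show ConjClasses.mk (x _) = ConjClasses.mk g
      rw [ConjClasses.mk_eq_mk_iff_isConj]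
      apply gl_conj_of_multiset (hf1 _) hdf
      rw [hf3]
      show ((Finset.univ : Finset (Fin k)).val.map e).map (fun e => ((X - 1 : F[X]) ^ e)) = _
      rw [Multiset.map_map]
      apply Multiset.map_congr rfl
      intro i _
      rw [he3]; rfl
  rw [← Nat.card_congr (Equiv.ofBijective Φ hΦ)]
  rw [Nat.card_eq_fintype_card, Fintype.card_coe]

end Cfsg.Agent.S2570
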