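import Cfsg.Statements.S2571
import Mathlib
import Cfsg.Agent.H8.LinAlg

set_option autoImplicit false
open Cfsg

namespace Cfsg.Agent.S2571



/-- Centraliser of a regular unipotent element in GL_n(q): if u is an invertible n × n matrix over the field with q elements, n ≥ 1, with (u − 1)^n = 0 and rank(u − 1) = n − 1 (a single unipotent Jordan block), then its centraliser in GL_n(q) has order (q − 1) q^(n−1). -/
theorem result {F : Type*} [Field F] [Fintype F] {q n : ℕ} (hF : Fintype.card F = q) (hn : 1 ≤ n) (u : GL (Fin n) F) (hnil : ((u : Matrix (Fin n) (Fin n) F) - 1) ^ n = 0) (hreg : ((u : Matrix (Fin n) (Fin n) F) - 1).rank = n - 1) : Nat.card ↥(Subgroup.centralizer ({u} : Set (GL (Fin n) F))) = (q - 1) * q ^ (n - 1) := by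
  classical
  obtain ⟨m, rfl⟩ : ∃ m, n = m + 1 := ⟨n - 1, by omega⟩
  set N := (u : Matrix (Fin (m + 1)) (Fin (m + 1)) F) - 1 with hN
  obtain ⟨v, hv⟩ := Cfsg.Agent.H8.exists_mulVec_ne (Cfsg.Agent.H8.reg_pow_ne (Fintype.card_fin _) N hreg hn)
  have hli := Cfsg.Agent.H8.reg_cyclic N hnil v hv
  have hcom : ∀ B : Matrix (Fin (m + 1)) (Fin (m + 1)) F, Commute B N ↔ Commute B u := by
    intro B
    rw [hN]
    constructor
    · intro h
      have := h.add_right (Commute.one_right B)
      rwa [sub_add_cancel] at this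
    · intro h; exact h.sub_right (Commute.one_right B)
  -- unit iff c 0 ≠ 0
  have hunit : ∀ c : Fin (m + 1) → F, IsUnit (Cfsg.Agent.H8.polyMat N c) ↔ c 0 ≠ 0 := by
    intro c
    have hdec : Cfsg.Agent.H8.polyMat N c = N * (∑ i : Fin m, c i.succ • N ^ (i : ℕ)) + algebraMap F _ (c 0) := by
      unfold Cfsg.Agent.H8.polyMat
      rw [Fin.sum_univ_succ, Finset.mul_sum, add_comm (c 0 • N ^ ((0 : Fin (m + 1)) : ℕ))]
      congr 1
      · apply Finset.sum_congr rfl
        intro i _
        rw [Fin.val_succ, pow_succ', Matrix.mul_smul]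
      · simp [Algebra.algebraMap_eq_smul_one]
    have hc1 : Commute N (∑ i : Fin m, c i.succ • N ^ (i : ℕ)) := by
      apply Commute.sum_right
      intro i _
      exact ((Commute.refl N).pow_right _).smul_right _
    have hnilp : IsNilpotent (N * (∑ i : Fin m, c i.succ • N ^ (i : ℕ))) :=
      hc1.isNilpotent_mul_right ⟨m + 1, hnil⟩
    rw [hdec]
    constructor
    · intro h h0
      rw [h0, map_zero, add_zero] at h
      obtain ⟨k, hk⟩ := hnilp
      have h2 := h.pow k
      rw [hk] at h2
      exact not_isUnit_zero h2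
    · intro h0
      rw [add_comm (N * _)]
      apply IsNilpotent.isUnit_add_left_of_commute hnilp
      · exact (isUnit_iff_ne_zero.2 h0).map _
      · exact Algebra.commute_algebraMap_right _ _
  have e : {c : Fin (m + 1) → F // c 0 ≠ 0} ≃ ↥(Subgroup.centralizer ({u} : Set (GL (Fin (m + 1)) F))) := by
    refine Equiv.ofBijective (fun c => ⟨((hunit c.1).2 c.2).unit, ?_⟩) ⟨?_, ?_⟩
    · rw [Subgroup.mem_centralizer_singleton_iff]
      apply Units.ext
      exact ((hcom _).1 (Cfsg.Agent.H8.polyMat_comm N c.1)).eq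
    · intro a b hab
      have h1 := congrArg (fun z : ↥(Subgroup.centralizer ({u} : Set (GL (Fin (m + 1)) F))) => ((z : GL (Fin (m + 1)) F) : Matrix (Fin (m + 1)) (Fin (m + 1)) F)) hab
      apply Subtype.ext
      exact (Cfsg.Agent.H8.commutant_of_cyclic (Fintype.card_fin _) N v hli _ (Cfsg.Agent.H8.polyMat_comm N b.1)).unique h1 rfl
    · rintro ⟨g, hg⟩
      rw [Subgroup.mem_centralizer_singleton_iff] at hg
      have hg1 : Commute (g : Matrix (Fin (m + 1)) (Fin (m + 1)) F) u := congrArg Units.val hg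
      obtain ⟨c, hc, -⟩ := Cfsg.Agent.H8.commutant_of_cyclic (Fintype.card_fin _) N v hli _ ((hcom _).2 hg1)
      have hu : IsUnit (Cfsg.Agent.H8.polyMat N c) := by rw [hc]; exact g.isUnit
      refine ⟨⟨c, (hunit c).1 hu⟩, ?_⟩
      apply Subtype.ext
      apply Units.ext
      exact hc
  rw [← Nat.card_congr e]
  have e2 : {c : Fin (m + 1) → F // c 0 ≠ 0} ≃ {a : F // a ≠ 0} × (Fin m → F) :=
    { toFun := fun c => (⟨c.1 0, c.2⟩, fun i => c.1 i.succ)
      invFun := fun p => ⟨Fin.cons p.1.1 p.2, by simpa using p.1.2⟩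
      left_inv := by
        rintro ⟨c, hc⟩
        apply Subtype.ext
        funext i
        refine Fin.cases ?_ ?_ i <;> simp
      right_inv := by
        rintro ⟨⟨a, ha⟩, f⟩
        simp }
  rw [Nat.card_congr e2, Nat.card_prod, Nat.card_fun, Nat.card_fin]
  have h1 : Nat.card {a : F // a ≠ 0} = q - 1 := by
    rw [← Nat.card_congr unitsEquivNeZero, Nat.card_eq_fintype_card, Fintype.card_units, hF]
  rw [h1, Nat.card_eq_fintype_card, hF]
  simp

end Cfsg.Agent.S2571
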