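import Cfsg.Statements.S2574
import Mathlib
import Cfsg.Agent.H8.LinAlg

set_option autoImplicit false
open Cfsg

namespace Cfsg.Agent.S2574



/-- A regular unipotent element of the symplectic group has totally isotropic small invariant subspaces: over a finite field, if u ∈ Sp_2m(F) satisfies (u − 1)^(2m) = 0 and rank(u − 1) = 2m − 1, and W is a u-invariant subspace with 2 dim W ≤ 2m, then the alternating form vanishes identically on W. -/
theorem result {F : Type*} [Field F] [Finite F] {m : ℕ} (u : Matrix.symplecticGroup (Fin m) F) (hnil : ((u : Matrix (Fin m ⊕ Fin m) (Fin m ⊕ Fin m) F) - 1) ^ (2 * m) = 0) (hreg : ((u : Matrix (Fin m ⊕ Fin m) (Fin m ⊕ Fin m) F) - 1).rank = 2 * m - 1) (W : Submodule F (Fin m ⊕ Fin m → F)) (hW : ∀ v ∈ W, (u : Matrix (Fin m ⊕ Fin m) (Fin m ⊕ Fin m) F).mulVec v ∈ W) (hdim : 2 * Module.finrank F W ≤ 2 * m) : ∀ v ∈ W, ∀ w ∈ W, Cfsg.sympForm m F v w = 0 := by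
  classical
  rcases Nat.eq_zero_or_pos m with hm | hm
  · subst hm
    intro v _ w _
    simp [Cfsg.sympForm, dotProduct]
  set U := (u : Matrix (Fin m ⊕ Fin m) (Fin m ⊕ Fin m) F) with hU
  set N := U - 1 with hN
  have hcard : Fintype.card (Fin m ⊕ Fin m) = 2 * m := by simp; ring
  -- u preserves the form
  have hpres : ∀ v w, Cfsg.sympForm m F (U.mulVec v) (U.mulVec w) = Cfsg.sympForm m F v w := by
    intro v w
    have h1 : U.transpose * Matrix.J (Fin m) F * U = Matrix.J (Fin m) F := by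
      exact SymplecticGroup.mem_iff'.1 u.2
    simp only [Cfsg.sympForm]
    rw [Matrix.mulVec_mulVec, Matrix.dotProduct_mulVec, Matrix.vecMul_mulVec, ← Matrix.mul_assoc, h1, ← Matrix.dotProduct_mulVec]
  have hinj : ∀ v, U.mulVec v = 0 → v = 0 := by
    intro v hv
    have h1 : ((u⁻¹ : Matrix.symplecticGroup (Fin m) F) : Matrix (Fin m ⊕ Fin m) (Fin m ⊕ Fin m) F) * U = 1 := by
      have : (u⁻¹ * u : Matrix.symplecticGroup (Fin m) F) = 1 := inv_mul_cancel u
      exact congrArg Subtype.val this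
    have h2 := congrArg (fun M : Matrix (Fin m ⊕ Fin m) (Fin m ⊕ Fin m) F => M.mulVec v) h1
    simp only [← Matrix.mulVec_mulVec, hv, Matrix.mulVec_zero, Matrix.one_mulVec] at h2
    exact h2.symm
  have hsurj : ∀ w ∈ W, ∃ w' ∈ W, U.mulVec w' = w := by
    let f : W →ₗ[F] W := (Matrix.mulVecLin U).restrict hW
    have hf : Function.Injective f := by
      rw [← LinearMap.ker_eq_bot, LinearMap.ker_eq_bot']
      rintro ⟨v, hv⟩ h
      exact Subtype.ext (hinj v (congrArg Subtype.val h))
    have hs := LinearMap.surjective_of_injective hf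
    intro w hw
    obtain ⟨w', hw'⟩ := hs ⟨w, hw⟩
    exact ⟨w', w'.2, congrArg Subtype.val hw'⟩
  -- bilinear form
  let B : LinearMap.BilinForm F (Fin m ⊕ Fin m → F) := Matrix.toBilin' (Matrix.J (Fin m) F)
  have hB : ∀ v w, B v w = Cfsg.sympForm m F v w := by
    intro v w
    rw [Matrix.toBilin'_apply']; rfl
  have hBnd : B.Nondegenerate := by
    exact LinearMap.BilinForm.nondegenerate_toBilin'_of_det_ne_zero' _ (Matrix.isUnit_det_J (Fin m) F).ne_zero
  have hrefl : B.IsRefl := by
    intro v w h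
    have h1 : B w v = - B v w := by
      rw [hB, hB]
      simp only [Cfsg.sympForm]
      rw [Matrix.dotProduct_mulVec, dotProduct_comm, ← Matrix.mulVec_transpose, Matrix.J_transpose, Matrix.neg_mulVec, dotProduct_neg]
    rw [h1, h, neg_zero]
  set W' := B.orthogonal W with hW'
  have hWp : ∀ v ∈ W', U.mulVec v ∈ W' := by
    intro v hv
    intro w hw
    obtain ⟨w', hw', rfl⟩ := hsurj w hw
    show B (U.mulVec w') (U.mulVec v) = 0
    rw [hB, hpres, ← hB]
    exact hv w' hw'
  have hsub : ∀ (Y : Submodule F (Fin m ⊕ Fin m → F)), (∀ v ∈ Y, U.mulVec v ∈ Y) → ∀ v ∈ Y, N.mulVec v ∈ Y := by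
    intro Y hY v hv
    rw [hN, Matrix.sub_mulVec, Matrix.one_mulVec]
    exact Y.sub_mem (hY v hv) hv
  have e1 := Cfsg.Agent.H8.reg_invariant hcard N hnil hreg W (hsub W hW)
  have e2 := Cfsg.Agent.H8.reg_invariant hcard N hnil hreg W' (hsub W' hWp)
  have hdimW' : Module.finrank F W + Module.finrank F W' = 2 * m := by
    have := LinearMap.BilinForm.finrank_orthogonal hBnd W
    rw [this, Module.finrank_fintype_fun_eq_card, hcard]
    omega
  have hle : W ≤ W' := by
    rw [e1, e2]
    intro v hv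
    rw [LinearMap.mem_ker, Matrix.mulVecLin_apply] at hv ⊢
    have h3 : Module.finrank F W' = (Module.finrank F W' - Module.finrank F W) + Module.finrank F W := by omega
    rw [h3, pow_add, ← Matrix.mulVec_mulVec, hv, Matrix.mulVec_zero]
  intro v hv w hw
  rw [← hB]
  exact hle hw v hv

end Cfsg.Agent.S2574
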