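import Cfsg.Statements.S2575
import Mathlib
import Cfsg.Agent.H8.Cyc

set_option autoImplicit false
open Cfsg

namespace Cfsg.Agent.S2575



/-- Which diagonal involutions of PGL_n(q) lie in PSL_n(q), q odd: for the diagonal matrix t with i entries −1 and n − i entries 1, some non-zero scalar multiple of t has determinant one if and only if i is even or the 2-part of q − 1 exceeds the 2-part of n (that is, −1 is an n-th power in the field exactly in the latter case). -/
theorem result {F : Type*} [Field F] [Fintype F] {q : ℕ} (hF : Fintype.card F = q) (hq : Odd q) {n : ℕ} (hn : 1 ≤ n) (i : ℕ) (hi : i ≤ n) : (∃ c : F, c ≠ 0 ∧ (c • Matrix.diagonal (fun j : Fin n => if (j : ℕ) < i then (-1 : F) else 1)).det = 1) ↔ (Even i ∨ padicValNat 2 n < padicValNat 2 (q - 1)) := by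
  classical
  have hdet : ∀ c : F, (c • Matrix.diagonal (fun j : Fin n => if (j : ℕ) < i then (-1 : F) else 1)).det = c ^ n * (-1) ^ i := by
    intro c
    rw [Matrix.det_smul, Matrix.det_diagonal, Fintype.card_fin]
    congr 1
    rw [Finset.prod_ite, Finset.prod_const, Finset.prod_const_one, mul_one]
    congr 1
    have : (Finset.univ.filter (fun j : Fin n => (j : ℕ) < i)).card = i := by
      rw [Fin.card_filter_val_lt]; omega
    exact this
  simp only [hdet]
  have hcard : Nat.card Fˣ = q - 1 := by
    rw [Nat.card_eq_fintype_card, Fintype.card_units, hF]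
  rcases Nat.even_or_odd i with he | ho
  · constructor
    · intro _; exact Or.inl he
    · intro _; exact ⟨1, one_ne_zero, by simp [he.neg_one_pow]⟩
  · have hne : (-1 : Fˣ) ≠ 1 := by
      intro h
      have h1 : (-1 : F) = 1 := by
        have := congrArg Units.val h
        simpa using this
      have h2 : ringChar F = 2 := by
        by_contra hc
        exact Ring.neg_one_ne_one_of_char_ne_two hc h1
      have h3 := FiniteField.even_card_of_char_two h2
      rw [hF] at h3
      obtain ⟨a, ha⟩ := hq; omega
    have hord : orderOf (-1 : Fˣ) = 2 ^ 1 := by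
      rw [pow_one]
      exact orderOf_eq_prime (by simp) hne
    have key := Cfsg.Agent.H8.cyc_two_pow_iff n (by omega) (-1 : Fˣ) 1 hord
    rw [hcard] at key
    have h1 : (∃ c : F, c ≠ 0 ∧ c ^ n * (-1) ^ i = 1) ↔ ∃ y : Fˣ, y ^ n = -1 := by
      constructor
      · rintro ⟨c, hc, h⟩
        refine ⟨Units.mk0 c hc, ?_⟩
        apply Units.ext
        rw [ho.neg_one_pow] at h
        simp only [Units.val_pow_eq_pow_val, Units.val_mk0, Units.val_neg, Units.val_one]
        linear_combination -h
      · rintro ⟨y, hy⟩
        refine ⟨y, y.ne_zero, ?_⟩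
        have := congrArg Units.val hy
        simp only [Units.val_pow_eq_pow_val, Units.val_neg, Units.val_one] at this
        rw [this, ho.neg_one_pow]; ring
    rw [h1, key]
    have : ¬ Even i := Nat.not_even_iff_odd.2 ho
    constructor
    · intro h; right; omega
    · rintro (h | h)
      · exact absurd h this
      · right; omega

end Cfsg.Agent.S2575
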