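import Cfsg.Statements.S2576
import Mathlib
import Cfsg.Agent.H8.Cyc

set_option autoImplicit false
open Cfsg

namespace Cfsg.Agent.S2576



/-- Which involutions of PGL_2m(q) coming from a scalar of the quadratic extension field lie in PSL_2m(q), q odd: let μ generate the Sylow 2-subgroup of the multiplicative group of the field with q elements (μ has order the 2-part of q − 1) and let t be the block-diagonal matrix with m diagonal blocks [[0, 1], [μ, 0]] (so t² is the scalar μ and t is an involution modulo scalars). Then some non-zero scalar multiple of t has determinant one if and only if q ≡ 3 (mod 4) or the 2-part of q − 1 is less than the 2-part of 2m. -/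
theorem result {F : Type*} [Field F] [Fintype F] {q : ℕ} (hF : Fintype.card F = q) (hq : Odd q) {m : ℕ} (hm : 1 ≤ m) (μ : F) (hμ : orderOf μ = 2 ^ padicValNat 2 (q - 1)) : (∃ c : F, c ≠ 0 ∧ (c • Matrix.blockDiagonal (fun _ : Fin m => !![(0 : F), 1; μ, 0])).det = 1) ↔ (q % 4 = 3 ∨ padicValNat 2 (q - 1) < padicValNat 2 (2 * m)) := by
  classical
  have hdet : ∀ c : F, (c • Matrix.blockDiagonal (fun _ : Fin m => !![(0 : F), 1; μ, 0])).det = c ^ (2 * m) * (-μ) ^ m := by
    intro c
    rw [Matrix.det_smul, Matrix.det_blockDiagonal]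
    simp [Matrix.det_fin_two, mul_comm]
  simp only [hdet]
  have hcard : Nat.card Fˣ = q - 1 := by
    rw [Nat.card_eq_fintype_card, Fintype.card_units, hF]
  have hq1 : 1 < q := by rw [← hF]; exact Fintype.one_lt_card
  have hμ0 : μ ≠ 0 := by
    rintro rfl
    have h1 : orderOf (0 : F) = 0 := by
      rw [orderOf_eq_zero_iff']
      intro n hn
      rw [zero_pow (by omega)]
      exact zero_ne_one
    rw [h1] at hμ
    exact absurd hμ.symm (pow_ne_zero _ (by norm_num))
  set a := padicValNat 2 (q - 1) with ha
  have ha1 : 1 ≤ a := by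
    rw [ha]
    have : 2 ∣ q - 1 := by obtain ⟨k, hk⟩ := hq; exact ⟨k, by omega⟩
    exact one_le_padicValNat_of_dvd (by omega) this
  have hmod : q % 4 = 3 ↔ a = 1 := by
    rw [ha]
    constructor
    · intro h
      have h2 : ¬ 2 ^ 2 ∣ q - 1 := by omega
      have h3 : ¬ 2 ≤ padicValNat 2 (q - 1) := by
        rw [← padicValNat_dvd_iff_le (by omega)]; exact h2
      omega
    · intro h
      have h3 : ¬ 2 ≤ padicValNat 2 (q - 1) := by omega
      rw [← padicValNat_dvd_iff_le (by omega)] at h3
      obtain ⟨k, hk⟩ := hq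
      omega
  set u : Fˣ := Units.mk0 μ hμ0 with hu
  have hordu : orderOf u = 2 ^ a := by
    rw [← hμ, ← orderOf_units, hu, Units.val_mk0]
  have hred : (∃ c : F, c ≠ 0 ∧ c ^ (2 * m) * (-μ) ^ m = 1) ↔ ∃ y : Fˣ, y ^ (2 * m) = (-u) ^ m := by
    constructor
    · rintro ⟨c, hc, h⟩
      refine ⟨(Units.mk0 c hc)⁻¹, ?_⟩
      rw [inv_pow, inv_eq_iff_mul_eq_one]
      apply Units.ext
      simpa [hu] using h
    · rintro ⟨y, hy⟩
      refine ⟨(y⁻¹ : Fˣ), (y⁻¹).ne_zero, ?_⟩
      have h2 : (y⁻¹) ^ (2 * m) * (-u) ^ m = 1 := by rw [← hy, inv_pow, inv_mul_cancel]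
      have := congrArg Units.val h2
      simpa [hu] using this
  rw [hred, hmod]
  by_cases ha2 : a = 1
  · simp only [ha2, true_or, iff_true]
    have hne : u ≠ 1 := by
      intro h; rw [h, orderOf_one, ha2] at hordu; omega
    have hsq : u ^ 2 = 1 := by
      have := pow_orderOf_eq_one u
      rwa [hordu, ha2, pow_one] at this
    have hu1 : u = -1 := by
      have h1 : (μ - 1) * (μ + 1) = 0 := by
        have h0 : μ ^ 2 = 1 := by
          have := congrArg Units.val hsq
          simpa only [hu, Units.val_pow_eq_pow_val, Units.val_mk0, Units.val_one] using this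
        linear_combination h0
      rcases mul_eq_zero.1 h1 with h | h
      · exfalso; apply hne; apply Units.ext; simp [hu]; linear_combination h
      · apply Units.ext; simp [hu]; linear_combination h
    exact ⟨1, by rw [hu1]; simp⟩
  · have ha2' : 2 ≤ a := by omega
    simp only [ha2, false_or]
    -- order of -u is 2^a
    have hnegne : (-1 : Fˣ) ≠ 1 := by
      intro h
      have h1 : (-1 : F) = 1 := by
        have := congrArg Units.val h
        simpa using this
      have h2 : ringChar F = 2 := by
        by_contra hc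
        exact Ring.neg_one_ne_one_of_char_ne_two hc h1
      have h3 := FiniteField.even_card_of_char_two h2
      rw [hF] at h3
      obtain ⟨a, ha⟩ := hq; omega
    have hhalf : u ^ (2 ^ (a - 1)) = -1 := by
      have h1 : (u ^ (2 ^ (a - 1))) ^ 2 = 1 := by
        rw [← pow_mul, ← pow_succ, Nat.sub_add_cancel ha1, ← hordu, pow_orderOf_eq_one]
      have h2 : u ^ (2 ^ (a - 1)) ≠ 1 := by
        intro h
        have := orderOf_dvd_of_pow_eq_one h
        rw [hordu, Nat.pow_dvd_pow_iff_le_right (by norm_num)] at this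
        omega
      have h3 : ((u ^ (2 ^ (a - 1)) : Fˣ) : F) ^ 2 = 1 := by
        have := congrArg Units.val h1
        simpa using this
      have h4 : (((u ^ (2 ^ (a - 1)) : Fˣ) : F) - 1) * (((u ^ (2 ^ (a - 1)) : Fˣ) : F) + 1) = 0 := by
        linear_combination h3
      rcases mul_eq_zero.1 h4 with h | h
      · exfalso; apply h2; apply Units.ext; rw [Units.val_one]; linear_combination h
      · apply Units.ext; rw [Units.val_neg, Units.val_one]; linear_combination h
    have hneg : -u = u ^ (1 + 2 ^ (a - 1)) := by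
      rw [pow_add, hhalf, pow_one]; simp
    have hordneg : orderOf (-u) = 2 ^ a := by
      rw [hneg, orderOf_pow, hordu]
      have hodd : Odd (1 + 2 ^ (a - 1)) := by
        rw [add_comm]
        exact (Even.add_one ((Nat.even_pow.2 ⟨even_two, by omega⟩)))
      have : Nat.gcd (2 ^ a) (1 + 2 ^ (a - 1)) = 1 := by
        apply Nat.Coprime.pow_left
        exact (Nat.coprime_two_left).2 hodd
      rw [this, Nat.div_one]
    set v := padicValNat 2 m with hv
    have hordm : orderOf ((-u) ^ m) = 2 ^ (a - v) := by
      rw [orderOf_pow, hordneg]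
      obtain ⟨k, hk1, hk2⟩ := (Nat.dvd_prime_pow Nat.prime_two).1 (Nat.gcd_dvd_left (2 ^ a) m)
      rw [hk2, Nat.pow_div hk1 (by norm_num)]
      congr 1
      have h1 : 2 ^ k ∣ m := hk2 ▸ Nat.gcd_dvd_right _ _
      have h2 : k ≤ v := (padicValNat_dvd_iff_le (by omega)).1 h1
      have h3 : 2 ^ (min a v) ∣ Nat.gcd (2 ^ a) m := by
        apply Nat.dvd_gcd
        · exact pow_dvd_pow _ (min_le_left _ _)
        · exact (padicValNat_dvd_iff_le (by omega)).2 (min_le_right _ _)
      rw [hk2, Nat.pow_dvd_pow_iff_le_right (by norm_num)] at h3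
      omega
    have key := Cfsg.Agent.H8.cyc_two_pow_iff (2 * m) (by omega) ((-u) ^ m) (a - v) hordm
    rw [key, hcard, ← ha]
    have h2m : padicValNat 2 (2 * m) = 1 + v := by
      rw [padicValNat.mul (by norm_num) (by omega)]
      simp [hv]
    rw [h2m]
    omega

end Cfsg.Agent.S2576
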