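import Cfsg.Statements.S2578
import Mathlib
import Cfsg.Agent.H8.RegUnip
import Cfsg.Agent.H8.ClassSplit

set_option autoImplicit false
open Cfsg

namespace Cfsg.Agent.S2578

open Cfsg.Agent.H8

/-- Regular unipotent classes of SL_n(q): for n ≥ 2 over the field with q elements, the matrices u of determinant one with (u − 1)^n = 0 and rank(u − 1) = n − 1 form a single GL_n(q)-class which splits into exactly gcd(n, q − 1) conjugacy classes of SL_n(q). -/
theorem result {F : Type*} [Field F] [Fintype F] {q : ℕ} (hF : Fintype.card F = q) {n : ℕ} (hn : 2 ≤ n) : Nat.card {C : ConjClasses (Matrix.SpecialLinearGroup (Fin n) F) // ∃ u : Matrix.SpecialLinearGroup (Fin n) F, ConjClasses.mk u = C ∧ ((u : Matrix (Fin n) (Fin n) F) - 1) ^ n = 0 ∧ ((u : Matrix (Fin n) (Fin n) F) - 1).rank = n - 1} = Nat.gcd n (q - 1) := by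
  classical

  have hn1 : 1 ≤ n := by omega
  have hdet : (1 + shift F n).det = 1 := by
    rw [Matrix.det_of_upperTriangular]
    · apply Finset.prod_eq_one
      intro i _
      simp [shift]
    · intro i j hij
      have : j.val < i.val := hij
      simp only [shift, Matrix.add_apply, Matrix.of_apply]
      rw [Matrix.one_apply_ne (by intro h; rw [h] at this; exact lt_irrefl _ this), if_neg (by omega), add_zero]
  let x : Matrix.SpecialLinearGroup (Fin n) F := ⟨1 + shift F n, hdet⟩
  have hx1 : ((x : Matrix (Fin n) (Fin n) F) - 1) = shift F n := by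
    show (1 + shift F n) - 1 = shift F n
    rw [add_sub_cancel_left]
  have hiff : ∀ s : Matrix.SpecialLinearGroup (Fin n) F, IsConj (Matrix.SpecialLinearGroup.toGL x) (Matrix.SpecialLinearGroup.toGL s) ↔
      (((s : Matrix (Fin n) (Fin n) F) - 1) ^ n = 0 ∧ ((s : Matrix (Fin n) (Fin n) F) - 1).rank = n - 1) := by
    intro s
    constructor
    · intro h
      obtain ⟨g, hg⟩ := isConj_iff.1 h
      have h1 : (s : Matrix (Fin n) (Fin n) F) - 1 = (g : Matrix (Fin n) (Fin n) F) * shift F n * ((g⁻¹ : GL (Fin n) F) : Matrix (Fin n) (Fin n) F) := by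
        have h2 : (g : Matrix (Fin n) (Fin n) F) * (x : Matrix (Fin n) (Fin n) F) * ((g⁻¹ : GL (Fin n) F) : Matrix (Fin n) (Fin n) F) = (s : Matrix (Fin n) (Fin n) F) := congrArg Units.val hg
        rw [← h2, ← hx1, mul_sub, sub_mul, mul_one, Units.mul_inv]
      constructor
      · rw [h1, Units.conj_pow, shift_pow_self, mul_zero, zero_mul]
      · rw [h1]
        have hgu : IsUnit (g : Matrix (Fin n) (Fin n) F).det := (Matrix.isUnit_iff_isUnit_det _).1 g.isUnit
        have hgu' : IsUnit ((g⁻¹ : GL (Fin n) F) : Matrix (Fin n) (Fin n) F).det := (Matrix.isUnit_iff_isUnit_det _).1 (g⁻¹).isUnit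
        rw [Matrix.rank_mul_eq_left_of_isUnit_det _ _ hgu', Matrix.rank_mul_eq_right_of_isUnit_det _ _ hgu, shift_rank]
    · rintro ⟨h1, h2⟩
      obtain ⟨P, hP⟩ := reg_conj_shift hn1 _ h1 h2
      rw [isConj_iff]
      refine ⟨P, ?_⟩
      rw [mul_inv_eq_iff_eq_mul]
      apply Units.ext
      show (P : Matrix (Fin n) (Fin n) F) * (1 + shift F n) = (s : Matrix (Fin n) (Fin n) F) * P
      rw [mul_add, mul_one, hP, sub_mul, one_mul]
      abel
  have hset : {C : ConjClasses (Matrix.SpecialLinearGroup (Fin n) F) // ∃ u : Matrix.SpecialLinearGroup (Fin n) F, ConjClasses.mk u = C ∧ ((u : Matrix (Fin n) (Fin n) F) - 1) ^ n = 0 ∧ ((u : Matrix (Fin n) (Fin n) F) - 1).rank = n - 1} =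
      {C : ConjClasses (Matrix.SpecialLinearGroup (Fin n) F) // ∃ s, ConjClasses.mk s = C ∧
      IsConj (Matrix.SpecialLinearGroup.toGL x) (Matrix.SpecialLinearGroup.toGL s)} := by
    simp only [hiff]
  rw [hset, card_SL_classes hn1]
  have hmap : (Subgroup.centralizer {Matrix.SpecialLinearGroup.toGL x}).map (Matrix.GeneralLinearGroup.det (n := Fin n) (R := F)) =
      (powMonoidHom n : Fˣ →* Fˣ).range := by
    ext d
    constructor
    · rintro ⟨g, hg, rfl⟩
      have hg' : g * Matrix.SpecialLinearGroup.toGL x = Matrix.SpecialLinearGroup.toGL x * g := Subgroup.mem_centralizer_singleton_iff.1 hg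
      have hg1 : Commute (g : Matrix (Fin n) (Fin n) F) (x : Matrix (Fin n) (Fin n) F) := congrArg Units.val hg'
      have hg2 : Commute (g : Matrix (Fin n) (Fin n) F) (shift F n) := by
        rw [← hx1]; exact hg1.sub_right (Commute.one_right _)
      obtain ⟨c, hc⟩ := commute_shift hn1 _ hg2
      have hd : (g : Matrix (Fin n) (Fin n) F).det = (c ⟨0, by omega⟩) ^ n := by rw [← hc, det_polyMat_shift hn1]
      have hc0 : c ⟨0, by omega⟩ ≠ 0 := by
        intro h0
        rw [h0, zero_pow (by omega)] at hd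
        exact ((Matrix.isUnit_iff_isUnit_det _).1 g.isUnit).ne_zero hd
      refine ⟨Units.mk0 _ hc0, ?_⟩
      apply Units.ext
      simp only [powMonoidHom_apply, Units.val_pow_eq_pow_val, Units.val_mk0]
      rw [← hd]; rfl
    · rintro ⟨a, rfl⟩
      refine ⟨Matrix.GeneralLinearGroup.scalar (Fin n) a, ?_, ?_⟩
      · show _ ∈ Subgroup.centralizer {_}
        rw [Subgroup.mem_centralizer_singleton_iff]
        have : Matrix.GeneralLinearGroup.scalar (Fin n) a ∈ Subgroup.center (GL (Fin n) F) := by
          rw [Matrix.GeneralLinearGroup.center_eq_range_scalar]; exact ⟨a, rfl⟩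
        exact (Subgroup.mem_center_iff.1 this _).symm
      · apply Units.ext
        show (Matrix.scalar (Fin n) (a : F)).det = _
        rw [Matrix.scalar_apply, Matrix.det_diagonal]
        simp
  rw [hmap, IsCyclic.index_powMonoidHom_range, Nat.card_eq_fintype_card, Fintype.card_units, hF, Nat.gcd_comm]

end Cfsg.Agent.S2578
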