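import Cfsg.Statements.S2579
import Mathlib

set_option autoImplicit false
open Cfsg

namespace Cfsg.Agent.S2579

open Matrix

variable {F : Type*} [Field F]

/-- `1 + v wᵀ` -/
def tv {n : ℕ} (v w : Fin n → F) : Matrix (Fin n) (Fin n) F := 1 + Matrix.vecMulVec v w

theorem det_tv {n : ℕ} (v w : Fin n → F) : (tv v w).det = 1 + w ⬝ᵥ v := by
  unfold tv
  rw [Matrix.vecMulVec_eq Unit, Matrix.det_one_add_replicateCol_mul_replicateRow]

def indep {n : ℕ} (w w' : Fin n → F) : Prop := ∃ i j, w i * w' j ≠ w j * w' i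

theorem exists_z {n : ℕ} {w w' : Fin n → F} (h : indep w w') : ∃ z : Fin n → F, w ⬝ᵥ z = 1 ∧ w' ⬝ᵥ z = 1 := by
  obtain ⟨i, j, hij⟩ := h
  have hD : w i * w' j - w j * w' i ≠ 0 := sub_ne_zero.2 hij
  refine ⟨Pi.single i ((w' j - w j) / (w i * w' j - w j * w' i)) + Pi.single j ((w i - w' i) / (w i * w' j - w j * w' i)), ?_, ?_⟩
  · rw [dotProduct_add, dotProduct_single, dotProduct_single, mul_div_assoc', mul_div_assoc', ← add_div, div_eq_one_iff_eq hD]
    ring
  · rw [dotProduct_add, dotProduct_single, dotProduct_single, mul_div_assoc', mul_div_assoc', ← add_div, div_eq_one_iff_eq hD]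
    ring

theorem lemA {n : ℕ} (s t : SpecialLinearGroup (Fin n) F) (v w w' : Fin n → F) (hs : (s : Matrix (Fin n) (Fin n) F) = tv v w)
    (ht : (t : Matrix (Fin n) (Fin n) F) = tv v w') (hwv : w ⬝ᵥ v = 0) (hwv' : w' ⬝ᵥ v = 0) (h : indep w w') : IsConj s t := by
  obtain ⟨z, hz1, hz2⟩ := exists_z h
  let g : SpecialLinearGroup (Fin n) F := ⟨tv z (w - w'), by
    rw [det_tv, sub_dotProduct, hz1, hz2]; simp⟩
  rw [isConj_iff]
  refine ⟨g, ?_⟩
  rw [mul_inv_eq_iff_eq_mul]
  apply SpecialLinearGroup.coeMonoidHom_injective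
  simp only [map_mul, SpecialLinearGroup.coeMonoidHom_apply, hs, ht]
  show tv z (w - w') * tv v w = tv v w' * tv z (w - w')
  unfold tv
  have e1 : vecMulVec z (w - w') * vecMulVec v w = 0 := by
    rw [Matrix.vecMulVec_mul_vecMulVec, sub_dotProduct, hwv, hwv', sub_zero, zero_smul, Matrix.vecMulVec_zero]
  have e2 : vecMulVec v w' * vecMulVec z (w - w') = vecMulVec v (w - w') := by
    rw [Matrix.vecMulVec_mul_vecMulVec, hz2, one_smul]
  simp only [add_mul, mul_add, one_mul, mul_one]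
  rw [e1, e2, Matrix.vecMulVec_sub z, Matrix.vecMulVec_sub v]
  abel

theorem tv_transpose {n : ℕ} (v w : Fin n → F) : (tv v w).transpose = tv w v := by
  unfold tv
  rw [Matrix.transpose_add, Matrix.transpose_one, Matrix.transpose_vecMulVec]

theorem conj_transpose {n : ℕ} {s t : SpecialLinearGroup (Fin n) F} (h : IsConj s.transpose t.transpose) : IsConj s t := by
  rw [isConj_iff] at h ⊢
  obtain ⟨c, hc⟩ := h
  refine ⟨(c⁻¹).transpose, ?_⟩
  rw [mul_inv_eq_iff_eq_mul] at hc ⊢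
  have hc' : (c : Matrix (Fin n) (Fin n) F) * (s : Matrix (Fin n) (Fin n) F).transpose = (t : Matrix (Fin n) (Fin n) F).transpose * (c : Matrix (Fin n) (Fin n) F) := congrArg Subtype.val hc
  have h1 := congrArg Matrix.transpose hc'
  rw [Matrix.transpose_mul, Matrix.transpose_mul, Matrix.transpose_transpose, Matrix.transpose_transpose] at h1
  have h3 : (c : Matrix (Fin n) (Fin n) F).transpose * ((c⁻¹ : SpecialLinearGroup (Fin n) F) : Matrix (Fin n) (Fin n) F).transpose = 1 := by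
    rw [← Matrix.transpose_mul]
    have : ((c⁻¹ : SpecialLinearGroup (Fin n) F) : Matrix (Fin n) (Fin n) F) * (c : Matrix (Fin n) (Fin n) F) = 1 := congrArg Subtype.val (inv_mul_cancel c)
    rw [this, Matrix.transpose_one]
  have h4 : ((c⁻¹ : SpecialLinearGroup (Fin n) F) : Matrix (Fin n) (Fin n) F).transpose * (c : Matrix (Fin n) (Fin n) F).transpose = 1 := by
    rw [← Matrix.transpose_mul]
    have : (c : Matrix (Fin n) (Fin n) F) * ((c⁻¹ : SpecialLinearGroup (Fin n) F) : Matrix (Fin n) (Fin n) F) = 1 := congrArg Subtype.val (mul_inv_cancel c)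
    rw [this, Matrix.transpose_one]
  apply Subtype.ext
  show ((c⁻¹ : SpecialLinearGroup (Fin n) F) : Matrix (Fin n) (Fin n) F).transpose * (s : Matrix (Fin n) (Fin n) F) =
    (t : Matrix (Fin n) (Fin n) F) * ((c⁻¹ : SpecialLinearGroup (Fin n) F) : Matrix (Fin n) (Fin n) F).transpose
  calc ((c⁻¹ : SpecialLinearGroup (Fin n) F) : Matrix (Fin n) (Fin n) F).transpose * (s : Matrix (Fin n) (Fin n) F)
      = ((c⁻¹ : SpecialLinearGroup (Fin n) F) : Matrix (Fin n) (Fin n) F).transpose * ((s : Matrix (Fin n) (Fin n) F) * (c : Matrix (Fin n) (Fin n) F).transpose) * ((c⁻¹ : SpecialLinearGroup (Fin n) F) : Matrix (Fin n) (Fin n) F).transpose := by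
        rw [Matrix.mul_assoc, Matrix.mul_assoc, h3, Matrix.mul_one]
    _ = _ := by
        have h5 : (s : Matrix (Fin n) (Fin n) F) * (c : Matrix (Fin n) (Fin n) F).transpose = (c : Matrix (Fin n) (Fin n) F).transpose * (t : Matrix (Fin n) (Fin n) F) := h1
        rw [h5, ← Matrix.mul_assoc, h4, Matrix.one_mul]

theorem not_indep_trans {n : ℕ} {a b c : Fin n → F} (hb : b ≠ 0) (h1 : ¬ indep a b) (h2 : ¬ indep b c) : ¬ indep a c := by
  unfold indep at *
  push Not at *
  obtain ⟨k, hk⟩ : ∃ k, b k ≠ 0 := by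
    by_contra hcon; push Not at hcon; exact hb (funext hcon)
  intro i j
  have e1 := h1 i k
  have e2 := h1 j k
  have e3 := h2 k i
  have e4 := h2 k j
  apply mul_left_cancel₀ (pow_ne_zero 2 hk)
  -- a i b k = a k b i ; a j b k = a k b j ; b k c i = b i c k ; b k c j = b j c k
  linear_combination (b k * c j) * e1 - (b k * c i) * e2 + (a k * b i) * e4 - (a k * b j) * e3

theorem exists_y {n : ℕ} (hn : 3 ≤ n) {v w : Fin n → F} (hv : v ≠ 0) (hw : w ≠ 0) : ∃ y : Fin n → F, y ⬝ᵥ v = 0 ∧ indep w y := by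
  obtain ⟨k, hk⟩ : ∃ k, v k ≠ 0 := by
    by_contra hcon; push Not at hcon; exact hv (funext hcon)
  obtain ⟨i1, hi1⟩ : ∃ i : Fin n, i ≠ k := by
    haveI : Nontrivial (Fin n) := Fin.nontrivial_iff_two_le.2 (by omega)
    exact exists_ne k
  obtain ⟨i2, hi2k, hi21⟩ : ∃ i : Fin n, i ≠ k ∧ i ≠ i1 := by
    by_contra hcon
    push Not at hcon
    have : (Finset.univ : Finset (Fin n)) ⊆ {k, i1} := by
      intro x _
      by_cases h : x = k
      · simp [h]
      · simp [hcon x h]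
    have h4 := Finset.card_le_card this
    have h5 : ({k, i1} : Finset (Fin n)).card ≤ 2 := Finset.card_le_two
    rw [Finset.card_univ, Fintype.card_fin] at h4
    omega
  have key : ∀ i : Fin n, i ≠ k → (Pi.single i (v k) - Pi.single k (v i) : Fin n → F) ⬝ᵥ v = 0 := by
    intro i _
    rw [sub_dotProduct, single_dotProduct, single_dotProduct]; ring
  by_contra hcon
  push Not at hcon
  have h1 := hcon _ (key i1 hi1)
  have h2 := hcon _ (key i2 hi2k)
  have h1' : ¬ indep (Pi.single i1 (v k) - Pi.single k (v i1) : Fin n → F) w := by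
    unfold indep at *
    push Not at *
    intro i j
    have := h1 i j
    linear_combination -this
  have h3 := not_indep_trans hw h1' h2
  apply h3
  refine ⟨i1, i2, ?_⟩
  simp [hi1, hi2k, hi21, Ne.symm hi21, hk]

theorem lemA' {n : ℕ} (hn : 3 ≤ n) (s t : SpecialLinearGroup (Fin n) F) (v w w' : Fin n → F) (hv : v ≠ 0) (hw : w ≠ 0) (hw' : w' ≠ 0)
    (hs : (s : Matrix (Fin n) (Fin n) F) = tv v w)
    (ht : (t : Matrix (Fin n) (Fin n) F) = tv v w') (hwv : w ⬝ᵥ v = 0) (hwv' : w' ⬝ᵥ v = 0) : IsConj s t := by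
  by_cases h : indep w w'
  · exact lemA s t v w w' hs ht hwv hwv' h
  · obtain ⟨y, hy1, hy2⟩ := exists_y hn hv hw
    let r : SpecialLinearGroup (Fin n) F := ⟨tv v y, by rw [det_tv, hy1, add_zero]⟩
    refine (lemA s r v w y hs rfl hwv hy1 hy2).trans ?_
    refine lemA r t v y w' rfl ht hy1 hwv' ?_
    by_contra h3
    have h4 : ¬ indep w' w := by
      unfold indep at *
      push Not at *
      intro i j
      have := h i j
      linear_combination -this
    have h5 := not_indep_trans hw' h3 h4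
    obtain ⟨i, j, hij⟩ := hy2
    unfold indep at h5
    push Not at h5
    apply hij
    have := h5 i j
    linear_combination -this

theorem lemB' {n : ℕ} (hn : 3 ≤ n) (s t : SpecialLinearGroup (Fin n) F) (v v' w : Fin n → F) (hv : v ≠ 0) (hv' : v' ≠ 0) (hw : w ≠ 0)
    (hs : (s : Matrix (Fin n) (Fin n) F) = tv v w)
    (ht : (t : Matrix (Fin n) (Fin n) F) = tv v' w) (hwv : w ⬝ᵥ v = 0) (hwv' : w ⬝ᵥ v' = 0) : IsConj s t := by
  apply conj_transpose
  refine lemA' hn s.transpose t.transpose w v v' hw hv hv' ?_ ?_ ?_ ?_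
  · rw [SpecialLinearGroup.coe_transpose, hs, tv_transpose]
  · rw [SpecialLinearGroup.coe_transpose, ht, tv_transpose]
  · rw [dotProduct_comm]; exact hwv
  · rw [dotProduct_comm]; exact hwv'

theorem exists_tv {n : ℕ} (t : Matrix (Fin n) (Fin n) F) (ht : Cfsg.IsTransvection t) :
    ∃ v w : Fin n → F, v ≠ 0 ∧ w ≠ 0 ∧ w ⬝ᵥ v = 0 ∧ t = tv v w := by
  obtain ⟨h1, h2⟩ := ht
  set N := t - 1 with hN
  obtain ⟨⟨v, hvmem⟩, hv0, hv⟩ := finrank_eq_one_iff'.1 (show Module.finrank F (LinearMap.range N.mulVecLin) = 1 from h1)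
  have hcol : ∀ j, ∃ c : F, c • v = N.mulVec (Pi.single j 1) := by
    intro j
    obtain ⟨c, hc⟩ := hv ⟨N.mulVec (Pi.single j 1), ⟨_, rfl⟩⟩
    exact ⟨c, congrArg Subtype.val hc⟩
  choose w hw using hcol
  have hNv : N = Matrix.vecMulVec v w := by
    ext i j
    have := congrFun (hw j) i
    simp only [Pi.smul_apply, smul_eq_mul, Matrix.mulVec_single_one, Matrix.col_apply] at this
    rw [Matrix.vecMulVec_apply, ← this, mul_comm]
  have hv' : v ≠ 0 := fun h => hv0 (Subtype.ext h)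
  have hw' : w ≠ 0 := by
    rintro rfl
    rw [Matrix.vecMulVec_zero] at hNv
    rw [hNv, Matrix.rank_zero] at h1
    exact zero_ne_one h1
  refine ⟨v, w, hv', hw', ?_, ?_⟩
  · rw [hNv, Matrix.vecMulVec_mul_vecMulVec] at h2
    obtain ⟨i, hi⟩ : ∃ k, v k ≠ 0 := by
      by_contra hcon; push Not at hcon; exact hv' (funext hcon)
    obtain ⟨j, hj⟩ : ∃ k, w k ≠ 0 := by
      by_contra hcon; push Not at hcon; exact hw' (funext hcon)
    have := congrFun (congrFun h2 i) j
    simp only [Matrix.vecMulVec_apply, Pi.smul_apply, smul_eq_mul, Matrix.zero_apply, MulOpposite.smul_eq_mul_unop] at this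
    by_contra hne
    have h5 : v i * ((w ⬝ᵥ v) * w j) ≠ 0 := mul_ne_zero hi (mul_ne_zero hne hj)
    apply h5
    linear_combination this
  · unfold tv
    rw [← hNv, hN]; abel

/-- In SL_n(F) with n ≥ 3, over a finite field F, any two transvections (matrices t with t − 1 of rank one and square zero) are conjugate by an element of SL_n(F). -/
theorem result {F : Type*} [Field F] [Finite F] {n : ℕ} (hn : 3 ≤ n) (s t : Matrix.SpecialLinearGroup (Fin n) F) (hs : Cfsg.IsTransvection (s : Matrix (Fin n) (Fin n) F)) (ht : Cfsg.IsTransvection (t : Matrix (Fin n) (Fin n) F)) : IsConj s t := by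
  obtain ⟨v, w, hv, hw, hwv, hs'⟩ := exists_tv _ hs
  obtain ⟨v', w', hv', hw', hwv', ht'⟩ := exists_tv _ ht
  obtain ⟨x, hx0, hx1, hx2⟩ : ∃ x : Fin n → F, x ≠ 0 ∧ w ⬝ᵥ x = 0 ∧ w' ⬝ᵥ x = 0 := by
    let f : (Fin n → F) →ₗ[F] (Fin 2 → F) := (Matrix.of ![w, w']).mulVecLin
    have hk : LinearMap.ker f ≠ ⊥ := by
      apply LinearMap.ker_ne_bot_of_finrank_lt
      simp only [Module.finrank_fintype_fun_eq_card, Fintype.card_fin]
      omega
    obtain ⟨x, hx, hx0⟩ := Submodule.exists_mem_ne_zero_of_ne_bot hk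
    rw [LinearMap.mem_ker] at hx
    refine ⟨x, hx0, ?_, ?_⟩
    · exact congrFun hx 0
    · exact congrFun hx 1
  let r1 : Matrix.SpecialLinearGroup (Fin n) F := ⟨tv x w, by rw [det_tv, hx1, add_zero]⟩
  let r2 : Matrix.SpecialLinearGroup (Fin n) F := ⟨tv x w', by rw [det_tv, hx2, add_zero]⟩
  have c1 : IsConj s r1 := lemB' hn s r1 v x w hv hx0 hw hs' rfl hwv hx1
  have c2 : IsConj r1 r2 := lemA' hn r1 r2 x w w' hx0 hw hw' rfl rfl hx1 hx2
  have c3 : IsConj r2 t := lemB' hn r2 t x v' w' hx0 hv' hw' rfl ht' hx2 hwv'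
  exact (c1.trans c2).trans c3

end Cfsg.Agent.S2579
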