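import Cfsg.Statements.S2585
import Mathlib

set_option autoImplicit false
open Cfsg

namespace Cfsg.Agent.S2585



/-- Over a finite field of characteristic two every element of the symplectic group is orthogonal for a suitable quadratic form: for each A in Sp_2m(F) there is a quadratic form Q on F^(2m) whose polar form is the alternating form defining Sp_2m(F) (so Q is non-degenerate) and which A preserves. Equivalently, for m ≥ 1, Sp_2m(F) is the union of the conjugates of its two orthogonal subgroups O⁺_2m(F) and O⁻_2m(F). -/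
theorem result {F : Type*} [Field F] [Fintype F] [CharP F 2] {m : ℕ} (A : Matrix.symplecticGroup (Fin m) F) : ∃ Q : QuadraticForm F (Fin m ⊕ Fin m → F), (∀ u v : Fin m ⊕ Fin m → F, QuadraticMap.polar ⇑Q u v = Cfsg.sympForm m F u v) ∧ ∀ v : Fin m ⊕ Fin m → F, Q ((A : Matrix (Fin m ⊕ Fin m) (Fin m ⊕ Fin m) F).mulVec v) = Q v := by
  classical
  set n := Fin m ⊕ Fin m with hn
  set U := (A : Matrix (Fin m ⊕ Fin m) (Fin m ⊕ Fin m) F) with hU
  have h11 : (1 : F) + 1 = 0 := by
    have := CharP.cast_eq_zero F 2
    push_cast at this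
    linear_combination this
  have hpres : ∀ v w, Cfsg.sympForm m F (U.mulVec v) (U.mulVec w) = Cfsg.sympForm m F v w := by
    intro v w
    have h1 : U.transpose * Matrix.J (Fin m) F * U = Matrix.J (Fin m) F := SymplecticGroup.mem_iff'.1 A.2
    simp only [Cfsg.sympForm]
    rw [Matrix.mulVec_mulVec, Matrix.dotProduct_mulVec, Matrix.vecMul_mulVec, ← Matrix.mul_assoc, h1, ← Matrix.dotProduct_mulVec]
  -- base form Q0 = sum x_i y_i
  let Q0 : QuadraticForm F (Fin m ⊕ Fin m → F) :=
    ∑ i : Fin m, QuadraticMap.proj (Sum.inl i) (Sum.inr i)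
  have hQ0 : ∀ v, Q0 v = ∑ i : Fin m, v (Sum.inl i) * v (Sum.inr i) := by
    intro v
    simp [Q0, QuadraticMap.sum_apply, QuadraticMap.proj_apply]
  have hpol0 : ∀ u v, QuadraticMap.polar Q0 u v = Cfsg.sympForm m F u v := by
    intro u v
    simp only [QuadraticMap.polar, hQ0, Cfsg.sympForm, Matrix.J, Matrix.fromBlocks, Matrix.mulVec, dotProduct, Fintype.sum_sum_type,
      Matrix.of_apply, Sum.elim_inl, Sum.elim_inr, Matrix.zero_apply, Matrix.one_apply, Matrix.neg_apply, zero_mul, Finset.sum_const_zero, zero_add,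
      ite_mul, one_mul, Finset.sum_ite_eq, Finset.mem_univ, if_true, add_zero, Pi.add_apply, neg_mul, Finset.sum_neg_distrib, mul_neg]
    rw [← Finset.sum_sub_distrib, ← Finset.sum_sub_distrib, ← Finset.sum_neg_distrib, ← Finset.sum_add_distrib]
    apply Finset.sum_congr rfl
    intro i _
    linear_combination (u (Sum.inl i) * v (Sum.inr i)) * h11
  have hadd0 : ∀ u v, Q0 (u + v) = Q0 u + Q0 v + Cfsg.sympForm m F u v := by
    intro u v
    have := hpol0 u v
    simp only [QuadraticMap.polar] at this
    linear_combination this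
  have hb : Function.Bijective (frobenius F 2) := (Finite.injective_iff_bijective).1 (frobenius_inj F 2)
  -- square root
  let s : F → F := fun a => (Equiv.ofBijective _ hb).symm a
  have hs : ∀ a, (s a) ^ 2 = a := fun a => (Equiv.ofBijective _ hb).apply_symm_apply a
  have hsu : ∀ a b : F, a ^ 2 = b → s b = a := by
    intro a b h
    apply hb.1
    show (s b) ^ 2 = a ^ 2
    rw [hs, h]
  let lam : (Fin m ⊕ Fin m → F) →ₗ[F] F :=
    { toFun := fun v => s (Q0 (U.mulVec v) - Q0 v)
      map_add' := by
        intro u v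
        apply hsu
        rw [add_pow_two, hs, hs, Matrix.mulVec_add, hadd0, hadd0, hpres]
        linear_combination (s (Q0 (U.mulVec u) - Q0 u) * s (Q0 (U.mulVec v) - Q0 v)) * h11
      map_smul' := by
        intro c v
        apply hsu
        rw [RingHom.id_apply, smul_eq_mul, mul_pow, hs, Matrix.mulVec_smul, QuadraticMap.map_smul, QuadraticMap.map_smul]
        simp only [smul_eq_mul]
        ring }
  have hlam : ∀ v, (lam v) ^ 2 = Q0 (U.mulVec v) - Q0 v := fun v => hs _
  let N : (Fin m ⊕ Fin m → F) →ₗ[F] (Fin m ⊕ Fin m → F) := (U - 1).mulVecLin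
  have hker : LinearMap.ker N ≤ LinearMap.ker lam := by
    intro v hv
    rw [LinearMap.mem_ker] at hv ⊢
    have h1 : U.mulVec v = v := by
      have : (U - 1).mulVec v = 0 := hv
      rw [Matrix.sub_mulVec, Matrix.one_mulVec, sub_eq_zero] at this
      exact this
    have h2 := hlam v
    rw [h1, sub_self] at h2
    exact pow_eq_zero_iff (two_ne_zero) |>.1 h2
  obtain ⟨mu, hmu⟩ : ∃ mu : (Fin m ⊕ Fin m → F) →ₗ[F] F, mu ∘ₗ N = lam := by
    obtain ⟨g, hg⟩ := LinearMap.exists_extend (((LinearMap.ker N).liftQ lam hker) ∘ₗ N.quotKerEquivRange.symm.toLinearMap)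
    refine ⟨g, ?_⟩
    apply LinearMap.ext
    intro v
    have h1 := LinearMap.congr_fun hg ⟨N v, ⟨v, rfl⟩⟩
    simp only [LinearMap.comp_apply, Submodule.subtype_apply, LinearEquiv.coe_coe] at h1 ⊢
    rw [h1]
    have h2 : N.quotKerEquivRange.symm ⟨N v, ⟨v, rfl⟩⟩ = (LinearMap.ker N).mkQ v := by
      rw [LinearEquiv.symm_apply_eq]
      rfl
    rw [h2]
    rfl
  have hmu' : ∀ v, mu (U.mulVec v) = mu v + lam v := by
    intro v
    have := LinearMap.congr_fun hmu v
    simp only [LinearMap.comp_apply] at this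
    have h2 : N v = U.mulVec v - v := by
      show (U - 1).mulVec v = _
      rw [Matrix.sub_mulVec, Matrix.one_mulVec]
    rw [h2, map_sub] at this
    linear_combination this
  refine ⟨Q0 + QuadraticMap.linMulLin mu mu, ?_, ?_⟩
  · intro u v
    rw [← hpol0]
    simp only [QuadraticMap.polar, QuadraticMap.add_apply, QuadraticMap.linMulLin_apply, map_add]
    linear_combination (mu u * mu v) * h11
  · intro v
    simp only [QuadraticMap.add_apply, QuadraticMap.linMulLin_apply, hmu']
    have := hlam v
    linear_combination (mu v * lam v) * h11 - this + (lam v) ^ 2 * h11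

end Cfsg.Agent.S2585
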