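import Cfsg.Statements.S2594
import Mathlib
import Cfsg.Agent.H8.TTC1
import Cfsg.Agent.S0245
open Matrix Cfsg.Agent.H7 Cfsg.Agent.H7.Tv

set_option autoImplicit false
open Cfsg

namespace Cfsg.Agent.S2594

theorem sp_rank_gen {F : Type*} [Field F] {m : ℕ} (A : symplecticGroup (Fin m) F)
    (h : ((A : Matrix (Fin m ⊕ Fin m) (Fin m ⊕ Fin m) F) - 1).rank = 1) : ∃ v c, v ≠ 0 ∧ c ≠ 0 ∧ A = stv v c := by
  have hf := sf_alt (F := F) m
  obtain ⟨u, l, hu, hl, hx⟩ := Cfsg.Agent.H8.TTC.ap_form (g := spToGL m F A) h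
  have h1 : ∀ x y, l y * sf m F x u = l x * sf m F y u := by
    intro x y
    have h2 := spToGL_iso A x y
    rw [hx, hx] at h2
    simp only [map_add, LinearMap.add_apply, map_smul, LinearMap.smul_apply, smul_eq_mul, hf.alt u] at h2
    rw [hf.skew u y] at h2
    linear_combination h2
  obtain ⟨y0, hy0⟩ : ∃ y, l y ≠ 0 := by
    by_contra hcon
    push Not at hcon
    exact hl (LinearMap.ext hcon)
  have h4 : sf m F y0 u ≠ 0 := by
    intro h5
    apply hu
    apply hf.nd
    intro x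
    have := h1 x y0
    rw [h5, mul_zero] at this
    exact (mul_eq_zero.1 this).resolve_left hy0
  refine ⟨u, l y0 / sf m F y0 u, hu, div_ne_zero hy0 h4, eq_stv ?_⟩
  intro x
  have h6 := h1 x y0
  rw [hx]
  congr 2
  field_simp
  linear_combination -h6

/-- the action on vectors -/
def spAct (m : ℕ) (F : Type*) [Field F] : MulAction (symplecticGroup (Fin m) F) (Fin m ⊕ Fin m → F) where
  smul A v := ap (spToGL m F A) v
  one_smul v := by
    show ap (spToGL m F 1) v = v
    rw [map_one, ap_one]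
  mul_smul A B v := by
    show ap (spToGL m F (A * B)) v = ap (spToGL m F A) (ap (spToGL m F B) v)
    rw [map_mul, ap_mul]

theorem act_index {m : ℕ} {F : Type*} [Field F] {v : Fin m ⊕ Fin m → F} (hv : v ≠ 0) :
    (@MulAction.stabilizer (symplecticGroup (Fin m) F) (Fin m ⊕ Fin m → F) _ (spAct m F) v).index = ({w | w ≠ 0} : Set (Fin m ⊕ Fin m → F)).ncard := by
  rw [@MulAction.index_stabilizer (symplecticGroup (Fin m) F) (Fin m ⊕ Fin m → F) _ (spAct m F) v]
  congr 1
  ext w
  constructor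
  · rintro ⟨A, rfl⟩
    show ap (spToGL m F A) v ≠ 0
    rw [Ne, ap_eq_zero]
    exact hv
  · intro hw
    obtain ⟨A, hA⟩ := exists_move hv hw
    exact ⟨A, hA⟩

theorem mem_st {m : ℕ} {F : Type*} [Field F] {v : Fin m ⊕ Fin m → F} {A : symplecticGroup (Fin m) F} :
    A ∈ @MulAction.stabilizer (symplecticGroup (Fin m) F) (Fin m ⊕ Fin m → F) _ (spAct m F) v ↔ ap (spToGL m F A) v = v := Iff.rfl

/-- Over a finite field with q elements, q even, an element t of Sp_2m(F) with rank(t − 1) = 1 (a symplectic transvection) has centraliser in Sp_2m(F) of order q^(2m−1) · |Sp_(2m−2)(q)| = q^(2m−1) · q^((m−1)²) · Π_(i=1)^(m−1) (q^(2i) − 1). -/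
theorem result {F : Type*} [Field F] [Fintype F] [CharP F 2] {q : ℕ} (hF : Fintype.card F = q) {m : ℕ} (hm : 1 ≤ m) (t : Matrix.symplecticGroup (Fin m) F) (ht : ((t : Matrix (Fin m ⊕ Fin m) (Fin m ⊕ Fin m) F) - 1).rank = 1) : Nat.card ↥(Subgroup.centralizer ({t} : Set ↥(Matrix.symplecticGroup (Fin m) F))) = q ^ (2 * m - 1) * (q ^ ((m - 1) ^ 2) * ∏ i : Fin (m - 1), (q ^ (2 * ((i : ℕ) + 1)) - 1)) := by
  classical
  have hf := sf_alt (F := F) m
  have h2 : ∀ x : F, x + x = 0 := fun x => CharTwo.add_self_eq_zero x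
  obtain ⟨v', c, hv', hc, rfl⟩ := sp_rank_gen t ht
  obtain ⟨a, ha⟩ : IsSquare c := FiniteField.isSquare_of_char_two (ringChar.eq F 2) c
  have ha0 : a ≠ 0 := by
    rintro rfl
    rw [mul_zero] at ha
    exact hc ha
  obtain ⟨v, hvdef⟩ : ∃ v, v = a • v' := ⟨_, rfl⟩
  have hv : v ≠ 0 := by rw [hvdef]; exact smul_ne_zero ha0 hv'
  have htv : stv v' c = stv v 1 := by rw [hvdef, stv_smul, mul_one, ← ha]
  rw [htv]
  have hinj : ∀ w : Fin m ⊕ Fin m → F, stv w (1 : F) = stv v 1 → w = v := by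
    intro w hw
    have h3 : ∀ x, (sf m F x w) • w = (sf m F x v) • v := by
      intro x
      have h4 := stv_isSTv w (1 : F) x
      have h5 := stv_isSTv v (1 : F) x
      rw [hw, h5, one_mul, one_mul] at h4
      exact (add_left_cancel h4).symm
    obtain ⟨x, hx⟩ := hf.exists_ne hv
    have hx' : sf m F x v ≠ 0 := hf.skew_ne hx
    obtain ⟨b, hb⟩ : ∃ b, b = (sf m F x v)⁻¹ * sf m F x w := ⟨_, rfl⟩
    have h4 : v = b • w := by
      rw [hb, mul_smul, h3, smul_smul, inv_mul_cancel₀ hx', one_smul]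
    have h5 := h3 x
    rw [h4, map_smul, smul_smul, smul_eq_mul] at h5
    have hw0 : w ≠ 0 := by
      rintro rfl
      rw [smul_zero] at h4
      exact hv h4
    have hxw : sf m F x w ≠ 0 := by
      intro h6
      rw [h4, map_smul, h6, smul_zero] at hx'
      exact hx' rfl
    have h6 : (sf m F x w - b * sf m F x w * b) • w = 0 := by
      rw [sub_smul, h5, sub_self]
    have h7 := (smul_eq_zero.1 h6).resolve_right hw0
    have h8 : (1 - b * b) = 0 := by
      have : sf m F x w * (1 - b * b) = 0 := by linear_combination h7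
      exact (mul_eq_zero.1 this).resolve_left hxw
    have h9 : (b + 1) * (b + 1) = 0 := by linear_combination -h8 + h2 (b + 1)
    have h10 : b + 1 = 0 := by rcases mul_eq_zero.1 h9 with h | h <;> exact h
    have h11 : b = 1 := by linear_combination h10 - h2 1
    rw [h4, h11, one_smul]
  have hst : Subgroup.centralizer ({stv v (1 : F)} : Set (symplecticGroup (Fin m) F)) = @MulAction.stabilizer (symplecticGroup (Fin m) F) (Fin m ⊕ Fin m → F) _ (spAct m F) v := by
    ext A
    rw [Subgroup.mem_centralizer_singleton_iff, mem_st]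
    have h3 := stv_conj A v (1 : F)
    constructor
    · intro h
      apply hinj
      rw [← h3, h, mul_inv_cancel_right]
    · intro h
      rw [h] at h3
      rw [mul_inv_eq_iff_eq_mul] at h3
      exact h3
  rw [hst]
  have hcard : ({w | w ≠ 0} : Set (Fin m ⊕ Fin m → F)).ncard = q ^ (2 * m) - 1 := by
    have h3 : ({w | w ≠ 0} : Set (Fin m ⊕ Fin m → F)) = {0}ᶜ := by ext; simp
    rw [h3, Set.ncard_compl, Set.ncard_singleton, Nat.card_eq_fintype_card, Fintype.card_fun, Fintype.card_sum, Fintype.card_fin, hF, two_mul]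
  have hmul := Subgroup.card_mul_index (@MulAction.stabilizer (symplecticGroup (Fin m) F) (Fin m ⊕ Fin m → F) _ (spAct m F) v)
  rw [act_index hv, hcard, Cfsg.Agent.S0245.result hF m] at hmul
  obtain ⟨k, rfl⟩ : ∃ k, m = k + 1 := ⟨m - 1, by omega⟩
  rw [Finset.prod_range_succ, ← mul_assoc] at hmul
  have hq : 1 < q := by rw [← hF]; exact Fintype.one_lt_card
  have hpos : 0 < q ^ (2 * (k + 1)) - 1 := by
    have := Nat.one_lt_pow (n := 2 * (k + 1)) (by omega) hq
    omega
  rw [Nat.eq_of_mul_eq_mul_right hpos hmul]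
  have hfin : ∏ i : Fin (k + 1 - 1), (q ^ (2 * ((i : ℕ) + 1)) - 1) = ∏ x ∈ Finset.range k, (q ^ (2 * (x + 1)) - 1) :=
    Fin.prod_univ_eq_prod_range (fun i => q ^ (2 * (i + 1)) - 1) k
  rw [hfin, Nat.add_sub_cancel, ← mul_assoc, ← pow_add]
  congr 2
  have : 2 * (k + 1) - 1 = 2 * k + 1 := by omega
  rw [this]
  ring

end Cfsg.Agent.S2594
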