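import Cfsg.Statements.S2599
import Mathlib

set_option autoImplicit false
open Cfsg

namespace Cfsg.Agent.S2599



/-- An irreducible invariant subspace of a semisimple isometry is non-degenerate or totally singular: let Q be a quadratic form on F^n (F finite of characteristic p) with non-degenerate polar form f, x an isometry of Q of order prime to p, and U a non-zero x-invariant subspace containing no x-invariant subspace other than 0 and U. Then U meets its f-orthogonal trivially, or Q vanishes on U, or p = 2, U is a line spanned by a non-singular vector and x fixes U pointwise. -/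
theorem result {F : Type*} [Field F] [Fintype F] {p : ℕ} [Fact p.Prime] [CharP F p] {n : ℕ} (Q : QuadraticForm F (Fin n → F)) (hQ : (QuadraticMap.polarBilin Q).Nondegenerate) (x : ↥(Cfsg.isometryGroup F ⇑Q)) (hx : (orderOf x).Coprime p) (U : Submodule F (Fin n → F)) (hU0 : U ≠ ⊥) (hUx : ∀ u ∈ U, ((x : Matrix.GeneralLinearGroup (Fin n) F) : Matrix (Fin n) (Fin n) F).mulVec u ∈ U) (hirr : ∀ W : Submodule F (Fin n → F), W ≤ U → (∀ w ∈ W, ((x : Matrix.GeneralLinearGroup (Fin n) F) : Matrix (Fin n) (Fin n) F).mulVec w ∈ W) → W = ⊥ ∨ W = U) : U ⊓ LinearMap.BilinForm.orthogonal (QuadraticMap.polarBilin Q) U = ⊥ ∨ (∀ u ∈ U, Q u = 0) ∨ (p = 2 ∧ Module.finrank F U = 1 ∧ (∃ u ∈ U, Q u ≠ 0) ∧ ∀ u ∈ U, ((x : Matrix.GeneralLinearGroup (Fin n) F) : Matrix (Fin n) (Fin n) F).mulVec u = u) := by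
  classical
  set X : Matrix (Fin n) (Fin n) F := ((x : Matrix.GeneralLinearGroup (Fin n) F) : Matrix (Fin n) (Fin n) F) with hX
  have hXQ : ∀ v, Q (X.mulVec v) = Q v := fun v => x.2 v v
  have hXB : ∀ u v, QuadraticMap.polar Q (X.mulVec u) (X.mulVec v) = QuadraticMap.polar Q u v := by
    intro u v
    simp only [QuadraticMap.polar, ← Matrix.mulVec_add, hXQ]
  have hXinj : ∀ v, X.mulVec v = 0 → v = 0 := by
    intro v hv
    have h1 : (((x : Matrix.GeneralLinearGroup (Fin n) F)⁻¹ : Matrix.GeneralLinearGroup (Fin n) F) : Matrix (Fin n) (Fin n) F) * X = 1 := by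
      rw [hX, ← Units.val_mul, inv_mul_cancel, Units.val_one]
    have h2 := congrArg (fun M : Matrix (Fin n) (Fin n) F => M.mulVec v) h1
    simp only [← Matrix.mulVec_mulVec, hv, Matrix.mulVec_zero, Matrix.one_mulVec] at h2
    exact h2.symm
  -- surjectivity of X on U
  have hsurj : ∀ u ∈ U, ∃ u' ∈ U, X.mulVec u' = u := by
    let f : U →ₗ[F] U := (Matrix.mulVecLin X).restrict hUx
    have hf : Function.Injective f := by
      rw [← LinearMap.ker_eq_bot, LinearMap.ker_eq_bot']
      rintro ⟨v, hv⟩ h
      have : X.mulVec v = 0 := congrArg Subtype.val h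
      exact Subtype.ext (hXinj v this)
    have hs := LinearMap.surjective_of_injective hf
    intro u hu
    obtain ⟨w, hw⟩ := hs ⟨u, hu⟩
    exact ⟨w, w.2, congrArg Subtype.val hw⟩
  have hinv : ∀ w ∈ U ⊓ LinearMap.BilinForm.orthogonal (QuadraticMap.polarBilin Q) U,
      X.mulVec w ∈ U ⊓ LinearMap.BilinForm.orthogonal (QuadraticMap.polarBilin Q) U := by
    rintro w ⟨hw1, hw2⟩
    refine ⟨hUx w hw1, ?_⟩
    intro u hu
    obtain ⟨u', hu', rfl⟩ := hsurj u hu
    have h1 := hw2 u' hu'
    show QuadraticMap.polar Q (X.mulVec u') (X.mulVec w) = 0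
    rw [hXB]
    exact h1
  rcases hirr _ inf_le_left hinv with h | h
  · exact Or.inl h
  right
  have hpol : ∀ u ∈ U, ∀ v ∈ U, QuadraticMap.polar Q u v = 0 := by
    intro u hu v hv
    have : v ∈ U ⊓ LinearMap.BilinForm.orthogonal (QuadraticMap.polarBilin Q) U := by rw [h]; exact hv
    exact this.2 u hu
  have hadd : ∀ u ∈ U, ∀ v ∈ U, Q (u + v) = Q u + Q v := by
    intro u hu v hv
    have := hpol u hu v hv
    simp only [QuadraticMap.polar] at this
    linear_combination this
  by_cases hp : p = 2
  · subst hp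
    have h11 : (1 : F) + 1 = 0 := by
      have := CharP.cast_eq_zero F 2
      push_cast at this
      linear_combination this
    let W : Submodule F (Fin n → F) :=
      { carrier := {u | u ∈ U ∧ Q u = 0}
        add_mem' := by
          rintro a b ⟨ha, ha2⟩ ⟨hb, hb2⟩
          exact ⟨U.add_mem ha hb, by rw [hadd a ha b hb, ha2, hb2, add_zero]⟩
        zero_mem' := ⟨U.zero_mem, QuadraticMap.map_zero Q⟩
        smul_mem' := by
          rintro c a ⟨ha, ha2⟩
          exact ⟨U.smul_mem c ha, by rw [QuadraticMap.map_smul, ha2, smul_zero]⟩ }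
    have hWU : W ≤ U := fun u hu => hu.1
    rcases hirr W hWU (by
      rintro w ⟨hw1, hw2⟩
      exact ⟨hUx w hw1, by rw [hXQ]; exact hw2⟩) with hW | hW
    · right
      have hinj : ∀ u ∈ U, Q u = 0 → u = 0 := by
        intro u hu h0
        have : u ∈ W := ⟨hu, h0⟩
        rw [hW] at this
        exact this
      obtain ⟨u0, hu0, hu00⟩ := Submodule.exists_mem_ne_zero_of_ne_bot hU0
      have hQ0 : Q u0 ≠ 0 := fun h0 => hu00 (hinj u0 hu0 h0)
      refine ⟨rfl, ?_, ⟨u0, hu0, hQ0⟩, ?_⟩
      · rw [finrank_eq_one_iff']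
        refine ⟨⟨u0, hu0⟩, fun h => hu00 (congrArg Subtype.val h), ?_⟩
        rintro ⟨v, hv⟩
        have hsq : ∃ a : F, a ^ 2 = Q v / Q u0 := by
          have hb : Function.Bijective (frobenius F 2) := by
            exact (Finite.injective_iff_bijective).1 (frobenius_inj F 2)
          obtain ⟨a, ha⟩ := hb.2 (Q v / Q u0)
          exact ⟨a, ha⟩
        obtain ⟨a, ha⟩ := hsq
        refine ⟨a, ?_⟩
        apply Subtype.ext
        show a • u0 = v
        have h1 : Q (a • u0 + v) = 0 := by
          rw [hadd _ (U.smul_mem a hu0) _ hv, QuadraticMap.map_smul, smul_eq_mul, ← pow_two, ha, div_mul_cancel₀ _ hQ0]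
          linear_combination (Q v) * h11
        have h2 := hinj _ (U.add_mem (U.smul_mem a hu0) hv) h1
        have h3 : a • u0 = -v := eq_neg_of_add_eq_zero_left h2
        rw [h3]
        have h4 : v + v = 0 := by
          ext i
          show v i + v i = 0
          linear_combination (v i) * h11
        exact (eq_neg_of_add_eq_zero_left h4).symm
      · intro u hu
        have h1 : Q (X.mulVec u + u) = 0 := by
          rw [hadd _ (hUx u hu) _ hu, hXQ]
          linear_combination (Q u) * h11
        have h2 := hinj _ (U.add_mem (hUx u hu) hu) h1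
        have h3 : X.mulVec u = -u := eq_neg_of_add_eq_zero_left h2
        rw [h3]
        have h4 : u + u = 0 := by
          ext i
          show u i + u i = 0
          linear_combination (u i) * h11
        exact (eq_neg_of_add_eq_zero_left h4).symm
    · left
      intro u hu
      have : u ∈ W := by rw [hW]; exact hu
      exact this.2
  · left
    intro u hu
    have h1 := hadd u hu u hu
    have h2 : Q (u + u) = 4 * Q u := by
      rw [← two_smul F u, QuadraticMap.map_smul, smul_eq_mul]; ring
    rw [h2] at h1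
    have h3 : (2 : F) * Q u = 0 := by linear_combination h1
    have h4 : (2 : F) ≠ 0 := by
      intro h0
      apply hp
      have : (p : ℕ) ∣ 2 := by
        rw [← CharP.cast_eq_zero_iff F p 2]; exact_mod_cast h0
      exact (Nat.prime_dvd_prime_iff_eq (Fact.out) Nat.prime_two).1 this
    exact (mul_eq_zero.1 h3).resolve_left h4

end Cfsg.Agent.S2599
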