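import Cfsg.Statements.S2601
import Mathlib
import Cfsg.Agent.H8.AutI
open Cfsg.Agent.H8.AutPSL

set_option autoImplicit false
open Cfsg

namespace Cfsg.Agent.S2601



/-- Structure of the outer automorphism group of PSL_n(q), n ≥ 3, q = p^f: it has a normal cyclic subgroup of order gcd(n, q − 1) (the diagonal automorphisms) whose quotient is the direct product of a cyclic group of order f (field automorphisms) and a group of order 2 (the inverse-transpose graph automorphism). -/
theorem result {F : Type*} [Field F] [Fintype F] {p f n : ℕ} [Fact p.Prime] (hf : 1 ≤ f) (hF : Fintype.card F = p ^ f) (hn : 3 ≤ n) : ∃ φ : Cfsg.Out (Matrix.ProjectiveSpecialLinearGroup (Fin n) F) →* Multiplicative (ZMod f × ZMod 2), Function.Surjective φ ∧ IsCyclic φ.ker ∧ Nat.card φ.ker = Nat.gcd n (p ^ f - 1) := by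
  obtain ⟨Ψ, hker, hΨ⟩ := exists_Psi (F := F) hn
  obtain ⟨φ, hφ, hc, hcard⟩ := out_ker (by omega : 2 ≤ n) Ψ hker
  have hF' : Nat.card F = p ^ f := by rw [Nat.card_eq_fintype_card, hF]
  obtain ⟨k1, k2⟩ := fieldAut F hF' hf
  haveI : NeZero f := ⟨by omega⟩
  have e1 : (F ≃+* F) ≃* Multiplicative (ZMod f) := by
    haveI := k1
    apply mulEquivOfCyclicCardEq
    rw [k2]
    show f = Nat.card (ZMod f)
    rw [Nat.card_zmod]
  have e2 : ℤˣ ≃* Multiplicative (ZMod 2) := by
    haveI : Fact (Nat.Prime 2) := ⟨Nat.prime_two⟩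
    have h2 : Nat.card ℤˣ = 2 := by rw [Nat.card_eq_fintype_card]; rfl
    haveI : IsCyclic ℤˣ := isCyclic_of_prime_card h2
    apply mulEquivOfCyclicCardEq
    rw [h2]
    show 2 = Nat.card (ZMod 2)
    rw [Nat.card_zmod]
  let e : (F ≃+* F) × ℤˣ ≃* Multiplicative (ZMod f × ZMod 2) := (MulEquiv.prodCongr e1 e2).trans (MulEquiv.prodMultiplicative (ZMod f) (ZMod 2)).symm
  refine ⟨e.toMonoidHom.comp φ, ?_, ?_, ?_⟩
  · intro y
    obtain ⟨a, rfl⟩ := e.surjective y
    refine ⟨QuotientGroup.mk (hA a), ?_⟩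
    show e (φ _) = e a
    rw [hφ, hΨ]
  · have : (e.toMonoidHom.comp φ).ker = φ.ker := by
      ext x
      rw [MonoidHom.mem_ker, MonoidHom.mem_ker]
      show e (φ x) = 1 ↔ _
      rw [map_eq_one_iff e e.injective]
    rw [this]; exact hc
  · have : (e.toMonoidHom.comp φ).ker = φ.ker := by
      ext x
      rw [MonoidHom.mem_ker, MonoidHom.mem_ker]
      show e (φ x) = 1 ↔ _
      rw [map_eq_one_iff e e.injective]
    rw [this, hcard, hF']

end Cfsg.Agent.S2601
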