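import Cfsg.Statements.S2602
import Mathlib
import Cfsg.Agent.H8.AutI
open Cfsg.Agent.H8.AutPSL

set_option autoImplicit false
open Cfsg

namespace Cfsg.Agent.S2602



/-- Structure of the outer automorphism group of PSL_2(q), q = p^f ≥ 4: it has a normal cyclic subgroup of order gcd(2, q − 1) (diagonal automorphisms) with cyclic quotient of order f (field automorphisms); there is no graph automorphism in dimension 2. -/
theorem result {F : Type*} [Field F] [Fintype F] {p f : ℕ} [Fact p.Prime] (hf : 1 ≤ f) (hF : Fintype.card F = p ^ f) (h4 : 4 ≤ p ^ f) : ∃ φ : Cfsg.Out (Matrix.ProjectiveSpecialLinearGroup (Fin 2) F) →* Multiplicative (ZMod f), Function.Surjective φ ∧ IsCyclic φ.ker ∧ Nat.card φ.ker = Nat.gcd 2 (p ^ f - 1) := by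
  obtain ⟨Ψ, hker, hΨ⟩ := exists_Psi2 (F := F)
  obtain ⟨φ, hφ, hc, hcard⟩ := out_ker (le_refl 2) Ψ hker
  have hF' : Nat.card F = p ^ f := by rw [Nat.card_eq_fintype_card, hF]
  obtain ⟨k1, k2⟩ := fieldAut F hF' hf
  haveI : NeZero f := ⟨by omega⟩
  have e : (F ≃+* F) ≃* Multiplicative (ZMod f) := by
    haveI := k1
    apply mulEquivOfCyclicCardEq
    rw [k2]
    show f = Nat.card (ZMod f)
    rw [Nat.card_zmod]
  have hk : (e.toMonoidHom.comp φ).ker = φ.ker := by
    ext x
    rw [MonoidHom.mem_ker, MonoidHom.mem_ker]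
    show e (φ x) = 1 ↔ _
    rw [map_eq_one_iff e e.injective]
  refine ⟨e.toMonoidHom.comp φ, ?_, ?_, ?_⟩
  · intro y
    obtain ⟨a, rfl⟩ := e.surjective y
    refine ⟨QuotientGroup.mk (ind (fld a)), ?_⟩
    show e (φ _) = e a
    rw [hφ, hΨ]
  · rw [hk]; exact hc
  · rw [hk, hcard, hF']

end Cfsg.Agent.S2602
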