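import Cfsg.Statements.S2603
import Mathlib
import Cfsg.Agent.H8.TVU6

set_option autoImplicit false
open Cfsg

namespace Cfsg.Agent.S2603

open Cfsg.Agent.H8.TVU Cfsg.Agent.H8.MDat in
theorem core {K : Type*} [Field K] [Fintype K] {p f q n : ℕ} [Fact p.Prime] (hf : 1 ≤ f) (hq : q = p ^ f) (hK : Fintype.card K = q ^ 2) (hn : 3 ≤ n) (h32 : ¬ (n = 3 ∧ q = 2)) : ∃ φ : Cfsg.Out (Cfsg.PSU n K q) →* (K ≃+* K), Function.Surjective φ ∧ IsCyclic φ.ker ∧ Nat.card φ.ker = Nat.gcd n (q + 1) := by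
  haveI : CharP K p := charP_of_card K (k := f * 2) (by rw [hK, hq, ← pow_mul]) (by omega)
  let X := mdU p hK hn h32
  obtain ⟨Ψ, hk, hΨ⟩ := X.exists_Psi (fullU p hK hn h32)
  obtain ⟨φ, h1, h2, h3⟩ := X.out_ker (dtU p hK hn h32) (dtU_surj p hK hn h32) (dtU_ker p hK hn h32) _ (dtU_Z p hK hn h32) Ψ hk
  refine ⟨φ, ?_, h2 inferInstance, by rw [h3, Z_index hK]⟩
  intro a
  exact ⟨QuotientGroup.mk (Cfsg.Agent.H8.AutPSL.ind (X.fd a)), by rw [h1, hΨ]⟩

theorem zmod_equiv (A : Type*) [Group A] [IsCyclic A] (k : ℕ) (h : Nat.card A = k) (hk : 0 < k) : Nonempty (A ≃* Multiplicative (ZMod k)) := by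
  subst h
  exact ⟨(zmodCyclicMulEquiv (G := A) inferInstance).symm⟩

/-- Structure of the outer automorphism group of PSU_n(q), n ≥ 3, (n, q) ≠ (3, 2), q = p^f, realised over the field with q² elements: it has a normal cyclic subgroup of order gcd(n, q + 1) (diagonal automorphisms) with cyclic quotient of order 2f (generated by the Frobenius field automorphism of the field with q² elements, whose f-th power is the graph automorphism). -/
theorem result {K : Type*} [Field K] [Fintype K] {p f q n : ℕ} [Fact p.Prime] (hf : 1 ≤ f) (hq : q = p ^ f) (hK : Fintype.card K = q ^ 2) (hn : 3 ≤ n) (h32 : ¬ (n = 3 ∧ q = 2)) : ∃ φ : Cfsg.Out (Cfsg.PSU n K q) →* Multiplicative (ZMod (2 * f)), Function.Surjective φ ∧ IsCyclic φ.ker ∧ Nat.card φ.ker = Nat.gcd n (q + 1) := by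
  obtain ⟨φ, h1, h2, h3⟩ := core hf hq hK hn h32
  obtain ⟨h4, h5⟩ := Cfsg.Agent.H8.AutPSL.fieldAut K (p := p) (f := 2 * f) (by rw [Nat.card_eq_fintype_card, hK, hq, ← pow_mul, mul_comm]) (by omega)
  obtain ⟨e⟩ := zmod_equiv (K ≃+* K) (2 * f) h5 (by omega)
  refine ⟨e.toMonoidHom.comp φ, e.surjective.comp h1, ?_⟩
  have hk : (e.toMonoidHom.comp φ).ker = φ.ker := by
    ext x
    rw [MonoidHom.mem_ker, MonoidHom.mem_ker]
    show e (φ x) = 1 ↔ _
    rw [map_eq_one_iff e e.injective]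
  rw [hk]
  exact ⟨h2, h3⟩

end Cfsg.Agent.S2603
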