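import Cfsg.Statements.S2618
import Mathlib
import Cfsg.Agent.H8.QPeel
open Cfsg.Agent.H8.QPeel Cfsg.Agent.H7 Cfsg.Agent.H7.Orth Cfsg.Agent.H7.Orth.Qf Module

set_option autoImplicit false
open Cfsg

namespace Cfsg.Agent.S2618



/-- Standard (parabolic) basis of a non-degenerate quadratic space of odd dimension 2m + 1 over a finite field (the non-degeneracy of the polar form forces the characteristic to be odd): there is a basis e_i, f_i (i < m), x with Q(e_i) = Q(f_i) = 0, B(e_i, f_j) = δ_ij (B the polar form), the e's pairwise orthogonal and the f's pairwise orthogonal, x orthogonal to all of them and Q(x) ≠ 0. -/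
theorem result {F V : Type*} [Field F] [Finite F] [AddCommGroup V] [Module F V] [FiniteDimensional F V] {m : ℕ} (hV : Module.finrank F V = 2 * m + 1) (Q : QuadraticForm F V) (hQ : (QuadraticMap.polarBilin Q).Nondegenerate) : ∃ b : Module.Basis (Unit ⊕ (Fin m ⊕ Fin m)) F V, Q (b (Sum.inl ())) ≠ 0 ∧ (∀ i, QuadraticMap.polar ⇑Q (b (Sum.inl ())) (b (Sum.inr (Sum.inl i))) = 0 ∧ QuadraticMap.polar ⇑Q (b (Sum.inl ())) (b (Sum.inr (Sum.inr i))) = 0) ∧ (∀ i, Q (b (Sum.inr (Sum.inl i))) = 0 ∧ Q (b (Sum.inr (Sum.inr i))) = 0) ∧ (∀ i j, QuadraticMap.polar ⇑Q (b (Sum.inr (Sum.inl i))) (b (Sum.inr (Sum.inr j))) = if i = j then 1 else 0) ∧ (∀ i j, QuadraticMap.polar ⇑Q (b (Sum.inr (Sum.inl i))) (b (Sum.inr (Sum.inl j))) = 0 ∧ QuadraticMap.polar ⇑Q (b (Sum.inr (Sum.inr i))) (b (Sum.inr (Sum.inr j))) = 0) := by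
  obtain ⟨φ⟩ : Nonempty (V ≃ₗ[F] (Fin (2 * m + 1) → F)) := ⟨LinearEquiv.ofFinrankEq _ _ (by rw [hV, Module.finrank_fintype_fun_eq_card, Fintype.card_fin])⟩
  have hq := qf_of φ Q hQ
  obtain ⟨Q', hQ'⟩ : ∃ Q' : (Fin (2 * m + 1) → F) → F, Q' = fun v => Q (φ.symm v) := ⟨_, rfl⟩
  obtain ⟨B', hB'⟩ : ∃ B', B' = ((QuadraticMap.polarBilin Q).compl₁₂ (φ.symm : (Fin (2 * m + 1) → F) →ₗ[F] V) (φ.symm : (Fin (2 * m + 1) → F) →ₗ[F] V)) := ⟨_, rfl⟩
  rw [← hQ', ← hB'] at hq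
  have hpol : ∀ x y, QuadraticMap.polar ⇑Q (φ.symm x) (φ.symm y) = B' x y := by
    intro x y
    rw [hB']; rfl
  have hqq : ∀ x, Q (φ.symm x) = Q' x := by
    intro x
    rw [hQ']
  obtain ⟨k, e, f, U, H, hU, hperp, hnd, han, hd⟩ := peel hq (2 * m + 1) ⊤ (by rw [finrank_top, Module.finrank_fintype_fun_eq_card, Fintype.card_fin])
    (fun v _ h => hq.nd v (fun u => h u trivial))
  rw [finrank_top, Module.finrank_fintype_fun_eq_card, Fintype.card_fin] at hd
  have hU2 : finrank F U < 3 := by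
    by_contra hcon
    push Not at hcon
    obtain ⟨z, hz, hz0, hqz⟩ := exists_singular hq U hcon
    exact hz0 (han z hz hqz)
  obtain ⟨hU1, rfl⟩ : finrank F U = 1 ∧ k = m := by omega
  obtain ⟨z, hz, hz0⟩ := exists_ne_zero_of_finrank (M := U) (by omega)
  have hqz : Q' z ≠ 0 := fun h => hz0 (han z hz h)
  have hli := li hq H hperp (κ := Unit) (u := fun _ => z) (fun _ => hz) (LinearIndependent.of_subsingleton () hz0)
  let b := basisOfLinearIndependentOfCardEqFinrank hli (by simp; omega)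
  have hb : ⇑b = Sum.elim (fun _ : Unit => z) (Sum.elim e f) := coe_basisOfLinearIndependentOfCardEqFinrank _ _
  have hbi : ∀ i, b.map φ.symm i = φ.symm (Sum.elim (fun _ : Unit => z) (Sum.elim e f) i) := by
    intro i
    rw [Basis.map_apply, hb]
  refine ⟨b.map φ.symm, ?_, ?_, ?_, ?_, ?_⟩
  · rw [hbi, hqq]; exact hqz
  · intro i
    simp only [hbi, hpol, Sum.elim_inl, Sum.elim_inr]
    rw [hq.symm z, hq.symm z]
    exact hperp z hz i
  · intro i
    simp only [hbi, hqq, Sum.elim_inl, Sum.elim_inr]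
    exact ⟨H.qe i, H.qf i⟩
  · intro i j
    simp only [hbi, hpol, Sum.elim_inl, Sum.elim_inr]
    exact H.ef i j
  · intro i j
    simp only [hbi, hpol, Sum.elim_inl, Sum.elim_inr]
    exact ⟨H.ee i j, H.ff i j⟩

end Cfsg.Agent.S2618
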