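import Cfsg.Statements.S2619
import Mathlib

set_option autoImplicit false
open Cfsg

namespace Cfsg.Agent.S2619



/-- Over a finite field of characteristic two, given an alternating bilinear form B on a finite-dimensional space, a basis (v_i) and scalars (λ_i), there is exactly one quadratic form whose polar form is B and whose value at each v_i is λ_i. -/
theorem result {F V ι : Type*} [Field F] [Finite F] [CharP F 2] [AddCommGroup V] [Module F V] [Fintype ι] (b : Module.Basis ι F V) (B : LinearMap.BilinForm F V) (hB : B.IsAlt) (c : ι → F) : ∃! Q : QuadraticForm F V, QuadraticMap.polarBilin Q = B ∧ ∀ i, Q (b i) = c i := by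
  classical
  letI : LinearOrder ι := LinearOrder.lift' (Fintype.equivFin ι) (Fintype.equivFin ι).injective
  let A : LinearMap.BilinForm F V := Matrix.toBilin b (Matrix.of fun i j => if i < j then B (b i) (b j) else if i = j then c i else 0)
  have hA : ∀ i j, A (b i) (b j) = if i < j then B (b i) (b j) else if i = j then c i else 0 := by
    intro i j
    rw [← LinearMap.BilinForm.toMatrix_apply b A i j]
    show (LinearMap.BilinForm.toMatrix b (Matrix.toBilin b _)) i j = _
    rw [LinearMap.BilinForm.toMatrix_toBilin]
    rfl
  have hneg : ∀ x : F, -x = x := by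
    intro x
    have h11 : (1 : F) + 1 = 0 := by
      have := CharP.cast_eq_zero F 2
      push_cast at this
      linear_combination this
    linear_combination (-x) * h11
  have hsymm : ∀ u v, B u v = B v u := by
    intro u v
    have := hB.neg_eq u v
    rw [← this, hneg]
  refine ⟨LinearMap.BilinMap.toQuadraticMap A, ⟨?_, ?_⟩, ?_⟩
  · apply LinearMap.BilinForm.ext_basis b
    intro i j
    rw [QuadraticMap.polarBilin_apply_apply, LinearMap.BilinMap.polar_toQuadraticMap, hA, hA]
    rcases lt_trichotomy i j with h | h | h
    · rw [if_pos h, if_neg (not_lt.2 h.le), if_neg h.ne', add_zero]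
    · subst h
      rw [if_neg (lt_irrefl _), if_pos rfl, hB.self_eq_zero]
      have := hneg (c i)
      linear_combination -this
    · rw [if_neg (not_lt.2 h.le), if_neg h.ne', if_pos h, zero_add, hsymm]
  · intro i
    rw [LinearMap.BilinMap.toQuadraticMap_apply, hA, if_neg (lt_irrefl _), if_pos rfl]
  · rintro Q ⟨hQ1, hQ2⟩
    set Q0 := LinearMap.BilinMap.toQuadraticMap A with hQ0
    have hpol0 : QuadraticMap.polarBilin Q0 = B := by
      apply LinearMap.BilinForm.ext_basis b
      intro i j
      rw [QuadraticMap.polarBilin_apply_apply, LinearMap.BilinMap.polar_toQuadraticMap, hA, hA]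
      rcases lt_trichotomy i j with h | h | h
      · rw [if_pos h, if_neg (not_lt.2 h.le), if_neg h.ne', add_zero]
      · subst h
        rw [if_neg (lt_irrefl _), if_pos rfl, hB.self_eq_zero]
        have := hneg (c i)
        linear_combination -this
      · rw [if_neg (not_lt.2 h.le), if_neg h.ne', if_pos h, zero_add, hsymm]
    have hval0 : ∀ i, Q0 (b i) = c i := by
      intro i
      rw [hQ0, LinearMap.BilinMap.toQuadraticMap_apply, hA, if_neg (lt_irrefl _), if_pos rfl]
    have haddQ : ∀ u v, Q (u + v) = Q u + Q v + B u v := by
      intro u v
      have : QuadraticMap.polar Q u v = B u v := by rw [← QuadraticMap.polarBilin_apply_apply, hQ1]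
      simp only [QuadraticMap.polar] at this
      linear_combination this
    have haddQ0 : ∀ u v, Q0 (u + v) = Q0 u + Q0 v + B u v := by
      intro u v
      have : QuadraticMap.polar Q0 u v = B u v := by rw [← QuadraticMap.polarBilin_apply_apply, hpol0]
      simp only [QuadraticMap.polar] at this
      linear_combination this
    let W : Submodule F V :=
      { carrier := {u | Q u = Q0 u}
        add_mem' := by
          intro u v hu hv
          show Q (u + v) = Q0 (u + v)
          rw [haddQ, haddQ0, show Q u = Q0 u from hu, show Q v = Q0 v from hv]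
        zero_mem' := by
          show Q 0 = Q0 0
          rw [QuadraticMap.map_zero, QuadraticMap.map_zero]
        smul_mem' := by
          intro a u hu
          show Q (a • u) = Q0 (a • u)
          rw [QuadraticMap.map_smul, QuadraticMap.map_smul, show Q u = Q0 u from hu] }
    have hW : W = ⊤ := by
      rw [eq_top_iff, ← b.span_eq, Submodule.span_le]
      rintro _ ⟨i, rfl⟩
      show Q (b i) = Q0 (b i)
      rw [hQ2, hval0]
    ext v
    have : v ∈ W := by rw [hW]; trivial
    exact this

end Cfsg.Agent.S2619
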