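import Cfsg.Statements.S2620
import Mathlib
import Cfsg.Agent.H8.Disc

set_option autoImplicit false
open Cfsg

namespace Cfsg.Agent.S2620



/-- Discriminant of the hyperbolic quadratic form Σ_(i<m) x_i y_i over a field with q elements, q odd, m ≥ 1: the determinant of the Gram matrix of its polar form in any basis is a square if and only if m(q − 1)/2 is even (equivalently q^m ≡ 1 (mod 4)). -/
theorem result {F : Type*} [Field F] [Fintype F] {q : ℕ} (hF : Fintype.card F = q) (hq : Odd q) {m : ℕ} (hm : 1 ≤ m) {ι : Type*} [Fintype ι] [DecidableEq ι] (b : Module.Basis ι F (Fin m ⊕ Fin m → F)) : IsSquare (Matrix.of (fun i j : ι => QuadraticMap.polar (Cfsg.quadFormPlus m F) (b i) (b j))).det ↔ Even (m * (q - 1) / 2) := by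
  classical
  rw [Cfsg.Agent.H8.disc_square_iff hF hq b (QuadraticMap.polar (Cfsg.quadFormPlus m F))
    (Matrix.fromBlocks 0 1 1 0) ?_ ((-1) ^ m) ?_]
  · exact Cfsg.Agent.H8.neg_one_pow_square_iff hF hq m
  · intro u v
    simp only [QuadraticMap.polar, Cfsg.quadFormPlus, Matrix.fromBlocks, Matrix.mulVec, dotProduct, Fintype.sum_sum_type,
      Matrix.of_apply, Sum.elim_inl, Sum.elim_inr, Matrix.zero_apply, Matrix.one_apply, zero_mul, Finset.sum_const_zero, zero_add,
      ite_mul, one_mul, Finset.sum_ite_eq, Finset.mem_univ, if_true, add_zero, Pi.add_apply]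
    rw [← Finset.sum_sub_distrib, ← Finset.sum_sub_distrib, ← Finset.sum_add_distrib]
    apply Finset.sum_congr rfl
    intro i _
    ring
  · rw [Cfsg.Agent.H8.det_swap_blocks]

end Cfsg.Agent.S2620
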