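import Cfsg.Statements.S2621
import Mathlib
import Cfsg.Agent.H8.Disc

set_option autoImplicit false
open Cfsg

namespace Cfsg.Agent.S2621



/-- Discriminant of an elliptic quadratic form Σ_(i<m−1) x_i y_i + z₁² + a z₁z₂ + c z₂² (binary part anisotropic) in dimension 2m over a field with q elements, q odd, m ≥ 1: the determinant of the Gram matrix of its polar form in any basis is a square if and only if m(q − 1)/2 is odd (equivalently q^m ≡ 3 (mod 4)). -/
theorem result {F : Type*} [Field F] [Fintype F] {q : ℕ} (hF : Fintype.card F = q) (hq : Odd q) {m : ℕ} (hm : 1 ≤ m) (a c : F) (hac : ∀ z₁ z₂ : F, z₁ ^ 2 + a * z₁ * z₂ + c * z₂ ^ 2 = 0 → z₁ = 0 ∧ z₂ = 0) {ι : Type*} [Fintype ι] [DecidableEq ι] (b : Module.Basis ι F ((Fin (m - 1) ⊕ Fin (m - 1)) ⊕ Fin 2 → F)) : IsSquare (Matrix.of (fun i j : ι => QuadraticMap.polar (Cfsg.quadFormMinus (m - 1) F a c) (b i) (b j))).det ↔ ¬ Even (m * (q - 1) / 2) := by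
  classical
  obtain ⟨k, rfl⟩ : ∃ k, m = k + 1 := ⟨m - 1, by omega⟩
  change Module.Basis ι F ((Fin k ⊕ Fin k) ⊕ Fin 2 → F) at b
  change IsSquare (Matrix.of (fun i j : ι => QuadraticMap.polar (Cfsg.quadFormMinus k F a c) (b i) (b j))).det ↔ _
  have h2F : (2 : F) ≠ 0 := by
    intro h0
    have h2 : ringChar F = 2 := by
      have h3 : (ringChar F) ∣ 2 := ringChar.dvd (by exact_mod_cast h0)
      rcases (Nat.dvd_prime Nat.prime_two).1 h3 with h | h
      · exact absurd h (CharP.ringChar_ne_one)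
      · exact h
    have h3 := FiniteField.even_card_of_char_two h2
    rw [hF] at h3
    obtain ⟨a, ha⟩ := hq; omega
  have hns : ¬ IsSquare (a ^ 2 - 4 * c) := by
    rintro ⟨r, hr⟩
    have := hac ((r - a) / 2) 1 (by field_simp; linear_combination -hr)
    exact one_ne_zero this.2
  rw [Cfsg.Agent.H8.disc_square_iff hF hq b (QuadraticMap.polar (Cfsg.quadFormMinus k F a c))
    (Matrix.fromBlocks (Matrix.fromBlocks 0 1 1 0) 0 0 !![2, a; a, 2 * c]) ?_ ((-1) ^ (k + 1) * (a ^ 2 - 4 * c)) ?_]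
  · rw [Cfsg.Agent.H8.not_isSquare_mul (pow_ne_zero _ (neg_ne_zero.2 one_ne_zero)) hns,
      Cfsg.Agent.H8.neg_one_pow_square_iff hF hq]
  · intro u v
    simp only [QuadraticMap.polar, Cfsg.quadFormMinus, Matrix.fromBlocks, Matrix.mulVec, dotProduct, Fintype.sum_sum_type,
      Matrix.of_apply, Sum.elim_inl, Sum.elim_inr, Matrix.zero_apply, Matrix.one_apply, zero_mul, Finset.sum_const_zero, zero_add,
      ite_mul, one_mul, Finset.sum_ite_eq, Finset.mem_univ, if_true, add_zero, Pi.add_apply]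
    have h1 : ∑ x : Fin k, (u (Sum.inl (Sum.inl x)) + v (Sum.inl (Sum.inl x))) * (u (Sum.inl (Sum.inr x)) + v (Sum.inl (Sum.inr x))) =
        (∑ x, u (Sum.inl (Sum.inl x)) * u (Sum.inl (Sum.inr x))) + (∑ x, v (Sum.inl (Sum.inl x)) * v (Sum.inl (Sum.inr x))) +
        (∑ x, u (Sum.inl (Sum.inl x)) * v (Sum.inl (Sum.inr x))) + (∑ x, u (Sum.inl (Sum.inr x)) * v (Sum.inl (Sum.inl x))) := by
      rw [← Finset.sum_add_distrib, ← Finset.sum_add_distrib, ← Finset.sum_add_distrib]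
      apply Finset.sum_congr rfl
      intro i _
      ring
    rw [h1]
    simp [Fin.sum_univ_two]
    ring
  · rw [Matrix.det_fromBlocks_zero₁₂, Cfsg.Agent.H8.det_swap_blocks, Matrix.det_fin_two]
    simp
    ring

end Cfsg.Agent.S2621
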