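import Cfsg.Statements.S2622
import Mathlib
open Module

set_option autoImplicit false
open Cfsg

namespace Cfsg.Agent.S2622

section
variable {F V : Type*} [Field F] [AddCommGroup V] [Module F V] [FiniteDimensional F V]

theorem cutv {B : V →ₗ[F] V →ₗ[F] F} (hS : ∀ x y, B x y = B y x) {W : Submodule F V} (hW : ∀ x ∈ W, (∀ y ∈ W, B x y = 0) → x = 0) {v : V} (hv : v ∈ W)
    (hvv : B v v = 1) : (∀ x ∈ W ⊓ LinearMap.ker (B v), (∀ y ∈ W ⊓ LinearMap.ker (B v), B x y = 0) → x = 0) ∧
      finrank F (W ⊓ LinearMap.ker (B v) : Submodule F V) + 1 = finrank F W := by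
  have hdec : ∀ x ∈ W, x - B v x • v ∈ (W ⊓ LinearMap.ker (B v) : Submodule F V) := by
    intro x hx
    refine ⟨W.sub_mem hx (W.smul_mem _ hv), ?_⟩
    show B v (x - B v x • v) = 0
    rw [map_sub, map_smul, hvv, smul_eq_mul, mul_one, sub_self]
  constructor
  · intro x hx hy
    refine hW x hx.1 (fun y hy' => ?_)
    have h1 := hy _ (hdec y hy')
    have h2 : B v x = 0 := hx.2
    rw [map_sub, map_smul, hS x v, h2, smul_zero, sub_zero] at h1
    exact h1
  · have h1 := Submodule.finrank_sup_add_finrank_inf_eq (Submodule.span F {v}) (W ⊓ LinearMap.ker (B v))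
    have h2 : Submodule.span F {v} ⊔ (W ⊓ LinearMap.ker (B v)) = W := by
      apply le_antisymm
      · refine sup_le ?_ inf_le_left
        rw [Submodule.span_singleton_le_iff_mem]
        exact hv
      · intro x hx
        have : x = B v x • v + (x - B v x • v) := by abel
        rw [this]
        exact Submodule.add_mem_sup (Submodule.smul_mem _ _ (Submodule.mem_span_singleton_self v)) (hdec x hx)
    have h3 : Submodule.span F {v} ⊓ (W ⊓ LinearMap.ker (B v)) = ⊥ := by
      rw [eq_bot_iff]
      rintro x ⟨hx1, -, hx2⟩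
      obtain ⟨s, rfl⟩ := Submodule.mem_span_singleton.1 hx1
      have h4 : B v (s • v) = 0 := hx2
      rw [map_smul, hvv, smul_eq_mul, mul_one] at h4
      rw [h4, zero_smul]; exact zero_mem _
    have hv0 : v ≠ 0 := by
      rintro rfl
      rw [map_zero] at hvv
      exact zero_ne_one hvv
    rw [h2, h3, finrank_bot, finrank_span_singleton hv0] at h1
    omega

theorem onb [Finite F] [CharP F 2] {B : V →ₗ[F] V →ₗ[F] F} (hS : ∀ x y, B x y = B y x) (d : ℕ) : ∀ W : Submodule F V, finrank F W = d →
    (∀ x ∈ W, (∀ y ∈ W, B x y = 0) → x = 0) → (d = 0 ∨ ∃ w ∈ W, B w w ≠ 0) →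
    ∃ b : Fin d → V, (∀ i, b i ∈ W) ∧ ∀ i j, B (b i) (b j) = if i = j then 1 else 0 := by
  have hr : ringChar F = 2 := ringChar.eq F 2
  induction d with
  | zero =>
    intro W _ _ _
    exact ⟨Fin.elim0, fun i => i.elim0, fun i => i.elim0⟩
  | succ d ih =>
    intro W hd hW hna
    obtain ⟨w, hw, hww⟩ := hna.resolve_left (by omega)
    have fin : ∀ v ∈ W, B v v = 1 → (d = 0 ∨ ∃ x ∈ W ⊓ LinearMap.ker (B v), B x x ≠ 0) →
        ∃ b : Fin (d + 1) → V, (∀ i, b i ∈ W) ∧ ∀ i j, B (b i) (b j) = if i = j then 1 else 0 := by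
      intro v hv hvv hna'
      obtain ⟨h1, h2⟩ := cutv hS hW hv hvv
      obtain ⟨b, hb, hbb⟩ := ih _ (by omega) h1 hna'
      refine ⟨Fin.cons v b, ?_, ?_⟩
      · intro i
        refine Fin.cases ?_ (fun i => ?_) i
        · rw [Fin.cons_zero]; exact hv
        · rw [Fin.cons_succ]; exact (hb i).1
      · intro i j
        refine Fin.cases ?_ (fun i => ?_) i <;> refine Fin.cases ?_ (fun j => ?_) j
        · rw [Fin.cons_zero, if_pos rfl]; exact hvv
        · rw [Fin.cons_zero, Fin.cons_succ, if_neg (Fin.succ_ne_zero j).symm]; exact (hb j).2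
        · rw [Fin.cons_zero, Fin.cons_succ, if_neg (Fin.succ_ne_zero i), hS]; exact (hb i).2
        · rw [Fin.cons_succ, Fin.cons_succ, hbb]
          simp only [Fin.succ_inj]
    obtain ⟨s, hs⟩ := FiniteField.isSquare_of_char_two hr (B w w)⁻¹
    obtain ⟨v, hvdef⟩ : ∃ v, v = s • w := ⟨_, rfl⟩
    have hv : v ∈ W := by rw [hvdef]; exact W.smul_mem _ hw
    have hvv : B v v = 1 := by
      rw [hvdef]
      simp only [map_smul, LinearMap.smul_apply, smul_eq_mul]
      rw [← mul_assoc, ← hs, inv_mul_cancel₀ hww]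
    by_cases hc : d = 0 ∨ ∃ x ∈ W ⊓ LinearMap.ker (B v), B x x ≠ 0
    · exact fin v hv hvv hc
    · push Not at hc
      obtain ⟨hd0, halt⟩ := hc
      obtain ⟨h1, h2⟩ := cutv hS hW hv hvv
      obtain ⟨e, he, he0⟩ : ∃ e ∈ (W ⊓ LinearMap.ker (B v) : Submodule F V), e ≠ 0 := by
        by_contra hcon
        push Not at hcon
        have : (W ⊓ LinearMap.ker (B v) : Submodule F V) = ⊥ := (Submodule.eq_bot_iff _).2 hcon
        rw [this, finrank_bot] at h2
        omega
      obtain ⟨f', hf', hef'⟩ : ∃ f ∈ (W ⊓ LinearMap.ker (B v) : Submodule F V), B e f ≠ 0 := by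
        by_contra hcon
        push Not at hcon
        exact he0 (h1 e he hcon)
      obtain ⟨f, hfdef⟩ : ∃ f, f = (B e f')⁻¹ • f' := ⟨_, rfl⟩
      have hf : f ∈ (W ⊓ LinearMap.ker (B v) : Submodule F V) := by rw [hfdef]; exact Submodule.smul_mem _ _ hf'
      have hef : B e f = 1 := by rw [hfdef, map_smul, smul_eq_mul, inv_mul_cancel₀ hef']
      have hee := halt e he
      have hff := halt f hf
      have hve : B v e = 0 := he.2
      have hvf : B v f = 0 := hf.2
      have hev : B e v = 0 := by rw [hS]; exact hve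
      have hfv : B f v = 0 := by rw [hS]; exact hvf
      refine fin (v + e) (W.add_mem hv he.1) ?_ (Or.inr ⟨v + f, ⟨W.add_mem hv hf.1, ?_⟩, ?_⟩)
      · simp only [map_add, LinearMap.add_apply, hvv, hve, hev, hee, add_zero]
      · show B (v + e) (v + f) = 0
        simp only [map_add, LinearMap.add_apply, hvv, hvf, hev, hef, add_zero, zero_add]
        exact CharTwo.add_self_eq_zero _
      · simp only [map_add, LinearMap.add_apply, hvv, hvf, hfv, hff, add_zero]
        exact one_ne_zero
end

/-- Over a finite field of characteristic two, a non-degenerate symmetric bilinear form that is not alternating (some vector v has B(v, v) ≠ 0) admits an orthonormal basis. -/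
theorem result {F V : Type*} [Field F] [Finite F] [CharP F 2] [AddCommGroup V] [Module F V] [FiniteDimensional F V] {n : ℕ} (hV : Module.finrank F V = n) (B : LinearMap.BilinForm F V) (hS : B.IsSymm) (hB : B.Nondegenerate) (hna : ∃ v : V, B v v ≠ 0) : ∃ b : Module.Basis (Fin n) F V, ∀ i j, B (b i) (b j) = if i = j then 1 else 0 := by
  have hS' : ∀ x y, B x y = B y x := fun x y => hS.eq x y
  obtain ⟨w, hw⟩ := hna
  obtain ⟨b, -, hb⟩ := onb (B := B) hS' n ⊤ (by rw [finrank_top]; exact hV) (fun x _ h => hB.1 x (fun y => h y trivial)) (Or.inr ⟨w, trivial, hw⟩)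
  have hli : LinearIndependent F b := by
    rw [Fintype.linearIndependent_iff]
    intro c hc j
    have := congrArg (B (b j)) hc
    simp only [map_sum, map_smul, smul_eq_mul, map_zero] at this
    rw [Finset.sum_eq_single j] at this
    · rw [hb, if_pos rfl, mul_one] at this
      exact this
    · intro i _ hij
      rw [hb, if_neg (Ne.symm hij), mul_zero]
    · intro h; exact absurd (Finset.mem_univ _) h
  have hn : 0 < n := by
    rw [← hV]
    have : Nontrivial V := ⟨w, 0, by
      rintro rfl
      rw [map_zero] at hw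
      exact hw rfl⟩
    exact Module.finrank_pos
  haveI : Nonempty (Fin n) := ⟨⟨0, hn⟩⟩
  refine ⟨basisOfLinearIndependentOfCardEqFinrank hli (by rw [Fintype.card_fin, hV]), fun i j => ?_⟩
  rw [coe_basisOfLinearIndependentOfCardEqFinrank]
  exact hb i j

end Cfsg.Agent.S2622
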