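import Cfsg.Statements.S2624
import Mathlib
import Cfsg.Agent.H8.QFD

set_option autoImplicit false
open Cfsg

namespace Cfsg.Agent.S2624



/-- For a quadratic form Q on F^n with non-degenerate polar form, F finite and n ≥ 2 even, every non-zero scalar c is the multiplier of some similarity: there is an invertible linear map g with Q(g v) = c·Q(v) for all v. -/
theorem result {F : Type*} [Field F] [Fintype F] {n : ℕ} (hn : 2 ≤ n) (he : Even n) (Q : QuadraticForm F (Fin n → F)) (hQ : (QuadraticMap.polarBilin Q).Nondegenerate) (c : F) (hc : c ≠ 0) : ∃ g : (Fin n → F) ≃ₗ[F] (Fin n → F), ∀ v, Q (g v) = c * Q v := by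
  by_cases h2 : (2 : F) = 0
  · have hr : ringChar F = 2 := CharP.ringChar_of_prime_eq_zero Nat.prime_two (by exact_mod_cast h2)
    obtain ⟨s, hs⟩ := FiniteField.isSquare_of_char_two hr c
    have hs0 : s ≠ 0 := by
      rintro rfl
      rw [mul_zero] at hs
      exact hc hs
    refine ⟨LinearEquiv.smulOfNeZero F (Fin n → F) s hs0, fun v => ?_⟩
    rw [LinearEquiv.smulOfNeZero_apply, QuadraticMap.map_smul, ← hs, smul_eq_mul]
  · have hpol : ∀ x y, QuadraticMap.polarBilin (c • Q) x y = c * QuadraticMap.polarBilin Q x y := by
      intro x y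
      show QuadraticMap.polar ⇑(c • Q) x y = c * QuadraticMap.polar ⇑Q x y
      simp only [QuadraticMap.polar, QuadraticMap.smul_apply, smul_eq_mul]
      ring
    have hnd : (QuadraticMap.polarBilin (c • Q)).Nondegenerate := by
      constructor
      · intro x hx
        apply hQ.1
        intro y
        have := hx y
        rw [hpol] at this
        exact (mul_eq_zero.1 this).resolve_left hc
      · intro x hx
        apply hQ.2
        intro y
        have := hx y
        rw [hpol] at this
        exact (mul_eq_zero.1 this).resolve_left hc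
    obtain ⟨g, hg⟩ := (Cfsg.Agent.H8.QFD.iff_sq h2 (c • Q) Q hnd hQ).2 (by
      have h3 : (Matrix.of (fun i j : Fin n => QuadraticMap.polar ⇑(c • Q) (Pi.single i 1) (Pi.single j 1))) =
          c • Matrix.of (fun i j : Fin n => QuadraticMap.polar ⇑Q (Pi.single i 1) (Pi.single j 1)) := by
        ext i j
        exact hpol _ _
      obtain ⟨k, hk⟩ := he
      rw [h3, Matrix.det_smul, Fintype.card_fin]
      refine ⟨c ^ k * (Matrix.of (fun i j : Fin n => QuadraticMap.polar ⇑Q (Pi.single i 1) (Pi.single j 1))).det, ?_⟩
      nth_rewrite 1 [hk]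
      rw [pow_add]
      ring)
    exact ⟨g, fun v => by rw [hg]; rfl⟩

end Cfsg.Agent.S2624
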