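import Cfsg.Statements.S2625
import Mathlib

set_option autoImplicit false
open Cfsg

namespace Cfsg.Agent.S2625



/-- For a quadratic form Q on F^n with non-degenerate polar form, F finite and n odd (so |F| is odd), the multiplier of any similarity is a square: if g is an invertible linear map with Q(g v) = c·Q(v) for all v then c is a square. -/
theorem result {F : Type*} [Field F] [Fintype F] {n : ℕ} (hn : Odd n) (Q : QuadraticForm F (Fin n → F)) (hQ : (QuadraticMap.polarBilin Q).Nondegenerate) (g : (Fin n → F) ≃ₗ[F] (Fin n → F)) (c : F) (hg : ∀ v, Q (g v) = c * Q v) : IsSquare c := by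
  classical
  by_cases hc : c = 0
  · subst hc; exact IsSquare.zero
  have hpol : ∀ u v, QuadraticMap.polarBilin Q (g u) (g v) = c * QuadraticMap.polarBilin Q u v := by
    intro u v
    simp only [QuadraticMap.polarBilin_apply_apply, QuadraticMap.polar, ← map_add, hg]
    ring
  set B := QuadraticMap.polarBilin Q with hB
  let b := Pi.basisFun F (Fin n)
  set M : Matrix (Fin n) (Fin n) F := LinearMap.BilinForm.toMatrix b B with hM
  set P : Matrix (Fin n) (Fin n) F := LinearMap.toMatrix b b (g : (Fin n → F) →ₗ[F] (Fin n → F)) with hP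
  have h1 : P.transpose * M * P = c • M := by
    rw [hM, hP, ← LinearMap.BilinForm.toMatrix_comp]
    rw [← map_smul]
    congr 1
    apply LinearMap.ext₂
    intro u v
    exact hpol u v
  have h2 := congrArg Matrix.det h1
  rw [Matrix.det_mul, Matrix.det_mul, Matrix.det_transpose, Matrix.det_smul, Fintype.card_fin] at h2
  have hM0 : M.det ≠ 0 := by
    exact (LinearMap.BilinForm.nondegenerate_iff_det_ne_zero b).1 hQ
  have h3 : c ^ n = P.det * P.det := by
    have := mul_right_cancel₀ hM0 (by linear_combination h2 : P.det * P.det * M.det = c ^ n * M.det)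
    exact this.symm
  obtain ⟨k, hk⟩ := hn
  refine ⟨P.det / c ^ k, ?_⟩
  have hck : c ^ k ≠ 0 := pow_ne_zero _ hc
  have h4 : P.det * P.det = c ^ k * c ^ k * c := by
    rw [← h3, hk]; ring
  field_simp
  rw [pow_two, pow_two, h4]; ring

end Cfsg.Agent.S2625
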