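import Cfsg.Statements.S2626
import Mathlib

set_option autoImplicit false
open Cfsg

namespace Cfsg.Agent.S2626



/-- Ω of an orthogonal direct sum contains the product of the Ω's: for quadratic forms Q₁ on F^k and Q₂ on F^l with non-degenerate polar forms (F finite) and Q = Q₁ ⊕ Q₂ on F^(k+l), if g₁ lies in Ω(Q₁) and g₂ in Ω(Q₂) (commutator subgroups of the orthogonal groups) then the block-diagonal isometry diag(g₁, g₂) lies in Ω(Q). -/
theorem result {F : Type*} [Field F] [Fintype F] {k l : ℕ} (Q₁ : QuadraticForm F (Fin k → F)) (Q₂ : QuadraticForm F (Fin l → F)) (h₁ : (QuadraticMap.polarBilin Q₁).Nondegenerate) (h₂ : (QuadraticMap.polarBilin Q₂).Nondegenerate) (g₁ : ↥(Cfsg.isometryGroup F ⇑Q₁)) (g₂ : ↥(Cfsg.isometryGroup F ⇑Q₂)) (hg₁ : g₁ ∈ Cfsg.Omega F ⇑Q₁) (hg₂ : g₂ ∈ Cfsg.Omega F ⇑Q₂) : ∃ g : ↥(Cfsg.isometryGroup F (fun v : Fin k ⊕ Fin l → F => Q₁ (v ∘ Sum.inl) + Q₂ (v ∘ Sum.inr))), g ∈ Cfsg.Omega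 F (fun v : Fin k ⊕ Fin l → F => Q₁ (v ∘ Sum.inl) + Q₂ (v ∘ Sum.inr)) ∧ ((g : Matrix.GeneralLinearGroup (Fin k ⊕ Fin l) F) : Matrix (Fin k ⊕ Fin l) (Fin k ⊕ Fin l) F) = Matrix.fromBlocks ((g₁ : Matrix.GeneralLinearGroup (Fin k) F) : Matrix (Fin k) (Fin k) F) 0 0 ((g₂ : Matrix.GeneralLinearGroup (Fin l) F) : Matrix (Fin l) (Fin l) F) := by
  classical
  set Q : (Fin k ⊕ Fin l → F) → F := fun v => Q₁ (v ∘ Sum.inl) + Q₂ (v ∘ Sum.inr) with hQ
  let φ : Matrix.GeneralLinearGroup (Fin k) F × Matrix.GeneralLinearGroup (Fin l) F →* Matrix.GeneralLinearGroup (Fin k ⊕ Fin l) F :=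
    { toFun := fun p => ⟨Matrix.fromBlocks (p.1 : Matrix (Fin k) (Fin k) F) 0 0 (p.2 : Matrix (Fin l) (Fin l) F),
        Matrix.fromBlocks ((p.1⁻¹ : Matrix.GeneralLinearGroup (Fin k) F) : Matrix (Fin k) (Fin k) F) 0 0 ((p.2⁻¹ : Matrix.GeneralLinearGroup (Fin l) F) : Matrix (Fin l) (Fin l) F), by
          rw [Matrix.fromBlocks_multiply]
          simp only [Matrix.zero_mul, Matrix.mul_zero, add_zero, zero_add, ← Units.val_mul, mul_inv_cancel, Units.val_one, Matrix.fromBlocks_one], by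
          rw [Matrix.fromBlocks_multiply]
          simp only [Matrix.zero_mul, Matrix.mul_zero, add_zero, zero_add, ← Units.val_mul, inv_mul_cancel, Units.val_one, Matrix.fromBlocks_one]⟩
      map_one' := by
        apply Units.ext
        simp only [Prod.fst_one, Prod.snd_one, Units.val_one, Matrix.fromBlocks_one]
      map_mul' := by
        intro a b
        apply Units.ext
        simp only [Prod.fst_mul, Prod.snd_mul, Units.val_mul, Matrix.fromBlocks_multiply, Matrix.zero_mul, Matrix.mul_zero, add_zero, zero_add] }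
  have hφ : ∀ p, ((φ p : Matrix.GeneralLinearGroup (Fin k ⊕ Fin l) F) : Matrix (Fin k ⊕ Fin l) (Fin k ⊕ Fin l) F) =
      Matrix.fromBlocks (p.1 : Matrix (Fin k) (Fin k) F) 0 0 (p.2 : Matrix (Fin l) (Fin l) F) := fun p => rfl
  have hmem : ∀ (a : ↥(Cfsg.isometryGroup F ⇑Q₁)) (b : ↥(Cfsg.isometryGroup F ⇑Q₂)), φ (a, b) ∈ Cfsg.isometryGroup F Q := by
    intro a b u v
    show Q (Matrix.mulVec _ u) = Q u
    have h1 := a.2 (u ∘ Sum.inl) (u ∘ Sum.inl)
    have h2 := b.2 (u ∘ Sum.inr) (u ∘ Sum.inr)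
    simp only [hQ]
    have e : (Matrix.mulVec (Units.coeHom _ (φ (a, b))) u) = Sum.elim (Matrix.mulVec ((a : Matrix.GeneralLinearGroup (Fin k) F) : Matrix (Fin k) (Fin k) F) (u ∘ Sum.inl)) (Matrix.mulVec ((b : Matrix.GeneralLinearGroup (Fin l) F) : Matrix (Fin l) (Fin l) F) (u ∘ Sum.inr)) := by
      show Matrix.mulVec (Matrix.fromBlocks _ 0 0 _) u = _
      rw [Matrix.fromBlocks_mulVec]
      simp
    rw [e, Sum.elim_comp_inl, Sum.elim_comp_inr]
    exact congrArg₂ (· + ·) h1 h2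
  let ψ : ↥(Cfsg.isometryGroup F ⇑Q₁) × ↥(Cfsg.isometryGroup F ⇑Q₂) →* ↥(Cfsg.isometryGroup F Q) :=
    { toFun := fun p => ⟨φ (p.1, p.2), hmem p.1 p.2⟩
      map_one' := by apply Subtype.ext; exact map_one φ
      map_mul' := by intro a b; apply Subtype.ext; exact map_mul φ ((a.1 : Matrix.GeneralLinearGroup (Fin k) F), (a.2 : Matrix.GeneralLinearGroup (Fin l) F)) ((b.1 : Matrix.GeneralLinearGroup (Fin k) F), (b.2 : Matrix.GeneralLinearGroup (Fin l) F)) }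
  let i1 : ↥(Cfsg.isometryGroup F ⇑Q₁) →* ↥(Cfsg.isometryGroup F Q) := ψ.comp (MonoidHom.inl _ _)
  let i2 : ↥(Cfsg.isometryGroup F ⇑Q₂) →* ↥(Cfsg.isometryGroup F Q) := ψ.comp (MonoidHom.inr _ _)
  have hcomm : ∀ {A B : Type _} [Group A] [Group B] (f : A →* B) (a : A), a ∈ commutator A → f a ∈ commutator B := by
    intro A B _ _ f a ha
    have h1 : f a ∈ (commutator A).map f := Subgroup.mem_map_of_mem f ha
    rw [commutator_def, Subgroup.map_commutator] at h1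
    rw [commutator_def]
    exact Subgroup.commutator_mono le_top le_top h1
  refine ⟨i1 g₁ * i2 g₂, Subgroup.mul_mem _ (hcomm i1 _ hg₁) (hcomm i2 _ hg₂), ?_⟩
  have : i1 g₁ * i2 g₂ = ψ (g₁, g₂) := by
    show ψ (g₁, 1) * ψ (1, g₂) = ψ (g₁, g₂)
    rw [← map_mul]; simp
  rw [this]
  rfl

end Cfsg.Agent.S2626
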