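import Cfsg.Statements.S2636
import Mathlib

set_option autoImplicit false
open Cfsg

namespace Cfsg.Agent.S2636

section
open Matrix
variable {F : Type*} [Field F] [Finite F] {n : ℕ}

def sc (F : Type*) [Field F] (n : ℕ) : Fˣ →* GL (Fin n) F := Units.map (Matrix.scalar (Fin n) : F →+* Matrix (Fin n) (Fin n) F).toMonoidHom

theorem sc_val (d : Fˣ) : ((sc F n d : GL (Fin n) F) : Matrix (Fin n) (Fin n) F) = (d : F) • (1 : Matrix (Fin n) (Fin n) F) := by
  show Matrix.scalar (Fin n) (d : F) = _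
  ext i j
  simp [Matrix.scalar_apply, Matrix.diagonal_apply, Matrix.one_apply]

def Phi (F0 : Subfield F) (n : ℕ) : Fˣ × GL (Fin n) F0 →* GL (Fin n) F :=
  MonoidHom.mk' (fun x => sc F n x.1 * Matrix.GeneralLinearGroup.map F0.subtype x.2) (fun x y => by
    show sc F n (x.1 * y.1) * Matrix.GeneralLinearGroup.map F0.subtype (x.2 * y.2) = _
    rw [map_mul, map_mul]
    have : ∀ (d : Fˣ) (g : GL (Fin n) F), sc F n d * g = g * sc F n d := by
      intro d g
      apply Units.ext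
      rw [Units.val_mul, Units.val_mul, sc_val, smul_mul_assoc, mul_smul_comm, one_mul, mul_one]
    rw [mul_assoc, mul_assoc, ← mul_assoc (sc F n y.1), this y.1, mul_assoc])

theorem Phi_val (F0 : Subfield F) (x : Fˣ × GL (Fin n) F0) :
    ((Phi F0 n x : GL (Fin n) F) : Matrix (Fin n) (Fin n) F) = (x.1 : F) • (x.2 : Matrix (Fin n) (Fin n) F0).map (fun a => (a : F)) := by
  show ((sc F n x.1 : GL (Fin n) F) : Matrix (Fin n) (Fin n) F) * ((Matrix.GeneralLinearGroup.map F0.subtype x.2 : GL (Fin n) F) : Matrix (Fin n) (Fin n) F) = _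
  rw [sc_val, smul_mul_assoc, one_mul]
  rfl

theorem card_ker (F0 : Subfield F) (hn : 1 ≤ n) : Nat.card (Phi F0 n).ker = Nat.card F0ˣ := by
  symm
  have key : ∀ u : F0ˣ, ((Units.map F0.subtype.toMonoidHom u, sc F0 n u⁻¹) : Fˣ × GL (Fin n) F0) ∈ (Phi F0 n).ker := by
    intro u
    rw [MonoidHom.mem_ker]
    apply Units.ext
    rw [Phi_val]
    show ((u : F0) : F) • ((sc F0 n u⁻¹ : GL (Fin n) F0) : Matrix (Fin n) (Fin n) F0).map (fun a => (a : F)) = 1
    rw [sc_val]
    ext i j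
    simp only [Matrix.smul_apply, Matrix.map_apply, Matrix.one_apply, smul_eq_mul]
    split_ifs
    · rw [mul_one, ← Subfield.coe_mul, Units.mul_inv]; rfl
    · rw [mul_zero]
      show ((u : F0) : F) * 0 = 0
      rw [mul_zero]
  refine Nat.card_congr (Equiv.ofBijective (fun u : F0ˣ => (⟨_, key u⟩ : (Phi F0 n).ker)) ⟨?_, ?_⟩)
  · intro u v h
    have h1 : Units.map F0.subtype.toMonoidHom u = Units.map F0.subtype.toMonoidHom v := congrArg (fun t => t.1.1) h
    have h2 : ((u : F0) : F) = ((v : F0) : F) := congrArg Units.val h1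
    exact Units.ext (Subtype.ext h2)
  · rintro ⟨⟨d, h⟩, hk⟩
    rw [MonoidHom.mem_ker] at hk
    have h1 : (d : F) • (h : Matrix (Fin n) (Fin n) F0).map (fun a => (a : F)) = 1 := by
      rw [← Phi_val F0 (d, h), hk]; rfl
    have h2 : ∀ i j, (d : F) * ((h : Matrix (Fin n) (Fin n) F0) i j : F) = (1 : Matrix (Fin n) (Fin n) F) i j := fun i j => congrFun (congrFun h1 i) j
    obtain ⟨i0⟩ : Nonempty (Fin n) := ⟨⟨0, hn⟩⟩
    have h3 := h2 i0 i0
    rw [Matrix.one_apply_eq] at h3
    have h4 : (h : Matrix (Fin n) (Fin n) F0) i0 i0 ≠ 0 := by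
      intro h5
      rw [h5] at h3
      simp at h3
    have h5 : (((h : Matrix (Fin n) (Fin n) F0) i0 i0 : F0) : F) = (d : F)⁻¹ := by
      exact eq_inv_of_mul_eq_one_right h3
    refine ⟨(Units.mk0 _ h4)⁻¹, ?_⟩
    apply Subtype.ext
    refine Prod.ext ?_ ?_
    · apply Units.ext
      show (((Units.mk0 _ h4)⁻¹ : F0ˣ) : F0).1 = (d : F)
      rw [Units.val_inv_eq_inv_val]
      show ((((h : Matrix (Fin n) (Fin n) F0) i0 i0)⁻¹ : F0) : F) = (d : F)
      rw [Subfield.coe_inv, h5, inv_inv]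
    · apply Units.ext
      show ((sc F0 n ((Units.mk0 _ h4)⁻¹)⁻¹ : GL (Fin n) F0) : Matrix (Fin n) (Fin n) F0) = h
      rw [sc_val, inv_inv]
      ext i j
      show (((h : Matrix (Fin n) (Fin n) F0) i0 i0 * (1 : Matrix (Fin n) (Fin n) F0) i j : F0) : F) = _
      have h6 := h2 i j
      rw [Subfield.coe_mul, h5, inv_mul_eq_iff_eq_mul₀ d.ne_zero, h6, Matrix.one_apply, Matrix.one_apply]
      split_ifs <;> rfl

theorem range_iff (F0 : Subfield F) (σ : F ≃+* F) (hσ : ∀ x, x ∈ F0 ↔ σ x = x) (hn : 1 ≤ n) (g : GL (Fin n) F) :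
    g ∈ (Phi F0 n).range ↔ ∃ c : F, c ≠ 0 ∧ (g : Matrix (Fin n) (Fin n) F).map σ = c • (g : Matrix (Fin n) (Fin n) F) := by
  constructor
  · rintro ⟨⟨d, h⟩, rfl⟩
    refine ⟨σ d * (d : F)⁻¹, mul_ne_zero ((map_ne_zero σ).2 d.ne_zero) (inv_ne_zero d.ne_zero), ?_⟩
    rw [Phi_val]
    ext i j
    show σ ((d : F) * ((h : Matrix (Fin n) (Fin n) F0) i j : F)) = σ d * (d : F)⁻¹ * ((d : F) * ((h : Matrix (Fin n) (Fin n) F0) i j : F))
    rw [map_mul, (hσ _).1 ((h : Matrix (Fin n) (Fin n) F0) i j).2]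
    field_simp
  · rintro ⟨c, hc, hg⟩
    have hg' : ∀ i j, σ (g i j) = c * g i j := fun i j => congrFun (congrFun hg i) j
    obtain ⟨i0, j0, ha⟩ : ∃ i j, g i j ≠ 0 := by
      by_contra hcon
      push Not at hcon
      have h1 : (g : Matrix (Fin n) (Fin n) F) = 0 := by ext i j; exact hcon i j
      haveI : Nonempty (Fin n) := ⟨⟨0, hn⟩⟩
      have h2 : (g : Matrix (Fin n) (Fin n) F).det = 0 := by rw [h1, Matrix.det_zero]
      have h3 : (g : Matrix (Fin n) (Fin n) F).det ≠ 0 := (Matrix.GeneralLinearGroup.det g).ne_zero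
      exact h3 h2
    obtain ⟨a, haa⟩ : ∃ a, a = g i0 j0 := ⟨_, rfl⟩
    rw [← haa] at ha
    have h1 : ∀ i j, a⁻¹ * g i j ∈ F0 := by
      intro i j
      rw [hσ, map_mul, map_inv₀, hg', haa, hg' i0 j0, ← haa]
      field_simp
    let h : Matrix (Fin n) (Fin n) F0 := fun i j => ⟨a⁻¹ * g i j, h1 i j⟩
    have h2 : h.map (fun x => (x : F)) = a⁻¹ • (g : Matrix (Fin n) (Fin n) F) := by
      ext i j; rfl
    have h3 : h.det ≠ 0 := by
      intro h4
      have h5 : (h.map (fun x => (x : F))).det = 0 := by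
        have := RingHom.map_det F0.subtype h
        rw [h4, map_zero] at this
        exact this.symm
      rw [h2, Matrix.det_smul] at h5
      have h6 : (g : Matrix (Fin n) (Fin n) F).det ≠ 0 := (Matrix.GeneralLinearGroup.det g).ne_zero
      exact (mul_ne_zero (pow_ne_zero _ (inv_ne_zero ha)) h6) h5
    refine ⟨(Units.mk0 a ha, Matrix.GeneralLinearGroup.mkOfDetNeZero h h3), ?_⟩
    apply Units.ext
    rw [Phi_val]
    show a • h.map (fun x => (x : F)) = (g : Matrix (Fin n) (Fin n) F)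
    rw [h2, smul_smul, mul_inv_cancel₀ ha, one_smul]
end

theorem fixedF {F : Type*} [Field F] [Finite F] {q₀ r : ℕ} (hr : r.Prime) (hF : Nat.card F = q₀ ^ r) (σ : F ≃+* F) (hσ : orderOf σ = r) :
    ∃ F0 : Subfield F, Nat.card F0 = q₀ ∧ ∀ x, x ∈ F0 ↔ σ x = x := by
  let Z : Subgroup (RingAut F) := Subgroup.zpowers (σ : RingAut F)
  haveI : Finite (RingAut F) := Finite.of_injective (fun f : F ≃+* F => (f : F → F)) DFunLike.coe_injective
  haveI : Fintype Z := Fintype.ofFinite Z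
  refine ⟨FixedPoints.subfield Z F, ?_, ?_⟩
  · have h1 := FixedPoints.finrank_eq_card Z F
    have h2 : Fintype.card Z = r := by
      rw [← Nat.card_eq_fintype_card]
      exact (Nat.card_zpowers _).trans hσ
    have h3 := Module.natCard_eq_pow_finrank (K := FixedPoints.subfield Z F) (V := F)
    rw [h1, h2, hF] at h3
    exact (Nat.pow_left_injective hr.ne_zero h3).symm
  · intro x
    constructor
    · intro h
      exact h ⟨σ, Subgroup.mem_zpowers _⟩
    · intro h
      have h1 : Z ≤ MulAction.stabilizer (RingAut F) x := by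
        rw [Subgroup.zpowers_le]
        exact h
      intro m
      exact h1 m.2

/-- Centraliser of a field automorphism in PGL_n: let F be the field with q = q₀^r elements, σ a field automorphism of F of prime order r (so its fixed field has q₀ elements) and n ≥ 1. The invertible matrices g whose entrywise image under σ is a scalar multiple of g — those whose coset modulo scalars is fixed by σ — number (q − 1)/(q₀ − 1) · |GL_n(q₀)|; equivalently the centraliser in PGL_n(q) of the induced automorphism has the order of PGL_n(q₀). -/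
theorem result {F : Type*} [Field F] [Fintype F] {q₀ r n : ℕ} (hr : r.Prime) (hn : 1 ≤ n) (hF : Fintype.card F = q₀ ^ r) (σ : F ≃+* F) (hσ : orderOf σ = r) : Nat.card {g : GL (Fin n) F // ∃ c : F, c ≠ 0 ∧ (g : Matrix (Fin n) (Fin n) F).map σ = c • (g : Matrix (Fin n) (Fin n) F)} = (q₀ ^ r - 1) / (q₀ - 1) * ∏ i : Fin n, (q₀ ^ n - q₀ ^ (i : ℕ)) := by
  haveI : Finite F := inferInstance
  obtain ⟨F0, h0, hfix⟩ := fixedF hr (by rw [Nat.card_eq_fintype_card, hF]) σ hσ
  have h1 : Nat.card {g : GL (Fin n) F // ∃ c : F, c ≠ 0 ∧ (g : Matrix (Fin n) (Fin n) F).map σ = c • (g : Matrix (Fin n) (Fin n) F)} = Nat.card (Phi F0 n).range :=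
    (Nat.card_congr (Equiv.subtypeEquivRight (fun g => range_iff F0 σ hfix hn g))).symm
  have h2 : Nat.card (Fˣ × GL (Fin n) F0) = Nat.card (Phi F0 n).range * Nat.card F0ˣ := by
    rw [Subgroup.card_eq_card_quotient_mul_card_subgroup (Phi F0 n).ker, card_ker F0 hn, Nat.card_congr (QuotientGroup.quotientKerEquivRange (Phi F0 n)).toEquiv]
  haveI : Fintype F0 := Fintype.ofFinite _
  rw [Nat.card_prod, Nat.card_units, Nat.card_units, Matrix.card_GL_field, ← Nat.card_eq_fintype_card, h0, Nat.card_eq_fintype_card, hF] at h2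
  rw [h1]
  have hq : 1 < q₀ := by rw [← h0]; exact Finite.one_lt_card
  have h3 : (q₀ - 1) ∣ (q₀ ^ r - 1) := by
    simpa using Nat.sub_dvd_pow_sub_pow q₀ 1 r
  obtain ⟨k, hk⟩ := h3
  rw [hk, Nat.mul_div_cancel_left _ (by omega)]
  rw [hk] at h2
  apply Nat.eq_of_mul_eq_mul_right (show 0 < q₀ - 1 by omega)
  rw [← h2]; ring

end Cfsg.Agent.S2636
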