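import Cfsg.Statements.S2638
import Mathlib
import Cfsg.Agent.H8.LinAlg

set_option autoImplicit false
open Cfsg

namespace Cfsg.Agent.S2638

open Polynomial in
/-- an element of prime order `r` with `q` of order `n` mod `r` is annihilated by an irreducible polynomial of degree `n` -/
theorem exists_irr {F : Type*} [Field F] [Fintype F] {p q : ℕ} [Fact p.Prime] [CharP F p] (hF : Fintype.card F = q) {n r : ℕ}
    (hn : 1 ≤ n) (hr : r.Prime) (hrp : r ≠ p) (hi : orderOf (q : ZMod r) = n) (x : GL (Fin n) F) (hx : orderOf x = r) :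
    ∃ μ : F[X], Irreducible μ ∧ μ.natDegree = n ∧ Polynomial.aeval (x : Matrix (Fin n) (Fin n) F) μ = 0 := by
  haveI : NeZero n := ⟨by omega⟩
  set X' := (x : Matrix (Fin n) (Fin n) F) with hX'
  set m := minpoly F X' with hm
  have hint : IsIntegral F X' := Algebra.IsIntegral.isIntegral _
  have hXr : X' ^ r = 1 := by
    rw [hX', ← Units.val_pow_eq_pow_val, ← hx, pow_orderOf_eq_one]; rfl
  have hX1 : X' ≠ 1 := by
    intro h
    have : x = 1 := Units.ext h
    rw [this, orderOf_one] at hx
    exact hr.one_lt.ne hx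
  have hmd : m ∣ X ^ r - 1 := by
    rw [hm, minpoly.dvd_iff]; simp [hXr]
  have hrF : (r : F) ≠ 0 := by
    intro h
    rw [CharP.cast_eq_zero_iff F p] at h
    exact hrp ((Nat.prime_dvd_prime_iff_eq (Fact.out) hr).1 h).symm
  have hsep : (X ^ r - 1 : F[X]).Separable := by
    have := (Polynomial.separable_X_pow_sub_C (1 : F) hrF one_ne_zero)
    simpa using this
  have hsq : Squarefree m := Squarefree.squarefree_of_dvd hmd hsep.squarefree
  -- some irreducible factor f of m, f ∤ X - 1
  obtain ⟨f, hf, hfm, hf1⟩ : ∃ f : F[X], Irreducible f ∧ f ∣ m ∧ ¬ f ∣ X - 1 := by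
    set Φ : F[X] := ∑ i ∈ Finset.range r, X ^ i with hΦ
    have hgeom : (X - 1) * Φ = X ^ r - 1 := mul_geom_sum X r
    have hncop : ¬ IsCoprime m Φ := by
      intro hc
      have h1 : m ∣ X - 1 := hc.dvd_of_dvd_mul_right (hgeom ▸ hmd)
      apply hX1
      have h2 : Polynomial.aeval X' (X - 1 : F[X]) = 0 := by
        rw [← minpoly.dvd_iff]; exact h1
      simpa [sub_eq_zero] using h2
    have hex : ∃ f : F[X], Irreducible f ∧ f ∣ m ∧ f ∣ Φ := by
      by_contra hcon
      push Not at hcon
      apply hncop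
      apply isCoprime_of_irreducible_dvd
      · rintro ⟨h, -⟩; exact minpoly.ne_zero hint h
      · intro z hz hzm; exact hcon z hz hzm
    obtain ⟨f, hf, hfm, hfΦ⟩ := hex
    refine ⟨f, hf, hfm, fun h => ?_⟩
    have h1 : f * f ∣ X ^ r - 1 := by rw [← hgeom]; exact mul_dvd_mul h hfΦ
    exact hf.not_isUnit (hsep.squarefree f h1)
  haveI : Fact (Irreducible f) := ⟨hf⟩
  haveI : FiniteDimensional F (AdjoinRoot f) := (AdjoinRoot.powerBasis hf.ne_zero).finite
  haveI : Finite (AdjoinRoot f) := Module.finite_of_finite F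
  have hcardK := Cfsg.Agent.H8.card_adjoinRoot f hf
  rw [Nat.card_eq_fintype_card (α := F), hF] at hcardK
  set α := AdjoinRoot.root f with hα
  have hα1 : α ^ r = 1 := by
    have h1 : f ∣ X ^ r - 1 := hfm.trans hmd
    have h2 : AdjoinRoot.mk f (X ^ r - 1) = 0 := AdjoinRoot.mk_eq_zero.2 h1
    rw [map_sub, map_pow, AdjoinRoot.mk_X, map_one, sub_eq_zero] at h2
    exact h2
  have hα2 : α ≠ 1 := by
    intro h
    apply hf1
    rw [← AdjoinRoot.mk_eq_zero, map_sub, AdjoinRoot.mk_X, map_one, ← hα, h, sub_self]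
  have hα0 : α ≠ 0 := by
    intro h; rw [h, zero_pow hr.ne_zero] at hα1; exact zero_ne_one hα1
  have hord : orderOf (Units.mk0 α hα0) = r := by
    haveI : Fact r.Prime := ⟨hr⟩
    apply orderOf_eq_prime
    · apply Units.ext; simpa using hα1
    · intro h; apply hα2; have := congrArg Units.val h; simpa using this
  have hrd : r ∣ q ^ f.natDegree - 1 := by
    rw [← hcardK, ← hord]; exact orderOf_dvd_natCard _
  have hq0 : 1 ≤ q := by rw [← hF]; exact Fintype.card_pos
  have hnd : n ∣ f.natDegree := by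
    rw [← hi, orderOf_dvd_iff_pow_eq_one]
    have h1 : ((q ^ f.natDegree - 1 : ℕ) : ZMod r) = 0 := (ZMod.natCast_eq_zero_iff _ _).2 hrd
    rw [Nat.cast_sub (Nat.one_le_pow _ _ hq0)] at h1
    push_cast at h1
    exact sub_eq_zero.1 h1
  have hfd : f.natDegree ≤ m.natDegree := Polynomial.natDegree_le_of_dvd hfm (minpoly.ne_zero hint)
  have hmdn : m.natDegree ≤ n := by
    have h1 : m ∣ X'.charpoly := Matrix.minpoly_dvd_charpoly X'
    have h2 := Polynomial.natDegree_le_of_dvd h1 (Matrix.charpoly_monic X').ne_zero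
    rw [Matrix.charpoly_natDegree_eq_dim, Fintype.card_fin] at h2
    exact h2
  have hfpos : 0 < f.natDegree := hf.natDegree_pos
  have hfn : f.natDegree = n := le_antisymm (hfd.trans hmdn) (Nat.le_of_dvd hfpos hnd)
  have hmn : m.natDegree = n := le_antisymm hmdn (hfn ▸ hfd)
  have hassoc : Associated f m := by
    obtain ⟨g, hg⟩ := hfm
    have hm0 : m ≠ 0 := minpoly.ne_zero hint
    have hg0 : g ≠ 0 := by rintro rfl; exact hm0 (by rw [hg, mul_zero])
    have h1 : m.natDegree = f.natDegree + g.natDegree := by rw [hg, Polynomial.natDegree_mul hf.ne_zero hg0]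
    have h2 : g.natDegree = 0 := by omega
    have h3 : IsUnit g := by
      rw [Polynomial.natDegree_eq_zero] at h2
      obtain ⟨c, hc⟩ := h2
      rw [← hc]
      apply Polynomial.isUnit_C.2
      rw [isUnit_iff_ne_zero]
      rintro rfl
      apply hg0; rw [← hc, C_0]
    exact ⟨h3.unit, hg.symm⟩
  exact ⟨m, hassoc.irreducible hf, hmn, minpoly.aeval F X'⟩

/-- If an element x of GL_n(q), n ≥ 1, has prime order r and the multiplicative order of q modulo r is n (r is a primitive prime divisor of q^n − 1, so x acts irreducibly), then the centraliser of x in GL_n(q) is cyclic of order q^n − 1 (the multiplicative group of the field with q^n elements, a Singer cycle). -/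
theorem result {F : Type*} [Field F] [Fintype F] {p q : ℕ} [Fact p.Prime] [CharP F p] (hF : Fintype.card F = q) {n r : ℕ} (hn : 1 ≤ n) (hr : r.Prime) (hrp : r ≠ p) (hi : orderOf (q : ZMod r) = n) (x : GL (Fin n) F) (hx : orderOf x = r) : IsCyclic ↥(Subgroup.centralizer ({x} : Set (GL (Fin n) F))) ∧ Nat.card ↥(Subgroup.centralizer ({x} : Set (GL (Fin n) F))) = q ^ n - 1 := by
  obtain ⟨μ, hμ, hdeg, hann⟩ := exists_irr hF hn hr hrp hi x hx
  obtain ⟨e⟩ := Cfsg.Agent.H8.irr_centralizer hn x μ hμ hdeg hann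
  haveI := Cfsg.Agent.H8.isCyclic_adjoinRoot μ hμ
  refine ⟨isCyclic_of_surjective e.toMonoidHom e.surjective, ?_⟩
  rw [← Nat.card_congr e.toEquiv, Cfsg.Agent.H8.card_adjoinRoot μ hμ, hdeg, Nat.card_eq_fintype_card, hF]

end Cfsg.Agent.S2638
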