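import Cfsg.Statements.S2644
import Mathlib
import Cfsg.Agent.H8.TVU5

set_option autoImplicit false
open Cfsg

namespace Cfsg.Agent.S2644

open Cfsg.Agent.H8.TVA Cfsg.Agent.H8.TVU Cfsg.Agent.H7.Herm Matrix

theorem exists_noniso {K : Type*} [Field K] [Fintype K] {n : ℕ} {σ : K →+* K} (h2 : ∀ x, σ (σ x) = x) (h3 : σ ≠ RingHom.id K) {e f : Fin n → K}
    (hh : Hyp (hB n σ) e f) (hn : 3 ≤ n) : ∃ w ∈ Wm (hB n σ) e f, hB n σ w w ≠ 0 := by
  have H := frm (n := n) h2 h3
  by_contra hcon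
  push Not at hcon
  obtain ⟨w1, hw1, hw10⟩ : ∃ w ∈ Wm (hB n σ) e f, w ≠ 0 := by
    have h4 := finrank_W (frm (n := n) h2 h3) hh
    by_contra hcon
    push Not at hcon
    have : Wm (hB n σ) e f = ⊥ := (Submodule.eq_bot_iff _).2 hcon
    rw [this, finrank_bot] at h4
    omega
  obtain ⟨y, hy, hy1⟩ := exists_W H hh hw1 hw10
  have hy2 : hB n σ y w1 = 1 := by rw [H.sym', hy1, map_one, one_mul]
  have h4 : ∀ a : K, a + σ a = 0 := by
    intro a
    have h5 := hcon (w1 + a • y) (add_mem hw1 (Submodule.smul_mem _ _ hy))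
    simp only [map_add, LinearMap.add_apply, LinearMap.map_smulₛₗ, LinearMap.smul_apply, map_smul, smul_eq_mul, hcon w1 hw1, hcon y hy, hy1, hy2] at h5
    linear_combination h5
  apply h3
  apply RingHom.ext
  intro x
  have h5 := h4 1
  have h6 := h4 x
  rw [map_one] at h5
  rw [RingHom.id_apply]
  linear_combination h6 - x * h5

/-- the shape of a transvection in `SU` -/
theorem shape {K : Type*} [Field K] [Fintype K] {q n : ℕ} {σ : K →+* K} (h1 : ∀ x, σ x = x ^ q) (h2 : ∀ x, σ (σ x) = x) (h3 : σ ≠ RingHom.id K)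
    (s : SU n K q) (hs : Cfsg.IsTransvection (mat s)) :
    ∃ (u : Fin n → K) (c : K), u ≠ 0 ∧ c ≠ 0 ∧ hB n σ u u = 0 ∧ c + σ c = 0 ∧ ∀ x, rho n K q s x = x + (c * hB n σ u x) • u := by
  have H := frm (n := n) h2 h3
  obtain ⟨hr, hN2⟩ := hs
  set N := mat s - 1 with hN
  have hNs : ∀ x, rho n K q s x = x + N *ᵥ x := by
    intro x
    rw [rho_apply, hN, Matrix.sub_mulVec, Matrix.one_mulVec]; abel
  have hr' : Module.finrank K (LinearMap.range N.mulVecLin) = 1 := hr
  obtain ⟨⟨u, x1, hx1⟩, hu0, hu⟩ := finrank_eq_one_iff'.1 hr'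
  have hu0' : u ≠ 0 := fun h => hu0 (Subtype.ext h)
  have hux : N *ᵥ x1 = u := hx1
  have hspan : ∀ x, ∃ a : K, N *ᵥ x = a • u := by
    intro x
    obtain ⟨a, ha⟩ := hu ⟨N *ᵥ x, x, rfl⟩
    exact ⟨a, (congrArg Subtype.val ha).symm⟩
  choose φ hφ using hspan
  have hφ1 : φ x1 = 1 := by
    have h4 := hφ x1
    rw [hux] at h4
    have h5 : (1 - φ x1) • u = 0 := by rw [sub_smul, one_smul, ← h4, sub_self]
    have := (smul_eq_zero.1 h5).resolve_right hu0'
    linear_combination -this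
  have hlin : ∀ x y (a : K), φ (x - a • y) = φ x - a * φ y := by
    intro x y a
    have h4 := hφ (x - a • y)
    rw [Matrix.mulVec_sub, Matrix.mulVec_smul, hφ, hφ, smul_smul, ← sub_smul, ← sub_eq_zero, ← sub_smul] at h4
    have := (smul_eq_zero.1 h4).resolve_right hu0'
    linear_combination -this
  have hsx : ∀ x, rho n K q s x = x + φ x • u := fun x => by rw [hNs, hφ]
  have hiso : ∀ x y, hB n σ (rho n K q s x) (rho n K q s y) = hB n σ x y := by
    intro x y
    rw [rho_apply, rho_apply, hB_eq h1, hB_eq h1, mat_herm]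
  have hker : ∀ y, φ y = 0 → hB n σ u y = 0 := by
    intro y hy
    have h4 := hiso x1 y
    rw [hsx, hsx, hy, hφ1, zero_smul, add_zero, one_smul, map_add, LinearMap.add_apply] at h4
    linear_combination h4
  have hux1 : hB n σ u x1 ≠ 0 := by
    intro h0
    apply hu0'
    apply H.nd
    intro y
    have h4 := hker (y - φ y • x1) (by rw [hlin, hφ1]; ring)
    rw [map_sub, map_smul, smul_eq_mul, h0, mul_zero, sub_zero] at h4
    exact h4
  set c := (hB n σ u x1)⁻¹ with hc
  have hφc : ∀ y, φ y = c * hB n σ u y := by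
    intro y
    have h4 := hker (y - φ y • x1) (by rw [hlin, hφ1]; ring)
    rw [map_sub, map_smul, smul_eq_mul, sub_eq_zero] at h4
    rw [h4, hc]
    field_simp
  have huu : hB n σ u u = 0 := by
    apply hker
    have h4 : N *ᵥ u = 0 := by
      rw [← hux, Matrix.mulVec_mulVec, hN2, Matrix.zero_mulVec]
    rw [hφ] at h4
    exact (smul_eq_zero.1 h4).resolve_right hu0'
  refine ⟨u, c, hu0', inv_ne_zero hux1, huu, ?_, fun x => by rw [hsx, hφc]⟩
  have h4 := hiso x1 x1
  rw [hsx, hφ1, one_smul] at h4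
  have h5 : hB n σ x1 u = σ (hB n σ u x1) := by rw [H.sym', one_mul]
  simp only [map_add, LinearMap.add_apply, huu, h5] at h4
  have h6 : hB n σ u x1 + σ (hB n σ u x1) = 0 := by linear_combination h4
  have h7 : σ (hB n σ u x1) ≠ 0 := (map_ne_zero σ).2 hux1
  rw [hc, map_inv₀]
  field_simp
  linear_combination h6

/-- In the special unitary group SU_n(q) with n ≥ 3 (isometries of Σ u_i v_i^q of determinant one over the field with q² elements), any two transvections (elements t with t − 1 of rank one and square zero) are conjugate. -/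
theorem result {K : Type*} [Field K] [Fintype K] {q n : ℕ} (hK : Fintype.card K = q ^ 2) (hn : 3 ≤ n) (s t : ↥(Cfsg.SU n K q)) (hs : Cfsg.IsTransvection (((s : GL (Fin n) K) : Matrix (Fin n) (Fin n) K))) (ht : Cfsg.IsTransvection (((t : GL (Fin n) K) : Matrix (Fin n) (Fin n) K))) : IsConj s t := by
  obtain ⟨p, hp⟩ := CharP.exists K
  haveI : Fact p.Prime := ⟨CharP.char_is_prime K p⟩
  obtain ⟨σ, h1, h2, h3⟩ := exists_frob hK
  have H := frm (n := n) h2 h3
  let C := cfgU p hK (by omega : 2 ≤ n) h1 h2 h3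
  haveI : Nontrivial (Fin n → K) := by
    haveI : Nonempty (Fin n) := ⟨⟨0, by omega⟩⟩
    exact Function.nontrivial
  haveI : Finite (SU n K q) := inferInstance
  obtain ⟨u, c, hu, hc, huu, hcc, hsu⟩ := shape h1 h2 h3 s hs
  obtain ⟨v, d, hv, hd, hvv, hdd, htv⟩ := shape h1 h2 h3 t ht
  obtain ⟨g, μ, hμ, hg⟩ := C.trans hu huu hv hvv
  have hg : rho n K q g u = μ • v := hg
  -- find ν with c μ σμ = d ν σν after scaling
  obtain ⟨f, hvf, hff⟩ := H.exists_hyp hv hvv
  have hh : Hyp (hB n σ) v f := ⟨hvv, hff, hvf⟩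
  obtain ⟨w, hw, hww⟩ := exists_noniso h2 h3 hh hn
  obtain ⟨ν, hν⟩ := norm_surj hK h1 (d * c⁻¹) (mul_ne_zero hd (inv_ne_zero hc)) (by
    have e1 : σ d = -d := by linear_combination hdd
    have e2 : σ c = -c := by linear_combination hcc
    rw [map_mul, map_inv₀, e1, e2]; field_simp)
  have hν0 : ν ≠ 0 := by
    rintro rfl
    rw [zero_mul] at hν
    exact mul_ne_zero hd (inv_ne_zero hc) hν.symm
  obtain ⟨k, hk⟩ := tor3 h1 h2 h3 hh hw hww (ν * μ⁻¹) (mul_ne_zero hν0 (inv_ne_zero hμ))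
  have hw' := mem_Wm.1 hw
  have hkv : rho n K q k v = (ν * μ⁻¹) • v := by
    rw [hk, hvv, hh.fe H, H.comm0 hw'.1]
    simp only [mul_zero, zero_smul, add_zero, mul_one]
    rw [sub_smul, one_smul]; abel
  have hmul : ∀ a b : SU n K q, ∀ x, rho n K q (a * b) x = rho n K q a (rho n K q b x) := fun a b x => by rw [map_mul]; rfl
  have hkg : rho n K q (k * g) u = ν • v := by
    rw [hmul, hg, map_smul, hkv, smul_smul]
    congr 1
    field_simp
  rw [isConj_iff]
  refine ⟨k * g, ?_⟩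
  apply rho_inj
  apply LinearEquiv.ext
  intro x
  have hiso : ∀ (a : SU n K q) x y, hB n σ (rho n K q a x) (rho n K q a y) = hB n σ x y := by
    intro a x y
    rw [rho_apply, rho_apply, hB_eq h1, hB_eq h1, mat_herm]
  have e1 : rho n K q (k * g) (rho n K q (k * g)⁻¹ x) = x := by rw [← hmul, mul_inv_cancel, map_one]; rfl
  have e2 : hB n σ u (rho n K q (k * g)⁻¹ x) = hB n σ (ν • v) x := by
    rw [← hkg, ← hiso (k * g) u, e1]
  rw [hmul, hmul, hsu, map_add, e1, map_smul, hkg, htv, e2, LinearMap.map_smulₛₗ, LinearMap.smul_apply, smul_eq_mul, smul_smul]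
  congr 2
  have : c * (ν * σ ν) = d := by rw [hν]; field_simp
  linear_combination (hB n σ v x) * this

end Cfsg.Agent.S2644
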