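import Cfsg.Statements.S2669
import Cfsg.Agent.H8.Shintani

set_option autoImplicit false
open Cfsg

namespace Cfsg.Agent.S2669

open Cfsg.Agent.H8.Shin

theorem card_aux {X : Type*} [Group X] {A B : Subgroup X} (Y : Subgroup X) (a : X) (S : A → Prop)
    (hS : ∀ k : A, S k ↔ ∃ h : B, (k : X)⁻¹ * a * h ∈ Y) :
    Nat.card {k : A // S k} * Nat.card ↥(Y ⊓ B) =
      Nat.card {p : A × B // (p.1 : X)⁻¹ * a * p.2 ∈ Y} := by
  rw [← Nat.card_prod]
  choose h0 hh0 using fun k : {k : A // S k} => (hS k.1).1 k.2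
  refine Nat.card_congr
    { toFun := fun q => ⟨(q.1.1, h0 q.1 * ⟨(q.2 : X), q.2.2.2⟩), ?_⟩
      invFun := fun p => (⟨p.1.1, (hS p.1.1).2 ⟨p.1.2, p.2⟩⟩,
        ⟨((h0 ⟨p.1.1, (hS p.1.1).2 ⟨p.1.2, p.2⟩⟩ : X))⁻¹ * (p.1.2 : X), ?_, ?_⟩)
      left_inv := ?_
      right_inv := ?_ }
  · have h1 := hh0 q.1
    have h2 := q.2.2.1
    have := Y.mul_mem h1 h2
    simpa [mul_assoc] using this
  · have h1 := hh0 ⟨p.1.1, (hS p.1.1).2 ⟨p.1.2, p.2⟩⟩
    have h2 := p.2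
    have := Y.mul_mem (Y.inv_mem h1) h2
    simpa [mul_assoc] using this
  · exact B.mul_mem (B.inv_mem (h0 _).2) p.1.2.2
  · rintro ⟨⟨k, hk⟩, ⟨z, hz⟩⟩
    simp
  · rintro ⟨⟨k, h⟩, hp⟩
    apply Subtype.ext
    refine Prod.ext rfl (Subtype.ext ?_)
    simp

/-- Shintani descent preserves numbers of fixed points on coset spaces (abstract form). Let `σ` be an automorphism of a group `X` and `e ≥ 1`; write `G` for the fixed points of `σᵉ` and `H` for the fixed points of `σ`, and assume `G` is finite. Let `Y` be a `σ`-stable subgroup of `X` on which the maps `a ↦ a σ(a)⁻¹` and `a ↦ a σᵉ(a)⁻¹` are surjective (as for a closed connected `σ`-stable subgroup of an algebraic group). Let `g ∈ G`, let `a ∈ X` satisfy `g = a σ(a)⁻¹` and put `x = σᵉ(a)⁻¹ a` (the Shintani image, an element of `H`). The element `g σ` of the semidirect product acts on the cosets of `Y ∩ G` in `G` by `k (Y ∩ G) ↦ g σ(k)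 (Y ∩ G)`, fixing that coset exactly when `k⁻¹ g σ(k) ∈ Y`; and `x` fixes the coset `h (Y ∩ H)` of `H` exactly when `h⁻¹ x h ∈ Y`. Then the two numbers of fixed cosets agree; in cross-multiplied form, `#{k ∈ G : k⁻¹ g σ(k) ∈ Y} · |Y ∩ H| = #{h ∈ H : h⁻¹ x h ∈ Y} · |Y ∩ G|`. -/
theorem result {X : Type*} [Group X] (σ : MulAut X) (e : ℕ) (he : 1 ≤ e)
    [Finite ↥((MulEquiv.toMonoidHom (σ ^ e)).eqLocus (MonoidHom.id X))]
    (Y : Subgroup X) (hY : ∀ y : X, y ∈ Y ↔ σ y ∈ Y)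
    (hYL : ∀ y ∈ Y, ∃ a ∈ Y, y = a * (σ a)⁻¹) (hYLe : ∀ y ∈ Y, ∃ a ∈ Y, y = a * ((σ ^ e) a)⁻¹)
    (g : X) (hg : g ∈ (MulEquiv.toMonoidHom (σ ^ e)).eqLocus (MonoidHom.id X)) (a : X) (ha : g = a * (σ a)⁻¹) :
    Nat.card {k : ↥((MulEquiv.toMonoidHom (σ ^ e)).eqLocus (MonoidHom.id X)) // (k : X)⁻¹ * g * σ k ∈ Y} *
        Nat.card ↥(Y ⊓ (MulEquiv.toMonoidHom σ).eqLocus (MonoidHom.id X)) =
      Nat.card {h : ↥((MulEquiv.toMonoidHom σ).eqLocus (MonoidHom.id X)) // (h : X)⁻¹ * (((σ ^ e) a)⁻¹ * a) * h ∈ Y} *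
        Nat.card ↥(Y ⊓ (MulEquiv.toMonoidHom (σ ^ e)).eqLocus (MonoidHom.id X)) := by
  have hxf := x_fix (e := e) σ hg ha
  rw [card_aux (A := (MulEquiv.toMonoidHom (σ ^ e)).eqLocus (MonoidHom.id X))
    (B := (MulEquiv.toMonoidHom σ).eqLocus (MonoidHom.id X)) Y a (fun k => (k : X)⁻¹ * g * σ k ∈ Y),
    card_aux (A := (MulEquiv.toMonoidHom σ).eqLocus (MonoidHom.id X))
    (B := (MulEquiv.toMonoidHom (σ ^ e)).eqLocus (MonoidHom.id X)) Y a⁻¹
    (fun h => (h : X)⁻¹ * (((σ ^ e) a)⁻¹ * a) * h ∈ Y)]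
  · refine Nat.card_congr (Equiv.subtypeEquiv (Equiv.prodComm _ _) ?_)
    rintro ⟨k, h⟩
    simp only [Equiv.prodComm_apply, Prod.swap_prod_mk]
    rw [← Y.inv_mem_iff]
    have : ((k : X)⁻¹ * a * (h : X))⁻¹ = (h : X)⁻¹ * a⁻¹ * (k : X) := by group
    rw [this]
  · rintro ⟨h, hh⟩
    have hh' : (σ ^ e) h = h := fix_pow σ hh e
    constructor
    · intro hy
      obtain ⟨c, hc, hc2⟩ := hYLe _ (Y.inv_mem hy)
      simp only at hc2
      have hta : (σ ^ e) a = a * (((σ ^ e) a)⁻¹ * a)⁻¹ := by group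
      have hc3 : (σ ^ e) c = h⁻¹ * (((σ ^ e) a)⁻¹ * a) * h * c := by
        have : (σ ^ e) c = (h⁻¹ * (((σ ^ e) a)⁻¹ * a) * h)⁻¹⁻¹ * c := by rw [hc2]; group
        rw [this]; group
      refine ⟨⟨a * h * c, ?_⟩, ?_⟩
      · show (σ ^ e) (a * h * c) = a * h * c
        rw [map_mul, map_mul, hh', hc3]
        group
      · show h⁻¹ * a⁻¹ * (a * h * c) ∈ Y
        have : h⁻¹ * a⁻¹ * (a * h * c) = c := by group
        rw [this]; exact hc
    · rintro ⟨⟨k, hk⟩, hk2⟩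
      have hk' : (σ ^ e) k = k := hk
      simp only at hk2 ⊢
      have h5 : ∀ i : ℕ, ∀ y ∈ Y, (σ ^ i) y ∈ Y := by
        intro i
        induction i with
        | zero => intro y hy; simpa using hy
        | succ n ih => intro y hy; rw [pow_succ, MulAut.mul_apply]; exact ih _ ((hY y).1 hy)
      have h6 := h5 e _ (Y.inv_mem hk2)
      have h7 := Y.mul_mem (Y.inv_mem h6) (Y.inv_mem hk2)
      have h8 : (((σ ^ e) (h⁻¹ * a⁻¹ * k)⁻¹))⁻¹ * (h⁻¹ * a⁻¹ * k)⁻¹ = h⁻¹ * (((σ ^ e) a)⁻¹ * a) * h := by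
        rw [map_inv, map_mul, map_mul, map_inv, map_inv, hh', hk']
        group
      rw [← h8]; exact h7
  · rintro ⟨k, hk⟩
    have hk' : (σ ^ e) k = k := hk
    constructor
    · intro hy
      obtain ⟨b, hb, hb2⟩ := hYL _ hy
      simp only at hb2
      refine ⟨⟨a⁻¹ * k * b, ?_⟩, ?_⟩
      · show σ (a⁻¹ * k * b) = a⁻¹ * k * b
        have h1 : σ b = (k⁻¹ * g * σ k)⁻¹ * b := by rw [hb2]; group
        rw [map_mul, map_mul, map_inv, h1, sig_a σ ha]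
        group
      · show k⁻¹ * a * (a⁻¹ * k * b) ∈ Y
        have : k⁻¹ * a * (a⁻¹ * k * b) = b := by group
        rw [this]; exact hb
    · rintro ⟨⟨h, hh⟩, hh2⟩
      have hh' : σ h = h := hh
      simp only at hh2 ⊢
      have h7 := Y.mul_mem hh2 (Y.inv_mem ((hY _).1 hh2))
      have h8 : (k⁻¹ * a * h) * (σ (k⁻¹ * a * h))⁻¹ = k⁻¹ * g * σ k := by
        rw [map_mul, map_mul, map_inv, hh', sig_a σ ha]
        group
      rw [← h8]; exact h7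

end Cfsg.Agent.S2669
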