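import Cfsg.Statements.S2689
import Mathlib
import Cfsg.Agent.H8.AutG
open Cfsg.Agent.H8.AutPSL

set_option autoImplicit false
open Cfsg

namespace Cfsg.Agent.S2689



/-- The automorphism group of a simple projective special linear group PSL_n(F) over a finite field (n ≥ 2; |F| ≥ 4 when n = 2) is generated by the automorphisms induced by invertible semilinear maps of F^n (the image of the projective semilinear group) together with the inverse-transpose automorphism. -/
theorem result {F : Type*} [Field F] [Fintype F] {p f : ℕ} [Fact p.Prime] (hF : Fintype.card F = p ^ f) (hf : 1 ≤ f) {n : ℕ} (hn : 2 ≤ n) (hs : n = 2 → 4 ≤ Fintype.card F) :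
    Cfsg.gammaPSL n F ⊔ Cfsg.autSubgroupOf (fun β : Matrix.ProjectiveSpecialLinearGroup (Fin n) F ≃* Matrix.ProjectiveSpecialLinearGroup (Fin n) F => Cfsg.IsInverseTransposeAutPSL β) = ⊤ := by
  rw [eq_top_iff]
  intro β _
  have key : ∀ (W : GL (Fin n) F) (σ : F ≃+* F), ind (cj W * fld σ) ∈ Cfsg.gammaPSL n F := by
    intro W σ
    apply Subgroup.subset_closure
    refine ⟨W, σ, ?_⟩
    intro s s' hs
    show ind (cj W * fld σ) (pr n F s) = pr n F s'
    rw [ind_pr]
    congr 1
    apply Subtype.ext
    rw [hs]; rfl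
  have key2 : ind (iota : MulAut (Matrix.SpecialLinearGroup (Fin n) F)) ∈ Cfsg.autSubgroupOf (fun β : Matrix.ProjectiveSpecialLinearGroup (Fin n) F ≃* Matrix.ProjectiveSpecialLinearGroup (Fin n) F => Cfsg.IsInverseTransposeAutPSL β) := by
    apply Subgroup.subset_closure
    intro s s' hs
    show ind iota (pr n F s) = pr n F s'
    rw [ind_pr]
    congr 1
    apply Subtype.ext
    rw [hs]; rfl
  obtain ⟨W, σ, h | ⟨-, h⟩⟩ := exists_form hn β
  · rw [h]
    exact Subgroup.mem_sup_left (key W σ)
  · rw [h, map_mul]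
    exact Subgroup.mul_mem _ (Subgroup.mem_sup_left (key W σ)) (Subgroup.mem_sup_right key2)

end Cfsg.Agent.S2689
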