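import Cfsg.Statements.S2690
import Mathlib
import Cfsg.Agent.H8.AutG
open Cfsg.Agent.H8.AutPSL

set_option autoImplicit false
open Cfsg

namespace Cfsg.Agent.S2690



/-- Every automorphism of a simple projective special linear group PSL_n(F) over a finite field (n ≥ 2; |F| ≥ 4 when n = 2) is a product δ φ γ of an inner-diagonal automorphism δ (induced by an invertible matrix), a standard field automorphism φ (one automorphism of F applied to every entry, possibly the identity) and γ either the identity or the inverse-transpose automorphism. -/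
theorem result {F : Type*} [Field F] [Fintype F] {p f : ℕ} [Fact p.Prime] (hF : Fintype.card F = p ^ f) (hf : 1 ≤ f) {n : ℕ} (hn : 2 ≤ n) (hs : n = 2 → 4 ≤ Fintype.card F) (β : MulAut (Matrix.ProjectiveSpecialLinearGroup (Fin n) F)) :
    ∃ (δ φ γ : MulAut (Matrix.ProjectiveSpecialLinearGroup (Fin n) F)) (σ : F ≃+* F), Cfsg.IsInnerDiagonalAutPSL δ ∧ Cfsg.IsStdFieldAutPSL σ φ ∧ (γ = 1 ∨ Cfsg.IsInverseTransposeAutPSL γ) ∧ β = δ * φ * γ := by
  have k1 : ∀ (W : GL (Fin n) F), Cfsg.IsInnerDiagonalAutPSL (ind (cj W)) := by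
    intro W
    refine ⟨W, ?_⟩
    intro s s' hs
    show ind (cj W) (pr n F s) = pr n F s'
    rw [ind_pr]
    congr 1
    apply Subtype.ext
    rw [hs]; rfl
  have k2 : ∀ (σ : F ≃+* F), Cfsg.IsStdFieldAutPSL σ (ind (fld σ : MulAut (Matrix.SpecialLinearGroup (Fin n) F))) := by
    intro σ s s' hs
    show ind (fld σ) (pr n F s) = pr n F s'
    rw [ind_pr]
    congr 1
    apply Subtype.ext
    rw [hs]; rfl
  have k3 : Cfsg.IsInverseTransposeAutPSL (ind (iota : MulAut (Matrix.SpecialLinearGroup (Fin n) F))) := by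
    intro s s' hs
    show ind iota (pr n F s) = pr n F s'
    rw [ind_pr]
    congr 1
    apply Subtype.ext
    rw [hs]; rfl
  obtain ⟨W, σ, h | ⟨-, h⟩⟩ := exists_form hn β
  · refine ⟨ind (cj W), ind (fld σ), 1, σ, k1 W, k2 σ, Or.inl rfl, ?_⟩
    rw [h, map_mul, mul_one]
  · refine ⟨ind (cj W), ind (fld σ), ind iota, σ, k1 W, k2 σ, Or.inr k3, ?_⟩
    rw [h, map_mul, map_mul]

end Cfsg.Agent.S2690
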