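import Cfsg.Statements.S2697
import Mathlib
import Cfsg.Agent.H8.AutK
open Cfsg.Agent.H8.AutPSL

set_option autoImplicit false
open Cfsg

namespace Cfsg.Agent.S2697



/-- Let T = PSL_n(F) be simple over a finite field (n ≥ 2; |F| ≥ 4 when n = 2) and let x be a field automorphism or a graph-field automorphism of T of prime order r. Then an element y of the coset Inndiag(T)·x (that is, y = δ x with δ in the inner-diagonal group, the image of PGL_n(F)) has order r if and only if y is conjugate to x by an element of Inndiag(T). -/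
theorem result {F : Type*} [Field F] [Fintype F] {p f : ℕ} [Fact p.Prime] (hF : Fintype.card F = p ^ f) (hf : 1 ≤ f) {n : ℕ} (hn : 2 ≤ n) (hs : n = 2 → 4 ≤ Fintype.card F) (x δ : MulAut (Matrix.ProjectiveSpecialLinearGroup (Fin n) F)) (hx : Cfsg.IsFieldAutClassPSL x ∨ Cfsg.IsGraphFieldAutClassPSL x) {r : ℕ} (hr : r.Prime) (hxr : orderOf x = r) (hδ : δ ∈ Cfsg.inndiagPSL n F) :
    orderOf (δ * x) = r ↔ Cfsg.IsConjUnder (Cfsg.inndiagPSL n F) x (δ * x) := by
  haveI := dgN_normal (F := F) hn
  rw [inndiag_eq] at hδ ⊢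
  rcases hx with ⟨α, σ, hσ, hstd⟩ | ⟨hn3, α, φ, γ, σ, hσ, hφ, hγ, hx⟩
  · have h1 := std_eq hstd
    apply coset_transport (dgN n F) x δ α (ind (fld σ)) r h1 hδ hxr
    rintro _ ⟨W, rfl⟩ hr1
    have hord : orderOf σ = r := by
      rw [← fld_orderOf hn σ, ← h1, orderOf_conj', hxr]
    have h2 : (ind (cj W * fld σ)) ^ orderOf σ = 1 := by
      rw [hord, map_mul]; exact hr1
    obtain ⟨V, hV⟩ := field_coset hn σ W h2
    refine ⟨ind (cj V), ⟨V, rfl⟩, ?_⟩
    rw [map_mul] at hV
    exact hV
  · have e1 := std_eq hφ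
    have e2 := it_eq hγ
    rw [e1, e2, ← map_mul] at hx
    -- r = 2 and σ² = 1
    have hpow : (ind (fld σ * iota) : MulAut (Matrix.ProjectiveSpecialLinearGroup (Fin n) F)) ^ r = 1 := by
      rw [← hx, conj_pow, ← hxr, pow_orderOf_eq_one]; group
    have hcom : Commute (fld σ : MulAut (Matrix.SpecialLinearGroup (Fin n) F)) iota := (iota_fld σ).symm
    have hr2 : r = 2 := by
      rcases hr.eq_two_or_odd' with h | h
      · exact h
      · exfalso
        rw [← map_pow, hcom.mul_pow] at hpow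
        have h3 : (iota : MulAut (Matrix.SpecialLinearGroup (Fin n) F)) ^ r = iota := by
          obtain ⟨k, hk⟩ := h
          rw [hk, pow_add, pow_mul, sq, iota_sq, one_pow, one_mul, pow_one]
        rw [h3, ← map_pow] at hpow
        have := ker_cj_fld_iota hn3 (1 : GL (Fin n) F) (σ ^ r)
        rw [map_one, one_mul] at this
        exact this hpow
    subst hr2
    have hσ2 : ∀ a, σ (σ a) = a := by
      rw [← map_pow, sq, fi_sq] at hpow
      have h4 : ind (cj 1 * fld (σ * σ)) = (1 : MulAut (Matrix.ProjectiveSpecialLinearGroup (Fin n) F)) := by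
        rw [map_one, one_mul]; exact hpow
      have h5 := (ker_cj_fld hn _ _ h4).1
      intro a
      exact congrArg (fun τ : F ≃+* F => τ a) h5
    apply coset_transport (dgN n F) x δ α (ind (fld σ * iota)) 2 hx hδ hxr
    rintro _ ⟨W, rfl⟩ hr1
    have h2 : (ind (cj W * fld σ * iota)) ^ 2 = 1 := by
      rw [mul_assoc, map_mul]; exact hr1
    obtain ⟨V, hV⟩ := graph_field_coset hn σ hσ hσ2 W h2
    refine ⟨ind (cj V), ⟨V, rfl⟩, ?_⟩
    rw [mul_assoc, map_mul] at hV
    exact hV

end Cfsg.Agent.S2697
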