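import Cfsg.Statements.S2704
import Mathlib
import Cfsg.Agent.H8.AutN
open Cfsg.Agent.H8.AutPSL

set_option autoImplicit false
open Cfsg

namespace Cfsg.Agent.S2704



/-- Let T = PSL_n(F) over the field F with p^f elements, n ≥ 3, and G = Inndiag(T) the image of PGL_n(F). If x is an involutory graph-field automorphism of T then f is even; x is G-conjugate to every other involutory graph-field automorphism; C_G(x) is isomorphic to the projective general unitary group PGU_n(q₀) with q₀² = p^f, realised over F itself through the Hermitian form Σ uᵢ vᵢ^{q₀}; and the G-class of x is the union of exactly gcd(n, q₀ − 1) T-classes. -/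
theorem result {F : Type*} [Field F] [Fintype F] {p f : ℕ} [Fact p.Prime] (hF : Fintype.card F = p ^ f) (hf : 1 ≤ f) {n : ℕ} (hn : 3 ≤ n) (x : MulAut (Matrix.ProjectiveSpecialLinearGroup (Fin n) F)) (hx : Cfsg.IsGraphFieldAutClassPSL x) (hx2 : orderOf x = 2) :
    Even f ∧ (∀ y : MulAut (Matrix.ProjectiveSpecialLinearGroup (Fin n) F), Cfsg.IsGraphFieldAutClassPSL y → orderOf y = 2 → Cfsg.IsConjUnder (Cfsg.inndiagPSL n F) x y) ∧ Nonempty (↥(Cfsg.inndiagPSL n F ⊓ Subgroup.centralizer {x}) ≃* Cfsg.PGU n F (p ^ (f / 2))) ∧ Cfsg.splitClassCount (Cfsg.inndiagPSL n F) (Cfsg.Inn (Matrix.ProjectiveSpecialLinearGroup (Fin n) F)) x = Nat.gcd n (p ^ (f / 2) - 1) := by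
  have hF' : Nat.card F = p ^ f := by rw [Nat.card_eq_fintype_card, hF]
  have hn2 : 2 ≤ n := by omega
  rw [inndiag_eq]
  obtain ⟨σ, hσ1, hσ2, hord, hconj⟩ := gf_data hn2 x hx hx2
  obtain ⟨h1, h2, h3⟩ := invol_eq hF' hf σ hord
  have hq : 1 < p ^ (f / 2) := by
    have h4 : 1 < Nat.card F := Finite.one_lt_card
    rw [h2] at h4
    by_contra hcon
    have h5 : p ^ (f / 2) = 0 ∨ p ^ (f / 2) = 1 := by omega
    rcases h5 with h5 | h5 <;> rw [h5] at h4 <;> norm_num at h4
  refine ⟨h1, ?_, ?_, ?_⟩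
  · intro y hy hy2
    obtain ⟨τ, hτ1, hτ2, hτord, hτconj⟩ := gf_data hn2 y hy hy2
    obtain ⟨-, -, h4⟩ := invol_eq hF' hf τ hτord
    have h5 : τ = σ := by
      ext a; rw [h3, h4]
    subst h5
    rw [isConjUnder_congr _ x _ hconj]
    exact hτconj
  · obtain ⟨e1⟩ := cent_congr (dgN n F) x _ hconj
    obtain ⟨e2⟩ := cent_gf hn2 σ h3 hσ1 hσ2
    exact ⟨e1.trans e2⟩
  · rw [split_congr _ _ x _ hconj, split_gf hn2 hq h2 σ h3 hσ1 hσ2]

end Cfsg.Agent.S2704
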