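import Cfsg.Statements.S2705
import Mathlib
import Cfsg.Agent.H8.TVU8

set_option autoImplicit false
open Cfsg

namespace Cfsg.Agent.S2705

open Cfsg.Agent.H8.TVU Cfsg.Agent.H8.MDat

/-- Let T = PSU_n(q) be simple (n ≥ 3, (n, q) ≠ (3, 2), q = p^f), realised over the field F with q² elements, G = Inndiag(T) the image of PGU_n(q) in Aut(T), and x a field automorphism of T (conjugate to a standard field automorphism of odd order) of odd prime order r. Then r divides f; C_G(x) is isomorphic to PGU_n(q₀) with q₀ = p^(f/r), realised over a field F₀ with q₀² elements; and the G-class of x is the union of exactly gcd(n, (q + 1)/(q₀ + 1)) T-classes. -/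
theorem result {F : Type*} [Field F] [Fintype F] {p f q : ℕ} [Fact p.Prime] (hq : q = p ^ f) (hf : 1 ≤ f) (hF : Fintype.card F = q ^ 2) {n : ℕ} (hn : 3 ≤ n) (hs : ¬ (n = 3 ∧ q = 2)) (x : MulAut (Cfsg.PSU n F q)) (hx : Cfsg.IsFieldAutClassPSU x) {r : ℕ} (hr : r.Prime) (hro : Odd r) (hxr : orderOf x = r) (F₀ : Type*) [Field F₀] [Fintype F₀] (hF₀ : Fintype.card F₀ = p ^ (2 * (f / r))) :
    r ∣ f ∧ Nonempty (↥(Cfsg.inndiagPSU n F q ⊓ Subgroup.centralizer {x}) ≃* Cfsg.PGU n F₀ (p ^ (f / r))) ∧ Cfsg.splitClassCount (Cfsg.inndiagPSU n F q) (Cfsg.Inn (Cfsg.PSU n F q)) x = Nat.gcd n ((q + 1) / (p ^ (f / r) + 1)) := by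
  haveI : CharP F p := charP_of_card F (k := f * 2) (by rw [hF, hq, ← pow_mul]) (by omega)
  obtain ⟨α, φ, σ, hσ1, hodd, hφ, hx'⟩ := hx
  let X := mdU p hF hn hs
  have hφ' : φ = Cfsg.Agent.H8.AutPSL.ind (X.fd σ) := fld_eq p hF hn hs hφ
  rw [inndiag_eq p hF hn hs]
  haveI := X.N_normal (fullU p hF hn hs)
  have ho : orderOf σ = r := by
    rw [← X.fd_orderOf σ, ← hφ', ← hx', Cfsg.Agent.H8.AutPSL.orderOf_conj', hxr]
  obtain ⟨h1, h2⟩ := exists_des hq hf hF σ hodd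
  rw [ho] at h1 h2
  obtain ⟨j, D⟩ := h2 F₀ hF₀
  refine ⟨h1, ?_, ?_⟩
  · obtain ⟨e1⟩ := cent_conj X.N α x
    obtain ⟨e2⟩ := centU p hF hn hs D
    rw [hx', hφ'] at e1
    exact ⟨e1.trans e2⟩
  · rw [← split_conj (mdU p hF hn hs).N (Cfsg.Inn (Cfsg.PSU n F q)) α x, hx', hφ', splitU p hF hn hs D]

end Cfsg.Agent.S2705
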