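import Cfsg.Statements.S2711
import Mathlib
import Cfsg.Agent.H8.TVU8

set_option autoImplicit false
open Cfsg

namespace Cfsg.Agent.S2711

open Cfsg.Agent.H8.TVU Cfsg.Agent.H8.MDat

/-- Let T = PSU_n(q) be simple (n ≥ 3, (n,q) ≠ (3,2)), realised over the field F with q² elements, and let x be a field automorphism of T (conjugate to a standard field automorphism of odd order) of prime order r. Then an element y of the coset Inndiag(T)·x (y = δ x with δ in the image of PGU_n(q)) has order r if and only if y is conjugate to x by an element of Inndiag(T). (T has no graph-field automorphisms.) -/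
theorem result {F : Type*} [Field F] [Fintype F] {p f q : ℕ} [Fact p.Prime] (hq : q = p ^ f) (hf : 1 ≤ f) (hF : Fintype.card F = q ^ 2) {n : ℕ} (hn : 3 ≤ n) (hs : ¬ (n = 3 ∧ q = 2)) (x δ : MulAut (Cfsg.PSU n F q)) (hx : Cfsg.IsFieldAutClassPSU x) {r : ℕ} (hr : r.Prime) (hxr : orderOf x = r) (hδ : δ ∈ Cfsg.inndiagPSU n F q) :
    orderOf (δ * x) = r ↔ Cfsg.IsConjUnder (Cfsg.inndiagPSU n F q) x (δ * x) := by
  haveI : CharP F p := charP_of_card F (k := f * 2) (by rw [hF, hq, ← pow_mul]) (by omega)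
  obtain ⟨α, φ, σ, hσ1, hodd, hφ, hx'⟩ := hx
  let X := mdU p hF hn hs
  have hφ' : φ = Cfsg.Agent.H8.AutPSL.ind (X.fd σ) := fld_eq p hF hn hs hφ
  rw [inndiag_eq p hF hn hs] at hδ ⊢
  haveI := X.N_normal (fullU p hF hn hs)
  have ho : orderOf σ = r := by
    rw [← X.fd_orderOf σ, ← hφ', ← hx', Cfsg.Agent.H8.AutPSL.orderOf_conj', hxr]
  obtain ⟨K, _, j, D⟩ := exists_des' hq hf hF σ hodd
  apply Cfsg.Agent.H8.AutPSL.coset_transport X.N x δ α φ r hx' hδ hxr
  rintro _ ⟨W, rfl⟩ h2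
  have h3 : (Cfsg.Agent.H8.AutPSL.ind (X.cj W * X.fd σ)) ^ orderOf σ = 1 := by
    rw [ho, map_mul, ← hφ']; exact h2
  obtain ⟨V, hV⟩ := cosetU p hF hn hs D W h3
  refine ⟨_, ⟨V, rfl⟩, ?_⟩
  show Cfsg.Agent.H8.AutPSL.ind (X.cj W) * φ = Cfsg.Agent.H8.AutPSL.ind (X.cj V) * φ * (Cfsg.Agent.H8.AutPSL.ind (X.cj V))⁻¹
  rw [hφ', ← map_mul]
  exact hV

end Cfsg.Agent.S2711
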