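import Cfsg.Statements.S2713
import Mathlib
import Cfsg.Agent.H8.TVS4

set_option autoImplicit false
open Cfsg

namespace Cfsg.Agent.S2713

open Cfsg.Agent.H8.TVS Cfsg.Agent.H8.MDat

/-- Let T = PSp_{2m}(F) be simple over a finite field (m ≥ 2, (2m, |F|) ≠ (4, 2)) and let x be a field automorphism of T of prime order r. Then an element y of the coset Inndiag(T)·x (y = δ x with δ in the image of the projective conformal symplectic group) has order r if and only if y is conjugate to x by an element of Inndiag(T). -/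
theorem result {F : Type*} [Field F] [Fintype F] {m : ℕ} (hm : 2 ≤ m) (hs : m = 2 → 3 ≤ Fintype.card F) (x δ : MulAut (Cfsg.PSp m F)) (hx : Cfsg.IsFieldAutClassPSp x) {r : ℕ} (hr : r.Prime) (hxr : orderOf x = r) (hδ : δ ∈ Cfsg.inndiagPSp m F) :
    orderOf (δ * x) = r ↔ Cfsg.IsConjUnder (Cfsg.inndiagPSp m F) x (δ * x) := by
  obtain ⟨p, hp⟩ := CharP.exists F
  haveI : Fact p.Prime := ⟨CharP.char_is_prime F p⟩
  obtain ⟨f, hf, hF⟩ := FiniteField.card F p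
  obtain ⟨α, σ, hσ1, hx'⟩ := hx
  let X := mdS (F := F) p hm
  have hφ' : α * x * α⁻¹ = Cfsg.Agent.H8.AutPSL.ind (X.fd σ) := fld_eq p hm hx'
  rw [inndiag_eq p hm] at hδ ⊢
  haveI : X.N.Normal := N_normal p hm
  have ho : orderOf σ = r := by
    rw [← X.fd_orderOf σ, ← hφ', Cfsg.Agent.H8.AutPSL.orderOf_conj', hxr]
  obtain ⟨h1, h2, h3, h4⟩ := Cfsg.Agent.H8.AutPSL.fix_iff (F := F) (p := p) (f := f) (by rw [Nat.card_eq_fintype_card, hF]) f.pos σ
  apply Cfsg.Agent.H8.AutPSL.coset_transport X.N x δ α (Cfsg.Agent.H8.AutPSL.ind (X.fd σ)) r hφ' hδ hxr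
  rintro _ ⟨W, rfl⟩ h5
  have h6 : (Cfsg.Agent.H8.AutPSL.ind (X.cj W * X.fd σ)) ^ orderOf σ = 1 := by
    rw [ho, map_mul]; exact h5
  obtain ⟨V, hV⟩ := cosetS p hm σ (FixedPoints.subfield (Subgroup.zpowers (σ : RingAut F)) F).subtype (fun x => (h4 _).1 x.2)
    (fun y hy => ⟨⟨y, (h4 y).2 hy⟩, rfl⟩) W h6
  refine ⟨_, ⟨V, rfl⟩, ?_⟩
  show Cfsg.Agent.H8.AutPSL.ind (X.cj W) * Cfsg.Agent.H8.AutPSL.ind (X.fd σ) = _
  rw [← map_mul]
  exact hV

end Cfsg.Agent.S2713
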