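import Cfsg.Statements.S2738
import Mathlib
import Cfsg.Agent.H8.SLn

set_option autoImplicit false
open Cfsg

namespace Cfsg.Agent.S2738

open scoped commutatorElement

/-- The special linear group SL(3, 4) has centre of order 3 and does not split over it: no subgroup is a complement to the centre (so SL(3, 4) is a non-split central extension of PSL(3, 4) by a group of order 3). -/
theorem result (F : Type*) [Field F] [Fintype F] (hF : Fintype.card F = 4) : Nat.card ↥(Subgroup.center (Matrix.SpecialLinearGroup (Fin 3) F)) = 3 ∧ ¬ ∃ K : Subgroup (Matrix.SpecialLinearGroup (Fin 3) F), Subgroup.IsComplement' (Subgroup.center (Matrix.SpecialLinearGroup (Fin 3) F)) K := by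
  classical
  have hfr : ∀ x : F, x ^ 4 = x := by
    intro x; rw [← hF]; exact FiniteField.pow_card x
  have hcyc : Nat.card Fˣ = 3 := by rw [Nat.card_eq_fintype_card, Fintype.card_units, hF]
  have h2 : ringChar F = 2 := by
    have := FiniteField.even_card_iff_char_two (F := F)
    apply this.2
    rw [hF]
  haveI : CharP F 2 := by rw [← h2]; exact ringChar.charP F
  have hcard : Nat.card ↥(Subgroup.center (Matrix.SpecialLinearGroup (Fin 3) F)) = 3 := by
    have hu3 : ∀ u : Fˣ, (u : F) ^ 3 = 1 := by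
      intro u
      have := hfr u
      have h0 : (u : F) ≠ 0 := u.ne_zero
      apply mul_left_cancel₀ h0
      rw [mul_one]; nth_rw 3 [← this]; ring
    let s : Fˣ → Matrix.SpecialLinearGroup (Fin 3) F := fun u => ⟨Matrix.scalar (Fin 3) (u : F), by
      rw [Matrix.scalar_apply, Matrix.det_diagonal]; simp [hu3]⟩
    suffices hs : Nat.card Fˣ = Nat.card ↥(Subgroup.center (Matrix.SpecialLinearGroup (Fin 3) F)) by rw [← hs, hcyc]
    refine Nat.card_eq_of_bijective (fun u => (⟨s u, ?_⟩ : ↥(Subgroup.center (Matrix.SpecialLinearGroup (Fin 3) F)))) ⟨?_, ?_⟩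
    · rw [Matrix.SpecialLinearGroup.mem_center_iff]
      exact ⟨u, by simpa using hu3 u, rfl⟩
    · intro u v huv
      have h1 := congrArg (fun z : ↥(Subgroup.center (Matrix.SpecialLinearGroup (Fin 3) F)) => (((z : Matrix.SpecialLinearGroup (Fin 3) F) : Matrix (Fin 3) (Fin 3) F) 0 0)) huv
      apply Units.ext
      simpa [s, Matrix.scalar_apply] using h1
    · rintro ⟨z, hz⟩
      rw [Matrix.SpecialLinearGroup.mem_center_iff] at hz
      obtain ⟨r, hr, hz⟩ := hz
      have hr0 : r ≠ 0 := by rintro rfl; simp at hr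
      refine ⟨Units.mk0 r hr0, ?_⟩
      apply Subtype.ext
      apply Subtype.ext
      exact hz
  refine ⟨hcard, ?_⟩
  rintro ⟨K, hK⟩
  have htop : K = ⊤ := by
    have hKn : K.Normal := by
      constructor
      intro k hk g
      obtain ⟨⟨z, k'⟩, hzk⟩ := hK.2 g
      have hz : (z : Matrix.SpecialLinearGroup (Fin 3) F) ∈ Subgroup.center (Matrix.SpecialLinearGroup (Fin 3) F) := z.2
      rw [Subgroup.mem_center_iff] at hz
      have e : g = z * k' := hzk.symm
      have : g * k * g⁻¹ = k' * k * (k' : Matrix.SpecialLinearGroup (Fin 3) F)⁻¹ := by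
        rw [e, ← hz (k' : Matrix.SpecialLinearGroup (Fin 3) F), mul_inv_rev]
        calc (k' : Matrix.SpecialLinearGroup (Fin 3) F) * z * k * ((z : Matrix.SpecialLinearGroup (Fin 3) F)⁻¹ * (k' : Matrix.SpecialLinearGroup (Fin 3) F)⁻¹)
            = k' * (z * k) * ((z : Matrix.SpecialLinearGroup (Fin 3) F)⁻¹ * (k' : Matrix.SpecialLinearGroup (Fin 3) F)⁻¹) := by group
          _ = _ := by rw [← hz k]; group
      rw [this]
      exact K.mul_mem (K.mul_mem k'.2 hk) (K.inv_mem k'.2)
    have hcomm : commutator (Matrix.SpecialLinearGroup (Fin 3) F) ≤ K := by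
      rw [commutator_def, Subgroup.commutator_le]
      intro g _ h _
      obtain ⟨⟨z, k⟩, hzk⟩ := hK.2 g
      obtain ⟨⟨w, l⟩, hwl⟩ := hK.2 h
      have hz : (z : Matrix.SpecialLinearGroup (Fin 3) F) ∈ Subgroup.center (Matrix.SpecialLinearGroup (Fin 3) F) := z.2
      have hw : (w : Matrix.SpecialLinearGroup (Fin 3) F) ∈ Subgroup.center (Matrix.SpecialLinearGroup (Fin 3) F) := w.2
      rw [Subgroup.mem_center_iff] at hz hw
      have e1 : g = z * k := hzk.symm
      have e2 : h = w * l := hwl.symm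
      have this : ⁅g, h⁆ = ⁅(k : Matrix.SpecialLinearGroup (Fin 3) F), (l : Matrix.SpecialLinearGroup (Fin 3) F)⁆ := by
        rw [commutatorElement_def, commutatorElement_def, e1, e2]
        calc (z : Matrix.SpecialLinearGroup (Fin 3) F) * k * (w * l) * (z * k : Matrix.SpecialLinearGroup (Fin 3) F)⁻¹ * (w * l : Matrix.SpecialLinearGroup (Fin 3) F)⁻¹
            = ((z : Matrix.SpecialLinearGroup (Fin 3) F) * ((k : Matrix.SpecialLinearGroup (Fin 3) F) * (w * l) * (k : Matrix.SpecialLinearGroup (Fin 3) F)⁻¹)) * (z : Matrix.SpecialLinearGroup (Fin 3) F)⁻¹ * (w * l : Matrix.SpecialLinearGroup (Fin 3) F)⁻¹ := by group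
          _ = ((k : Matrix.SpecialLinearGroup (Fin 3) F) * (w * l) * (k : Matrix.SpecialLinearGroup (Fin 3) F)⁻¹) * (w * l : Matrix.SpecialLinearGroup (Fin 3) F)⁻¹ := by rw [← hz]; group
          _ = (k * w : Matrix.SpecialLinearGroup (Fin 3) F) * l * (k : Matrix.SpecialLinearGroup (Fin 3) F)⁻¹ * (l : Matrix.SpecialLinearGroup (Fin 3) F)⁻¹ * (w : Matrix.SpecialLinearGroup (Fin 3) F)⁻¹ := by group
          _ = (w * ((k : Matrix.SpecialLinearGroup (Fin 3) F) * l * (k : Matrix.SpecialLinearGroup (Fin 3) F)⁻¹ * (l : Matrix.SpecialLinearGroup (Fin 3) F)⁻¹)) * (w : Matrix.SpecialLinearGroup (Fin 3) F)⁻¹ := by rw [hw]; group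
          _ = _ := by rw [← hw]; group
      rw [this, commutatorElement_def]
      exact K.mul_mem (K.mul_mem (K.mul_mem k.2 l.2) (K.inv_mem k.2)) (K.inv_mem l.2)
    rw [Cfsg.Agent.H8.SLn.commutator_eq_top (by simp)] at hcomm
    exact top_le_iff.1 hcomm
  have h3 := hK.disjoint
  rw [htop, disjoint_top] at h3
  rw [h3] at hcard
  simp at hcard

end Cfsg.Agent.S2738
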