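import Cfsg.Statements.S2739
import Mathlib
import Cfsg.Agent.H8.GLType

set_option autoImplicit false
open scoped Pointwise
open Cfsg

namespace Cfsg.Agent.S2739

open Cfsg.Agent.H8 Cfsg.Agent.H8.RCF Polynomial

theorem prod_all (F : Type*) [Field F] [Fintype F] : ∏ a : F, (X - C a) = X ^ (Fintype.card F) - X := by
  have h1 := FiniteField.roots_X_pow_card_sub_X F
  have hdeg := FiniteField.X_pow_card_sub_X_natDegree_eq F (Fintype.one_lt_card (α := F))
  have hm : (X ^ (Fintype.card F) - X : F[X]).Monic := monic_X_pow_sub (by rw [degree_X]; exact_mod_cast Fintype.one_lt_card (α := F))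
  have h2 := prod_multiset_X_sub_C_of_monic_of_roots_card_eq hm (by rw [h1, hdeg]; rfl)
  rw [h1] at h2
  exact h2

theorem key (F : Type*) [Field F] [Fintype F] [DecidableEq F] [CharP F 2] (hF : Fintype.card F = 4) (x : Matrix.ProjectiveSpecialLinearGroup (Fin 3) F) (hx : orderOf x = 3) :
    ∃ s : Matrix.SpecialLinearGroup (Fin 3) F, QuotientGroup.mk s = x ∧ (orderOf s).Coprime 2 ∧
      (s : Matrix (Fin 3) (Fin 3) F).charpoly = ∏ a ∈ (Finset.univ.erase (0 : F) : Finset F), (X - C a) := by
  classical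
  obtain ⟨s, rfl⟩ := QuotientGroup.mk_surjective x
  have h3 : s ^ 3 ∈ Subgroup.center (Matrix.SpecialLinearGroup (Fin 3) F) := by
    rw [← QuotientGroup.eq_one_iff, QuotientGroup.mk_pow]
    have := pow_orderOf_eq_one (QuotientGroup.mk s : Matrix.ProjectiveSpecialLinearGroup (Fin 3) F)
    rwa [hx] at this
  obtain ⟨c, hc, hcs⟩ := Matrix.SpecialLinearGroup.mem_center_iff.1 h3
  have hs3 : (s : Matrix (Fin 3) (Fin 3) F) ^ 3 = Matrix.scalar (Fin 3) c := by
    rw [hcs, Matrix.SpecialLinearGroup.coe_pow]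
  have hc0 : c ≠ 0 := by
    rintro rfl
    simp at hc
  have hcube : ∀ a : F, a ≠ 0 → a ^ 3 = 1 := by
    intro a ha
    have := FiniteField.pow_card_sub_one_eq_one a ha
    rwa [hF] at this
  have hX4 : (X ^ 3 - 1 : F[X]) = ∏ a ∈ (Finset.univ.erase (0 : F) : Finset F), (X - C a) := by
    have h1 := prod_all F
    rw [hF, ← Finset.mul_prod_erase Finset.univ (fun a : F => (X - C a)) (Finset.mem_univ 0)] at h1
    have h2 : (X ^ 4 - X : F[X]) = (X - C 0) * (X ^ 3 - 1) := by rw [C_0]; ring
    rw [h2] at h1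
    exact (mul_left_cancel₀ (X_sub_C_ne_zero 0) h1).symm
  by_cases hc1 : c = 1
  · subst hc1
    have hs1 : (s : Matrix (Fin 3) (Fin 3) F) ^ 3 = 1 := by rw [hs3, map_one]
    have hs1' : s ^ 3 = 1 := by
      apply Subtype.ext
      rw [Matrix.SpecialLinearGroup.coe_pow, hs1]; rfl
    have h3F : ((3 : ℕ) : F) ≠ 0 := natCast_ne_zero_of_coprime 2 (by norm_num)
    obtain ⟨k, f, hdec, hirr⟩ := exists_isDec_of_pow_eq_one (s : Matrix (Fin 3) (Fin 3) F) 3 h3F hs1
    have hfd : ∀ j, f j ∣ X ^ 3 - 1 := by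
      rw [← aeval_eq_zero_iff hdec, map_sub, map_pow, aeval_X, map_one, mulVecLin_pow, hs1, Matrix.mulVecLin_one]
      exact sub_self _
    have hlin : ∀ j, ∃ a : F, a ≠ 0 ∧ f j = X - C a := by
      intro j
      have h1 := hfd j
      rw [hX4, (hirr j).prime.dvd_finset_prod_iff] at h1
      obtain ⟨a, ha, had⟩ := h1
      exact ⟨a, Finset.ne_of_mem_erase ha, eq_of_dvd_irr (hdec.1 j) (monic_X_sub_C a) (hirr j) (irreducible_X_sub_C a) had⟩
    choose a ha0 ha using hlin
    have hk : k = 3 := by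
      have := finrank_of_isDec hdec
      rw [Module.finrank_fintype_fun_eq_card, Fintype.card_fin, Finset.sum_congr rfl (fun j _ => by rw [ha j, natDegree_X_sub_C])] at this
      simpa using this.symm
    subst hk
    have hcp : (s : Matrix (Fin 3) (Fin 3) F).charpoly = ∏ j, (X - C (a j)) := by
      rw [← Matrix.charpoly_toLin', Matrix.toLin'_apply', charpoly_of_isDec hdec]
      exact Finset.prod_congr rfl (fun j _ => ha j)
    have hdet : a 0 * a 1 * a 2 = 1 := by
      have h1 := Matrix.det_eq_sign_charpoly_coeff (s : Matrix (Fin 3) (Fin 3) F)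
      rw [s.2, hcp, Fin.prod_univ_three, coeff_zero_eq_eval_zero] at h1
      simp at h1
      linear_combination -h1
    have hne : ¬ (a 0 = a 1 ∧ a 1 = a 2) := by
      rintro ⟨h1, h2⟩
      have h3 : aeval (s : Matrix (Fin 3) (Fin 3) F).mulVecLin (X - C (a 2)) = 0 := by
        rw [aeval_eq_zero_iff hdec]
        intro i
        rw [ha]
        fin_cases i <;> simp [h1, h2]
      have h4 : (s : Matrix (Fin 3) (Fin 3) F) = Matrix.scalar (Fin 3) (a 2) := by
        rw [map_sub, aeval_X, aeval_C, sub_eq_zero] at h3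
        ext i j
        have := congrFun (LinearMap.congr_fun h3 (Pi.single j 1)) i
        simp [Module.algebraMap_end_apply] at this
        rw [this, Matrix.scalar_apply, Matrix.diagonal_apply, Pi.single_apply]
        simp
      have h5 : s ∈ Subgroup.center (Matrix.SpecialLinearGroup (Fin 3) F) :=
        Matrix.SpecialLinearGroup.mem_center_iff.2 ⟨a 2, by rw [Fintype.card_fin]; exact hcube _ (ha0 2), h4.symm⟩
      rw [← QuotientGroup.eq_one_iff] at h5
      rw [h5, orderOf_one] at hx
      omega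
    have hq : ∀ b d : F, b ≠ 0 → b * b * d = 1 → d = b := by
      intro b d hb h
      have h1 := hcube b hb
      have h2 : b * b ≠ 0 := mul_ne_zero hb hb
      apply mul_left_cancel₀ h2
      rw [h]
      linear_combination -h1
    have h01 : a 0 ≠ a 1 := by
      intro h
      apply hne
      refine ⟨h, ?_⟩
      have := hq (a 0) (a 2) (ha0 0) (by rw [← hdet]; rw [← h])
      rw [this, h]
    have h02 : a 0 ≠ a 2 := by
      intro h
      have := hq (a 0) (a 1) (ha0 0) (by rw [← hdet]; rw [← h]; ring)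
      exact h01 this.symm
    have h12 : a 1 ≠ a 2 := by
      intro h
      have := hq (a 1) (a 0) (ha0 1) (by rw [← hdet]; rw [← h]; ring)
      exact h01 this
    have hinj : Function.Injective a := by
      intro i j hij
      fin_cases i <;> fin_cases j <;> simp_all
    have himg : Finset.univ.image a = Finset.univ.erase (0 : F) := by
      apply Finset.eq_of_subset_of_card_le
      · intro b hb
        obtain ⟨j, -, rfl⟩ := Finset.mem_image.1 hb
        exact Finset.mem_erase.2 ⟨ha0 j, Finset.mem_univ _⟩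
      · rw [Finset.card_erase_of_mem (Finset.mem_univ _), Finset.card_univ, hF, Finset.card_image_of_injective _ hinj, Finset.card_univ, Fintype.card_fin]
    refine ⟨s, rfl, ?_, ?_⟩
    · have h1 : orderOf s ∣ 3 := orderOf_dvd_of_pow_eq_one hs1'
      exact Nat.Coprime.coprime_dvd_left h1 (by norm_num)
    · rw [hcp, ← himg, Finset.prod_image (fun i _ j _ h => hinj h)]
  · exfalso
    have hdeg : (X ^ 3 - C c : F[X]).natDegree = 3 := natDegree_X_pow_sub_C
    have hirrc : Irreducible (X ^ 3 - C c : F[X]) := by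
      apply Polynomial.irreducible_of_degree_le_three_of_not_isRoot
      · rw [hdeg]; decide
      · intro b hb
        rw [IsRoot.def, eval_sub, eval_pow, eval_X, eval_C, sub_eq_zero] at hb
        by_cases hb0 : b = 0
        · rw [hb0] at hb
          apply hc0
          rw [← hb]; simp
        · rw [hcube b hb0] at hb
          exact hc1 hb.symm
    obtain ⟨k, f, hdec, hpp⟩ := exists_isDec (s : Matrix (Fin 3) (Fin 3) F).mulVecLin
    have hfd : ∀ j, f j ∣ X ^ 3 - C c := by
      rw [← aeval_eq_zero_iff hdec, map_sub, map_pow, aeval_X, aeval_C, mulVecLin_pow, hs3, sub_eq_zero]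
      apply LinearMap.ext
      intro v
      simp [Module.algebraMap_end_apply]
    have hmon : (X ^ 3 - C c : F[X]).Monic := monic_X_pow_sub_C c (by norm_num)
    have hfe : ∀ j, f j = X ^ 3 - C c := by
      intro j
      obtain ⟨p, e, hp, hpi, he, hfj⟩ := hpp j
      have h1 : p ∣ X ^ 3 - C c := (dvd_pow_self p (by omega : e ≠ 0)).trans (by rw [← hfj]; exact hfd j)
      have h2 := eq_of_dvd_irr hp hmon hpi hirrc h1
      have h3 : (X ^ 3 - C c : F[X]) ∣ f j := by rw [hfj, h2]; exact dvd_pow_self _ (by omega)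
      exact Polynomial.eq_of_monic_of_associated (hdec.1 j) hmon (associated_of_dvd_dvd (hfd j) h3)
    have hk : k = 1 := by
      have := finrank_of_isDec hdec
      rw [Module.finrank_fintype_fun_eq_card, Fintype.card_fin, Finset.sum_congr rfl (fun j _ => by rw [hfe j, hdeg])] at this
      simp at this
      omega
    subst hk
    have hcp : (s : Matrix (Fin 3) (Fin 3) F).charpoly = X ^ 3 - C c := by
      rw [← Matrix.charpoly_toLin', Matrix.toLin'_apply', charpoly_of_isDec hdec]
      simp [hfe]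
    have h1 := Matrix.det_eq_sign_charpoly_coeff (s : Matrix (Fin 3) (Fin 3) F)
    rw [s.2, hcp, coeff_zero_eq_eval_zero] at h1
    simp at h1
    exact hc1 (by linear_combination -h1)

/-- In the projective special linear group PSL(3, 4) all subgroups of order 3 are conjugate. -/
theorem result (F : Type*) [Field F] [Fintype F] (hF : Fintype.card F = 4) (X Y : Subgroup (Matrix.ProjectiveSpecialLinearGroup (Fin 3) F)) (hX : Nat.card ↥X = 3) (hY : Nat.card ↥Y = 3) : ∃ g : Matrix.ProjectiveSpecialLinearGroup (Fin 3) F, MulAut.conj g • X = Y := by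
  classical
  haveI : CharP F 2 := by
    obtain ⟨p, hp⟩ := CharP.exists F
    haveI : Fact p.Prime := ⟨CharP.char_is_prime F p⟩
    obtain ⟨n, hn1, hn2⟩ := FiniteField.card F p
    have h2 : p ∣ 2 ^ 2 := by
      have : (2 : ℕ) ^ 2 = p ^ (n : ℕ) := by rw [← hn2, hF]; norm_num
      rw [this]; exact dvd_pow_self p n.pos.ne'
    have h3 : p = 2 := (Nat.prime_dvd_prime_iff_eq hn1 Nat.prime_two).1 (hn1.dvd_of_dvd_pow h2)
    rwa [h3] at hp
  haveI : Fact (Nat.Prime 2) := ⟨Nat.prime_two⟩
  have hcyc : ∀ X : Subgroup (Matrix.ProjectiveSpecialLinearGroup (Fin 3) F), Nat.card X = 3 → ∃ x, orderOf x = 3 ∧ X = Subgroup.zpowers x := by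
    intro X hX
    haveI : Fact (Nat.Prime 3) := ⟨Nat.prime_three⟩
    haveI : Finite X := Nat.finite_of_card_ne_zero (by omega)
    obtain ⟨x, hx⟩ := exists_prime_orderOf_dvd_card' (G := X) 3 (by rw [hX])
    refine ⟨x, (Subgroup.orderOf_coe x).trans hx, ?_⟩
    symm
    apply Subgroup.eq_of_le_of_card_ge
    · rw [Subgroup.zpowers_le]; exact x.2
    · rw [hX, Nat.card_zpowers, Subgroup.orderOf_coe, hx]
  obtain ⟨x, hx, rfl⟩ := hcyc X hX
  obtain ⟨y, hy, rfl⟩ := hcyc Y hY
  obtain ⟨s, rfl, hs1, hs2⟩ := key F hF x hx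
  obtain ⟨t, rfl, ht1, ht2⟩ := key F hF y hy
  have hinj : Function.Injective (Matrix.SpecialLinearGroup.toGL : Matrix.SpecialLinearGroup (Fin 3) F →* GL (Fin 3) F) := by
    intro a b h
    apply Subtype.ext
    exact congrArg Units.val h
  have hc : IsConj s t := by
    apply sl_conj_of_gl_conj 2 s t hs1
    apply gl_conj_of_charpoly_eq 2
    · rw [orderOf_injective _ hinj]; exact hs1
    · rw [orderOf_injective _ hinj]; exact ht1
    · have h2 : ∀ z : Matrix.SpecialLinearGroup (Fin 3) F, ((Matrix.SpecialLinearGroup.toGL z : GL (Fin 3) F) : Matrix (Fin 3) (Fin 3) F) = (z : Matrix (Fin 3) (Fin 3) F) := fun z => rfl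
      rw [h2, h2, hs2, ht2]
  obtain ⟨g, hg⟩ := isConj_iff.1 hc
  refine ⟨QuotientGroup.mk g, ?_⟩
  rw [Subgroup.pointwise_smul_def, MulDistribMulAction.toMonoidEnd_apply]
  rw [MonoidHom.map_zpowers]
  congr 1
  show (QuotientGroup.mk g : Matrix.ProjectiveSpecialLinearGroup (Fin 3) F) * QuotientGroup.mk s * (QuotientGroup.mk g)⁻¹ = QuotientGroup.mk t
  rw [← hg]; rfl

end Cfsg.Agent.S2739
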