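import Cfsg.Statements.S2760
import Cfsg.Agent.H6.CharP
import Cfsg.Agent.H6.Fus8
-- import your own Cfsg.Agent.* helpers here

set_option autoImplicit false
open Cfsg

namespace Cfsg.Agent.S2760

/-- Let G be a finite group with C_G(O₂(G)) ≤ O₂(G) and H a subgroup of G such that H is normal in G, or the subgroup O²(H) generated by the elements of H of odd order is normal in G. Then C_H(O₂(H)) ≤ O₂(H). -/
theorem result {G : Type*} [Group G] [Finite G] (hchar : Subgroup.centralizer (Cfsg.pCore 2 G : Set G) ≤ Cfsg.pCore 2 G) (H : Subgroup G) (hH : H.Normal ∨ ((Cfsg.pResidual 2 ↥H).map H.subtype).Normal) : Subgroup.centralizer (Cfsg.pCore 2 ↥H : Set ↥H) ≤ Cfsg.pCore 2 ↥H := by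
  haveI : Fact (Nat.Prime 2) := ⟨Nat.prime_two⟩
  have h1 : Cfsg.Agent.H6.CP 2 (⊤ : Subgroup G) := Cfsg.Agent.H6.cp_top_iff.mpr hchar
  apply Cfsg.Agent.H6.cp_iff_cent.mp
  rcases hH with hH | hH
  · exact h1.normal le_top (by rw [Subgroup.normalizer_eq_top H])
  · obtain ⟨K, hK⟩ : ∃ K, K = (Cfsg.pResidual 2 ↥H).map H.subtype := ⟨_, rfl⟩
    rw [← hK] at hH
    have hKH : K ≤ H := by rw [hK]; exact Subgroup.map_subtype_le _
    have hCK : Cfsg.Agent.H6.CP 2 K := h1.normal le_top (by rw [Subgroup.normalizer_eq_top K])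
    intro w hw hwo hwc
    have hwK : w ∈ K := by rw [hK]; exact Cfsg.Agent.H6.mem_pResidualOf hw hwo
    refine hCK w hwK hwo (fun a ha => hwc a ?_)
    exact Cfsg.Agent.H6.pCoreOf_mono_normal hKH (by rw [Subgroup.normalizer_eq_top K]; exact le_top) ha

end Cfsg.Agent.S2760
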