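import Cfsg.Statements.S2791
import Cfsg.Agent.H6.Fus4

set_option autoImplicit false
open Cfsg

namespace Cfsg.Agent.S2791

/-- Let S be a Sylow p-subgroup of the finite group G and A an abelian subgroup of S that is strongly closed in S with respect to G. Then A controls strong fusion in G: for some Sylow p-subgroup T containing A, whenever a subset of T is conjugated into T by an element of G, the same elementwise conjugation is induced by an element of N_G(A). -/
theorem result {G : Type*} [Group G] [Finite G] {p : ℕ} [Fact p.Prime] (S : Sylow p G) (A : Subgroup G) (hA : IsMulCommutative ↥A) (hsc : Cfsg.IsStronglyClosed A (S : Subgroup G)) : Cfsg.ControlsStrongFusion p A := by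
  refine ⟨S, hsc.1, fun B hB => ⟨hB, fun g hg => ?_⟩⟩
  have h1 : Agent.H6.rc g⁻¹ B ⊆ (S : Subgroup G) := by
    rintro _ ⟨b, hb, rfl⟩
    exact hg ⟨b, hb, by simp⟩
  obtain ⟨c, hc, h, hh, hch⟩ := Agent.H6.sfus_of_rad S A
    (fun D hD _ hrad => Agent.H6.sc_abelian_control S hA hsc hD hrad) B g⁻¹ hB h1
  refine ⟨h⁻¹, inv_mem hh, fun a ha => ?_⟩
  have h2 := Subgroup.mem_centralizer_iff.1 hc a ha
  have h3 : g = h⁻¹ * c⁻¹ := by rw [← mul_inv_rev, ← hch, inv_inv]
  rw [h3]
  calc h⁻¹ * c⁻¹ * a * (h⁻¹ * c⁻¹)⁻¹ = h⁻¹ * (c⁻¹ * (a * c)) * h := by group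
    _ = h⁻¹ * (c⁻¹ * (c * a)) * h := by rw [h2]
    _ = h⁻¹ * a * h⁻¹⁻¹ := by group

end Cfsg.Agent.S2791
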