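import Cfsg.Statements.S2794
import Cfsg.Agent.H2.QdFacts
import Mathlib

set_option autoImplicit false
open Cfsg

namespace Cfsg.Agent.S2794

open Cfsg.Agent.H2
universe v
theorem csf_of_zf' {G : Type v} [Group G] [Finite G] {p m : ℕ} [hp : Fact p.Prime] (h : ZF p m G) (P : Sylow p G) :
    ControlsStrongFusion p (zz m (P : Subgroup G)) :=
  ⟨P, zz_le, fun A hA => csf_of_zf h P (stronglyClosed_self _) A hA⟩

theorem qd_not_csf {p : ℕ} [Fact p.Prime] (T : Sylow p (qd p)) :
    ¬ ControlsStrongFusion p (zz 0 (T : Subgroup (qd p))) := by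
  rintro ⟨T', hUT', hctl⟩
  have hU1 : zz 0 (T : Subgroup (qd p)) ≠ ⊥ := by
    refine zz_ne_bot (p := p) (Or.inl rfl) T.2 ?_
    intro h
    have h1 := card_sylow T
    rw [h] at h1
    have h2 : Nat.card (⊥ : Subgroup (qd p)) = 1 := Subgroup.card_bot
    rw [h2] at h1
    have := Nat.one_lt_pow (n := 3) (by norm_num) (Fact.out : p.Prime).one_lt
    omega
  -- `zz` is the image of a characteristic subgroup
  set U0 : Subgroup T := zz 0 (⊤ : Subgroup T) with hU0
  have hmap : U0.map (T : Subgroup (qd p)).subtype = zz 0 (T : Subgroup (qd p)) := by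
    rw [hU0, zz_map _ (Subgroup.subtype_injective _), ← MonoidHom.range_eq_map, Subgroup.range_subtype]
  have hU0c : U0.Characteristic := by
    rw [Subgroup.characteristic_iff_map_eq]
    intro φ
    rw [hU0]
    have h1 := zz_equiv (m := 0) (D := (⊤ : Subgroup T)) φ
    rw [h1]
    congr 1
    exact Subgroup.map_top_of_surjective _ φ.surjective
  have hU01 : U0 ≠ ⊥ := by
    intro h
    apply hU1
    rw [← hmap, h, Subgroup.map_bot]
  obtain ⟨hN, hNtop⟩ := char_norm T U0 hU01 hU0c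
  rw [hmap] at hN
  rw [hN] at hctl
  -- `N(T)` is contained in a conjugate of the Borel subgroup
  obtain ⟨g, hg⟩ := MulAction.exists_smul_eq (qd p) (qSyl p) T
  have hgS : H6.cj g (qS p) = (T : Subgroup (qd p)) := by
    have := congrArg (fun T : Sylow p (qd p) => (T : Subgroup (qd p))) hg
    exact this
  have hVT' : qV p ≤ (T' : Subgroup (qd p)) := L0.normal_le_sylow qV_isPGroup T'
  let v : Fin 2 → ZMod p := ![1, 0]
  let w : Fin 2 → ZMod p := ![0, 1]
  have hv : v ≠ 0 := by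
    intro h; have := congrFun h 0; simp [v] at this
  have hw : w ≠ 0 := by
    intro h; have := congrFun h 1; simp [w] at this
  obtain ⟨x, hx⟩ := qV_conj hv hw
  have hz1 : g * qm 1 v * g⁻¹ ∈ (T' : Subgroup (qd p)) := hVT' (qV_normal.conj_mem _ ⟨v, rfl⟩ g)
  have hz2 : g * qm 1 w * g⁻¹ ∈ (T' : Subgroup (qd p)) := hVT' (qV_normal.conj_mem _ ⟨w, rfl⟩ g)
  obtain ⟨-, h2⟩ := hctl {g * qm 1 v * g⁻¹} (by rintro _ rfl; exact hz1)
  obtain ⟨n, hn, hna⟩ := h2 (g * x * g⁻¹) (by
    rintro _ ⟨_, rfl, rfl⟩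
    have e : g * x * g⁻¹ * (g * qm 1 v * g⁻¹) * (g * x * g⁻¹)⁻¹ = g * (x * qm 1 v * x⁻¹) * g⁻¹ := by group
    show g * x * g⁻¹ * (g * qm 1 v * g⁻¹) * (g * x * g⁻¹)⁻¹ ∈ _
    rw [e, hx]; exact hz2)
  have h3 := hna _ rfl
  have h4 : g⁻¹ * n * g ∈ Subgroup.normalizer ((qS p : Subgroup (qd p)) : Set (qd p)) := by
    have h5 : n ∈ H6.cj g (Subgroup.normalizer ((qS p : Subgroup (qd p)) : Set (qd p))) := by
      rw [H6.cj_normalizer, hgS]; exact hn
    exact H6.mem_cj.1 h5
  obtain ⟨A, u, hA⟩ := exists_qm (g⁻¹ * n * g)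
  rw [hA, mem_norm_qS] at h4
  have h5 : qm A u * qm 1 v * (qm A u)⁻¹ = qm 1 w := by
    rw [← hA, ← hx]
    calc g⁻¹ * n * g * qm 1 v * (g⁻¹ * n * g)⁻¹ = g⁻¹ * (n * (g * qm 1 v * g⁻¹) * n⁻¹) * g := by group
      _ = g⁻¹ * (g * x * g⁻¹ * (g * qm 1 v * g⁻¹) * (g * x * g⁻¹)⁻¹) * g := by rw [h3]
      _ = _ := by group
  rw [qm_conj] at h5
  have h6 := congrFun (qm_inj h5).2 1
  simp [Matrix.mulVec, dotProduct, Fin.sum_univ_two, v, w, h4] at h6

theorem csf_equiv {H K : Type*} [Group H] [Group K] [Finite H] [Finite K] {p : ℕ} [Fact p.Prime] (e : H ≃* K)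
    (h : ∀ T : Sylow p H, ControlsStrongFusion p (zz 0 (T : Subgroup H))) (T : Sylow p K) :
    ControlsStrongFusion p (zz 0 (T : Subgroup K)) := by
  have hes : Function.Surjective e.symm.toMonoidHom := e.symm.surjective
  obtain ⟨T1, hU, hctl⟩ := h (T.mapSurjective hes)
  have hback : ∀ X : Subgroup K, (X.map e.symm.toMonoidHom).map e.toMonoidHom = X := by
    intro X
    rw [Subgroup.map_map]
    have h3 : e.toMonoidHom.comp e.symm.toMonoidHom = MonoidHom.id K := by ext; simp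
    rw [h3, Subgroup.map_id]
  have hZ : zz 0 (T : Subgroup K) = (zz 0 ((T.mapSurjective hes : Sylow p H) : Subgroup H)).map e.toMonoidHom := by
    rw [Sylow.coe_mapSurjective, ← zz_map e.symm.toMonoidHom e.symm.injective, hback]
  rw [hZ]
  refine ⟨T1.mapSurjective (f := e.toMonoidHom) e.surjective, ?_, ?_⟩
  · rw [Sylow.coe_mapSurjective]
    exact Subgroup.map_mono hU
  · intro A hA
    refine ⟨hA, ?_⟩
    intro g hg
    change A ⊆ (((T1 : Subgroup H).map e.toMonoidHom : Subgroup K) : Set K) at hA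
    change _ ⊆ (((T1 : Subgroup H).map e.toMonoidHom : Subgroup K) : Set K) at hg
    have hmem : ∀ y : K, y ∈ (T1 : Subgroup H).map e.toMonoidHom → e.symm y ∈ (T1 : Subgroup H) := by
      rintro _ ⟨x, hx, rfl⟩
      have e1 : e.symm (e.toMonoidHom x) = x := e.symm_apply_apply x
      rw [e1]; exact hx
    obtain ⟨-, h2⟩ := hctl (e.symm '' A) (by
      rintro _ ⟨a, ha, rfl⟩
      exact hmem a (hA ha))
    obtain ⟨x, hx, hxa⟩ := h2 (e.symm g) (by
      rintro _ ⟨_, ⟨a, ha, rfl⟩, rfl⟩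
      have h4 := hmem _ (hg ⟨a, ha, rfl⟩)
      rw [map_mul, map_mul, map_inv] at h4
      exact h4)
    refine ⟨e x, ?_, ?_⟩
    · rw [H6.mem_norm] at hx ⊢
      have := congrArg (fun X : Subgroup H => X.map e.toMonoidHom) hx
      simp only [H6.map_cj] at this
      exact this
    · intro a ha
      have := hxa (e.symm a) ⟨a, ha, rfl⟩
      have h3 := congrArg e this
      simpa using h3

/-- For an odd prime p and a finite group G, the group Qd(p) is not involved in G if and only if in every section K/R of G, for every Sylow p-subgroup S* of K/R, the centre of J(S*) (J generated by the abelian subgroups of largest order) controls strong fusion in K/R. -/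
theorem result {G : Type*} [Group G] [Finite G] {p : ℕ} [Fact p.Prime] (hp : p ≠ 2) : ¬ Cfsg.Involves ↥(Cfsg.qd p) G ↔ ∀ (K R : Subgroup G) [hR : (R.subgroupOf K).Normal], ∀ T : Sylow p (K ⧸ R.subgroupOf K), Cfsg.ControlsStrongFusion p (Cfsg.centerThompsonAOf (T : Subgroup (K ⧸ R.subgroupOf K))) := by
  constructor
  · intro hfree K R hR T
    rw [centerThompsonAOf_eq]
    apply csf_of_zf'
    apply zf_of_qd_free hp (Or.inl rfl)
    intro hs
    apply hfree
    exact (hs.trans (((H6.Sec.refl G).subgroup K).quotient _)).involves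
  · rintro h ⟨K, R, hR, ⟨e⟩⟩
    haveI := hR
    obtain ⟨T⟩ : Nonempty (Sylow p (qd p)) := inferInstance
    refine qd_not_csf T (csf_equiv e ?_ T)
    intro T
    rw [← centerThompsonAOf_eq]
    exact h K R T

end Cfsg.Agent.S2794
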