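import Cfsg.Statements.S2800
import Cfsg.Agent.H2.FusThom
import Mathlib

set_option autoImplicit false
open Cfsg

namespace Cfsg.Agent.S2800

open Cfsg.Agent.H2 Cfsg.Agent.L0 Cfsg.Agent.L0.Fus Cfsg.FusionSystem

/-- Let S be a Sylow p-subgroup of the finite group G and J(S) the subgroup generated by the abelian subgroups of S of largest order. Suppose p is odd, or the symmetric group of degree 4 is not involved in G. If both C_G(Z(S)) and N_G(J(S)) have normal p-complements, then G has a normal p-complement. -/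
theorem result {G : Type*} [Group G] [Finite G] {p : ℕ} [Fact p.Prime] (S : Sylow p G) (h : p ≠ 2 ∨ ¬ Cfsg.Involves (Equiv.Perm (Fin 4)) G) (hC : Cfsg.HasNormalPComplement p ↥(Subgroup.centralizer (((S : Subgroup G) ⊓ Subgroup.centralizer ((S : Subgroup G) : Set G) : Subgroup G) : Set G))) (hN : Cfsg.HasNormalPComplement p ↥(Subgroup.normalizer ((Cfsg.thompsonSubgroupAOf (S : Subgroup G)) : Set G))) : Cfsg.HasNormalPComplement p G := by
  have hfree : p ≠ 2 ∨ (groupFusionSystem (S : Subgroup G)).IsSectionFree p (Equiv.Perm (Fin 4)) :=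
    h.imp_right (fun h => group_sectionFree S h)
  -- local innerness from local `p`-nilpotence
  have key : ∀ (N : Subgroup G) (hSN : (S : Subgroup G) ≤ N), HasNormalPComplement p ↥N → ∀ (Y : Subgroup G) (φ : Y →* G)
      (hY : Y ≤ (S : Subgroup G)) (hφ : ∀ x, φ x ∈ (S : Subgroup G)) (g : G), g ∈ N → (∀ x : Y, φ x = g * x * g⁻¹) →
      φ ∈ (innerFusionSystem (S : Subgroup G)).Hom Y := by
    intro N hSN hN Y φ hY hφ g hg hgx
    have hcoe : ((S.subtype hSN : Sylow p N) : Subgroup N) = (S : Subgroup G).subgroupOf N := Sylow.coe_subtype _ _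
    obtain ⟨s, hs, hsx⟩ := inner_of_npc (S.subtype hSN) hN ((Y.subgroupOf N : Subgroup N) : Set N) ⟨g, hg⟩ (by
      rw [hcoe]; exact fun x hx => hY hx) (by
      intro x hx
      rw [hcoe]
      show g * x * g⁻¹ ∈ (S : Subgroup G)
      have := hgx ⟨x, hx⟩
      change _ = g * (x : G) * g⁻¹ at this
      rw [← this]; exact hφ _)
    rw [hcoe] at hs
    refine ⟨hY, s, hs, fun x => ?_⟩
    have h1 := hsx ⟨x, hSN (hY x.2)⟩ x.2
    rw [hgx x]
    exact (congrArg Subtype.val h1).symm
  have hin : groupFusionSystem (S : Subgroup G) ≤ innerFusionSystem (S : Subgroup G) := by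
    refine thompson_inner G (S : Subgroup G) _ S.2 (group_saturated S) hfree ?_ ?_
    · rintro Y φ ⟨h1, h2, h3, ψ, ⟨hψ1, hψ2, g, hg⟩, h4, h5⟩
      refine key _ ?_ hC Y φ (h2.trans inf_le_left) (fun x => (h3 x).1) g ?_ (fun x => by rw [← h4 x, hg]; rfl)
      · rw [Subgroup.le_centralizer_iff]; exact inf_le_right
      · rw [Subgroup.mem_centralizer_iff]
        intro z hz
        have e1 := h5 ⟨z, hz⟩
        rw [hg] at e1
        have e2 : g * z * g⁻¹ = z := e1
        calc z * g = (g * z * g⁻¹) * g := by rw [e2]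
          _ = g * z := by group
    · rintro Y φ ⟨h1, h2, h3, ψ, ⟨hψ1, hψ2, g, hg⟩, h4, h5⟩
      refine key _ (Subgroup.le_normalizer.trans (norm_le_norm_jj _)) hN Y φ (h2.trans inf_le_left) (fun x => (h3 x).1) g ?_
        (fun x => by rw [← h4 x, hg]; rfl)
      apply H2.mem_norm_of_conj
      intro x hx
      have := hg ⟨x, (le_sup_right : _ ≤ Y ⊔ thompsonSubgroupAOf (S : Subgroup G)) hx⟩
      rw [← this]
      exact h5.le ⟨⟨x, (le_sup_right : _ ≤ Y ⊔ thompsonSubgroupAOf (S : Subgroup G)) hx⟩, hx, rfl⟩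
  refine npc_of_inner S ?_
  intro Q g hQ hg
  obtain ⟨-, s, hs, hsx⟩ := hin Q (⟨hQ, fun x => hg x x.2, g, fun x => rfl⟩ : conjHom Q g ∈ (groupFusionSystem (S : Subgroup G)).Hom Q)
  exact ⟨s, hs, fun x hx => (hsx ⟨x, hx⟩).symm⟩

end Cfsg.Agent.S2800
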