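import Cfsg.Statements.S3085
import Cfsg.Agent.H6.ExtraSplit

set_option autoImplicit false
open Cfsg

namespace Cfsg.Agent.S3085

open Cfsg.Agent.H6

/-- Let Q be an extraspecial 2-group of order 2^(2n+1) with n ≥ 3 that is of plus type (it contains an elementary abelian subgroup of order 2^(n+1)). Then the group of inner automorphisms of Q has no complement in the full automorphism group of Q: the extension of the inner automorphism group (elementary abelian of order 2^(2n)) by the outer automorphism group (the orthogonal group of plus type) does not split. -/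
theorem result {Q : Type*} [Group Q] [Finite Q] (n : ℕ) (hn : 3 ≤ n) (hQ : Cfsg.IsExtraspecial 2 Q) (hcard : Nat.card Q = 2 ^ (2 * n + 1)) (hplus : ∃ E : Subgroup Q, Cfsg.IsElementaryAbelian 2 E ∧ Nat.card ↥E = 2 ^ (n + 1)) (L : Subgroup (MulAut Q)) : ¬ (Cfsg.Inn Q).IsComplement' L := by
  intro hcomp
  obtain ⟨z, hz⟩ := edata_of_extraspecial hQ
  refine no_complement_of_card hz ?_ L ?_ ?_
  · rw [hcard]
    calc 33 ≤ 2 ^ 7 := by norm_num
      _ ≤ 2 ^ (2 * n + 1) := Nat.pow_le_pow_right (by norm_num) (by omega)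
  · intro f
    obtain ⟨⟨⟨i, hi⟩, ⟨l, hl⟩⟩, hil⟩ := hcomp.2 f
    obtain ⟨w, rfl⟩ := hi
    refine ⟨w⁻¹, ?_⟩
    have e : MulAut.conj w⁻¹ * f = l := by
      rw [← hil, map_inv]
      change (MulAut.conj w)⁻¹ * (MulAut.conj w * l) = l
      rw [inv_mul_cancel_left]
    rw [e]; exact hl
  · intro w hw
    have h1 := hcomp.disjoint.le_bot ⟨⟨w, rfl⟩, hw⟩
    exact Subgroup.mem_bot.1 h1

end Cfsg.Agent.S3085
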