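import Cfsg.Statements.S3379
import Mathlib.GroupTheory.SpecificGroups.ZGroup

set_option autoImplicit false
open Cfsg

namespace Cfsg.Agent.S3379

/-- Let G be a finite group all of whose Sylow subgroups are cyclic. Then G is generated by two elements x and y of coprime orders n and m with x⁻¹yx = y^r, where gcd(r − 1, m) = 1 and r^n ≡ 1 (mod m). -/
theorem result {G : Type*} [Group G] [Finite G]
    (hZ : ∀ (p : ℕ) [Fact p.Prime] (P : Sylow p G), IsCyclic (P : Subgroup G)) :
    ∃ (x y : G) (n m r : ℕ), Subgroup.closure {x, y} = ⊤ ∧ orderOf x = n ∧ orderOf y = m ∧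
      x⁻¹ * y * x = y ^ r ∧ Nat.Coprime (r - 1) m ∧ Nat.Coprime n m ∧ 1 ≤ r ∧ r ^ n % m = 1 % m := by
    classical
    haveI hG : IsZGroup G := ⟨fun p hp P => by haveI : Fact p.Prime := ⟨hp⟩; exact hZ p P⟩
    obtain ⟨H, hH⟩ := Subgroup.exists_right_complement'_of_coprime hG.coprime_commutator_index
    have h1 : Abelianization G ≃* H := hH.symm.QuotientMulEquiv
    haveI hHc : IsCyclic H := isCyclic_of_surjective _ h1.surjective
    haveI hNc : IsCyclic (commutator G) := IsZGroup.isCyclic_commutator G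
    have hcop : (Nat.card (commutator G)).Coprime (Nat.card H) := Nat.card_congr h1.toEquiv ▸ hG.coprime_commutator_index
    obtain ⟨x0, hx0⟩ := hHc.exists_generator
    obtain ⟨y0, hy0⟩ := hNc.exists_generator
    obtain ⟨x, hx⟩ : ∃ x : G, x = x0 := ⟨_, rfl⟩
    obtain ⟨y, hy⟩ : ∃ y : G, y = y0 := ⟨_, rfl⟩
    have hHx : H = Subgroup.zpowers x := by
      apply le_antisymm
      · intro h hh
        obtain ⟨i, hi⟩ := hx0 ⟨h, hh⟩
        refine ⟨i, ?_⟩
        have := congrArg (fun t : H => (t : G)) hi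
        rw [hx]; simpa using this
      · rw [Subgroup.zpowers_le, hx]; exact x0.2
    have hNy : commutator G = Subgroup.zpowers y := by
      apply le_antisymm
      · intro h hh
        obtain ⟨i, hi⟩ := hy0 ⟨h, hh⟩
        refine ⟨i, ?_⟩
        have := congrArg (fun t : commutator G => (t : G)) hi
        rw [hy]; simpa using this
      · rw [Subgroup.zpowers_le, hy]; exact y0.2
    have hgen : Subgroup.closure ({x, y} : Set G) = ⊤ := by
      rw [eq_top_iff, ← hH.sup_eq_top]
      apply sup_le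
      · rw [hNy, Subgroup.zpowers_le]; exact Subgroup.subset_closure (by simp)
      · rw [hHx, Subgroup.zpowers_le]; exact Subgroup.subset_closure (by simp)
    have hm0 : 0 < orderOf y := orderOf_pos y
    obtain ⟨r, hr1, hr⟩ : ∃ r : ℕ, 1 ≤ r ∧ x⁻¹ * y * x = y ^ r := by
      have h2 : x⁻¹ * y * x ∈ commutator G := by
        have := (inferInstance : (commutator G).Normal).conj_mem y (by rw [hNy]; exact Subgroup.mem_zpowers y) x⁻¹
        simpa using this
      rw [hNy, ← mem_powers_iff_mem_zpowers] at h2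
      obtain ⟨r0, hr0⟩ := h2
      refine ⟨r0 + orderOf y, by omega, ?_⟩
      rw [pow_add, pow_orderOf_eq_one, mul_one]
      exact hr0.symm
    -- M = <y^(r-1)>
    have hMx : x⁻¹ ∈ Subgroup.normalizer (Subgroup.zpowers (y ^ (r - 1)) : Set G) := by
      apply Subgroup.mem_normalizer_fintype
      rintro _ ⟨j, rfl⟩
      have e : x⁻¹ * (y ^ (r - 1)) ^ j * (x⁻¹)⁻¹ = ((y ^ (r - 1)) ^ j) ^ r := by
        rw [← zpow_natCast y (r - 1), ← zpow_mul, inv_inv]
        have h3 : ∀ k : ℤ, x⁻¹ * y ^ k * x = (x⁻¹ * y * x) ^ k := by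
          intro k
          have := conj_zpow (a := x⁻¹) (b := y) (i := k)
          rw [inv_inv] at this
          exact this.symm
        rw [h3, hr, ← zpow_natCast, ← zpow_natCast, ← zpow_mul, ← zpow_mul, mul_comm]
      show x⁻¹ * (y ^ (r - 1)) ^ j * (x⁻¹)⁻¹ ∈ _
      rw [e]
      exact Subgroup.pow_mem _ (Subgroup.mem_zpowers_iff.mpr ⟨j, rfl⟩) r
    have hMy : y ∈ Subgroup.normalizer (Subgroup.zpowers (y ^ (r - 1)) : Set G) := by
      apply Subgroup.mem_normalizer_fintype
      rintro _ ⟨j, rfl⟩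
      have h3 : Commute y ((y ^ (r - 1)) ^ j) := ((Commute.refl y).pow_right _).zpow_right j
      show y * (y ^ (r - 1)) ^ j * y⁻¹ ∈ _
      rw [h3.eq, mul_inv_cancel_right]
      exact ⟨j, rfl⟩
    haveI hMn : (Subgroup.zpowers (y ^ (r - 1))).Normal := by
      rw [← Subgroup.normalizer_eq_top_iff, eq_top_iff, ← hgen, Subgroup.closure_le]
      rintro z (rfl | rfl)
      · have := inv_mem hMx
        rwa [inv_inv] at this
      · exact hMy
    have hxy : Commute ((x : G) : G ⧸ Subgroup.zpowers (y ^ (r - 1))) ((y : G) : G ⧸ Subgroup.zpowers (y ^ (r - 1))) := by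
      have h3 : x⁻¹ * y * x = y * y ^ (r - 1) := by
        rw [hr, ← pow_succ']; congr 1; omega
      have h4 : y * x = x * (y * y ^ (r - 1)) := by rw [← h3]; group
      show ((x * y : G) : G ⧸ Subgroup.zpowers (y ^ (r - 1))) = ((y * x : G) : G ⧸ Subgroup.zpowers (y ^ (r - 1)))
      rw [h4, QuotientGroup.eq]
      have e : (x * y)⁻¹ * (x * (y * y ^ (r - 1))) = y ^ (r - 1) := by group
      rw [e]; exact Subgroup.mem_zpowers _
    have hqgen : Subgroup.closure ({((x : G) : G ⧸ Subgroup.zpowers (y ^ (r - 1))), ((y : G) : G ⧸ Subgroup.zpowers (y ^ (r - 1)))} : Set (G ⧸ Subgroup.zpowers (y ^ (r - 1)))) = ⊤ := by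
      have h3 : (Subgroup.closure ({x, y} : Set G)).map (QuotientGroup.mk' (Subgroup.zpowers (y ^ (r - 1)))) = ⊤ := by
        rw [hgen, ← MonoidHom.range_eq_map]
        exact MonoidHom.range_eq_top.mpr (QuotientGroup.mk'_surjective _)
      rw [MonoidHom.map_closure, Set.image_pair] at h3
      exact h3
    have hqc : ∀ a b : G ⧸ Subgroup.zpowers (y ^ (r - 1)), a * b = b * a := by
      have h3 : ∀ a : G ⧸ Subgroup.zpowers (y ^ (r - 1)), Commute a ((x : G) : G ⧸ Subgroup.zpowers (y ^ (r - 1))) ∧ Commute a ((y : G) : G ⧸ Subgroup.zpowers (y ^ (r - 1))) := by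
        intro a
        have h4 : a ∈ Subgroup.closure ({((x : G) : G ⧸ Subgroup.zpowers (y ^ (r - 1))), ((y : G) : G ⧸ Subgroup.zpowers (y ^ (r - 1)))} : Set (G ⧸ Subgroup.zpowers (y ^ (r - 1)))) := by
          rw [hqgen]; trivial
        induction h4 using Subgroup.closure_induction with
        | mem z hz =>
          rcases hz with rfl | rfl
          · exact ⟨Commute.refl _, hxy⟩
          · exact ⟨hxy.symm, Commute.refl _⟩
        | one => exact ⟨Commute.one_left _, Commute.one_left _⟩
        | mul z w _ _ hz hw => exact ⟨hz.1.mul_left hw.1, hz.2.mul_left hw.2⟩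
        | inv z _ hz => exact ⟨hz.1.inv_left, hz.2.inv_left⟩
      intro a b
      have h4 : b ∈ Subgroup.closure ({((x : G) : G ⧸ Subgroup.zpowers (y ^ (r - 1))), ((y : G) : G ⧸ Subgroup.zpowers (y ^ (r - 1)))} : Set (G ⧸ Subgroup.zpowers (y ^ (r - 1)))) := by
        rw [hqgen]; trivial
      show Commute a b
      induction h4 using Subgroup.closure_induction with
      | mem z hz =>
        rcases hz with rfl | rfl
        · exact (h3 a).1
        · exact (h3 a).2
      | one => exact Commute.one_right _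
      | mul z w _ _ hz hw => exact hz.mul_right hw
      | inv z _ hz => exact hz.inv_right
    have hNM : commutator G ≤ Subgroup.zpowers (y ^ (r - 1)) := by
      rw [commutator_def, Subgroup.commutator_le]
      intro a _ b _
      rw [← QuotientGroup.eq_one_iff]
      rw [commutatorElement_def, QuotientGroup.mk_mul, QuotientGroup.mk_mul, QuotientGroup.mk_mul, QuotientGroup.mk_inv, QuotientGroup.mk_inv, mul_inv_eq_one,
        mul_inv_eq_iff_eq_mul]
      exact hqc _ _
    have hcop2 : Nat.Coprime (r - 1) (orderOf y) := by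
      have h3 : orderOf y ∣ orderOf (y ^ (r - 1)) := by
        rw [← Nat.card_zpowers y, ← Nat.card_zpowers (y ^ (r - 1)), ← hNy]
        exact Subgroup.card_dvd_of_le hNM
      rw [orderOf_pow] at h3
      have h4 : 0 < (orderOf y).gcd (r - 1) := Nat.gcd_pos_of_pos_left _ hm0
      have h5 : orderOf y ≤ orderOf y / (orderOf y).gcd (r - 1) := Nat.le_of_dvd (Nat.div_pos (Nat.le_of_dvd hm0 (Nat.gcd_dvd_left _ _)) h4) h3
      have h6 : (orderOf y).gcd (r - 1) = 1 := by
        by_contra hne
        have h7 : 1 < (orderOf y).gcd (r - 1) := by omega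
        exact absurd (Nat.div_lt_self hm0 h7) (not_lt.mpr h5)
      rw [Nat.coprime_comm]; exact h6
    refine ⟨x, y, orderOf x, orderOf y, r, hgen, rfl, rfl, hr, hcop2, ?_, hr1, ?_⟩
    · rw [← Nat.card_zpowers, ← Nat.card_zpowers, ← hHx, ← hNy]; exact hcop.symm
    · have h3 : ∀ k : ℕ, (x ^ k)⁻¹ * y * x ^ k = y ^ (r ^ k) := by
        intro k
        induction k with
        | zero => simp
        | succ k ih =>
          have e : (x ^ (k + 1))⁻¹ * y * x ^ (k + 1) = x⁻¹ * ((x ^ k)⁻¹ * y * x ^ k) * x := by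
            rw [pow_succ]; group
          rw [e, ih]
          have h4 : x⁻¹ * y ^ (r ^ k) * x = (x⁻¹ * y * x) ^ (r ^ k) := by
            have := conj_pow (a := x⁻¹) (b := y) (i := r ^ k)
            rw [inv_inv] at this
            exact this.symm
          rw [h4, hr, ← pow_mul, pow_succ', mul_comm]
      have h4 := h3 (orderOf x)
      rw [pow_orderOf_eq_one, inv_one, one_mul, mul_one] at h4
      have h5 : y ^ (r ^ orderOf x) = y ^ 1 := by rw [pow_one]; exact h4.symm
      exact pow_eq_pow_iff_modEq.mp h5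

end Cfsg.Agent.S3379
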