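import Cfsg.Statements.S3704
import Mathlib

set_option autoImplicit false
open Cfsg

namespace Cfsg.Agent.S3704

open Matrix

section
variable {G Ω : Type*} [Group G] [MulAction G Ω] (H : Subgroup G)

def inc (O : Set Ω) (a : Ω) (q : G ⧸ H) : Prop := ∃ g : G, (g : G ⧸ H) = q ∧ g⁻¹ • a ∈ O

theorem inc_smul (O : Set Ω) (g : G) (a : Ω) (q : G ⧸ H) : inc H O (g • a) (g • q) ↔ inc H O a q := by
  constructor
  · rintro ⟨k, hk, hkO⟩
    refine ⟨g⁻¹ * k, ?_, ?_⟩
    · rw [← inv_smul_smul g q, ← hk]; rfl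
    · rwa [_root_.mul_inv_rev, inv_inv, mul_smul]
  · rintro ⟨k, hk, hkO⟩
    refine ⟨g * k, by rw [← hk]; rfl, ?_⟩
    rwa [_root_.mul_inv_rev, mul_smul, inv_smul_smul]

theorem inc_mk {O : Set Ω} (hO : ∀ h ∈ H, ∀ x ∈ O, h • x ∈ O) (g : G) (a : Ω) : inc H O a (g : G ⧸ H) ↔ g⁻¹ • a ∈ O := by
  constructor
  · rintro ⟨k, hk, hkO⟩
    have h1 : g⁻¹ * k ∈ H := QuotientGroup.eq.1 hk.symm
    have := hO _ h1 _ hkO
    rwa [← mul_smul, mul_assoc, mul_inv_cancel, mul_one] at this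
  · intro h
    exact ⟨g, rfl, h⟩

open Classical in
noncomputable def NN (O : Set Ω) : Matrix Ω (G ⧸ H) ℚ := fun a q => if inc H O a q then 1 else 0

variable [Fintype (G ⧸ H)]

theorem EE_smul (O O' : Set Ω) (g : G) (a b : Ω) : (NN H O * (NN H O')ᵀ) (g • a) (g • b) = (NN H O * (NN H O')ᵀ) a b := by
  classical
  simp only [Matrix.mul_apply, Matrix.transpose_apply, NN]
  symm
  refine Fintype.sum_equiv (MulAction.toPerm g) _ _ fun q => ?_
  simp only [MulAction.toPerm_apply, inc_smul]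

theorem key [Fintype Ω] (h2 : ∀ a b c d : Ω, a ≠ b → c ≠ d → ∃ g : G, g • a = c ∧ g • b = d)
    (hcard : Fintype.card Ω = Fintype.card (G ⧸ H)) {O O' : Set Ω} (hO : ∀ h ∈ H, ∀ x ∈ O, h • x ∈ O) (hO' : ∀ h ∈ H, ∀ x ∈ O', h • x ∈ O')
    (hd : ∀ x, x ∈ O → x ∉ O') {u v : Ω} (hu : u ∈ O) (hv : v ∈ O') (y : Ω) (hy : y ∉ O) : y ∈ O' := by
  classical
  have huv : u ≠ v := fun h => hd u hu (h ▸ hv)
  have h1 : ∀ a c : Ω, ∃ g : G, g • a = c := by
    intro a c
    obtain ⟨b, hb⟩ : ∃ b, a ≠ b := by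
      by_cases h : a = u
      · exact ⟨v, h ▸ huv⟩
      · exact ⟨u, h⟩
    obtain ⟨d, hd⟩ : ∃ b, c ≠ b := by
      by_cases h : c = u
      · exact ⟨v, h ▸ huv⟩
      · exact ⟨u, h⟩
    obtain ⟨g, hg, -⟩ := h2 a b c d hb hd
    exact ⟨g, hg⟩
  obtain ⟨N, hN⟩ : ∃ N, N = NN H O := ⟨_, rfl⟩
  obtain ⟨N', hN'⟩ : ∃ N, N = NN H O' := ⟨_, rfl⟩
  have hsq : ∀ a q, N a q * N a q = N a q := by
    intro a q; rw [hN]; simp only [NN]; split_ifs <;> norm_num
  have hnn : ∀ a q, 0 ≤ N a q := by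
    intro a q; rw [hN]; simp only [NN]; split_ifs <;> norm_num
  have hle : ∀ a q, N a q ≤ 1 := by
    intro a q; rw [hN]; simp only [NN]; split_ifs <;> norm_num
  have hz : ∀ a q, N' a q * N a q = 0 := by
    intro a q
    rw [hN, hN']
    simp only [NN]
    obtain ⟨g, rfl⟩ := QuotientGroup.mk_surjective q
    rw [inc_mk H hO, inc_mk H hO']
    split_ifs with h3 h4
    · exact absurd h3 (hd _ h4)
    all_goals norm_num
  have hval : ∀ x, N x ((1 : G) : G ⧸ H) = if x ∈ O then 1 else 0 := by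
    intro x; rw [hN]; simp only [NN]; rw [inc_mk H hO, inv_one, one_smul]
  have hval' : ∀ x, N' x ((1 : G) : G ⧸ H) = if x ∈ O' then 1 else 0 := by
    intro x; rw [hN']; simp only [NN]; rw [inc_mk H hO', inv_one, one_smul]
  obtain ⟨r, hr⟩ : ∃ r, r = (N * Nᵀ) u u := ⟨_, rfl⟩
  obtain ⟨l, hl⟩ : ∃ r, r = (N * Nᵀ) u v := ⟨_, rfl⟩
  obtain ⟨β, hβ⟩ : ∃ r, r = (N' * Nᵀ) u v := ⟨_, rfl⟩
  have Er : ∀ a, (N * Nᵀ) a a = r := by
    intro a
    obtain ⟨g, hg⟩ := h1 u a
    rw [hr, hN, ← EE_smul H O O g u u, hg]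
  have El : ∀ a b, a ≠ b → (N * Nᵀ) a b = l := by
    intro a b hab
    obtain ⟨g, hg1, hg2⟩ := h2 u v a b huv hab
    rw [hl, hN, ← EE_smul H O O g u v, hg1, hg2]
  have Eβ : ∀ a b, a ≠ b → (N' * Nᵀ) a b = β := by
    intro a b hab
    obtain ⟨g, hg1, hg2⟩ := h2 u v a b huv hab
    rw [hβ, hN, hN', ← EE_smul H O' O g u v, hg1, hg2]
  have E0 : ∀ a, (N' * Nᵀ) a a = 0 := by
    intro a
    rw [Matrix.mul_apply]
    exact Finset.sum_eq_zero fun q _ => hz a q
  have hl0 : 0 ≤ l := by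
    rw [hl, Matrix.mul_apply]
    exact Finset.sum_nonneg fun q _ => mul_nonneg (hnn _ _) (hnn _ _)
  have hrow : ∀ a, ∑ q, N a q = r := by
    intro a
    rw [← Er a, Matrix.mul_apply]
    exact Finset.sum_congr rfl fun q _ => (hsq a q).symm
  have hlr : l < r := by
    rw [hl, ← hrow u, Matrix.mul_apply]
    refine Finset.sum_lt_sum (fun q _ => ?_) ⟨((1 : G) : G ⧸ H), Finset.mem_univ _, ?_⟩
    · rw [Matrix.transpose_apply]
      calc N u q * N v q ≤ N u q * 1 := mul_le_mul_of_nonneg_left (hle _ _) (hnn _ _)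
        _ = N u q := mul_one _
    · rw [Matrix.transpose_apply, hval, hval, if_pos hu, if_neg (fun h => hd v h hv)]
      norm_num
  obtain ⟨D, hD⟩ : ∃ D, D = r - l := ⟨_, rfl⟩
  have hDpos : 0 < D := by rw [hD]; linarith
  obtain ⟨J, hJ⟩ : ∃ J : Matrix Ω Ω ℚ, J = Matrix.of fun _ _ => (1 : ℚ) := ⟨_, rfl⟩
  have hJa : ∀ a b, J a b = 1 := fun a b => by rw [hJ]; rfl
  have hJJ : J * J = (Fintype.card Ω : ℚ) • J := by
    ext a b
    rw [Matrix.mul_apply, Matrix.smul_apply]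
    simp only [hJa]
    simp
  have hNN : N * Nᵀ = D • (1 : Matrix Ω Ω ℚ) + l • J := by
    ext a b
    rw [Matrix.add_apply, Matrix.smul_apply, Matrix.smul_apply, hJa]
    by_cases hab : a = b
    · subst hab
      rw [Er, Matrix.one_apply_eq, hD]; simp
    · rw [El a b hab, Matrix.one_apply_ne hab]; simp
  obtain ⟨s, hs⟩ : ∃ s, s = D + (Fintype.card Ω : ℚ) * l := ⟨_, rfl⟩
  have hspos : 0 < s := by
    have : (0 : ℚ) ≤ (Fintype.card Ω : ℚ) * l := mul_nonneg (Nat.cast_nonneg _) hl0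
    rw [hs]; linarith
  have hXN : ((D⁻¹ • (1 : Matrix Ω Ω ℚ) - (l / (D * s)) • J) * N) * Nᵀ = 1 := by
    rw [Matrix.mul_assoc, hNN]
    rw [Matrix.sub_mul, Matrix.mul_add, Matrix.mul_add]
    simp only [Matrix.smul_mul, Matrix.mul_smul, Matrix.one_mul, Matrix.mul_one, hJJ, smul_smul]
    ext a b
    simp only [Matrix.sub_apply, Matrix.add_apply, Matrix.smul_apply, hJa, smul_eq_mul, mul_one]
    have hD0 := hDpos.ne'
    have hs0 := hspos.ne'
    field_simp
    rw [hs]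
    ring
  have hcomm : Nᵀ * ((D⁻¹ • (1 : Matrix Ω Ω ℚ) - (l / (D * s)) • J) * N) = 1 :=
    (Matrix.mul_eq_one_comm_of_card_eq _ _ _ hcard).1 hXN
  have hM : (N' - (β / D) • ((Matrix.of fun _ _ => (1 : ℚ)) - N)) * Nᵀ = 0 := by
    ext a b
    rw [Matrix.sub_mul, Matrix.smul_mul, Matrix.sub_mul, Matrix.sub_apply, Matrix.smul_apply, Matrix.sub_apply]
    have h5 : ((Matrix.of fun (_ : Ω) (_ : G ⧸ H) => (1 : ℚ)) * Nᵀ) a b = r := by
      rw [Matrix.mul_apply, ← hrow b]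
      exact Finset.sum_congr rfl fun q _ => by rw [Matrix.of_apply, Matrix.transpose_apply, one_mul]
    rw [h5]
    by_cases hab : a = b
    · subst hab
      rw [E0, Er]; simp
    · rw [Eβ a b hab, El a b hab, ← hD, smul_eq_mul]
      have hD0 := hDpos.ne'
      field_simp
      simp
  have hM0 : N' - (β / D) • ((Matrix.of fun _ _ => (1 : ℚ)) - N) = 0 := by
    calc N' - (β / D) • ((Matrix.of fun _ _ => (1 : ℚ)) - N) = (N' - (β / D) • ((Matrix.of fun _ _ => (1 : ℚ)) - N)) * (Nᵀ * ((D⁻¹ • (1 : Matrix Ω Ω ℚ) - (l / (D * s)) • J) * N)) := by rw [hcomm, Matrix.mul_one]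
      _ = 0 := by rw [← Matrix.mul_assoc, hM, Matrix.zero_mul]
  have hent : ∀ x, N' x ((1 : G) : G ⧸ H) = (β / D) * (1 - N x ((1 : G) : G ⧸ H)) := by
    intro x
    have := congrFun (congrFun hM0 x) ((1 : G) : G ⧸ H)
    rw [Matrix.sub_apply, Matrix.smul_apply, Matrix.sub_apply, Matrix.of_apply, Matrix.zero_apply, smul_eq_mul] at this
    linarith
  have e1 := hent v
  rw [hval, hval', if_pos hv, if_neg (fun h => hd v h hv)] at e1
  have e2 := hent y
  rw [hval, hval', if_neg hy, sub_zero, mul_one] at e2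
  rw [sub_zero, mul_one] at e1
  rw [← e1] at e2
  by_contra hcon
  rw [if_neg hcon] at e2
  norm_num at e2
end

/-- Let G be a finite group acting faithfully and 2-transitively on a finite set Ω of size n, and let H be a subgroup of index n in G which is not transitive on Ω and fixes no point of Ω. Then H has exactly two orbits on Ω. -/
theorem result {G Ω : Type*} [Group G] [Finite G] [MulAction G Ω] [FaithfulSMul G Ω] [Finite Ω] (h2 : MulAction.IsMultiplyPretransitive G Ω 2) (H : Subgroup G) (hidx : H.index = Nat.card Ω) (hnt : ¬ MulAction.IsPretransitive H Ω) (hfix : ∀ a : Ω, ∃ h : H, h • a ≠ a) : Nat.card (MulAction.orbitRel.Quotient H Ω) = 2 := by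
  classical
  haveI : Fintype Ω := Fintype.ofFinite _
  haveI : Fintype (G ⧸ H) := Fintype.ofFinite _
  have h2' : ∀ a b c d : Ω, a ≠ b → c ≠ d → ∃ g : G, g • a = c ∧ g • b = d := fun a b c d hab hcd =>
    MulAction.is_two_pretransitive_iff.1 h2 hab hcd
  obtain ⟨a, b, hab⟩ : ∃ a b : Ω, b ∉ MulAction.orbit H a := by
    by_contra hcon
    push Not at hcon
    exact hnt ⟨fun x y => hcon x y⟩
  have hinv : ∀ a : Ω, ∀ h ∈ H, ∀ x ∈ MulAction.orbit H a, h • x ∈ MulAction.orbit H a := by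
    rintro a h hh _ ⟨k, rfl⟩
    exact ⟨⟨h, hh⟩ * k, mul_smul _ _ _⟩
  have hcard : Fintype.card Ω = Fintype.card (G ⧸ H) := by
    rw [← Nat.card_eq_fintype_card, ← Nat.card_eq_fintype_card, ← hidx]; rfl
  rw [Nat.card_eq_two_iff]
  refine ⟨Quotient.mk'' a, Quotient.mk'' b, ?_, ?_⟩
  · intro h
    have := MulAction.orbitRel_apply.1 (Quotient.exact h)
    apply hab
    rw [MulAction.orbit_eq_iff.2 this]
    exact MulAction.mem_orbit_self b
  · rw [Set.eq_univ_iff_forall]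
    intro q
    induction q using Quotient.inductionOn' with
    | h c =>
      by_cases hc : c ∈ MulAction.orbit H a
      · left
        exact Quotient.sound' (MulAction.orbitRel_apply.2 hc)
      · right
        refine Quotient.sound' (MulAction.orbitRel_apply.2 ?_)
        refine key H h2' hcard (hinv a) (hinv b) ?_ (MulAction.mem_orbit_self a) (MulAction.mem_orbit_self b) c hc
        intro x hx hx'
        apply hab
        rw [← MulAction.orbit_eq_iff.2 hx, MulAction.orbit_eq_iff.2 hx']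
        exact MulAction.mem_orbit_self b

end Cfsg.Agent.S3704
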