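import Cfsg.Statements.S3733
import Cfsg.Agent.H2.Fpf

set_option autoImplicit false
open Cfsg

namespace Cfsg.Agent.S3733

/-- Let A and V be subgroups of a finite group with V abelian and nontrivial and A normalizing V. Suppose a nonempty finite family of proper subgroups of A partitions A: every non-identity element of A lies in exactly one member. If the number of members minus one is coprime to the order of V, then some member B of the family has a non-identity fixed point on V, that is V ∩ C(B) ≠ 1. -/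
theorem result {G : Type*} [Group G] [Finite G] (A V : Subgroup G) (hVab : IsMulCommutative V) (hV : V ≠ ⊥) (hAV : A ≤ Subgroup.normalizer (V : Set G)) (𝒜 : Finset (Subgroup G)) (hne : 𝒜.Nonempty) (hprop : ∀ B ∈ 𝒜, B < A) (hpart : ∀ a ∈ A, a ≠ 1 → ∃! B, B ∈ 𝒜 ∧ a ∈ B) (hk : (𝒜.card - 1).Coprime (Nat.card V)) : ∃ B ∈ 𝒜, V ⊓ Subgroup.centralizer (B : Set G) ≠ ⊥ := by
  classical
  by_contra hcon
  push Not at hcon
  let _ : CommGroup V := { (inferInstance : Group V) with mul_comm := fun a b => isMulCommutative_iff.1 hVab a b }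
  have hmem : ∀ a ∈ A, ∀ v ∈ V, a * v * a⁻¹ ∈ V := by
    intro a ha v hv
    exact (Subgroup.mem_normalizer_iff.1 (hAV ha) v).1 hv
  -- for each v, the function
  let f : V → G → V := fun v a => if h : a ∈ A then ⟨a * v * a⁻¹, hmem a h v v.2⟩ else 1
  have := Fintype.ofFinite G
  have hfA : ∀ v, ∀ a ∈ A, ((f v a : V) : G) = a * v * a⁻¹ := by
    intro v a ha
    simp only [f, dif_pos ha]
  -- products over subgroups are fixed
  have hfix : ∀ B : Subgroup G, B ≤ A → ∀ v : V, ∀ b ∈ B,
      b * ((∏ a ∈ Finset.univ.filter (· ∈ B), f v a : V) : G) * b⁻¹ = ((∏ a ∈ Finset.univ.filter (· ∈ B), f v a : V) : G) := by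
    intro B hB v b hb
    let φ : V →* V :=
      { toFun := fun w => ⟨b * w * b⁻¹, hmem b (hB hb) w w.2⟩
        map_one' := Subtype.ext (by simp)
        map_mul' := fun x y => Subtype.ext (by simp) }
    have h1 : φ (∏ a ∈ Finset.univ.filter (· ∈ B), f v a) = ∏ a ∈ Finset.univ.filter (· ∈ B), f v a := by
      rw [map_prod]
      apply Finset.prod_bij (fun a _ => b * a)
      · intro a ha
        simp only [Finset.mem_filter, Finset.mem_univ, true_and] at ha ⊢
        exact B.mul_mem hb ha
      · intro a _ c _ h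
        exact mul_left_cancel h
      · intro c hc
        simp only [Finset.mem_filter, Finset.mem_univ, true_and] at hc
        refine ⟨b⁻¹ * c, ?_, by group⟩
        simp only [Finset.mem_filter, Finset.mem_univ, true_and]
        exact B.mul_mem (B.inv_mem hb) hc
      · intro a ha
        simp only [Finset.mem_filter, Finset.mem_univ, true_and] at ha
        apply Subtype.ext
        show b * ((f v a : V) : G) * b⁻¹ = ((f v (b * a) : V) : G)
        rw [hfA v a (hB ha), hfA v (b * a) (A.mul_mem (hB hb) (hB ha))]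
        group
    exact congrArg Subtype.val h1
  have hone : ∀ B : Subgroup G, B ≤ A → V ⊓ Subgroup.centralizer (B : Set G) = ⊥ → ∀ v : V,
      ∏ a ∈ Finset.univ.filter (· ∈ B), f v a = 1 := by
    intro B hB hBV v
    have h1 : ((∏ a ∈ Finset.univ.filter (· ∈ B), f v a : V) : G) ∈ V ⊓ Subgroup.centralizer (B : Set G) := by
      refine ⟨Subtype.property _, ?_⟩
      refine Subgroup.mem_centralizer_iff.2 ?_
      intro b hb
      exact mul_inv_eq_iff_eq_mul.1 (hfix B hB v b hb)
    rw [hBV, Subgroup.mem_bot] at h1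
    exact Subtype.ext h1
  obtain ⟨B0, hB0⟩ := hne
  have hA1 : V ⊓ Subgroup.centralizer (A : Set G) = ⊥ := by
    rw [eq_bot_iff, ← hcon B0 hB0]
    exact inf_le_inf le_rfl (Subgroup.centralizer_le (hprop B0 hB0).le)
  have hf1 : ∀ v : V, f v 1 = v := fun v => Subtype.ext (by rw [hfA v 1 A.one_mem]; simp)
  -- the double product
  have hdouble : ∀ v : V, v ^ (𝒜.card - 1) = 1 := by
    intro v
    have e1 : ∏ B ∈ 𝒜, ∏ a ∈ Finset.univ.filter (· ∈ B), f v a = 1 :=
      Finset.prod_eq_one (fun B hB => hone B (hprop B hB).le (hcon B hB) v)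
    have e2 : ∏ B ∈ 𝒜, ∏ a ∈ Finset.univ.filter (· ∈ B), f v a
        = ∏ B ∈ 𝒜, ∏ a ∈ Finset.univ.filter (· ∈ A), (if a ∈ B then f v a else 1) := by
      apply Finset.prod_congr rfl
      intro B hB
      rw [← Finset.prod_filter, Finset.filter_filter]
      apply Finset.prod_congr _ (fun _ _ => rfl)
      ext a
      simp only [Finset.mem_filter, Finset.mem_univ, true_and]
      exact ⟨fun h => ⟨(hprop B hB).le h, h⟩, fun h => h.2⟩
    rw [e2, Finset.prod_comm] at e1
    have hmem1 : (1 : G) ∈ Finset.univ.filter (· ∈ A) := by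
      simp only [Finset.mem_filter, Finset.mem_univ, true_and]; exact A.one_mem
    rw [← Finset.mul_prod_erase _ _ hmem1] at e1
    have e3 : ∏ B ∈ 𝒜, (if (1 : G) ∈ B then f v 1 else 1) = v ^ 𝒜.card := by
      rw [Finset.prod_congr rfl (g := fun _ => v) (fun B _ => by rw [if_pos B.one_mem, hf1]), Finset.prod_const]
    have e4 : ∏ a ∈ (Finset.univ.filter (· ∈ A)).erase 1, ∏ B ∈ 𝒜, (if a ∈ B then f v a else 1)
        = ∏ a ∈ (Finset.univ.filter (· ∈ A)).erase 1, f v a := by
      apply Finset.prod_congr rfl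
      intro a ha
      rw [Finset.mem_erase, Finset.mem_filter] at ha
      obtain ⟨B, ⟨hB, haB⟩, huniq⟩ := hpart a ha.2.2 ha.1
      rw [Finset.prod_eq_single B, if_pos haB]
      · intro C hC hCB
        rw [if_neg]
        intro haC
        exact hCB (huniq C ⟨hC, haC⟩)
      · intro h; exact absurd hB h
    have e5 := hone A le_rfl hA1 v
    rw [← Finset.mul_prod_erase _ _ hmem1, hf1] at e5
    rw [e3, e4] at e1
    have hc : 𝒜.card = (𝒜.card - 1) + 1 := by
      have : 0 < 𝒜.card := Finset.card_pos.2 ⟨B0, hB0⟩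
      omega
    rw [hc, pow_succ, mul_assoc, e5, mul_one] at e1
    simpa using e1
  apply hV
  rw [eq_bot_iff]
  intro v hv
  rw [Subgroup.mem_bot]
  have h1 := hdouble ⟨v, hv⟩
  have h2 := H2.pow_eq_one_of_coprime hk.symm h1
  exact congrArg Subtype.val h2

end Cfsg.Agent.S3733
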