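import Cfsg.Statements.S3734
import Mathlib
import Cfsg.Agent.L0.Coprime2
import Cfsg.Agent.H1.Basic

set_option autoImplicit false
open Cfsg

namespace Cfsg.Agent.S3734

open Subgroup Cfsg.Agent.L0
open scoped commutatorElement

/-- noncyclic abelian groups of automorphisms -/
theorem closure_fixed {H : Type*} [Group H] [Finite H] (Q : Subgroup (MulAut H)) (hQ : IsMulCommutative Q) (hnc : ¬ IsCyclic Q)
    (hcop : (Nat.card Q).Coprime (Nat.card H)) (T : Subgroup H) (hT : ∀ q ∈ Q, q ≠ 1 → ∀ h : H, q h = h → h ∈ T) : T = ⊤ := by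
  classical
  haveI : Finite Q := by
    apply Nat.finite_of_card_ne_zero
    intro h0
    rw [h0, Nat.coprime_zero_left] at hcop
    haveI : Subsingleton H := (Nat.card_eq_one_iff_unique.1 hcop).1
    haveI : Subsingleton (MulAut H) := ⟨fun a b => MulEquiv.ext fun x => Subsingleton.elim _ _⟩
    haveI : Finite Q := inferInstance
    exact Nat.card_pos.ne' h0
  let Y := H ⋊[Q.subtype] Q
  haveI : Finite Y := Finite.of_equiv _ (SemidirectProduct.equivProd (φ := Q.subtype)).symm
  let N : Subgroup Y := (SemidirectProduct.inl : H →* Y).range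
  let E : Subgroup Y := (SemidirectProduct.inr : Q →* Y).range
  have hinl : Function.Injective (SemidirectProduct.inl : H →* Y) := SemidirectProduct.inl_injective
  have hinr : Function.Injective (SemidirectProduct.inr : Q →* Y) := SemidirectProduct.inr_injective
  have eE : Q ≃* E := MonoidHom.ofInjective hinr
  have eN : H ≃* N := MonoidHom.ofInjective hinl
  have hE : IsMulCommutative E := by
    refine ⟨⟨?_⟩⟩
    rintro ⟨_, a, rfl⟩ ⟨_, b, rfl⟩
    apply Subtype.ext
    show SemidirectProduct.inr a * SemidirectProduct.inr b = SemidirectProduct.inr b * SemidirectProduct.inr a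
    rw [← map_mul, ← map_mul, hQ.1.1 a b]
  have hEnc : ¬ IsCyclic E := fun h => hnc (isCyclic_of_surjective eE.symm.toMonoidHom eE.symm.surjective)
  have hNn : N.Normal := by
    have : N = (SemidirectProduct.rightHom : Y →* Q).ker := SemidirectProduct.range_inl_eq_ker_rightHom
    rw [this]; infer_instance
  have hc : (Nat.card E).Coprime (Nat.card N) := by
    rw [← Nat.card_congr eE.toEquiv, ← Nat.card_congr eN.toEquiv]; exact hcop
  have h1 := closure_centralizers_eq hE hEnc (N := N) (by rw [Subgroup.normalizer_eq_top (H := N)]; exact le_top) hc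
  have h2 : N ≤ T.map (SemidirectProduct.inl : H →* Y) := by
    rw [← h1, closure_le]
    rintro _ ⟨⟨h, rfl⟩, _, ⟨q, rfl⟩, hv1, hv⟩
    refine ⟨h, ?_, rfl⟩
    apply hT q q.2
    · intro hq
      apply hv1
      have : q = 1 := Subtype.ext hq
      rw [this, map_one]
    · have h3 := SemidirectProduct.inl_aut (φ := Q.subtype) q h
      apply hinl
      have h4 : (SemidirectProduct.inr q : Y) * SemidirectProduct.inl h * SemidirectProduct.inr q⁻¹ = SemidirectProduct.inl h := by
        rw [hv, map_inv]; group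
      exact h3.trans h4
  rw [eq_top_iff]
  intro x _
  obtain ⟨y, hy, hyx⟩ := h2 ⟨x, rfl⟩
  rw [← hinl hyx]; exact hy

theorem gen_cent {X : Type*} [Group X] [Finite X] (A : Subgroup X) (hAab : ∀ a ∈ A, ∀ b ∈ A, a * b = b * a) (n : ℕ) :
    ∀ H : Subgroup X, Nat.card H = n → A ≤ normalizer (H : Set X) → (Nat.card A).Coprime (Nat.card H) →
    H ≤ ⨆ B ∈ {B : Subgroup X | B ≤ A ∧ ∃ a ∈ A, B ⊔ Subgroup.zpowers a = A}, H ⊓ Subgroup.centralizer (B : Set X) := by
  classical
  induction n using Nat.strong_induction_on with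
  | _ n ih =>
  intro H hn hAH hcop
  set T : Subgroup X := ⨆ B ∈ {B : Subgroup X | B ≤ A ∧ ∃ a ∈ A, B ⊔ Subgroup.zpowers a = A}, H ⊓ Subgroup.centralizer (B : Set X) with hT
  set K := A ⊓ centralizer (H : Set X) with hK
  by_cases hcyc : ∃ a ∈ A, K ⊔ zpowers a = A
  · have h1 : H ≤ H ⊓ centralizer (K : Set X) := by
      refine le_inf le_rfl ?_
      intro h hh
      rw [mem_centralizer_iff]
      intro k hk
      exact ((mem_centralizer_iff.1 hk.2) h hh).symm
    refine h1.trans ?_
    exact le_iSup₂_of_le (f := fun B (_ : B ∈ {B : Subgroup X | B ≤ A ∧ ∃ a ∈ A, B ⊔ Subgroup.zpowers a = A}) => H ⊓ Subgroup.centralizer (B : Set X)) K ⟨inf_le_left, hcyc⟩ le_rfl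
  · let φ : A →* MulAut H := (Subgroup.normalizerMonoidHom H).comp (Subgroup.inclusion hAH)
    have hφ : ∀ (a : A) (h : H), ((φ a h : H) : X) = a * h * (a : X)⁻¹ := fun a h => rfl
    have hker : ∀ a : A, φ a = 1 → (a : X) ∈ K := by
      intro a ha
      refine ⟨a.2, ?_⟩
      show (a : X) ∈ centralizer (H : Set X)
      rw [mem_centralizer_iff]
      intro h hh
      have h1 := hφ a ⟨h, hh⟩
      rw [ha] at h1
      have h2 : h = a * h * (a : X)⁻¹ := h1
      calc h * a = (a * h * (a : X)⁻¹) * a := by rw [← h2]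
        _ = a * h := by group
    have hQab : IsMulCommutative φ.range := by
      refine ⟨⟨?_⟩⟩
      rintro ⟨_, a, rfl⟩ ⟨_, b, rfl⟩
      apply Subtype.ext
      show φ a * φ b = φ b * φ a
      rw [← map_mul, ← map_mul]
      congr 1
      exact Subtype.ext (hAab a a.2 b b.2)
    have hQnc : ¬ IsCyclic φ.range := by
      intro hc
      obtain ⟨⟨_, a, rfl⟩, ha⟩ := hc.exists_generator
      apply hcyc
      refine ⟨a, a.2, le_antisymm (sup_le inf_le_left (by rw [zpowers_le]; exact a.2)) ?_⟩
      intro x hx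
      obtain ⟨k, hk⟩ := mem_zpowers_iff.1 (ha ⟨φ ⟨x, hx⟩, ⟨x, hx⟩, rfl⟩)
      have h1 : φ a ^ k = φ ⟨x, hx⟩ := congrArg Subtype.val hk
      have h2 : φ (⟨x, hx⟩ * (a ^ k)⁻¹) = 1 := by
        rw [map_mul, map_inv, map_zpow, h1, mul_inv_cancel]
      have h3 := hker _ h2
      have h4 : x = (x * ((a : X) ^ k)⁻¹) * (a : X) ^ k := by group
      rw [h4]
      exact mul_mem (mem_sup_left h3) (mem_sup_right (zpow_mem (mem_zpowers _) k))
    have hcopQ : (Nat.card φ.range).Coprime (Nat.card H) :=
      Nat.Coprime.coprime_dvd_left (Subgroup.card_range_dvd φ) hcop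
    have key := closure_fixed φ.range hQab hQnc hcopQ (T.subgroupOf H) (by
      rintro _ ⟨a, rfl⟩ ha1 h hh
      rw [mem_subgroupOf]
      set Ha := H ⊓ centralizer ({(a : X)} : Set X) with hHa
      have hlt : Nat.card Ha < n := by
        rw [← hn]
        refine lt_of_le_of_ne (Subgroup.card_le_of_le inf_le_left) ?_
        intro he
        have h1 : Ha = H := Subgroup.eq_of_le_of_card_ge inf_le_left he.ge
        apply ha1
        apply MulEquiv.ext
        intro x
        apply Subtype.ext
        rw [hφ]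
        have h2 : (x : X) ∈ Ha := by rw [h1]; exact x.2
        have h3 := mem_centralizer_singleton_iff.1 h2.2
        show (a : X) * x * (a : X)⁻¹ = x
        rw [← h3]; group
      have hAHa : A ≤ normalizer (Ha : Set X) := by
        intro c hc
        apply H1.mem_normalizer_of_conj_mem
        intro x hx
        have h1 : c * x * c⁻¹ ∈ H := (mem_normalizer_iff.1 (hAH hc) x).1 hx.1
        refine ⟨h1, ?_⟩
        show c * x * c⁻¹ ∈ centralizer ({(a : X)} : Set X)
        have h2 := mem_centralizer_singleton_iff.1 hx.2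
        rw [mem_centralizer_singleton_iff]
        have h3 := hAab c hc a a.2
        have h4 : c⁻¹ * (a : X) = a * c⁻¹ := by
          calc c⁻¹ * (a : X) = c⁻¹ * ((a : X) * c) * c⁻¹ := by group
            _ = c⁻¹ * (c * a) * c⁻¹ := by rw [h3]
            _ = a * c⁻¹ := by group
        calc c * x * c⁻¹ * (a : X) = c * x * (c⁻¹ * a) := by group
          _ = c * (x * a) * c⁻¹ := by rw [h4]; group
          _ = c * (a * x) * c⁻¹ := by rw [h2]
          _ = (c * a) * x * c⁻¹ := by group
          _ = a * (c * x * c⁻¹) := by rw [h3]; group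
      have h1 := ih _ hlt Ha rfl hAHa (Nat.Coprime.coprime_dvd_right (Subgroup.card_dvd_of_le inf_le_left) hcop)
      have h2 : Ha ≤ T := by
        refine h1.trans ?_
        rw [hT]
        exact iSup₂_mono (fun B _ => inf_le_inf_right _ inf_le_left)
      apply h2
      refine ⟨h.2, ?_⟩
      show (h : X) ∈ centralizer ({(a : X)} : Set X)
      rw [mem_centralizer_singleton_iff]
      have h3 := hφ a h
      rw [hh] at h3
      calc (h : X) * a = (a * h * (a : X)⁻¹) * a := by rw [← h3]
        _ = a * h := by group)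
    intro x hx
    have h1 : (⟨x, hx⟩ : H) ∈ T.subgroupOf H := by rw [key]; trivial
    exact h1

/-- Let A and G be subgroups of a finite group with A abelian, A normalizing G and the orders of A and G coprime. Then G is generated by the fixed-point subgroups C_G(B) of those subgroups B of A for which A/B is cyclic (that is, A = ⟨B, a⟩ for some a), and [G, A] is generated by the commutator subgroups [C_G(B), A] over the same subgroups B. -/
theorem result {X : Type*} [Group X] [Finite X] (A G : Subgroup X) (hAab : IsMulCommutative A) (hAG : A ≤ Subgroup.normalizer (G : Set X)) (hcop : (Nat.card A).Coprime (Nat.card G)) : (⨆ B ∈ {B : Subgroup X | B ≤ A ∧ ∃ a ∈ A, B ⊔ Subgroup.zpowers a = A}, G ⊓ Subgroup.centralizer (B : Set X)) = G ∧ (⨆ B ∈ {B : Subgroup X | B ≤ A ∧ ∃ a ∈ A, B ⊔ Subgroup.zpowers a = A}, ⁅G ⊓ Subgroup.centralizer (B : Set X), A⁆) = ⁅G, A⁆ := by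
  classical
  have hab : ∀ a ∈ A, ∀ b ∈ A, a * b = b * a := fun a ha b hb => congrArg Subtype.val (hAab.1.1 ⟨a, ha⟩ ⟨b, hb⟩)
  have hs : Group.IsSolvable A ∨ Group.IsSolvable G := Or.inl (Group.isSolvable_of_comm (fun a b => hAab.1.1 a b))
  refine ⟨?_, ?_⟩
  · apply le_antisymm
    · exact iSup₂_le (fun B _ => inf_le_left)
    · exact gen_cent A hab _ G rfl hAG hcop
  · apply le_antisymm
    · exact iSup₂_le (fun B _ => Subgroup.commutator_mono inf_le_left le_rfl)
    · set D := ⁅G, A⁆ with hD
      have hDG : D ≤ G := commutator_le_of_normalizes hAG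
      have hAD : A ≤ normalizer (D : Set X) := Subgroup.normalizer_commutator_ge_right _ _
      have hcopD : (Nat.card A).Coprime (Nat.card D) := Nat.Coprime.coprime_dvd_right (Subgroup.card_dvd_of_le hDG) hcop
      have hsD : Group.IsSolvable A ∨ Group.IsSolvable D := Or.inl (Group.isSolvable_of_comm (fun a b => hAab.1.1 a b))
      set R : Subgroup X := ⨆ B ∈ {B : Subgroup X | B ≤ A ∧ ∃ a ∈ A, B ⊔ Subgroup.zpowers a = A}, ⁅D ⊓ Subgroup.centralizer (B : Set X), A⁆ with hR
      have hRR : R ≤ ⨆ B ∈ {B : Subgroup X | B ≤ A ∧ ∃ a ∈ A, B ⊔ Subgroup.zpowers a = A}, ⁅G ⊓ Subgroup.centralizer (B : Set X), A⁆ :=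
        iSup₂_mono (fun B _ => Subgroup.commutator_mono (inf_le_inf_right _ hDG) le_rfl)
      refine le_trans ?_ hRR
      have hRD : R ≤ D := iSup₂_le (fun B _ => by
        refine (Subgroup.commutator_mono inf_le_left le_rfl).trans ?_
        exact commutator_le_of_normalizes hAD)
      set C := D ⊓ centralizer (A : Set X) with hC
      -- A normalizes the centralizers
      have hAB : ∀ B : Subgroup X, B ≤ A → A ≤ normalizer ((D ⊓ centralizer (B : Set X) : Subgroup X) : Set X) := by
        intro B hB c hc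
        apply H1.mem_normalizer_of_conj_mem
        intro x hx
        have h1 : c * x * c⁻¹ ∈ D := (mem_normalizer_iff.1 (hAD hc) x).1 hx.1
        refine ⟨h1, ?_⟩
        show c * x * c⁻¹ ∈ centralizer (B : Set X)
        rw [mem_centralizer_iff]
        intro b hb
        have h2 := (mem_centralizer_iff.1 hx.2) b hb
        have h3 := hab c hc b (hB hb)
        have h4 : b * c = c * b := h3.symm
        calc b * (c * x * c⁻¹) = (b * c) * x * c⁻¹ := by group
          _ = c * (b * x) * c⁻¹ := by rw [h4]; group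
          _ = c * (x * b) * c⁻¹ := by rw [h2]
          _ = c * x * c⁻¹ * (c * b) * c⁻¹ := by group
          _ = c * x * c⁻¹ * (b * c) * c⁻¹ := by rw [h3]
          _ = c * x * c⁻¹ * b := by group
      -- C normalizes R
      have hCR : C ≤ normalizer (R : Set X) := by
        intro c hc
        apply H1.mem_normalizer_of_conj_mem
        have hmap : R.map (MulAut.conj c).toMonoidHom ≤ R := by
          rw [hR, Subgroup.map_iSup]
          refine iSup_le fun B => ?_
          rw [Subgroup.map_iSup]
          refine iSup_le fun hB => ?_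
          refine le_trans ?_ (le_iSup₂_of_le (f := fun B (_ : B ∈ {B : Subgroup X | B ≤ A ∧ ∃ a ∈ A, B ⊔ Subgroup.zpowers a = A}) => ⁅D ⊓ Subgroup.centralizer (B : Set X), A⁆) B hB le_rfl)
          rw [Subgroup.map_commutator]
          apply Subgroup.commutator_mono
          · rintro _ ⟨x, hx, rfl⟩
            show c * x * c⁻¹ ∈ D ⊓ centralizer (B : Set X)
            have hcB : c ∈ D ⊓ centralizer (B : Set X) := ⟨hc.1, Subgroup.centralizer_le hB.1 hc.2⟩
            exact mul_mem (mul_mem hcB hx) (inv_mem hcB)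
          · rintro _ ⟨x, hx, rfl⟩
            show c * x * c⁻¹ ∈ A
            have h2 := (mem_centralizer_iff.1 hc.2) x hx
            have : c * x * c⁻¹ = x := by rw [← h2]; group
            rw [this]; exact hx
        intro x hx
        exact hmap ⟨x, hx, rfl⟩
      have hDRC : D ≤ R ⊔ C := by
        refine (gen_cent A hab _ D rfl hAD hcopD).trans ?_
        refine iSup₂_le fun B hB => ?_
        have h1 := commutator_sup_centralizer (A := A) (N := D ⊓ centralizer (B : Set X)) (hAB B hB.1)
          (Nat.Coprime.coprime_dvd_right (Subgroup.card_dvd_of_le inf_le_left) hcopD) (Or.inl (Group.isSolvable_of_comm (fun a b => hAab.1.1 a b)))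
        rw [← h1]
        apply sup_le
        · exact le_sup_of_le_left (le_iSup₂_of_le (f := fun B (_ : B ∈ {B : Subgroup X | B ≤ A ∧ ∃ a ∈ A, B ⊔ Subgroup.zpowers a = A}) => ⁅D ⊓ Subgroup.centralizer (B : Set X), A⁆) B hB le_rfl)
        · exact le_sup_of_le_right (inf_le_inf_right _ inf_le_left)
      have hAR : A ≤ normalizer (R : Set X) := by
        intro c hc
        apply H1.mem_normalizer_of_conj_mem
        have hmap : R.map (MulAut.conj c).toMonoidHom ≤ R := by
          rw [hR, Subgroup.map_iSup]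
          refine iSup_le fun B => ?_
          rw [Subgroup.map_iSup]
          refine iSup_le fun hB => ?_
          refine le_trans ?_ (le_iSup₂_of_le (f := fun B (_ : B ∈ {B : Subgroup X | B ≤ A ∧ ∃ a ∈ A, B ⊔ Subgroup.zpowers a = A}) => ⁅D ⊓ Subgroup.centralizer (B : Set X), A⁆) B hB le_rfl)
          rw [Subgroup.map_commutator]
          apply Subgroup.commutator_mono
          · rintro _ ⟨x, hx, rfl⟩
            exact (mem_normalizer_iff.1 (hAB B hB.1 hc) x).1 hx
          · rintro _ ⟨x, hx, rfl⟩
            show c * x * c⁻¹ ∈ A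
            exact mul_mem (mul_mem hc hx) (inv_mem hc)
        intro x hx
        exact hmap ⟨x, hx, rfl⟩
      have hDD : ⁅D, A⁆ = D := commutator_commutator_eq hAG hcop hs
      rw [← hDD, Subgroup.commutator_le]
      intro d hd a ha
      have h1 := hDRC hd
      rw [mem_sup_of_normalizes hCR] at h1
      obtain ⟨r, hr, c, hc, rfl⟩ := h1
      have h2 := (mem_centralizer_iff.1 hc.2) a ha
      have e : ⁅r * c, a⁆ = r * (a * r⁻¹ * a⁻¹) := by
        rw [commutatorElement_def]
        calc r * c * a * (r * c)⁻¹ * a⁻¹ = r * (c * a) * c⁻¹ * r⁻¹ * a⁻¹ := by group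
          _ = r * (a * c) * c⁻¹ * r⁻¹ * a⁻¹ := by rw [h2]
          _ = r * (a * r⁻¹ * a⁻¹) := by group
      rw [e]
      exact mul_mem hr ((mem_normalizer_iff.1 (hAR ha) _).1 (inv_mem hr))

end Cfsg.Agent.S3734
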