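import Cfsg.Statements.S3735
import Cfsg.Agent.L0.Coprime

set_option autoImplicit false
open Cfsg

namespace Cfsg.Agent.S3735

open scoped Pointwise

/-- Clifford's Theorem for actions on finite abelian groups, first part. Let H and V be subgroups of a finite group with V abelian and H normalizing V, and let A be a normal subgroup of H. If every H-invariant subgroup of V has an H-invariant complement in V, then every A-invariant subgroup of V has an A-invariant complement in V. -/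
theorem result {G : Type*} [Group G] [Finite G] (H A V : Subgroup G) (hVab : IsMulCommutative V) (hHV : H ≤ Subgroup.normalizer (V : Set G)) (hAH : A ≤ H) (hAn : H ≤ Subgroup.normalizer (A : Set G)) (hss : ∀ U : Subgroup G, U ≤ V → H ≤ Subgroup.normalizer (U : Set G) → ∃ W : Subgroup G, W ≤ V ∧ H ≤ Subgroup.normalizer (W : Set G) ∧ U ⊓ W = ⊥ ∧ U ⊔ W = V) (U : Subgroup G) (hUV : U ≤ V) (hAU : A ≤ Subgroup.normalizer (U : Set G)) : ∃ W : Subgroup G, W ≤ V ∧ A ≤ Subgroup.normalizer (W : Set G) ∧ U ⊓ W = ⊥ ∧ U ⊔ W = V := by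
  classical
  have hconj : ∀ {H : Subgroup G} {g : G}, g ∈ Subgroup.normalizer (H : Set G) ↔ MulAut.conj g • H = H :=
    L0.mem_normalizer_conj
  have hVc : ∀ a ∈ V, ∀ b ∈ V, a * b = b * a := fun a ha b hb =>
    congrArg Subtype.val (isMulCommutative_iff.1 hVab ⟨a, ha⟩ ⟨b, hb⟩)
  have hnormV : ∀ {X Y : Subgroup G}, X ≤ V → Y ≤ V → X ≤ Subgroup.normalizer (Y : Set G) := by
    intro X Y hX hY x hx
    rw [Subgroup.mem_normalizer_iff]
    intro y
    constructor
    · intro hy
      rw [hVc x (hX hx) y (hY hy)]; simpa using hy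
    · intro hy
      have h1 := hVc x (hX hx) _ (hY hy)
      have h2 : x * y * x⁻¹ = y := by
        have h3 : x * (x * y * x⁻¹) * x⁻¹ = x * y * x⁻¹ := by rw [h1]; group
        exact mul_left_cancel (mul_right_cancel h3)
      rwa [h2] at hy
  have hsup : ∀ {X Y : Subgroup G}, A ≤ Subgroup.normalizer (X : Set G) → A ≤ Subgroup.normalizer (Y : Set G) →
      A ≤ Subgroup.normalizer ((X ⊔ Y : Subgroup G) : Set G) := by
    intro X Y hX hY a ha
    rw [hconj, Subgroup.smul_sup, hconj.1 (hX ha), hconj.1 (hY ha)]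
  have hinf : ∀ {X Y : Subgroup G}, A ≤ Subgroup.normalizer (X : Set G) → A ≤ Subgroup.normalizer (Y : Set G) →
      A ≤ Subgroup.normalizer ((X ⊓ Y : Subgroup G) : Set G) := by
    intro X Y hX hY a ha
    rw [hconj, Subgroup.smul_inf, hconj.1 (hX ha), hconj.1 (hY ha)]
  -- minimal invariant subgroups
  let Inv : Subgroup G → Prop := fun X => X ≤ V ∧ A ≤ Subgroup.normalizer (X : Set G) ∧ X ≠ ⊥
  let Min : Subgroup G → Prop := fun X => Minimal Inv X
  have hexmin : ∀ Y, Inv Y → ∃ X, Min X ∧ X ≤ Y := by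
    intro Y hY
    obtain ⟨X, hX, hXm⟩ := Set.Finite.exists_le_minimal (s := {X : Subgroup G | Inv X}) (Set.toFinite _) hY
    exact ⟨X, hXm, hX⟩
  have hInvconj : ∀ h ∈ H, ∀ X, Inv X → Inv (MulAut.conj h • X) := by
    intro h hh X ⟨h1, h2, h3⟩
    refine ⟨?_, ?_, ?_⟩
    · have : MulAut.conj h • X ≤ MulAut.conj h • V := Subgroup.pointwise_smul_le_pointwise_smul_iff.2 h1
      rwa [hconj.1 (hHV hh)] at this
    · intro a ha
      rw [hconj]
      -- a = h a' h⁻¹
      have ha' : h⁻¹ * a * h ∈ A := by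
        have h4 := (Subgroup.mem_normalizer_iff.1 (hAn hh) (h⁻¹ * a * h)).2
        apply h4
        have : h * (h⁻¹ * a * h) * h⁻¹ = a := by group
        rw [this]; exact ha
      have h5 := hconj.1 (h2 ha')
      have e : MulAut.conj a * MulAut.conj h = MulAut.conj h * MulAut.conj (h⁻¹ * a * h) := by
        rw [← map_mul, ← map_mul]; congr 1; group
      rw [← mul_smul, e, mul_smul, h5]
    · intro h4
      apply h3
      have : MulAut.conj h • X = MulAut.conj h • (⊥ : Subgroup G) := by rw [h4, Subgroup.smul_bot]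
      exact MulAction.injective _ this
  have hMinconj : ∀ h ∈ H, ∀ X, Min X → Min (MulAut.conj h • X) := by
    intro h hh X hX
    refine ⟨hInvconj h hh X hX.1, ?_⟩
    intro Y hY hYX
    have h1 := hInvconj h⁻¹ (H.inv_mem hh) Y hY
    have h2 : MulAut.conj h⁻¹ • Y ≤ X := by
      rw [map_inv]
      intro z hz
      rw [Subgroup.mem_pointwise_smul_iff_inv_smul_mem, inv_inv] at hz
      have := hYX hz
      rwa [Subgroup.mem_pointwise_smul_iff_inv_smul_mem, inv_smul_smul] at this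
    have h3 := hX.2 h1 h2
    intro z hz
    rw [Subgroup.mem_pointwise_smul_iff_inv_smul_mem] at hz
    have := h3 hz
    rw [map_inv, Subgroup.mem_pointwise_smul_iff_inv_smul_mem, inv_inv, smul_inv_smul] at this
    exact this
  -- the socle
  set S : Subgroup G := sSup {X | Min X} with hS
  have hSV : S ≤ V := sSup_le (fun X hX => hX.1.1)
  have hle1 : ∀ h ∈ H, MulAut.conj h • S ≤ S := by
    intro h hh
    have h1 : S ≤ (MulAut.conj h)⁻¹ • S := by
      apply sSup_le
      intro X hX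
      intro z hz
      rw [Subgroup.mem_pointwise_smul_iff_inv_smul_mem, inv_inv]
      have h2 : MulAut.conj h • X ≤ S := le_sSup (hMinconj h hh X hX)
      exact h2 (Subgroup.smul_mem_pointwise_smul z (MulAut.conj h) X hz)
    intro z hz
    rw [Subgroup.mem_pointwise_smul_iff_inv_smul_mem] at hz
    have := h1 hz
    rwa [Subgroup.mem_pointwise_smul_iff_inv_smul_mem, inv_inv, smul_inv_smul] at this
  have hSH : H ≤ Subgroup.normalizer (S : Set G) := by
    intro h hh
    rw [hconj]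
    refine le_antisymm (hle1 h hh) ?_
    intro z hz
    rw [Subgroup.mem_pointwise_smul_iff_inv_smul_mem, ← map_inv]
    exact hle1 h⁻¹ (H.inv_mem hh) (Subgroup.smul_mem_pointwise_smul z _ S hz)
  have hSeq : S = V := by
    obtain ⟨W, hWV, hWH, hSW, hSWV⟩ := hss S hSV hSH
    by_cases hW : W = ⊥
    · rw [hW, sup_bot_eq] at hSWV; exact hSWV
    · exfalso
      obtain ⟨X, hX, hXW⟩ := hexmin W ⟨hWV, hAH.trans hWH, hW⟩
      have h1 : X ≤ S := le_sSup hX
      apply hX.1.2.2
      rw [eq_bot_iff, ← hSW]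
      exact le_inf h1 hXW
  -- maximal W
  obtain ⟨W, ⟨hWV, hWA, hUW⟩, hWmax⟩ : ∃ W, Maximal (fun W : Subgroup G => W ≤ V ∧ A ≤ Subgroup.normalizer (W : Set G) ∧ U ⊓ W = ⊥) W := by
    apply Set.Finite.exists_maximal (s := {W : Subgroup G | W ≤ V ∧ A ≤ Subgroup.normalizer (W : Set G) ∧ U ⊓ W = ⊥})
    · exact Set.toFinite _
    · refine ⟨⊥, bot_le, ?_, inf_bot_eq U⟩
      intro a _
      rw [hconj, Subgroup.smul_bot]
  refine ⟨W, hWV, hWA, hUW, ?_⟩
  refine le_antisymm (sup_le hUV hWV) ?_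
  rw [← hSeq]
  apply sSup_le
  intro X hX
  by_contra hXn
  have hXbot : X ⊓ (U ⊔ W) = ⊥ := by
    by_contra hne
    have h1 : Inv (X ⊓ (U ⊔ W)) := ⟨inf_le_left.trans hX.1.1, hinf hX.1.2.1 (hsup hAU hWA), hne⟩
    exact hXn ((hX.2 h1 inf_le_left).trans inf_le_right)
  have hXV := hX.1.1
  have hnew : W ⊔ X ≤ V ∧ A ≤ Subgroup.normalizer ((W ⊔ X : Subgroup G) : Set G) ∧ U ⊓ (W ⊔ X) = ⊥ := by
    refine ⟨sup_le hWV hXV, hsup hWA hX.1.2.1, ?_⟩
    rw [eq_bot_iff]
    rintro u ⟨hu1, hu2⟩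
    obtain ⟨w, hw, x, hx, hwx⟩ := (L0.mem_sup_of_normalizes (hnormV hXV hWV)).1 hu2
    have hx1 : x ∈ X ⊓ (U ⊔ W) := by
      refine ⟨hx, ?_⟩
      have : x = w⁻¹ * u := by rw [← hwx]; group
      rw [this]
      exact Subgroup.mul_mem _ (Subgroup.mem_sup_right (W.inv_mem hw)) (Subgroup.mem_sup_left hu1)
    rw [hXbot, Subgroup.mem_bot] at hx1
    rw [hx1, mul_one] at hwx
    rw [← hUW]
    exact ⟨hu1, hwx ▸ hw⟩
  have h1 := hWmax hnew le_sup_left
  exact hXn ((le_sup_right.trans h1).trans le_sup_right)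

end Cfsg.Agent.S3735
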