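import Cfsg.Statements.S3736
import Mathlib
import Cfsg.Agent.L0.Coprime2
import Cfsg.Agent.H1.Basic
import Cfsg.Agent.H1.Class2
import Cfsg.Agent.H3.Omega
import Cfsg.Agent.H3.SymSyl
import Cfsg.Agent.H6.Critical4

set_option autoImplicit false
open Cfsg

namespace Cfsg.Agent.S3736

open Subgroup Cfsg.Agent.L0
open scoped commutatorElement

theorem commutator_le_frattini {D : Type*} [Group D] [Finite D] [hD : Group.IsNilpotent D] : commutator D ≤ frattini D := by
  unfold frattini Order.radical
  exact le_iInf₂ (fun M hM => H3.commutator_le_coatom hM)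

theorem norm_char {X : Type*} [Group X] {P : Subgroup X} {K : Subgroup P} (hK : ∀ f : MulAut P, ∀ x ∈ K, f x ∈ K) [Finite X] :
    normalizer (P : Set X) ≤ normalizer ((K.map P.subtype : Subgroup X) : Set X) := by
  intro b hb
  apply H1.mem_normalizer_of_conj_mem
  rintro _ ⟨x, hx, rfl⟩
  exact ⟨_, hK (Subgroup.normalizerMonoidHom P ⟨b, hb⟩) x hx, rfl⟩

theorem char_mem {Y : Type*} [Group Y] (K : Subgroup Y) [hK : K.Characteristic] (f : MulAut Y) (x : Y) (hx : x ∈ K) : f x ∈ K := by
  have := Subgroup.characteristic_iff_comap_eq.1 hK f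
  rw [← this] at hx
  exact hx

/-- The Hall–Higman reduction for a minimal non-trivial action. Let B, A and P be subgroups of a finite group with P a p-group, B normalizing P, and A a normal subgroup of B of order prime to p. Suppose A does not centralize P but centralizes every proper B-invariant subgroup of P. Then [P, A] = P; P is elementary abelian or special; B acts irreducibly on P/Φ(P), that is, the only B-invariant subgroups of P containing Φ(P) are Φ(P) and P; and if p is odd then every element of P has order dividing p. -/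
theorem result {X : Type*} [Group X] [Finite X] {p : ℕ} [Fact p.Prime] (B A P : Subgroup X) (hP : IsPGroup p P) (hBP : B ≤ Subgroup.normalizer (P : Set X)) (hAB : A ≤ B) (hAn : B ≤ Subgroup.normalizer (A : Set X)) (hAp : (Nat.card A).Coprime p) (hnt : ⁅P, A⁆ ≠ ⊥) (hmin : ∀ U : Subgroup X, U < P → B ≤ Subgroup.normalizer (U : Set X) → ⁅U, A⁆ = ⊥) : ⁅P, A⁆ = P ∧ (Cfsg.IsElementaryAbelian p P ∨ Cfsg.IsSpecial p ↥P) ∧ (∀ U : Subgroup X, (frattini ↥P).map P.subtype ≤ U → U ≤ P → B ≤ Subgroup.normalizer (U : Set X) → U = (frattini ↥P).map P.subtype ∨ U = P) ∧ (p ≠ 2 → ∀ x ∈ P, x ^ p = 1) := by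
  classical
  have hpp : p.Prime := Fact.out
  have hAP : A ≤ normalizer (P : Set X) := hAB.trans hBP
  obtain ⟨m, hm⟩ := IsPGroup.iff_card.mp hP
  have hcop : (Nat.card A).Coprime (Nat.card P) := by rw [hm]; exact hAp.pow_right m
  haveI hPn := hP.isNilpotent
  have hs : Group.IsSolvable A ∨ Group.IsSolvable P := Or.inr inferInstance
  have hBconj : ∀ b ∈ B, ∀ a ∈ A, b * a * b⁻¹ ∈ A := fun b hb a ha => (mem_normalizer_iff.1 (hAn hb) a).1 ha
  -- [P, A] = P
  have h1 : ⁅P, A⁆ = P := by
    by_contra hne
    have hle : ⁅P, A⁆ ≤ P := commutator_le_of_normalizes hAP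
    have hlt : ⁅P, A⁆ < P := lt_of_le_of_ne hle hne
    apply hnt
    rw [← commutator_commutator_eq hAP hcop hs]
    apply hmin _ hlt
    intro b hb
    apply H1.mem_normalizer_of_conj_mem
    have hmap : (⁅P, A⁆).map (MulAut.conj b).toMonoidHom ≤ ⁅P, A⁆ := by
      rw [Subgroup.map_commutator]
      apply Subgroup.commutator_mono
      · rintro _ ⟨x, hx, rfl⟩
        exact (mem_normalizer_iff.1 (hBP hb) x).1 hx
      · rintro _ ⟨x, hx, rfl⟩
        exact hBconj b hb x hx
    intro x hx
    exact hmap ⟨x, hx, rfl⟩
  -- the norm map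
  have hC : ∀ u : P, (u : X) ∈ centralizer (A : Set X) → u ∈ commutator P := by
    haveI : Fintype A := Fintype.ofFinite A
    let φ : A →* MulAut P := (Subgroup.normalizerMonoidHom P).comp (Subgroup.inclusion hAP)
    have hφ : ∀ (a : A) (h : P), ((φ a h : P) : X) = a * h * (a : X)⁻¹ := fun a h => rfl
    let N : P →* Abelianization P :=
      { toFun := fun x => ∏ a : A, Abelianization.of (φ a x)
        map_one' := by simp
        map_mul' := by intro x y; simp only [map_mul]; rw [Finset.prod_mul_distrib] }
    have hN : ∀ x, N x = ∏ a : A, Abelianization.of (φ a x) := fun x => rfl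
    have hNb : ∀ (b : A) (x : P), N (φ b x) = N x := by
      intro b x
      rw [hN, hN]
      refine Fintype.prod_equiv (Equiv.mulRight b) _ _ (fun a => ?_)
      show Abelianization.of (φ a (φ b x)) = Abelianization.of (φ (a * b) x)
      rw [map_mul]; rfl
    have hker : P ≤ N.ker.map P.subtype := by
      conv_lhs => rw [← h1]
      rw [Subgroup.commutator_le]
      intro x hx b hb
      refine ⟨⟨x, hx⟩ * φ ⟨b, hb⟩ ⟨x, hx⟩⁻¹, ?_, ?_⟩
      · rw [SetLike.mem_coe, MonoidHom.mem_ker, map_mul, hNb, ← map_mul, mul_inv_cancel, map_one]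
      · show x * (b * x⁻¹ * b⁻¹) = ⁅x, b⁆
        rw [commutatorElement_def]; group
    intro u hu
    obtain ⟨v, hv, hvu⟩ := hker u.2
    have hvu' : v = u := Subtype.ext hvu
    rw [hvu', SetLike.mem_coe, MonoidHom.mem_ker, hN] at hv
    have h3 : ∀ a : A, φ a u = u := by
      intro a
      apply Subtype.ext
      rw [hφ, (mem_centralizer_iff.1 hu) a a.2]; group
    rw [Finset.prod_congr rfl (fun a _ => by rw [h3 a]), Finset.prod_const, Finset.card_univ, ← Nat.card_eq_fintype_card] at hv
    have h4 : orderOf (Abelianization.of u) ∣ Nat.card A := orderOf_dvd_of_pow_eq_one hv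
    have h5 : orderOf (Abelianization.of u) ∣ Nat.card P := (orderOf_map_dvd _ u).trans (_root_.orderOf_dvd_natCard u)
    have h6 := Nat.eq_one_of_dvd_coprimes hcop h4 h5
    rw [orderOf_eq_one_iff] at h6
    have h7 : u ∈ (Abelianization.of (G := P)).ker := h6
    rwa [Abelianization.ker_of] at h7
  have hU : ∀ U : Subgroup X, U < P → B ≤ normalizer (U : Set X) → U ≤ (commutator P).map P.subtype := by
    intro U hUP hUB x hx
    have h2 := Subgroup.commutator_eq_bot_iff_le_centralizer.1 (hmin U hUP hUB)
    exact ⟨⟨x, hUP.le hx⟩, hC ⟨x, hUP.le hx⟩ (h2 hx), rfl⟩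
  have hUc : ∀ K : Subgroup P, (∀ f : MulAut P, ∀ x ∈ K, f x ∈ K) → K ≠ ⊤ → K ≤ commutator P ∧ ∀ x ∈ K, ((x : P) : X) ∈ centralizer (A : Set X) := by
    intro K hK hKt
    have hlt : K.map P.subtype < P := by
      refine lt_of_le_of_ne (Subgroup.map_subtype_le _) ?_
      intro h
      apply hKt
      apply Subgroup.map_injective P.subtype_injective
      rw [h, ← MonoidHom.range_eq_map, Subgroup.range_subtype]
    have hn : B ≤ normalizer ((K.map P.subtype : Subgroup X) : Set X) := hBP.trans (norm_char hK)
    refine ⟨?_, ?_⟩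
    · have h2 := hU _ hlt hn
      exact (Subgroup.map_le_map_iff_of_injective P.subtype_injective).1 h2
    · intro x hx
      exact Subgroup.commutator_eq_bot_iff_le_centralizer.1 (hmin _ hlt hn) ⟨x, hx, rfl⟩
  have hPne : Nontrivial P := by
    rw [Subgroup.nontrivial_iff_ne_bot]
    rintro rfl
    apply hnt
    rw [Subgroup.commutator_bot_left]
  have hCF : commutator P ≤ frattini P := commutator_le_frattini
  have hkeyC : (commutator P = ⊥ ∧ ∀ x : P, x ^ p = 1) ∨ Cfsg.IsSpecial p ↥P := by
    by_cases hc : commutator P = ⊥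
    · left
      refine ⟨hc, ?_⟩
      have hcomm : ∀ a b : P, a * b = b * a := by
        intro a b
        have : ⁅a, b⁆ ∈ commutator P := by rw [_root_.commutator_def]; exact commutator_mem_commutator (mem_top _) (mem_top _)
        rw [hc, mem_bot, commutatorElement_eq_one_iff_mul_comm] at this
        exact this
      let K : Subgroup P :=
        { carrier := {x | x ^ p = 1}
          one_mem' := one_pow _
          mul_mem' := by
            intro a b ha hb
            have ha' : a ^ p = 1 := ha
            have hb' : b ^ p = 1 := hb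
            show (a * b) ^ p = 1
            rw [(show Commute a b from hcomm a b).mul_pow, ha', hb', one_mul]
          inv_mem' := by
            intro a ha
            have ha' : a ^ p = 1 := ha
            show a⁻¹ ^ p = 1
            rw [inv_pow, ha', inv_one] }
      have hKt : K = ⊤ := by
        by_contra hne
        have h2 := (hUc K (fun f x hx => by
          have hx' : x ^ p = 1 := hx
          show (f x) ^ p = 1
          rw [← map_pow, hx', map_one]) hne).1
        have hm0 : m ≠ 0 := by
          rintro rfl
          rw [pow_zero] at hm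
          exact (Finite.one_lt_card (α := P)).ne' hm
        obtain ⟨x, hx⟩ := exists_prime_orderOf_dvd_card' (G := P) p (by rw [hm]; exact dvd_pow_self p hm0)
        have hxK : x ∈ K := by show x ^ p = 1; rw [← hx, pow_orderOf_eq_one]
        have h3 := h2 hxK
        rw [hc, mem_bot] at h3
        rw [h3, orderOf_one] at hx
        exact hpp.one_lt.ne hx
      intro x
      have : x ∈ K := by rw [hKt]; trivial
      exact this
    · right
      have hF := hUc (frattini P) (fun f x hx => char_mem _ f x hx) H3.frattini_ne_top'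
      have hFC : frattini P = commutator P := le_antisymm hF.1 hCF
      have hZt : center P ≠ ⊤ := by
        intro h
        apply hc
        rw [eq_bot_iff, _root_.commutator_def, Subgroup.commutator_le]
        intro a _ b _
        rw [mem_bot, commutatorElement_eq_one_iff_mul_comm]
        have : b ∈ center P := by rw [h]; trivial
        exact mem_center_iff.1 this a
      have hZ := hUc (center P) (fun f x hx => char_mem _ f x hx) hZt
      set Φ := (frattini P).map P.subtype with hΦ
      have hΦP : Φ ≤ P := Subgroup.map_subtype_le _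
      have hΦA : ⁅A, Φ⁆ = ⊥ := by
        rw [Subgroup.commutator_comm, Subgroup.commutator_eq_bot_iff_le_centralizer]
        rintro _ ⟨x, hx, rfl⟩
        exact hF.2 x hx
      have hΦPn : ⁅Φ, P⁆ ≤ Φ := by
        rw [Subgroup.commutator_le]
        rintro _ ⟨x, hx, rfl⟩ y hy
        refine ⟨⁅x, ⟨y, hy⟩⁆, ?_, rfl⟩
        have e : ⁅x, (⟨y, hy⟩ : P)⁆ = x * (⟨y, hy⟩ * x⁻¹ * (⟨y, hy⟩ : P)⁻¹) := by rw [commutatorElement_def]; group
        rw [SetLike.mem_coe, e]
        exact mul_mem hx ((inferInstance : (frattini P).Normal).conj_mem _ (inv_mem hx) _)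
      have h3 : ⁅⁅P, A⁆, Φ⁆ = ⊥ := by
        apply Subgroup.commutator_commutator_eq_bot_of_rotate
        · rw [hΦA, Subgroup.commutator_bot_left]
        · rw [eq_bot_iff, ← hΦA, Subgroup.commutator_comm A Φ]
          exact Subgroup.commutator_mono hΦPn le_rfl
      rw [h1] at h3
      have hFZ : frattini P ≤ center P := by
        intro x hx
        rw [mem_center_iff]
        intro g
        have h4 : ⁅(g : X), (x : X)⁆ ∈ ⁅P, Φ⁆ := commutator_mem_commutator g.2 ⟨x, hx, rfl⟩
        rw [h3, mem_bot, commutatorElement_eq_one_iff_mul_comm] at h4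
        exact Subtype.ext h4
      refine ⟨hP, le_antisymm hFZ (hZ.1.trans hCF), le_antisymm (hCF.trans hFZ) hZ.1⟩
  refine ⟨h1, ?_, ?_, ?_⟩
  · rcases hkeyC with ⟨hc, hx⟩ | h
    · left
      refine ⟨⟨⟨?_⟩⟩, ?_⟩
      · intro a b
        have : ⁅a, b⁆ ∈ commutator P := by rw [_root_.commutator_def]; exact commutator_mem_commutator (mem_top _) (mem_top _)
        rw [hc, mem_bot, commutatorElement_eq_one_iff_mul_comm] at this
        exact this
      · intro a ha
        exact congrArg Subtype.val (hx ⟨a, ha⟩)
    · exact Or.inr h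
  · intro U hΦU hUP hUB
    by_cases hUe : U = P
    · exact Or.inr hUe
    · left
      apply le_antisymm _ hΦU
      exact (hU U (lt_of_le_of_ne hUP hUe) hUB).trans (Subgroup.map_mono hCF)
  · intro hp2
    rcases hkeyC with ⟨hc, hx⟩ | hsp
    · intro x hx'
      exact congrArg Subtype.val (hx ⟨x, hx'⟩)
    · obtain ⟨-, hFZ, hCZ⟩ := hsp
      have hcz : ∀ a b : P, ⁅a, b⁆ ∈ center P := by
        intro a b
        rw [← hCZ, _root_.commutator_def]; exact commutator_mem_commutator (mem_top _) (mem_top _)
      have hcp : ∀ a b : P, ⁅a, b⁆ ^ p = 1 := by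
        intro a b
        rw [← H1.comm_pow_left (H1.commute_of_mem_center (hcz a b)) p, commutatorElement_eq_one_iff_mul_comm]
        have h2 : a ^ p ∈ center P := by rw [← hFZ]; exact H6.pow_mem_frattini hP a
        exact (mem_center_iff.1 h2 b).symm
      let K : Subgroup P :=
        { carrier := {x | x ^ p = 1}
          one_mem' := one_pow _
          mul_mem' := by
            intro a b ha hb
            have ha' : a ^ p = 1 := ha
            have hb' : b ^ p = 1 := hb
            show (a * b) ^ p = 1
            rw [H1.mul_pow_prime_of_class_two hpp hp2 (hcz b a) (hcp b a), ha', hb', one_mul]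
          inv_mem' := by
            intro a ha
            have ha' : a ^ p = 1 := ha
            show a⁻¹ ^ p = 1
            rw [inv_pow, ha', inv_one] }
      have hKt : K = ⊤ := by
        by_contra hne
        have h2 := (hUc K (fun f x hx => by
          have hx' : x ^ p = 1 := hx
          show (f x) ^ p = 1
          rw [← map_pow, hx', map_one]) hne).2
        apply hnt
        rw [Subgroup.commutator_comm, Subgroup.commutator_eq_bot_iff_le_centralizer]
        intro a ha
        have hao : (orderOf a).Coprime p := by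
          refine Nat.Coprime.coprime_dvd_left ?_ hAp
          have := _root_.orderOf_dvd_natCard (⟨a, ha⟩ : A)
          rwa [Subgroup.orderOf_mk] at this
        refine H3.omega_centralizes hao _ P rfl hP (hAP ha) ?_
        intro z hz hzp
        rcases hzp with hzp | ⟨h, -⟩
        · have h3 := h2 ⟨z, hz⟩ (by show (⟨z, hz⟩ : P) ^ p = 1; exact Subtype.ext hzp)
          exact (mem_centralizer_iff.1 h3) a ha
        · exact absurd h hp2
      intro x hx
      have : (⟨x, hx⟩ : P) ∈ K := by rw [hKt]; trivial
      exact congrArg Subtype.val this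

end Cfsg.Agent.S3736
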