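import Cfsg.Statements.S3741
import Mathlib
import Mathlib
import Cfsg.Agent.H1.Basic
import Cfsg.Agent.H3.Pairing

set_option autoImplicit false
open Cfsg

namespace Cfsg.Agent.S3741

open Subgroup
open scoped commutatorElement

theorem central_aux {G : Type*} [Group G] [Finite G] {p : ℕ} [Fact p.Prime] (hG : IsPGroup p G) (Z K : Subgroup G) (hZK : Z ≤ K)
    (hK : K ≤ normalizer (Z : Set G)) (hcard : Nat.card Z ≤ p) : ∀ z ∈ Z, ∀ k ∈ K, z * k = k * z := by
  classical
  by_cases hZ : Z = ⊥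
  · intro z hz k _
    rw [hZ, mem_bot] at hz
    rw [hz, one_mul, mul_one]
  haveI hn : (Z.subgroupOf K).Normal := (normal_subgroupOf_iff_le_normalizer hZK).2 hK
  haveI : Group.IsNilpotent K := (hG.to_subgroup K).isNilpotent
  have hne : Z.subgroupOf K ≠ ⊥ := by
    intro h
    apply hZ
    rw [subgroupOf_eq_bot, disjoint_iff, inf_eq_left.2 hZK] at h
    exact h
  have h1 := H1.inf_center_ne_bot (Z.subgroupOf K) hne
  have h2 : p ≤ Nat.card (Z.subgroupOf K ⊓ center K : Subgroup K) := by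
    have hp : IsPGroup p (Z.subgroupOf K ⊓ center K : Subgroup K) := (hG.to_subgroup K).to_subgroup _
    haveI : Nontrivial (Z.subgroupOf K ⊓ center K : Subgroup K) := (Subgroup.nontrivial_iff_ne_bot _).2 h1
    obtain ⟨n, hn0, hn⟩ := hp.nontrivial_iff_card.1 inferInstance
    rw [hn]
    exact Nat.le_self_pow hn0.ne' p
  have h3 : Z.subgroupOf K ⊓ center K = Z.subgroupOf K := by
    apply Subgroup.eq_of_le_of_card_ge inf_le_left
    rw [Nat.card_congr (subgroupOfEquivOfLe hZK).toEquiv]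
    exact hcard.trans h2
  intro z hz k hk
  have h4 : (⟨z, hZK hz⟩ : K) ∈ Z.subgroupOf K ⊓ center K := by rw [h3]; exact hz
  have h5 := mem_center_iff.1 h4.2 ⟨k, hk⟩
  exact (congrArg Subtype.val h5).symm

/-- Let A and B be subgroups of a finite p-group with [A, B] ≤ A ∩ B and [A, B] of order at most p. Then |A : C_A(B)| = |B : C_B(A)|. -/
theorem result {G : Type*} [Group G] [Finite G] {p : ℕ} [Fact p.Prime] (hG : IsPGroup p G) (A B : Subgroup G) (hAB : ⁅A, B⁆ ≤ A ⊓ B) (hcard : Nat.card ↥⁅A, B⁆ ≤ p) : (A ⊓ Subgroup.centralizer (B : Set G)).relIndex A = (B ⊓ Subgroup.centralizer (A : Set G)).relIndex B := by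
  classical
  set Z : Subgroup G := ⁅A, B⁆ with hZ
  have hAn : A ≤ normalizer (Z : Set G) := normalizer_commutator_ge_left _ _
  have hBn : B ≤ normalizer (Z : Set G) := normalizer_commutator_ge_right _ _
  have hZA : Z ≤ A := hAB.trans inf_le_left
  have hZB : Z ≤ B := hAB.trans inf_le_right
  have hcen : ∀ z ∈ Z, ∀ k ∈ A ⊔ B, z * k = k * z := central_aux hG Z (A ⊔ B) (hZA.trans le_sup_left) (sup_le hAn hBn) hcard
  have hm : ∀ a ∈ A, ∀ b ∈ B, ⁅a, b⁆ ∈ Z := fun a ha b hb => commutator_mem_commutator ha hb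
  by_cases hZ1 : Z = ⊥
  · have h1 : ∀ a ∈ A, ∀ b ∈ B, a * b = b * a := by
      intro a ha b hb
      have h2 := hm a ha b hb
      rw [hZ1, mem_bot] at h2
      exact commutatorElement_eq_one_iff_mul_comm.1 h2
    have h2 : A ⊓ centralizer (B : Set G) = A := inf_eq_left.2 fun a ha => by
      rw [mem_centralizer_iff]; intro b hb; exact (h1 a ha b hb).symm
    have h3 : B ⊓ centralizer (A : Set G) = B := inf_eq_left.2 fun b hb => by
      rw [mem_centralizer_iff]; intro a ha; exact h1 a ha b hb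
    rw [h2, h3, relIndex_self, relIndex_self]
  letI : CommGroup Z := { (inferInstance : Group Z) with
    mul_comm := fun a b => Subtype.ext (hcen a a.2 b ((hZA.trans le_sup_left) b.2)) }
  haveI hnt : Nontrivial Z := (Subgroup.nontrivial_iff_ne_bot _).2 hZ1
  have hcardp : Nat.card Z = p := by
    obtain ⟨n, hn0, hn⟩ := (hG.to_subgroup Z).nontrivial_iff_card.1 hnt
    exact le_antisymm hcard (by rw [hn]; exact Nat.le_self_pow hn0.ne' p)
  obtain ⟨z0, hz0⟩ := exists_ne (1 : Z)
  obtain ⟨ι, hι⟩ := CommGroup.exists_apply_ne_one_of_hasEnoughRootsOfUnity Z ℂ hz0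
  have hinj : ∀ z : Z, ι z = 1 → z = 1 := by
    intro z hz
    by_contra hz1
    have h1 : zpowers z = ⊤ := zpowers_eq_top_of_prime_card hcardp hz1
    have h2 : z0 ∈ zpowers z := by rw [h1]; exact mem_top _
    obtain ⟨k, hk⟩ := mem_zpowers_iff.1 h2
    apply hι
    rw [← hk, map_zpow, hz, one_zpow]
  let β : A →* (B →* ℂˣ) :=
    { toFun := fun a =>
        { toFun := fun b => ι ⟨⁅(a : G), (b : G)⁆, hm a a.2 b b.2⟩
          map_one' := by
            have : (⟨⁅(a : G), ((1 : B) : G)⁆, hm a a.2 _ (1 : B).2⟩ : Z) = 1 := Subtype.ext (commutatorElement_one_right (a : G))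
            rw [this, map_one]
          map_mul' := by
            intro b c
            rw [← map_mul]
            congr 1
            apply Subtype.ext
            show ⁅(a : G), (b : G) * c⁆ = ⁅(a : G), (b : G)⁆ * ⁅(a : G), (c : G)⁆
            have h1 : ⁅(a : G), (c : G)⁆ * b = b * ⁅(a : G), (c : G)⁆ := hcen _ (hm a a.2 c c.2) b (mem_sup_right b.2)
            calc ⁅(a : G), (b : G) * c⁆ = ⁅(a : G), (b : G)⁆ * (b * ⁅(a : G), (c : G)⁆) * (b : G)⁻¹ := by
                  rw [commutatorElement_def, commutatorElement_def, commutatorElement_def]; group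
              _ = ⁅(a : G), (b : G)⁆ * ⁅(a : G), (c : G)⁆ := by rw [← h1]; group }
      map_one' := by
        ext b
        have : (⟨⁅((1 : A) : G), (b : G)⁆, hm _ (1 : A).2 b b.2⟩ : Z) = 1 := Subtype.ext (commutatorElement_one_left (b : G))
        show ((ι ⟨⁅((1 : A) : G), (b : G)⁆, hm _ (1 : A).2 b b.2⟩ : ℂˣ) : ℂ) = 1
        rw [this, map_one]; rfl
      map_mul' := by
        intro a c
        ext b
        show ((ι ⟨⁅(((a * c : A)) : G), (b : G)⁆, hm _ (a * c).2 b b.2⟩ : ℂˣ) : ℂ) = ((ι ⟨⁅(a : G), (b : G)⁆, hm a a.2 b b.2⟩ * ι ⟨⁅(c : G), (b : G)⁆, hm c c.2 b b.2⟩ : ℂˣ) : ℂ)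
        rw [← map_mul]
        congr 2
        apply Subtype.ext
        show ⁅(a : G) * c, (b : G)⁆ = ⁅(a : G), (b : G)⁆ * ⁅(c : G), (b : G)⁆
        have h1 : ⁅(c : G), (b : G)⁆ * a = a * ⁅(c : G), (b : G)⁆ := hcen _ (hm c c.2 b b.2) a (mem_sup_left a.2)
        have h2 : ⁅(c : G), (b : G)⁆ * ⁅(a : G), (b : G)⁆ = ⁅(a : G), (b : G)⁆ * ⁅(c : G), (b : G)⁆ :=
          hcen _ (hm c c.2 b b.2) _ (mem_sup_left (hZA (hm a a.2 b b.2)))
        calc ⁅(a : G) * c, (b : G)⁆ = (a * ⁅(c : G), (b : G)⁆) * (a : G)⁻¹ * ⁅(a : G), (b : G)⁆ := by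
              rw [commutatorElement_def, commutatorElement_def, commutatorElement_def]; group
          _ = ⁅(c : G), (b : G)⁆ * ⁅(a : G), (b : G)⁆ := by rw [← h1]; group
          _ = _ := h2 }
  have key := H3.pairing_eq β
  have h1 : β.ker = (A ⊓ centralizer (B : Set G)).subgroupOf A := by
    ext a
    rw [MonoidHom.mem_ker, mem_subgroupOf]
    constructor
    · intro h
      have h2 : (a : G) ∈ centralizer (B : Set G) := by
        rw [mem_centralizer_iff]
        intro b hb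
        have h3 : ι ⟨⁅(a : G), b⁆, hm a a.2 b hb⟩ = 1 := DFunLike.congr_fun h (⟨b, hb⟩ : B)
        have h4 := congrArg Subtype.val (hinj _ h3)
        exact (commutatorElement_eq_one_iff_mul_comm.1 h4).symm
      exact ⟨a.2, h2⟩
    · intro h
      ext b
      have h2 : (a : G) ∈ centralizer (B : Set G) := h.2
      have h3 : (⟨⁅(a : G), (b : G)⁆, hm a a.2 b b.2⟩ : Z) = 1 :=
        Subtype.ext (commutatorElement_eq_one_iff_mul_comm.2 ((mem_centralizer_iff.1 h2 b b.2).symm))
      show ((ι ⟨⁅(a : G), (b : G)⁆, hm a a.2 b b.2⟩ : ℂˣ) : ℂ) = 1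
      rw [h3, map_one]; rfl
  have h2 : β.flip.ker = (B ⊓ centralizer (A : Set G)).subgroupOf B := by
    ext b
    rw [MonoidHom.mem_ker, mem_subgroupOf]
    constructor
    · intro h
      have h2 : (b : G) ∈ centralizer (A : Set G) := by
        rw [mem_centralizer_iff]
        intro a ha
        have h3 : ι ⟨⁅a, (b : G)⁆, hm a ha b b.2⟩ = 1 := DFunLike.congr_fun h (⟨a, ha⟩ : A)
        have h4 := congrArg Subtype.val (hinj _ h3)
        exact commutatorElement_eq_one_iff_mul_comm.1 h4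
      exact ⟨b.2, h2⟩
    · intro h
      ext a
      have h2 : (b : G) ∈ centralizer (A : Set G) := h.2
      have h3 : (⟨⁅(a : G), (b : G)⁆, hm a a.2 b b.2⟩ : Z) = 1 :=
        Subtype.ext (commutatorElement_eq_one_iff_mul_comm.2 (mem_centralizer_iff.1 h2 a a.2))
      show ((ι ⟨⁅(a : G), (b : G)⁆, hm a a.2 b b.2⟩ : ℂˣ) : ℂ) = 1
      rw [h3, map_one]; rfl
  rw [h1, h2] at key
  exact key

end Cfsg.Agent.S3741
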