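import Cfsg.Statements.S3742
import Cfsg.Agent.H4.QAut

set_option autoImplicit false
open Cfsg

namespace Cfsg.Agent.S3742

/-- The automorphism group of the quaternion group of order 8 is isomorphic to the symmetric group of degree 4. -/
theorem result : Nonempty (MulAut (QuaternionGroup 2) ≃* Equiv.Perm (Fin 4)) := by
  exact H4.QA.aut_iso

end Cfsg.Agent.S3742
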