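import Cfsg.Statements.S3743
import Mathlib
import Cfsg.Agent.H1.Subn
import Cfsg.Agent.L0.GenFit
import Cfsg.Agent.H5.W25

set_option autoImplicit false
open Cfsg

namespace Cfsg.Agent.S3743

open Subgroup
universe u

theorem aux (π : Set ℕ) (n : ℕ) : ∀ (G : Type u) [Group G] [Finite G], Nat.card G = n → ∀ A : Subgroup G, A.IsSubnormal →
    (∀ p : ℕ, p.Prime → p ∣ Nat.card A → p ∈ π) → A ≤ Cfsg.piCore π G := by
  induction n using Nat.strong_induction_on with
  | _ n ih =>
  intro G _ _ hn A hA hp
  rcases hA.lt_normal with h | ⟨K, hK, hAK, hKt⟩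
  · exact le_sSup ⟨by rw [h]; infer_instance, hp⟩
  · haveI := hK
    have h1 := ih (Nat.card K) (by rw [← hn]; exact H1.card_lt_of_ne_top hKt.ne) K rfl (A.subgroupOf K) hA.subgroupOf (by
      intro p hp' hd
      apply hp p hp'
      rwa [Nat.card_congr (Subgroup.subgroupOfEquivOfLe hAK).toEquiv] at hd)
    have hcard : ∀ e : K ≃* K, (Cfsg.piCore π K).map e.toMonoidHom ≤ Cfsg.piCore π K := by
      intro e
      apply le_sSup
      refine ⟨Subgroup.Normal.map inferInstance _ e.surjective, ?_⟩
      intro p hp' hd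
      rw [L0.card_map_equiv] at hd
      exact H5.piCore_prime π K hp' hd
    have h2 : ((Cfsg.piCore π K).map K.subtype).Normal := by
      constructor
      rintro _ ⟨y, hy, rfl⟩ g
      refine ⟨MulAut.conjNormal g y, hcard (MulAut.conjNormal g) ⟨y, hy, rfl⟩, ?_⟩
      simp [MulAut.conjNormal_apply]
    have h3 : (Cfsg.piCore π K).map K.subtype ≤ Cfsg.piCore π G := by
      apply le_sSup
      refine ⟨h2, ?_⟩
      intro p hp' hd
      rw [L0.card_map_subtype] at hd
      exact H5.piCore_prime π K hp' hd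
    refine le_trans ?_ h3
    intro a ha
    exact ⟨⟨a, hAK ha⟩, h1 (Subgroup.mem_subgroupOf.2 ha), rfl⟩

/-- In a finite group G, every subnormal nilpotent subgroup lies in the Fitting subgroup F(G), and, for a set of primes π, every subnormal subgroup all of whose prime divisors lie in π lies in O_π(G). -/
theorem result {G : Type*} [Group G] [Finite G] (A : Subgroup G) (hA : A.IsSubnormal) : (Group.IsNilpotent A → A ≤ Cfsg.fittingSubgroup G) ∧ ∀ π : Set ℕ, (∀ p : ℕ, p.Prime → p ∣ Nat.card A → p ∈ π) → A ≤ Cfsg.piCore π G := by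
  exact ⟨fun h => L0.le_fittingSubgroup_of_isSubnormal hA h, fun π h => aux π _ G rfl A hA h⟩

end Cfsg.Agent.S3743
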