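import Cfsg.Statements.S3744
import Mathlib
import Cfsg.Agent.H3.PHall

set_option autoImplicit false
open Cfsg

namespace Cfsg.Agent.S3744

/-- A finite p-soluble group has a p-complement, all its p-complements are conjugate, and every subgroup of order prime to p lies in one of them. Here a p-complement is a subgroup of order prime to p whose index is a power of p. -/
theorem result {G : Type*} [Group G] [Finite G] {p : ℕ} [Fact p.Prime] (hG : Cfsg.IsPSolvable p G) : (∃ H : Subgroup G, (Nat.card H).Coprime p ∧ ∃ n : ℕ, H.index = p ^ n) ∧ (∀ H₁ H₂ : Subgroup G, (Nat.card H₁).Coprime p → (∃ n : ℕ, H₁.index = p ^ n) → (Nat.card H₂).Coprime p → (∃ n : ℕ, H₂.index = p ^ n) → ∃ g : G, H₂ = H₁.map (MulAut.conj g).toMonoidHom) ∧ (∀ U : Subgroup G, (Nat.card U).Coprime p → ∃ H : Subgroup G, (Nat.card H).Coprime p ∧ (∃ n : ℕ, H.index = p ^ n) ∧ ∃ g : G, U.map (MulAut.conj g).toMonoidHom ≤ H) := by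
  classical
  have hp : p.Prime := Fact.out
  obtain ⟨P⟩ : Nonempty (Sylow p G) := inferInstance
  obtain ⟨k, hk⟩ := IsPGroup.iff_card.mp P.2
  set a := (P : Subgroup G).index with ha
  have hcard : Nat.card G = a * p ^ k := by
    rw [← hk, ha, mul_comm]; exact ((P : Subgroup G).card_mul_index).symm
  have hap : a.Coprime p := by
    rw [Nat.coprime_comm, Nat.Prime.coprime_iff_not_dvd hp]
    exact P.not_dvd_index
  have hab : a.Coprime (p ^ k) := hap.pow_right k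
  obtain ⟨⟨H0, hH0⟩, hdom⟩ := H3.phall_aux (p := p) _ G rfl hG a (p ^ k) hcard hab hap ⟨k, rfl⟩
  have hidx : ∀ H : Subgroup G, Nat.card H = a → H.index = p ^ k := by
    intro H hH
    have h1 := H.card_mul_index
    rw [hH, hcard] at h1
    have ha0 : 0 < a := hH ▸ Nat.card_pos
    exact Nat.eq_of_mul_eq_mul_left ha0 h1
  have hca : ∀ H : Subgroup G, (Nat.card H).Coprime p → (∃ n : ℕ, H.index = p ^ n) → Nat.card H = a := by
    rintro H hH ⟨n, hn⟩
    have h1 := H.card_mul_index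
    rw [hn, hcard] at h1
    apply Nat.dvd_antisymm
    · exact (hH.pow_right k).dvd_of_dvd_mul_right (h1 ▸ Dvd.intro _ rfl)
    · exact (hap.pow_right n).dvd_of_dvd_mul_right (h1 ▸ Dvd.intro _ rfl)
  refine ⟨⟨H0, hH0 ▸ hap, k, hidx H0 hH0⟩, ?_, ?_⟩
  · intro H₁ H₂ h1 h1' h2 h2'
    have e1 := hca H₁ h1 h1'
    have e2 := hca H₂ h2 h2'
    obtain ⟨g, hg⟩ := hdom H₁ H₂ e1 (h2.pow_right k)
    refine ⟨g, ?_⟩
    have hg' : H₂ ≤ H₁.map (MulAut.conj g).toMonoidHom := hg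
    apply Subgroup.eq_of_le_of_card_ge hg'
    rw [L0.card_map_equiv, e1, e2]
  · intro U hU
    obtain ⟨g, hg⟩ := hdom H0 U hH0 (hU.pow_right k)
    refine ⟨H0, hH0 ▸ hap, ⟨k, hidx H0 hH0⟩, g⁻¹, ?_⟩
    rintro _ ⟨u, hu, rfl⟩
    obtain ⟨h, hh, hhu⟩ := hg hu
    have h3 : g * h * g⁻¹ = u := hhu
    show g⁻¹ * u * g⁻¹⁻¹ ∈ H0
    rw [← h3]
    have : g⁻¹ * (g * h * g⁻¹) * g⁻¹⁻¹ = h := by group
    rw [this]; exact hh

end Cfsg.Agent.S3744
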