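import Cfsg.Statements.S3747
import Mathlib
import Mathlib
import Cfsg.Agent.H1.Basic
import Cfsg.Agent.L0.GenFit

set_option autoImplicit false
open Cfsg

namespace Cfsg.Agent.S3747

open Subgroup Cfsg.Agent.L0
open scoped commutatorElement

section
variable {G : Type*} [Group G]

theorem mem_sup_comm {K T : Subgroup G} (h : ∀ k ∈ K, ∀ t ∈ T, k * t = t * k) {z : G} (hz : z ∈ K ⊔ T) :
    ∃ k ∈ K, ∃ t ∈ T, z = k * t := by
  let M : Subgroup G :=
    { carrier := {z | ∃ k ∈ K, ∃ t ∈ T, z = k * t}
      one_mem' := ⟨1, one_mem _, 1, one_mem _, by rw [mul_one]⟩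
      mul_mem' := by
        rintro _ _ ⟨k, hk, t, ht, rfl⟩ ⟨k', hk', t', ht', rfl⟩
        refine ⟨k * k', mul_mem hk hk', t * t', mul_mem ht ht', ?_⟩
        calc k * t * (k' * t') = k * (t * k') * t' := by group
          _ = k * k' * (t * t') := by rw [← h k' hk' t ht]; group
      inv_mem' := by
        rintro _ ⟨k, hk, t, ht, rfl⟩
        refine ⟨k⁻¹, inv_mem hk, t⁻¹, inv_mem ht, ?_⟩
        rw [h k hk t ht, mul_inv_rev] }
  have h1 : K ⊔ T ≤ M := sup_le (fun k hk => ⟨k, hk, 1, one_mem _, by rw [mul_one]⟩) (fun t ht => ⟨1, one_mem _, t, ht, by rw [one_mul]⟩)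
  exact h1 hz

theorem center_triv [DecidableEq (Subgroup G)] (S : Finset (Subgroup G)) : (∀ K ∈ S, IsComponent K ∧ center K = ⊥) →
    ∀ z ∈ S.sup id, (∀ K ∈ S, ∀ k ∈ K, z * k = k * z) → z = 1 := by
  induction S using Finset.induction_on with
  | empty =>
    intro _ z hz _
    rw [Finset.sup_empty, mem_bot] at hz
    exact hz
  | insert K S hKS ih =>
    intro hS z hz hzc
    rw [Finset.sup_insert, id] at hz
    have hc : ∀ k ∈ K, ∀ t ∈ S.sup id, k * t = t * k := by
      intro k hk
      have h1 : S.sup id ≤ centralizer ({k} : Set G) := by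
        apply Finset.sup_le
        intro L hL l hl
        have h2 := component_commute (hS K (Finset.mem_insert_self _ _)).1 (hS L (Finset.mem_insert_of_mem hL)).1 (fun h => hKS (h ▸ hL))
        have h3 : ⁅k, l⁆ ∈ (⊥ : Subgroup G) := by rw [← h2]; exact commutator_mem_commutator hk hl
        rw [mem_bot] at h3
        rw [mem_centralizer_singleton_iff]
        exact (commutatorElement_eq_one_iff_mul_comm.1 h3).symm
      intro t ht
      exact (mem_centralizer_singleton_iff.1 (h1 ht)).symm
    obtain ⟨k, hk, t, ht, rfl⟩ := mem_sup_comm hc hz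
    have hk1 : k = 1 := by
      have h1 : (⟨k, hk⟩ : K) ∈ center K := by
        rw [mem_center_iff]
        rintro ⟨k', hk'⟩
        apply Subtype.ext
        show k' * k = k * k'
        have h2 := hzc K (Finset.mem_insert_self _ _) k' hk'
        have h3 := hc k' hk' t ht
        have h4 : (k' * k) * t = (k * k') * t := by
          calc (k' * k) * t = k' * (k * t) := by group
            _ = (k * t) * k' := h2.symm
            _ = k * (t * k') := by group
            _ = (k * k') * t := by rw [← h3]; group
        exact mul_right_cancel h4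
      rw [(hS K (Finset.mem_insert_self _ _)).2, mem_bot] at h1
      exact congrArg Subtype.val h1
    rw [hk1, one_mul] at hzc ⊢
    exact ih (fun L hL => hS L (Finset.mem_insert_of_mem hL)) t ht (fun L hL => hzc L (Finset.mem_insert_of_mem hL))

theorem partA [Finite G] (K : Subgroup G) (hK : IsComponent K) (hZ : center K = ⊥) :
    normalClosure (K : Set G) ≠ ⊥ ∧ ∀ N : Subgroup G, N.Normal → N ≤ normalClosure (K : Set G) → N = ⊥ ∨ N = normalClosure (K : Set G) := by
  classical
  have hKM : K ≤ normalClosure (K : Set G) := subset_normalClosure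
  have hK0 := quasisimple_ne_bot hK.2
  refine ⟨fun h => hK0 (le_bot_iff.1 (h ▸ hKM)), ?_⟩
  intro N hN hNM
  haveI := hN
  rcases component_normal_cases (N := N) hK with h | h
  · right
    exact le_antisymm hNM (normalClosure_le_normal h)
  · left
    rw [eq_bot_iff]
    intro z hz
    rw [mem_bot]
    haveI : Fintype G := Fintype.ofFinite G
    let S : Finset (Subgroup G) := Finset.univ.image (fun g : G => K.map (MulAut.conj g).toMonoidHom)
    have hS : ∀ L ∈ S, ∃ g : G, L = K.map (MulAut.conj g).toMonoidHom := by
      intro L hL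
      obtain ⟨g, _, hg⟩ := Finset.mem_image.1 hL
      exact ⟨g, hg.symm⟩
    refine center_triv S ?_ z ?_ ?_
    · intro L hL
      obtain ⟨g, rfl⟩ := hS L hL
      refine ⟨isComponent_map_equiv (MulAut.conj g) hK, ?_⟩
      rw [eq_bot_iff]
      rintro ⟨_, k, hk, rfl⟩ hx
      have h1 : (⟨k, hk⟩ : K) ∈ center K := by
        rw [mem_center_iff]
        rintro ⟨k', hk'⟩
        have h2 := mem_center_iff.1 hx ⟨_, k', hk', rfl⟩
        have h3 := congrArg Subtype.val h2
        have h4 : (MulAut.conj g).toMonoidHom (k' * k) = (MulAut.conj g).toMonoidHom (k * k') := by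
          rw [map_mul, map_mul]; exact h3
        exact Subtype.ext ((MulAut.conj g).injective h4)
      rw [hZ, mem_bot] at h1
      have h2 : k = 1 := congrArg Subtype.val h1
      rw [mem_bot]
      apply Subtype.ext
      show (MulAut.conj g).toMonoidHom k = 1
      rw [h2, map_one]
    · have h1 : normalClosure (K : Set G) ≤ S.sup id := by
        rw [normalClosure, closure_le]
        intro x hx
        obtain ⟨a, ha, hax⟩ := Group.mem_conjugatesOfSet_iff.1 hx
        obtain ⟨g, hg⟩ := isConj_iff.1 hax
        have h2 : K.map (MulAut.conj g).toMonoidHom ∈ S := Finset.mem_image.2 ⟨g, Finset.mem_univ _, rfl⟩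
        have h3 : K.map (MulAut.conj g).toMonoidHom ≤ S.sup id := Finset.le_sup (f := id) h2
        exact h3 ⟨a, ha, hg⟩
      exact h1 (hNM hz)
    · intro L hL k hk
      obtain ⟨g, rfl⟩ := hS L hL
      obtain ⟨k0, hk0, rfl⟩ := hk
      have h1 : g⁻¹ * z * g ∈ N := by
        have := hN.conj_mem z hz g⁻¹
        rwa [inv_inv] at this
      have h2 : ⁅k0, g⁻¹ * z * g⁆ ∈ (⊥ : Subgroup G) := by rw [← h]; exact commutator_mem_commutator hk0 h1
      rw [mem_bot] at h2
      have h3 := commutatorElement_eq_one_iff_mul_comm.1 h2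
      show z * (g * k0 * g⁻¹) = (g * k0 * g⁻¹) * z
      calc z * (g * k0 * g⁻¹) = g * ((g⁻¹ * z * g) * k0) * g⁻¹ := by group
        _ = g * (k0 * (g⁻¹ * z * g)) * g⁻¹ := by rw [h3]
        _ = (g * k0 * g⁻¹) * z := by group
end

/-- Let G be a finite group. (a) If K is a component of G with trivial centre, then the normal closure of K in G is a minimal normal subgroup of G. (b) If the Fitting subgroup of G is trivial, then the layer E(G) is generated by the minimal normal subgroups of G. -/
theorem result {G : Type*} [Group G] [Finite G] : (∀ K : Subgroup G, Cfsg.IsComponent K → Subgroup.center ↥K = ⊥ → (Subgroup.normalClosure (K : Set G) ≠ ⊥ ∧ ∀ N : Subgroup G, N.Normal → N ≤ Subgroup.normalClosure (K : Set G) → N = ⊥ ∨ N = Subgroup.normalClosure (K : Set G))) ∧ (Cfsg.fittingSubgroup G = ⊥ → sSup {N : Subgroup G | N ≠ ⊥ ∧ N.Normal ∧ ∀ N' : Subgroup G, N'.Normal → N' ≤ N → N' = ⊥ ∨ N' = N} = Cfsg.layer G) := by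
  classical
  refine ⟨fun K hK hZ => partA K hK hZ, ?_⟩
  intro hF
  have hFs : generalizedFittingSubgroup G = layer G := by
    show layer G ⊔ fittingSubgroup G = layer G
    rw [hF, sup_bot_eq]
  apply le_antisymm
  · apply sSup_le
    rintro N ⟨hN0, hNn, hmin⟩
    haveI := hNn
    rcases hmin (N ⊓ layer G) inferInstance inf_le_left with h | h
    · exfalso
      have h1 : N ≤ centralizer ((layer G : Subgroup G) : Set G) := by
        intro n hn
        rw [mem_centralizer_iff]
        intro l hl
        have h2 : ⁅n, l⁆ ∈ N ⊓ layer G := by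
          refine ⟨?_, ?_⟩
          · show ⁅n, l⁆ ∈ N
            have : ⁅n, l⁆ = n * (l * n⁻¹ * l⁻¹) := by rw [commutatorElement_def]; group
            rw [this]; exact mul_mem hn (hNn.conj_mem _ (inv_mem hn) l)
          · show ⁅n, l⁆ ∈ layer G
            rw [commutatorElement_def]
            exact mul_mem ((layer_normal G).conj_mem _ hl n) (inv_mem hl)
        rw [h, mem_bot] at h2
        exact (commutatorElement_eq_one_iff_mul_comm.1 h2).symm
      have h2 := centralizer_generalizedFitting_le G
      rw [hFs] at h2
      have h3 : N ≤ N ⊓ layer G := le_inf le_rfl (h1.trans h2)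
      rw [h] at h3
      exact hN0 (le_bot_iff.1 h3)
    · rw [← h]; exact inf_le_right
  · rw [layer_le_iff]
    intro K hK
    have hZ : center K = ⊥ := by
      have h1 : ((center K).map K.subtype).IsSubnormal := by
        refine IsSubnormal.step _ K (map_subtype_le _) hK.1 ?_
        have : ((center K).map K.subtype).subgroupOf K = center K := by
          rw [subgroupOf, comap_map_eq_self_of_injective K.subtype_injective]
        rw [this]; infer_instance
      have h2 : Group.IsNilpotent ((center K).map K.subtype : Subgroup G) := by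
        have e := (center K).equivMapOfInjective K.subtype K.subtype_injective
        haveI h0 : Group.IsNilpotent (center K) := by
          have hbot : (MonoidHom.ker (1 : center K →* Unit)) ≤ center (center K) := by
            intro x _
            rw [mem_center_iff]
            intro y
            exact Subtype.ext ((mem_center_iff.1 x.2) y)
          exact Subgroup.isNilpotent_of_ker_le_center (1 : center K →* Unit) hbot
        exact Group.nilpotent_of_mulEquiv e
      have h3 := le_fittingSubgroup_of_isSubnormal h1 h2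
      rw [hF] at h3
      exact (map_eq_bot_iff_of_injective _ K.subtype_injective).1 (le_bot_iff.1 h3)
    have h1 := partA K hK hZ
    refine (show K ≤ normalClosure (K : Set G) from subset_normalClosure).trans (le_sSup ?_)
    exact ⟨h1.1, normalClosure_normal, h1.2⟩

end Cfsg.Agent.S3747
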