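import Cfsg.Statements.S3748
import Mathlib
import Cfsg.Agent.H3.SubnJ

set_option autoImplicit false
open Cfsg

namespace Cfsg.Agent.S3748

/-- Call a proper subgroup M of G primitive when M = N_G(N) for every non-trivial normal subgroup N of M. If M is a primitive subgroup of the finite group G, then no non-trivial subnormal subgroup of G is contained in M; in particular M ∩ F(G) = 1. -/
theorem result {G : Type*} [Group G] [Finite G] (M : Subgroup G) (hM : M ≠ ⊤) (hprim : ∀ N : Subgroup G, N ≤ M → M ≤ Subgroup.normalizer (N : Set G) → N ≠ ⊥ → Subgroup.normalizer (N : Set G) = M) : (∀ L : Subgroup G, L.IsSubnormal → L ≤ M → L = ⊥) ∧ M ⊓ Cfsg.fittingSubgroup G = ⊥ := by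
  classical
  have key : ∀ L : Subgroup G, L.IsSubnormal → L ≤ M → L = ⊥ := by
    intro L hL hLM
    obtain ⟨J, hJM, hJ, hmax⟩ := H3.exists_J M
    have h1 := H3.le_normalizer_J M J hJM hJ hmax
    by_contra hne
    have hJb : J ≠ ⊥ := by
      intro h
      apply hne
      rw [eq_bot_iff, ← h]
      exact hmax L hL hLM
    have h2 := hprim J hJM h1 hJb
    have h3 := H3.J_normal M J hJ h2.le hmax
    apply hM
    rw [← h2]
    exact Subgroup.normalizer_eq_top_iff.2 h3
  refine ⟨key, ?_⟩
  exact key _ (H3.subnormal_of_le_fitting inf_le_right) inf_le_left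

end Cfsg.Agent.S3748
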