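import Cfsg.Statements.S3749
import Mathlib
import Cfsg.Agent.L0.Coprime
import Cfsg.Agent.L0.Core
import Cfsg.Agent.H1.Basic

set_option autoImplicit false
open Cfsg

namespace Cfsg.Agent.S3749

open Subgroup Cfsg.Agent.L0
open scoped Pointwise

/-- Call a proper subgroup M of G primitive when M = N_G(N) for every non-trivial normal subgroup N of M. Let M be a primitive subgroup of the finite group G, p a prime with O_p(M) ≠ 1, and N a normal subgroup of G with M ∩ N = 1. Then p does not divide the order of N; for every prime q there is exactly one Sylow q-subgroup of N normalized by M; and if the order of N has at least two prime divisors then M is not a maximal subgroup of G. -/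
theorem result {G : Type*} [Group G] [Finite G] (M : Subgroup G) (hM : M ≠ ⊤) (hprim : ∀ N : Subgroup G, N ≤ M → M ≤ Subgroup.normalizer (N : Set G) → N ≠ ⊥ → Subgroup.normalizer (N : Set G) = M) {p : ℕ} [Fact p.Prime] (hOp : Cfsg.pCore p ↥M ≠ ⊥) (N : Subgroup G) [N.Normal] (hMN : M ⊓ N = ⊥) : ¬ p ∣ Nat.card N ∧ (∀ q : ℕ, [Fact q.Prime] → ∃! Q : Sylow q ↥N, M ≤ Subgroup.normalizer ((Q : Subgroup ↥N).map N.subtype : Set G)) ∧ ((∃ q r : ℕ, q.Prime ∧ r.Prime ∧ q ≠ r ∧ q ∣ Nat.card N ∧ r ∣ Nat.card N) → ¬ IsCoatom M) := by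
  classical
  set A := (pCore p M).map M.subtype with hA
  have hAM : A ≤ M := Subgroup.map_subtype_le _
  have hAb : A ≠ ⊥ := by
    intro h
    apply hOp
    exact (Subgroup.map_eq_bot_iff_of_injective _ M.subtype_injective).1 h
  have hMA : M ≤ normalizer (A : Set G) := by
    intro m hm
    apply H1.mem_normalizer_of_conj_mem
    rintro _ ⟨x, hx, rfl⟩
    exact ⟨⟨m, hm⟩ * x * ⟨m, hm⟩⁻¹, (inferInstance : (pCore p M).Normal).conj_mem x hx _, rfl⟩
  have hAp : IsPGroup p A := IsPGroup.map (pCore_isPGroup p M) _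
  have hNA := hprim A hAM hMA hAb
  have hCN : N ⊓ centralizer (A : Set G) = ⊥ := by
    rw [eq_bot_iff, ← hMN]
    intro x hx
    refine ⟨?_, hx.1⟩
    have := Subgroup.centralizer_le_normalizer _ hx.2
    rwa [hNA] at this
  have hpN : ¬ p ∣ Nat.card N := by
    intro hd
    letI : MulAction A N := MulAction.compHom N ((MulAut.conjNormal (H := N)).comp A.subtype)
    have h1 := hAp.card_modEq_card_fixedPoints N
    have h2 : Nat.card (MulAction.fixedPoints A N) = 1 := by
      rw [Nat.card_eq_one_iff_unique]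
      refine ⟨⟨?_⟩, ⟨⟨1, ?_⟩⟩⟩
      · have key : ∀ x : N, x ∈ MulAction.fixedPoints A N → x = 1 := by
          intro x hx
          have h3 : (x : G) ∈ N ⊓ centralizer (A : Set G) := by
            refine ⟨x.2, ?_⟩
            show (x : G) ∈ centralizer (A : Set G)
            rw [mem_centralizer_iff]
            intro a ha
            have h4 : a * x * a⁻¹ = x := congrArg Subtype.val (hx ⟨a, ha⟩)
            calc a * x = (a * x * a⁻¹) * a := by group
              _ = x * a := by rw [h4]
          rw [hCN, mem_bot] at h3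
          exact Subtype.ext h3
        rintro ⟨x, hx⟩ ⟨y, hy⟩
        apply Subtype.ext
        show x = y
        rw [key x hx, key y hy]
      · intro a
        exact map_one (MulAut.conjNormal (H := N) (a : G))
    rw [h2] at h1
    have h3 : Nat.card N ≡ 0 [MOD p] := (Nat.modEq_zero_iff_dvd).2 hd
    have h4 : 1 ≡ 0 [MOD p] := h1.symm.trans h3
    exact (Fact.out : p.Prime).one_lt.ne' (Nat.dvd_one.1 ((Nat.modEq_zero_iff_dvd).1 h4))
  have hcop : (Nat.card A).Coprime (Nat.card N) := by
    obtain ⟨n, hn⟩ := IsPGroup.iff_card.mp hAp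
    rw [hn]
    exact Nat.Coprime.pow_left _ (((Fact.out : p.Prime).coprime_iff_not_dvd).2 hpN)
  have hAN : A ≤ normalizer (N : Set G) := by rw [Subgroup.normalizer_eq_top (H := N)]; exact le_top
  haveI := hAp.isNilpotent
  have hAs : Group.IsSolvable A := inferInstance
  have huniq : ∀ (q : ℕ) [Fact q.Prime] (P Q : Subgroup G), IsSylowIn q P N → A ≤ normalizer (P : Set G) →
      IsSylowIn q Q N → A ≤ normalizer (Q : Set G) → P = Q := by
    intro q _ P Q hP hPA hQ hQA
    obtain ⟨c, hc, hcP⟩ := invariant_sylow_conj hAN hcop (Or.inl hAs) hP hPA hQ hQA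
    rw [hCN, mem_bot] at hc
    rw [hc, map_one, one_smul] at hcP
    exact hcP
  have hMinv : ∀ (q : ℕ) [Fact q.Prime] (P : Subgroup G), IsSylowIn q P N → A ≤ normalizer (P : Set G) → M ≤ normalizer (P : Set G) := by
    intro q _ P hP hPA m hm
    apply mem_normalizer_conj.2
    refine huniq q _ P (hP.conj ?_) ?_ hP hPA
    · apply mem_normalizer_conj.1
      rw [Subgroup.normalizer_eq_top (H := N)]; trivial
    · intro a ha
      apply mem_normalizer_conj.2
      have h1 : m⁻¹ * a * m ∈ A := by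
        have := (mem_normalizer_iff.1 (inv_mem (hMA hm)) a).1 ha
        simpa using this
      have h2 := mem_normalizer_conj.1 (hPA h1)
      have h3 : a * m = m * (m⁻¹ * a * m) := by group
      rw [← mul_smul, ← map_mul, h3, map_mul, mul_smul, h2]
  have hex : ∀ (q : ℕ) [Fact q.Prime], ∃! Q : Sylow q ↥N, M ≤ Subgroup.normalizer ((Q : Subgroup ↥N).map N.subtype : Set G) := by
    intro q _
    obtain ⟨P, hP, hPA⟩ := exists_invariant_sylow (p := q) hAN hcop (Or.inl hAs)
    have hPM := hMinv q P hP hPA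
    obtain ⟨Q, hQ⟩ := hP
    refine ⟨Q, ?_, ?_⟩
    · show M ≤ Subgroup.normalizer ((Q : Subgroup ↥N).map N.subtype : Set G)
      rw [hQ]; exact hPM
    · intro Q' hQ'
      have h1 := huniq q ((Q' : Subgroup ↥N).map N.subtype) ((Q : Subgroup ↥N).map N.subtype) ⟨Q', rfl⟩ (hAM.trans hQ') ⟨Q, rfl⟩ (by rw [hQ]; exact hPA)
      exact Sylow.ext (Subgroup.map_injective N.subtype_injective h1)
  refine ⟨hpN, hex, ?_⟩
  rintro ⟨q, r, hq, hr, hqr, hqN, hrN⟩ hco
  haveI : Fact q.Prime := ⟨hq⟩
  obtain ⟨Q, hQ, -⟩ := hex q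
  have hQM : M ≤ Subgroup.normalizer ((Q : Subgroup ↥N).map N.subtype : Set G) := hQ
  have hlt : M < (Q : Subgroup ↥N).map N.subtype ⊔ M := by
    refine lt_of_le_of_ne le_sup_right ?_
    intro h
    have h1 : (Q : Subgroup ↥N).map N.subtype ≤ M ⊓ N := le_inf (h ▸ le_sup_left) (Subgroup.map_subtype_le _)
    rw [hMN, le_bot_iff, Subgroup.map_eq_bot_iff_of_injective _ N.subtype_injective] at h1
    have h2 := Q.dvd_card_of_dvd_card hqN
    rw [h1, Subgroup.card_bot] at h2
    exact hq.one_lt.ne' (Nat.dvd_one.1 h2)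
  have htop := hco.2 _ hlt
  have hNQ : N ≤ (Q : Subgroup ↥N).map N.subtype := by
    intro x hx
    have h1 : x ∈ (Q : Subgroup ↥N).map N.subtype ⊔ M := by rw [htop]; trivial
    rw [mem_sup_of_normalizes hQM] at h1
    obtain ⟨a, ha, b, hb, hab⟩ := h1
    have haN : a ∈ N := Subgroup.map_subtype_le _ ha
    have hbN' : b ∈ N := by
      have : b = a⁻¹ * x := by rw [← hab]; group
      rw [this]; exact mul_mem (inv_mem haN) hx
    have hbN : b ∈ M ⊓ N := ⟨hb, hbN'⟩
    rw [hMN, mem_bot] at hbN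
    rw [← hab, hbN, mul_one]; exact ha
  have hNp : IsPGroup q N := (Q.2.map N.subtype).to_le hNQ
  obtain ⟨n, hn⟩ := IsPGroup.iff_card.mp hNp
  rw [hn] at hrN
  exact hqr ((Nat.prime_dvd_prime_iff_eq hr hq).1 (hr.dvd_of_dvd_pow hrN)).symm

end Cfsg.Agent.S3749
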