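import Cfsg.Statements.S3750
import Mathlib
import Cfsg.Agent.L0.Coprime
import Cfsg.Agent.L0.Core
import Cfsg.Agent.L0.GenFit
import Cfsg.Agent.H1.Basic

set_option autoImplicit false
open Cfsg

namespace Cfsg.Agent.S3750

open Subgroup Cfsg.Agent.L0

/-- Call a proper subgroup M of G primitive when M = N_G(N) for every non-trivial normal subgroup N of M. Let M be a primitive subgroup of the finite group G and N a normal subgroup of G with M ∩ F*(N) ≠ 1. Then F(G) = 1 and F*(N) = F*(G) = E(G); in particular every minimal normal subgroup of G is contained in N. -/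
theorem result {G : Type*} [Group G] [Finite G] (M : Subgroup G) (hM : M ≠ ⊤) (hprim : ∀ N : Subgroup G, N ≤ M → M ≤ Subgroup.normalizer (N : Set G) → N ≠ ⊥ → Subgroup.normalizer (N : Set G) = M) (N : Subgroup G) [N.Normal] (hMF : M ⊓ (Cfsg.generalizedFittingSubgroup ↥N).map N.subtype ≠ ⊥) : Cfsg.fittingSubgroup G = ⊥ ∧ (Cfsg.generalizedFittingSubgroup ↥N).map N.subtype = Cfsg.generalizedFittingSubgroup G ∧ Cfsg.generalizedFittingSubgroup G = Cfsg.layer G ∧ ∀ K : Subgroup G, K.Normal → K ≠ ⊥ → (∀ K' : Subgroup G, K'.Normal → K' ≤ K → K' = ⊥ ∨ K' = K) → K ≤ N := by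
  classical
  -- normal subgroups of G contained in M are trivial
  have hbot : ∀ K : Subgroup G, K.Normal → K ≤ M → K = ⊥ := by
    intro K hK hKM
    by_contra hne
    apply hM
    rw [← hprim K hKM (by rw [Subgroup.normalizer_eq_top (H := K)]; exact le_top) hne, Subgroup.normalizer_eq_top (H := K)]
  set FN := (Cfsg.generalizedFittingSubgroup ↥N).map N.subtype with hFN
  set D := M ⊓ FN with hD
  have hFNn : FN.Normal := inferInstance
  have hFNle : FN ≤ generalizedFittingSubgroup G := by
    rw [hFN, generalizedFittingSubgroup, generalizedFittingSubgroup, Subgroup.map_sup]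
    apply sup_le_sup
    · exact layer_map_subtype_le (Subgroup.Normal.isSubnormal inferInstance)
    · exact fitting_map_subtype_le (N := N)
  have hMD : M ≤ normalizer (D : Set G) := by
    intro m hm
    apply H1.mem_normalizer_of_conj_mem
    intro x hx
    have h1 : m * x * m⁻¹ ∈ M := mul_mem (mul_mem hm hx.1) (inv_mem hm)
    exact ⟨h1, hFNn.conj_mem x hx.2 m⟩
  have hND := hprim D inf_le_left hMD hMF
  have hCD : centralizer (D : Set G) ≤ M := by
    rw [← hND]; exact Subgroup.centralizer_le_normalizer _
  -- the centre of the Fitting subgroup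
  have hF : fittingSubgroup G = ⊥ := by
    have hZn : ((center (fittingSubgroup G)).map (fittingSubgroup G).subtype).Normal := normal_map_subtype_of_characteristic _
    have h1 : (center (fittingSubgroup G)).map (fittingSubgroup G).subtype ≤ centralizer (D : Set G) := by
      rintro _ ⟨z, hz, rfl⟩
      rw [mem_centralizer_iff]
      intro d hd
      have hd1 : d ∈ generalizedFittingSubgroup G := hFNle hd.2
      have h2 : generalizedFittingSubgroup G ≤ centralizer ({(z : G)} : Set G) := by
        rw [generalizedFittingSubgroup]
        apply sup_le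
        · intro y hy
          rw [mem_centralizer_singleton_iff]
          have h3 := Subgroup.commutator_eq_bot_iff_le_centralizer.1 (layer_commutator_fitting G) hy
          exact (mem_centralizer_iff.1 h3 z z.2).symm
        · intro y hy
          rw [mem_centralizer_singleton_iff]
          exact congrArg Subtype.val (mem_center_iff.1 hz ⟨y, hy⟩)
      exact mem_centralizer_singleton_iff.1 (h2 hd1)
    have h2 := hbot _ hZn (h1.trans hCD)
    rw [Subgroup.map_eq_bot_iff_of_injective _ (fittingSubgroup G).subtype_injective] at h2
    by_contra hne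
    haveI : Nontrivial (fittingSubgroup G) := (Subgroup.nontrivial_iff_ne_bot _).2 hne
    haveI := fittingSubgroup_isNilpotent G
    have h3 := H1.inf_center_ne_bot (⊤ : Subgroup (fittingSubgroup G)) (by
      intro h
      exact absurd (Subgroup.nontrivial_iff_ne_bot (⊤ : Subgroup (fittingSubgroup G)) |>.mp inferInstance) (by simp [h]))
    rw [h2, inf_bot_eq] at h3
    exact h3 rfl
  have hCN : centralizer (N : Set G) = ⊥ := by
    apply hbot _ inferInstance
    refine le_trans (Subgroup.centralizer_le ?_) hCD
    intro x hx
    exact Subgroup.map_subtype_le _ hx.2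
  have hGF : generalizedFittingSubgroup G = layer G := by
    rw [generalizedFittingSubgroup, hF, sup_bot_eq]
  have hcomp : ∀ K : Subgroup G, IsComponent K → K ≤ N := by
    intro K hK
    rcases component_normal_cases hK (N := N) with h | h
    · exact h
    · exfalso
      have h1 : K ≤ ⊥ := by
        rw [← hCN]; exact Subgroup.commutator_eq_bot_iff_le_centralizer.1 h
      apply quasisimple_not_isSolvable hK.2
      rw [le_bot_iff.1 h1]; infer_instance
  refine ⟨hF, ?_, hGF, ?_⟩
  · apply le_antisymm hFNle
    rw [hGF, layer_le_iff]
    intro K hK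
    have h1 := isComponent_subgroupOf hK (hcomp K hK)
    have h2 : K.subgroupOf N ≤ generalizedFittingSubgroup N := (le_layer h1).trans (layer_le_generalized N)
    intro x hx
    exact ⟨⟨x, hcomp K hK hx⟩, h2 hx, rfl⟩
  · intro K hK hKb hmin
    haveI := hK
    rcases hmin (K ⊓ N) inferInstance inf_le_left with h | h
    · exfalso
      apply hKb
      rw [eq_bot_iff, ← hCN]
      apply Subgroup.commutator_eq_bot_iff_le_centralizer.1
      rw [eq_bot_iff, ← h]
      exact Subgroup.commutator_le_inf K N
    · rw [← h]; exact inf_le_right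

end Cfsg.Agent.S3750
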