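import Cfsg.Statements.S3760

set_option autoImplicit false
open Cfsg

namespace Cfsg.Agent.S3760

/-- Let the group G act transitively on a set X, let x ∈ X with stabilizer H = G_x, and let K ≤ H. Then N_G(K) acts transitively on the set of fixed points of K if and only if every G-conjugate of K contained in H is already an H-conjugate of K. -/
theorem result {G : Type*} [Group G] {X : Type*} [MulAction G X] (htrans : ∀ a b : X, ∃ g : G, g • a = b) (x : X) (K : Subgroup G) (hK : K ≤ MulAction.stabilizer G x) : (∀ a b : X, (∀ k ∈ K, k • a = a) → (∀ k ∈ K, k • b = b) → ∃ g ∈ Subgroup.normalizer (K : Set G), g • a = b) ↔ ∀ g : G, K.map (MulAut.conj g).toMonoidHom ≤ MulAction.stabilizer G x → ∃ h ∈ MulAction.stabilizer G x, K.map (MulAut.conj g).toMonoidHom = K.map (MulAut.conj h).toMonoidHom := by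
  constructor
  · intro h g hg
    have h1 : ∀ k ∈ K, k • (g⁻¹ • x) = g⁻¹ • x := by
      intro k hk
      have h2 : g * k * g⁻¹ ∈ MulAction.stabilizer G x := hg ⟨k, hk, rfl⟩
      have h3 : (g * k * g⁻¹) • x = x := h2
      have h4 : g⁻¹ • ((g * k * g⁻¹) • x) = g⁻¹ • x := by rw [h3]
      rw [← mul_smul] at h4 ⊢
      have e : g⁻¹ * (g * k * g⁻¹) = k * g⁻¹ := by group
      rwa [e] at h4
    obtain ⟨n, hn, hnx⟩ := h x (g⁻¹ • x) (fun k hk => hK hk) h1
    refine ⟨g * n, ?_, ?_⟩
    · show (g * n) • x = x
      rw [mul_smul, hnx, smul_inv_smul]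
    · have hn' : K.map (MulAut.conj n).toMonoidHom = K := by
        ext y
        rw [Subgroup.mem_normalizer_iff] at hn
        constructor
        · rintro ⟨z, hz, rfl⟩
          exact (hn z).1 hz
        · intro hy
          refine ⟨n⁻¹ * y * n, ?_, ?_⟩
          · apply (hn _).2
            have e : n * (n⁻¹ * y * n) * n⁻¹ = y := by group
            rw [e]; exact hy
          · show n * (n⁻¹ * y * n) * n⁻¹ = y
            group
      conv_lhs => rw [← hn']
      rw [Subgroup.map_map]
      congr 1
      ext y
      show g * (n * y * n⁻¹) * g⁻¹ = (g * n) * y * (g * n)⁻¹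
      group
  · intro h a b ha hb
    have key : ∀ a : X, (∀ k ∈ K, k • a = a) → ∃ n ∈ Subgroup.normalizer (K : Set G), n • x = a := by
      intro a ha
      obtain ⟨u, rfl⟩ := htrans x a
      have h1 : K.map (MulAut.conj u⁻¹).toMonoidHom ≤ MulAction.stabilizer G x := by
        rintro _ ⟨k, hk, rfl⟩
        show (u⁻¹ * k * u⁻¹⁻¹) • x = x
        rw [inv_inv, mul_smul, mul_smul, ha k hk, inv_smul_smul]
      obtain ⟨t, ht, hKt⟩ := h u⁻¹ h1
      refine ⟨u * t, ?_, ?_⟩
      · have hm : K.map (MulAut.conj (u * t)).toMonoidHom = K := by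
          have e1 : K.map (MulAut.conj (u * t)).toMonoidHom
              = (K.map (MulAut.conj t).toMonoidHom).map (MulAut.conj u).toMonoidHom := by
            rw [Subgroup.map_map]
            congr 1
            ext y
            show (u * t) * y * (u * t)⁻¹ = u * (t * y * t⁻¹) * u⁻¹
            group
          rw [e1, ← hKt, Subgroup.map_map]
          have e2 : (MulAut.conj u).toMonoidHom.comp (MulAut.conj u⁻¹).toMonoidHom = MonoidHom.id G := by
            ext y
            show u * (u⁻¹ * y * u⁻¹⁻¹) * u⁻¹ = y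
            group
          rw [e2, Subgroup.map_id]
        rw [Subgroup.mem_normalizer_iff]
        intro y
        constructor
        · intro hy
          have : (u * t) * y * (u * t)⁻¹ ∈ K.map (MulAut.conj (u * t)).toMonoidHom := ⟨y, hy, rfl⟩
          rwa [hm] at this
        · intro hy
          rw [← hm] at hy
          obtain ⟨z, hz, hzy⟩ := hy
          have hzy' : (u * t) * z * (u * t)⁻¹ = (u * t) * y * (u * t)⁻¹ := hzy
          have : z = y := mul_left_cancel (mul_right_cancel hzy')
          rwa [← this]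
      · rw [mul_smul, show t • x = x from ht]
    obtain ⟨n1, hn1, rfl⟩ := key a ha
    obtain ⟨n2, hn2, rfl⟩ := key b hb
    exact ⟨n2 * n1⁻¹, mul_mem hn2 (inv_mem hn1), by rw [mul_smul, inv_smul_smul]⟩

end Cfsg.Agent.S3760
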