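import Cfsg.Statements.S3774
import Cfsg.Agent.H2.Orb

set_option autoImplicit false
open Cfsg

namespace Cfsg.Agent.S3774

/-- Let G be a nontrivial finite 2-group whose automorphism group permutes the involutions of G transitively. Then every involution of G is central, so that the involutions together with 1 form the subgroup Ω₁(Z(G)), and if this subgroup has order q then |G| is a power of q. -/
theorem result {G : Type*} [Group G] [Finite G] [Nontrivial G] (hG : IsPGroup 2 G) (htrans : ∀ x y : G, x ≠ 1 → x ^ 2 = 1 → y ≠ 1 → y ^ 2 = 1 → ∃ a : MulAut G, a x = y) : (∀ x : G, x ^ 2 = 1 → x ∈ Subgroup.center G) ∧ ∃ m : ℕ, Nat.card G = Nat.card {z : G // z ^ 2 = 1} ^ m := by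
  classical
  obtain ⟨N, hN⟩ := IsPGroup.iff_card.1 hG
  have hN0 : N ≠ 0 := by
    rintro rfl
    rw [pow_zero] at hN
    exact (Finite.one_lt_card (α := G)).ne' hN
  -- a central involution
  have hZ : Nontrivial (Subgroup.center G) := hG.center_nontrivial
  have hcent : ∀ x : G, x ^ 2 = 1 → x ∈ Subgroup.center G := by
    intro x hx
    by_cases hx1 : x = 1
    · rw [hx1]; exact Subgroup.one_mem _
    obtain ⟨M, hM⟩ := IsPGroup.iff_card.1 (hG.to_subgroup (Subgroup.center G))
    have hM0 : M ≠ 0 := by
      rintro rfl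
      rw [pow_zero] at hM
      exact (Finite.one_lt_card (α := Subgroup.center G)).ne' hM
    obtain ⟨z, hz⟩ := exists_prime_orderOf_dvd_card' (G := Subgroup.center G) 2 (by rw [hM]; exact dvd_pow_self 2 hM0)
    have hz1 : (z : G) ≠ 1 := by
      intro h
      have : z = 1 := Subtype.ext h
      rw [this, orderOf_one] at hz
      omega
    have hz2 : (z : G) ^ 2 = 1 := by
      have := pow_orderOf_eq_one z
      rw [hz] at this
      exact congrArg Subtype.val this
    obtain ⟨a, ha⟩ := htrans (z : G) x hz1 hz2 hx1 hx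
    have hch : (Subgroup.center G).Characteristic := inferInstance
    have := Subgroup.characteristic_iff_map_eq.1 hch a
    rw [← this, ← ha]
    exact ⟨z, z.2, rfl⟩
  refine ⟨hcent, ?_⟩
  -- Ω = subgroup of elements with x^2 = 1
  let Ω : Subgroup G :=
    { carrier := {z | z ^ 2 = 1}
      mul_mem' := by
        intro a b ha hb
        have h1 : Commute a b := (Subgroup.mem_center_iff.1 (hcent b hb) a)
        show (a * b) ^ 2 = 1
        rw [h1.mul_pow, show a ^ 2 = 1 from ha, show b ^ 2 = 1 from hb, one_mul]
      one_mem' := one_pow 2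
      inv_mem' := by
        intro a ha
        show a⁻¹ ^ 2 = 1
        rw [inv_pow, show a ^ 2 = 1 from ha, inv_one] }
  have hΩq : Nat.card {z : G // z ^ 2 = 1} = Nat.card Ω := rfl
  rw [hΩq]
  obtain ⟨n, hn⟩ := IsPGroup.iff_card.1 (hG.to_subgroup Ω)
  -- q - 1 divides |G| - 1
  have hdiv : 2 ^ n - 1 ∣ 2 ^ N - 1 := by
    rw [Nat.dvd_iff_prime_pow_dvd_dvd]
    intro r e hr hre
    have hfr := Fact.mk hr
    obtain ⟨R⟩ := (inferInstance : Nonempty (Sylow r (MulAut G)))
    let act : MulAction (MulAut G) {g : G // g ≠ 1} :=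
      { smul := fun a g => ⟨a g.1, fun h => g.2 (a.injective (h.trans (map_one a).symm))⟩
        one_smul := fun g => rfl
        mul_smul := fun a b g => rfl }
    have hcardX : Nat.card {g : G // g ≠ 1} = 2 ^ N - 1 := by
      have := Fintype.ofFinite G
      rw [← hN, Nat.card_eq_fintype_card, Nat.card_eq_fintype_card, Fintype.card_subtype_compl, Fintype.card_subtype_eq]
    rw [← hcardX]
    apply H2.dvd_card_of_forall_orbit (G := R)
    intro g
    -- involution in the powers of g
    obtain ⟨k, hk⟩ := IsPGroup.iff_orderOf.1 hG g.1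
    have hk0 : k ≠ 0 := by
      rintro rfl
      rw [pow_zero, orderOf_eq_one_iff] at hk
      exact g.2 hk
    set z := g.1 ^ 2 ^ (k - 1) with hz
    have hzo : orderOf z = 2 := by
      rw [hz, orderOf_pow_of_dvd (by positivity) (by rw [hk]; exact pow_dvd_pow 2 (by omega)), hk,
        Nat.pow_div (by omega) (by norm_num)]
      have : k - (k - 1) = 1 := by omega
      rw [this, pow_one]
    have hz2 : z ^ 2 = 1 := by rw [← hzo, pow_orderOf_eq_one]
    have hz1 : z ≠ 1 := by
      intro h
      rw [h, orderOf_one] at hzo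
      omega
    -- stabilizers
    let Sz : Subgroup (MulAut G) := MulAction.stabilizer (MulAut G) z
    let Sg : Subgroup (MulAut G) := MulAction.stabilizer (MulAut G) g.1
    have hle : Sg ≤ Sz := by
      intro a ha
      have ha' : a g.1 = g.1 := ha
      show a z = z
      rw [hz, map_pow, ha']
    have hidx : Sz.index = 2 ^ n - 1 := by
      show (MulAction.stabilizer (MulAut G) z).index = _
      rw [MulAction.index_stabilizer]
      have horb : MulAction.orbit (MulAut G) z = (Ω : Set G) \ {1} := by
        ext y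
        constructor
        · rintro ⟨a, rfl⟩
          refine ⟨?_, ?_⟩
          · show (a z) ^ 2 = 1
            rw [← map_pow, hz2, map_one]
          · intro h
            have h' : a z = 1 := h
            exact hz1 (a.injective (h'.trans (map_one a).symm))
        · rintro ⟨hy, hy1⟩
          obtain ⟨a, ha⟩ := htrans z y hz1 hz2 hy1 hy
          exact ⟨a, ha⟩
      rw [horb, Set.ncard_sdiff_singleton_of_mem (show (1 : G) ∈ (Ω : Set G) from Ω.one_mem), ← hn]
      rfl
    have h1 : r ^ e ∣ Sz.relIndex (R : Subgroup (MulAut G)) :=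
      H2.prime_pow_dvd_relIndex_sylow R Sz (hidx ▸ hre)
    have h2 : Sz.relIndex (R : Subgroup (MulAut G)) ∣ Sg.relIndex (R : Subgroup (MulAut G)) :=
      Subgroup.relIndex_dvd_of_le_left _ hle
    refine (h1.trans h2).trans ?_
    have h3 : (MulAction.stabilizer R g).index = Nat.card (MulAction.orbit R g) := MulAction.index_stabilizer R g
    rw [← h3]
    have h4 : MulAction.stabilizer R g = Sg.subgroupOf (R : Subgroup (MulAut G)) := by
      ext a
      constructor
      · intro ha
        exact congrArg Subtype.val (show a • g = g from ha)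
      · intro ha
        exact Subtype.ext ha
    rw [h4]
    exact dvd_rfl
  have hnN : n ∣ N := by
    have h1 := Nat.pow_sub_one_gcd_pow_sub_one 2 n N
    rw [Nat.gcd_eq_left hdiv] at h1
    have h2 : 2 ^ n = 2 ^ (Nat.gcd n N) := by
      have a1 : 1 ≤ 2 ^ n := Nat.one_le_two_pow
      have a2 : 1 ≤ 2 ^ (Nat.gcd n N) := Nat.one_le_two_pow
      omega
    have h3 := Nat.pow_right_injective (le_refl 2) h2
    rw [h3]; exact Nat.gcd_dvd_right _ _
  obtain ⟨m, hm⟩ := hnN
  exact ⟨m, by rw [hN, hn, hm, pow_mul]⟩

end Cfsg.Agent.S3774
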