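import Cfsg.Statements.S3780
import Cfsg.Agent.H2.OrderP

set_option autoImplicit false
open Cfsg

namespace Cfsg.Agent.S3780

/-- Let V be a finite abelian p-group and α an automorphism of V of order p whose fixed-point subgroup has order p^n. Then V can be generated by pn elements: some subset of V with at most pn elements generates V. -/
theorem result {V : Type*} [CommGroup V] [Finite V] {p : ℕ} [Fact p.Prime] (hV : IsPGroup p V) (α : MulAut V) (hα : orderOf α = p) (n : ℕ) (hfix : Nat.card {v : V // α v = v} = p ^ n) : ∃ S : Finset V, S.card ≤ p * n ∧ Subgroup.closure (S : Set V) = ⊤ := by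
  classical
  have hp : p.Prime := Fact.out
  -- Ω₁
  let Ω : Subgroup V := (powMonoidHom p : V →* V).ker
  have hΩ : ∀ v : V, v ∈ Ω ↔ v ^ p = 1 := fun v => Iff.rfl
  have hαΩ : ∀ v ∈ Ω, α v ∈ Ω := by
    intro v hv
    rw [hΩ] at hv ⊢
    rw [← map_pow, hv, map_one]
  let a : AddMonoid.End (Additive Ω) := MonoidHom.toAdditive (α.toMonoidHom.restrict (fun x hx => hαΩ x hx) : Ω →* Ω)
  have hpW : ∀ w : Additive Ω, p • w = 0 := by
    intro w
    have := (Additive.toMul w).2
    rw [hΩ] at this
    exact Subtype.ext this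
  have hapow : ∀ (k : ℕ) (w : Additive Ω), ((Additive.toMul ((a ^ k) w) : Ω) : V) = (α ^ k) ((Additive.toMul w : Ω) : V) := by
    intro k
    induction k with
    | zero => intro w; rfl
    | succ k ih =>
      intro w
      rw [pow_succ', pow_succ']
      show α ((Additive.toMul ((a ^ k) w) : Ω) : V) = α ((α ^ k) _)
      rw [ih]
  have hap : a ^ p = 1 := by
    ext w
    have h1 := hapow p w
    have h2 : α ^ p = 1 := by rw [← hα, pow_orderOf_eq_one]
    rw [h2] at h1
    exact h1
  have h1 := H2.card_le_fixed_pow hp hpW a hap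
  have h2 : Nat.card {w : Additive Ω // a w = w} ≤ p ^ n := by
    rw [← hfix]
    refine Nat.card_le_card_of_injective (fun x : {w : Additive Ω // a w = w} =>
      (⟨((Additive.toMul x.1 : Ω) : V), congrArg Subtype.val x.2⟩ : {v : V // α v = v})) ?_
    intro x y hxy
    have h1 : ((Additive.toMul x.1 : Ω) : V) = ((Additive.toMul y.1 : Ω) : V) := Subtype.mk.inj hxy
    exact Subtype.ext (Subtype.ext h1)
  apply H2.exists_generating_of_card_torsion hV
  calc Nat.card {v : V // v ^ p = 1} = Nat.card (Additive Ω) := rfl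
    _ ≤ (Nat.card {w : Additive Ω // a w = w}) ^ p := h1
    _ ≤ (p ^ n) ^ p := Nat.pow_le_pow_left h2 p
    _ = p ^ (p * n) := by rw [← pow_mul, mul_comm]

end Cfsg.Agent.S3780
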