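import Cfsg.Statements.S3784
import Mathlib
import Mathlib

set_option autoImplicit false
open Cfsg

namespace Cfsg.Agent.S3784

theorem odd_geom (p n : ℕ) (hp : Odd p) (hn : Odd n) : Odd (∑ i ∈ Finset.range n, p ^ i) := by
  rw [Finset.odd_sum_iff_odd_card_odd]
  have : (Finset.range n).filter (fun i => Odd (p ^ i)) = Finset.range n := by
    apply Finset.filter_true_of_mem
    intro i _; exact hp.pow
  rw [this, Finset.card_range]; exact hn

/-- alternating sum -/
theorem dvd_odd_pow_two {d k : ℕ} (hd : Odd d) (h : d ∣ 2 ^ k) : d = 1 := by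
  obtain ⟨j, _, hj⟩ := (Nat.dvd_prime_pow Nat.prime_two).1 h
  rcases Nat.eq_zero_or_pos j with h0 | h0
  · rw [hj, h0, pow_zero]
  · exfalso
    rw [hj] at hd
    exact (Nat.not_odd_iff_even.2 ((Nat.even_pow.2 ⟨even_two, h0.ne'⟩))) hd

/-- `q^b + 1 = 2^a` with `q` odd -/
theorem case_two (q a b : ℕ) (hq : Odd q) (hq1 : 1 < q) (hb : 1 ≤ b) (h : 2 ^ a = q ^ b + 1) : b = 1 := by
  have ha : 2 ≤ a := by
    by_contra hc
    have h1 : q ^ 1 ≤ q ^ b := Nat.pow_le_pow_right (by omega) hb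
    rw [pow_one] at h1
    interval_cases a
    · rw [pow_zero] at h; omega
    · rw [pow_one] at h; omega
  have hbo : Odd b := by
    by_contra hc
    rw [Nat.not_odd_iff_even] at hc
    obtain ⟨c, rfl⟩ := hc
    have h4 : 4 ∣ 2 ^ a := by
      have : (2 : ℕ) ^ 2 ∣ 2 ^ a := pow_dvd_pow 2 ha
      simpa using this
    have h1 : (q ^ c) % 4 = 1 ∨ (q ^ c) % 4 = 3 := by
      have : Odd (q ^ c) := hq.pow
      rcases this with ⟨k, hk⟩
      omega
    have h2 : q ^ (c + c) = q ^ c * q ^ c := pow_add q c c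
    have h3 : (q ^ c * q ^ c) % 4 = 1 := by
      rw [Nat.mul_mod]
      rcases h1 with h1 | h1 <;> rw [h1]
    omega
  -- q ^ b + 1 = (q+1) * s with s odd
  have hz : ((q : ℤ) ^ b + 1) = ((q : ℤ) + 1) * (∑ i ∈ Finset.range b, (-(q : ℤ)) ^ i) := by
    have h1 := mul_neg_geom_sum (-(q : ℤ)) b
    rw [hbo.neg_pow] at h1
    linarith [h1]
  have hs : Odd (∑ i ∈ Finset.range b, (-(q : ℤ)) ^ i) := by
    have hqz : Odd (-(q : ℤ)) := by
      obtain ⟨k, hk⟩ := hq
      exact ⟨-(k : ℤ) - 1, by rw [hk]; push_cast; ring⟩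
    have key : ∀ n : ℕ, (∑ i ∈ Finset.range n, (-(q : ℤ)) ^ i) % 2 = (n : ℤ) % 2 := by
      intro n
      induction n with
      | zero => simp
      | succ n ih =>
        rw [Finset.sum_range_succ]
        have h1 : (-(q : ℤ)) ^ n % 2 = 1 := Int.odd_iff.1 hqz.pow
        push_cast
        omega
    rw [Int.odd_iff, key b]
    obtain ⟨k, hk⟩ := hbo
    omega
  set s : ℤ := ∑ i ∈ Finset.range b, (-(q : ℤ)) ^ i with hsd
  have hdv : s.natAbs ∣ 2 ^ a := by
    have h1 : s ∣ ((2 ^ a : ℕ) : ℤ) := ⟨(q : ℤ) + 1, by rw [h]; push_cast; rw [hz]; ring⟩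
    exact Int.natAbs_dvd_natAbs.2 h1
  have hs1 : s.natAbs = 1 := dvd_odd_pow_two (Int.natAbs_odd.2 hs) hdv
  have h5 : q ^ b + 1 = q + 1 := by
    have h6 : ((q : ℤ) ^ b + 1).natAbs = ((q : ℤ) + 1).natAbs * s.natAbs := by rw [hz, Int.natAbs_mul]
    rw [hs1, mul_one] at h6
    have h7 : ((q : ℤ) ^ b + 1).natAbs = q ^ b + 1 := by
      have : ((q : ℤ) ^ b + 1) = ((q ^ b + 1 : ℕ) : ℤ) := by push_cast; ring
      rw [this, Int.natAbs_natCast]
    have h8 : ((q : ℤ) + 1).natAbs = q + 1 := by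
      have : ((q : ℤ) + 1) = ((q + 1 : ℕ) : ℤ) := by push_cast; ring
      rw [this, Int.natAbs_natCast]
    omega
  have h9 : q ^ b = q ^ 1 := by rw [pow_one]; omega
  exact Nat.pow_right_injective hq1 h9

/-- `p^a = 2^b + 1` with `p` odd -/
theorem case_two' (p a b : ℕ) (hp : Odd p) (hp1 : 1 < p) (ha : 1 ≤ a) (h : p ^ a = 2 ^ b + 1) : a = 1 ∨ (p ^ a = 9 ∧ 2 ^ b = 8) := by
  rcases Nat.even_or_odd a with he | ho
  · right
    obtain ⟨c, rfl⟩ := he
    have h1 : p ^ (c + c) = p ^ c * p ^ c := pow_add p c c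
    have hc : 1 ≤ c := by omega
    have h3 : 3 ≤ p ^ c := by
      have : p ^ 1 ≤ p ^ c := Nat.pow_le_pow_right (by omega) hc
      rw [pow_one] at this
      obtain ⟨k, hk⟩ := hp
      omega
    obtain ⟨t, ht⟩ : ∃ t, p ^ c = t + 1 := ⟨p ^ c - 1, by omega⟩
    have h4 : t * (t + 2) = 2 ^ b := by
      rw [h1, ht] at h
      nlinarith
    obtain ⟨i, _, hi⟩ := (Nat.dvd_prime_pow Nat.prime_two).1 (⟨t + 2, h4.symm⟩ : t ∣ 2 ^ b)
    obtain ⟨j, _, hj⟩ := (Nat.dvd_prime_pow Nat.prime_two).1 (⟨t, by rw [← h4]; ring⟩ : t + 2 ∣ 2 ^ b)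
    have hij : i < j := by
      by_contra hc
      have := Nat.pow_le_pow_right (n := 2) (by norm_num) (not_lt.1 hc)
      omega
    have hi1 : i = 1 := by
      have h5 : 2 ^ i ∣ 2 := by
        have h6 : 2 ^ i ∣ 2 ^ j := pow_dvd_pow 2 hij.le
        rw [← hj] at h6
        rw [← hi] at h6 ⊢
        exact (Nat.dvd_add_right (dvd_refl t)).1 h6
      have h7 : 2 ^ i ≤ 2 := Nat.le_of_dvd (by norm_num) h5
      have h8 : i ≤ 1 := by
        by_contra hc
        have := Nat.pow_le_pow_right (n := 2) (by norm_num) (show 2 ≤ i by omega)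
        omega
      have h9 : i ≠ 0 := by
        intro h0
        rw [h0, pow_zero] at hi
        omega
      omega
    rw [hi1, pow_one] at hi
    rw [hi] at h4 ht
    refine ⟨?_, by omega⟩
    rw [h1, ht]
  · left
    have h1 : (∑ i ∈ Finset.range a, p ^ i) * (p - 1) = p ^ a - 1 := by
      have h0 := geom_sum_mul_add (p - 1) a
      rw [show p - 1 + 1 = p by omega] at h0
      omega
    have h2 : (∑ i ∈ Finset.range a, p ^ i) ∣ 2 ^ b := ⟨p - 1, by rw [h1, h]; simp⟩
    have h3 := dvd_odd_pow_two (odd_geom p a hp ho) h2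
    rw [h3, one_mul] at h1
    have h4 : p ^ a = p ^ 1 := by
      have : 0 < p ^ a := by positivity
      rw [pow_one]; omega
    exact Nat.pow_right_injective hp1 h4

/-- Let p, q be primes and a, b positive integers with p^a = q^b + 1. Then either p = 2, b = 1, a is prime and q = 2^a − 1; or q = 2, a = 1, b is a power of 2 and p = 2^b + 1; or p^a = 9 and q^b = 8. -/
theorem result (p q a b : ℕ) (hp : p.Prime) (hq : q.Prime) (ha : 1 ≤ a) (hb : 1 ≤ b) (h : p ^ a = q ^ b + 1) : (p = 2 ∧ b = 1 ∧ a.Prime ∧ q + 1 = 2 ^ a) ∨ (q = 2 ∧ a = 1 ∧ (∃ m : ℕ, b = 2 ^ m) ∧ p = 2 ^ b + 1) ∨ (p ^ a = 9 ∧ q ^ b = 8) := by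
  rcases hp.eq_two_or_odd' with hp2 | hpo
  · rcases hq.eq_two_or_odd' with hq2 | hqo
    · exfalso
      rw [hp2, hq2] at h
      have h1 : Even (2 ^ a) := Nat.even_pow.2 ⟨even_two, by omega⟩
      have h2 : Even (2 ^ b) := Nat.even_pow.2 ⟨even_two, by omega⟩
      rw [Nat.even_iff] at h1 h2
      omega
    · left
      rw [hp2] at h
      have hb1 := case_two q a b hqo hq.one_lt hb h
      rw [hb1, pow_one] at h
      refine ⟨hp2, hb1, ?_, h.symm⟩
      have h1 : (2 ^ a - 1).Prime := by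
        have : 2 ^ a - 1 = q := by omega
        rw [this]; exact hq
      have ha1 : a ≠ 1 := by
        intro ha1
        rw [ha1] at h
        have := hq.one_lt
        omega
      exact (Nat.prime_of_pow_sub_one_prime ha1 h1).2
  · rcases hq.eq_two_or_odd' with hq2 | hqo
    · right
      rw [hq2] at h ⊢
      rcases case_two' p a b hpo hp.one_lt ha h with ha1 | h9
      · left
        rw [ha1, pow_one] at h
        refine ⟨rfl, ha1, ?_, h⟩
        exact Nat.pow_of_pow_add_prime (a := 2) (by norm_num) (by omega) (by rw [← h]; exact hp)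
      · right; exact h9
    · exfalso
      have h1 : Odd (p ^ a) := hpo.pow
      have h2 : Odd (q ^ b) := hqo.pow
      rw [Nat.odd_iff] at h1 h2
      omega

end Cfsg.Agent.S3784
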