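import Cfsg.Statements.S3785
import Mathlib
import Cfsg.Agent.H3.Omega
import Cfsg.Agent.L0.Core
import Cfsg.Agent.L0.GenFit

set_option autoImplicit false
open Cfsg

namespace Cfsg.Agent.S3785

open Subgroup Cfsg.Agent.L0

theorem fit_part {G : Type*} [Group G] [Finite G] {p : ℕ} [hp : Fact p.Prime] {y : G} (hy : y ∈ fittingSubgroup G) {k : ℕ}
    (ho : orderOf y = p ^ k) : y ∈ pCore p G := by
  have hnil := fittingSubgroup_isNilpotent G
  have h1 : IsPGroup p (zpowers (⟨y, hy⟩ : fittingSubgroup G)) :=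
    IsPGroup.of_card (n := k) (by rw [Nat.card_zpowers, Subgroup.orderOf_mk, ho])
  obtain ⟨P, hP⟩ := h1.exists_le_sylow
  have h2 : (y : G) ∈ (pCore p (fittingSubgroup G)).map (fittingSubgroup G).subtype := by
    refine ⟨⟨y, hy⟩, ?_, rfl⟩
    rw [L0.pCore_eq_sylow_of_nilpotent hnil P]
    exact hP (mem_zpowers _)
  exact L0.pCore_subgroup_le p _ h2

theorem cent_pcore {G : Type*} [Group G] [Finite G] (hodd : Odd (Nat.card (Cfsg.fittingSubgroup G)))
    {y : G} (hy : ∀ x ∈ Cfsg.fittingSubgroup G, (orderOf x).Prime → y * x = x * y) {p : ℕ} [hp : Fact p.Prime]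
    (ho : (orderOf y).Coprime p) : y ∈ centralizer (pCore p G : Set G) := by
  refine H3.omega_centralizes ho _ (pCore p G) rfl (pCore_isPGroup p G) (by rw [Subgroup.normalizer_eq_top (H := pCore p G)]; trivial) ?_
  intro a ha h
  have haF : a ∈ fittingSubgroup G := pCore_le_fittingSubgroup p G ha
  rcases h with h | ⟨h2, -⟩
  · by_cases h1 : a = 1
    · rw [h1]; simp
    · exact hy a haF (by rw [orderOf_eq_prime h h1]; exact hp.out)
  · subst h2
    have h1 : a = 1 := by
      rw [← orderOf_eq_one_iff]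
      obtain ⟨j, hj⟩ := (IsPGroup.iff_orderOf.mp (pCore_isPGroup 2 G)) ⟨a, ha⟩
      rw [Subgroup.orderOf_mk] at hj
      rcases Nat.eq_zero_or_pos j with rfl | hj0
      · rw [hj, pow_zero]
      · exfalso
        have h3 : orderOf a ∣ Nat.card (fittingSubgroup G) := by
          have := _root_.orderOf_dvd_natCard (⟨a, haF⟩ : fittingSubgroup G)
          rwa [Subgroup.orderOf_mk] at this
        have h4 : 2 ∣ Nat.card (fittingSubgroup G) := ((dvd_pow_self 2 hj0.ne').trans (hj ▸ dvd_rfl)).trans h3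
        rcases hodd with ⟨m, hm⟩
        omega
    rw [h1]; simp

theorem qelt {G : Type*} [Group G] [Finite G] (hG : Group.IsSolvable G) (hodd : Odd (Nat.card (Cfsg.fittingSubgroup G)))
    {q : ℕ} [hq : Fact q.Prime] {x : G} (hx : ∀ a ∈ Cfsg.fittingSubgroup G, (orderOf a).Prime → x * a = a * x) {k : ℕ}
    (ho : orderOf x = q ^ k) : x ∈ fittingSubgroup G := by
  classical
  set S : Set G := {a | a ∈ fittingSubgroup G ∧ (orderOf a).Prime} ∪ {a | ∃ p : ℕ, p.Prime ∧ p ≠ q ∧ a ∈ pCore p G} with hS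
  have hSn : ∀ a ∈ S, ∀ g : G, g * a * g⁻¹ ∈ S := by
    rintro a (⟨ha, hap⟩ | ⟨p, hp, hpq, ha⟩) g
    · left
      refine ⟨(inferInstance : (fittingSubgroup G).Normal).conj_mem a ha g, ?_⟩
      have : orderOf (g * a * g⁻¹) = orderOf a := by
        have := orderOf_injective (MulAut.conj g).toMonoidHom (MulAut.conj g).injective a
        simpa using this
      rwa [this]
    · right
      exact ⟨p, hp, hpq, (inferInstance : (pCore p G).Normal).conj_mem a ha g⟩
  set D := centralizer S with hD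
  have hDn : D.Normal := by
    constructor
    intro d hd g
    rw [hD, mem_centralizer_iff] at hd ⊢
    intro a ha
    have h1 := hd _ (hSn a ha g⁻¹)
    rw [inv_inv] at h1
    calc a * (g * d * g⁻¹) = g * ((g⁻¹ * a * g) * d) * g⁻¹ := by group
      _ = g * (d * (g⁻¹ * a * g)) * g⁻¹ := by rw [h1]
      _ = g * d * g⁻¹ * a := by group
  have hxD : x ∈ D := by
    rw [hD, mem_centralizer_iff]
    rintro a (⟨ha, hap⟩ | ⟨p, hp, hpq, ha⟩)
    · exact (hx a ha hap).symm
    · haveI : Fact p.Prime := ⟨hp⟩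
      have h1 := cent_pcore hodd hx (p := p) (by rw [ho]; exact Nat.Coprime.pow_left _ ((Nat.coprime_primes hq.out hp).2 (Ne.symm hpq)))
      exact mem_centralizer_iff.1 h1 a ha
  have hDC : ∀ d ∈ D, ∀ a ∈ Cfsg.fittingSubgroup G, (orderOf a).Prime → d * a = a * d := by
    intro d hd a ha hap
    exact ((mem_centralizer_iff.1 hd) a (Or.inl ⟨ha, hap⟩)).symm
  have hDp : ∀ d ∈ D, ∀ p : ℕ, p.Prime → p ≠ q → ∀ a ∈ pCore p G, d * a = a * d := by
    intro d hd p hp hpq a ha
    exact ((mem_centralizer_iff.1 hd) a (Or.inr ⟨p, hp, hpq, ha⟩)).symm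
  -- r-elements of D
  have hr : ∀ r : ℕ, r.Prime → r ≠ q → ∀ y ∈ D, ∀ j : ℕ, orderOf y = r ^ j → y ∈ pCore r G := by
    intro r hr hrq y hy j hj
    haveI : Fact r.Prime := ⟨hr⟩
    refine fit_part (p := r) ?_ hj
    apply centralizer_fitting_le_of_isSolvable hG
    have h1 : (centralizer ({y} : Set G)).subgroupOf (fittingSubgroup G) = ⊤ := by
      apply H1.eq_top_of_forall_sylow_le
      intro p hp
      obtain ⟨P⟩ : Nonempty (Sylow p (fittingSubgroup G)) := inferInstance
      refine ⟨P, ?_⟩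
      intro a ha
      rw [mem_subgroupOf, mem_centralizer_singleton_iff]
      have haP : (a : G) ∈ pCore p G := by
        apply L0.pCore_subgroup_le p (fittingSubgroup G)
        refine ⟨a, ?_, rfl⟩
        rw [L0.pCore_eq_sylow_of_nilpotent (fittingSubgroup_isNilpotent G) P]
        exact ha
      by_cases hpq : p = q
      · subst hpq
        have h2 := cent_pcore hodd (hDC y hy) (p := p) (by rw [hj]; exact Nat.Coprime.pow_left _ ((Nat.coprime_primes hr hp.out).2 hrq))
        exact mem_centralizer_iff.1 h2 a haP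
      · exact (hDp y hy p hp.out hpq a haP).symm
    rw [mem_centralizer_iff]
    intro a ha
    have h2 : (⟨a, ha⟩ : fittingSubgroup G) ∈ (centralizer ({y} : Set G)).subgroupOf (fittingSubgroup G) := by rw [h1]; trivial
    rw [mem_subgroupOf, mem_centralizer_singleton_iff] at h2
    exact h2
  have hQp : IsPGroup q (zpowers (⟨x, hxD⟩ : D)) :=
    IsPGroup.of_card (n := k) (by rw [Nat.card_zpowers, Subgroup.orderOf_mk, ho])
  obtain ⟨Q, hQ⟩ := hQp.exists_le_sylow
  have hQn : normalizer ((Q : Subgroup D) : Set D) = ⊤ := by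
    apply H1.eq_top_of_forall_sylow_le
    intro r hrr
    by_cases hrq : r = q
    · subst hrq
      exact ⟨Q, le_normalizer⟩
    · obtain ⟨R⟩ : Nonempty (Sylow r D) := inferInstance
      refine ⟨R, ?_⟩
      intro y hy
      apply Subgroup.centralizer_le_normalizer
      rw [mem_centralizer_iff]
      intro d _
      obtain ⟨j, hj⟩ := (IsPGroup.iff_orderOf.mp R.2) ⟨y, hy⟩
      rw [Subgroup.orderOf_mk] at hj
      have h1 := hr r hrr.out hrq y y.2 j (by rw [Subgroup.orderOf_coe]; exact hj)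
      apply Subtype.ext
      exact hDp d d.2 r hrr.out hrq y h1
  haveI hQnn : (Q : Subgroup D).Normal := Subgroup.normalizer_eq_top_iff.1 hQn
  have h1 : (Q : Subgroup D) ≤ pCore q D := le_pCore Q.2
  apply pCore_le_fittingSubgroup q G
  apply L0.pCore_subgroup_le q D
  exact ⟨⟨x, hxD⟩, h1 (hQ (mem_zpowers _)), rfl⟩

/-- Let G be a finite solvable group whose Fitting subgroup F(G) has odd order. If an element g of G commutes with every element of prime order of F(G), then g ∈ F(G). -/
theorem result {G : Type*} [Group G] [Finite G] (hG : Group.IsSolvable G) (hodd : Odd (Nat.card (Cfsg.fittingSubgroup G))) (g : G) (hg : ∀ x ∈ Cfsg.fittingSubgroup G, (orderOf x).Prime → g * x = x * g) : g ∈ Cfsg.fittingSubgroup G := by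
  have h1 : (fittingSubgroup G).subgroupOf (zpowers g) = ⊤ := by
    apply H1.eq_top_of_forall_sylow_le
    intro q hq
    obtain ⟨Q⟩ : Nonempty (Sylow q (zpowers g)) := inferInstance
    refine ⟨Q, ?_⟩
    intro x hx
    rw [mem_subgroupOf]
    obtain ⟨j, hj⟩ := (IsPGroup.iff_orderOf.mp Q.2) ⟨x, hx⟩
    rw [Subgroup.orderOf_mk] at hj
    refine qelt (q := q) hG hodd ?_ (k := j) (by rw [Subgroup.orderOf_coe]; exact hj)
    intro a ha hap
    obtain ⟨n, hn⟩ := mem_zpowers_iff.1 x.2
    have h2 : Commute g a := hg a ha hap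
    rw [← hn]
    exact (h2.zpow_left n).eq
  have h2 : (⟨g, mem_zpowers g⟩ : zpowers g) ∈ (fittingSubgroup G).subgroupOf (zpowers g) := by rw [h1]; trivial
  exact h2

end Cfsg.Agent.S3785
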