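import Cfsg.Statements.S3794
import Cfsg.Agent.H2.Fpf

set_option autoImplicit false
open Cfsg

namespace Cfsg.Agent.S3794

open Subgroup Cfsg.Agent.H2
open scoped commutatorElement

/-- the key lemma: for a minimal nontrivial `σ`-invariant normal subgroup `N`, the commutator subgroup centralizes `N`. -/
theorem key {G : Type*} [Group G] [Finite G] (hG : Group.IsSolvable G) (σ : G →* G)
    (h4 : ∀ g, σ (σ (σ (σ g))) = g) (hfpf : Fpf σ) (N : Subgroup G) [hNn : N.Normal] (hNne : N ≠ ⊥)
    (hNσ : ∀ x ∈ N, σ x ∈ N)
    (hmin : ∀ M : Subgroup G, M.Normal → (∀ x ∈ M, σ x ∈ M) → M ≤ N → M ≠ ⊥ → M = N) :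
    commutator G ≤ centralizer (N : Set G) := by
  classical
  have hNs : Group.IsSolvable N := inferInstance
  -- N is abelian
  have hNab : ∀ x ∈ N, ∀ y ∈ N, x * y = y * x := by
    have h1 : ⁅N, N⁆ ≠ N := (Group.IsSolvable.commutator_lt_of_ne_bot hNne).ne
    have h2 : ⁅N, N⁆ = ⊥ := by
      by_contra hne
      refine h1 (hmin _ inferInstance ?_ (commutator_le_left N N) hne)
      have h3 : ⁅N, N⁆ ≤ (⁅N, N⁆).comap σ := by
        rw [commutator_le]
        intro a ha b hb
        rw [mem_comap, map_commutatorElement]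
        exact commutator_mem_commutator (hNσ a ha) (hNσ b hb)
      exact h3
    intro x hx y hy
    have h3 : ⁅x, y⁆ ∈ ⁅N, N⁆ := commutator_mem_commutator hx hy
    rw [h2, mem_bot, commutatorElement_eq_one_iff_mul_comm] at h3
    exact h3
  let _ : CommGroup N := { (inferInstance : Group N) with mul_comm := fun a b => Subtype.ext (hNab a a.2 b b.2) }
  -- N has exponent p
  have hcard : Nat.card N ≠ 1 := fun h => hNne (Subgroup.card_eq_one.1 h)
  obtain ⟨p, hp, hpd⟩ := Nat.exists_prime_and_dvd hcard
  have hfp := Fact.mk hp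
  have hNp : ∀ x : N, x ^ p = 1 := by
    let M : Subgroup G :=
      { carrier := {x | x ∈ N ∧ x ^ p = 1}
        mul_mem' := by
          rintro x y ⟨hx, hx1⟩ ⟨hy, hy1⟩
          refine ⟨N.mul_mem hx hy, ?_⟩
          have : Commute x y := hNab x hx y hy
          rw [this.mul_pow, hx1, hy1, one_mul]
        one_mem' := ⟨N.one_mem, one_pow _⟩
        inv_mem' := by
          rintro x ⟨hx, hx1⟩
          exact ⟨N.inv_mem hx, by rw [inv_pow, hx1, inv_one]⟩ }
    have hMN : M = N := by
      apply hmin
      · constructor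
        rintro x ⟨hx, hx1⟩ g
        refine ⟨hNn.conj_mem x hx g, ?_⟩
        rw [conj_pow, hx1]; simp
      · rintro x ⟨hx, hx1⟩
        exact ⟨hNσ x hx, by rw [← map_pow, hx1, map_one]⟩
      · rintro x ⟨hx, _⟩; exact hx
      · obtain ⟨x, hx⟩ := exists_prime_orderOf_dvd_card' p hpd
        intro h
        have hxV : (x : G) ∈ M := ⟨x.2, by rw [← hx, ← Subgroup.orderOf_coe, pow_orderOf_eq_one]⟩
        rw [h, mem_bot] at hxV
        have : x = 1 := Subtype.ext hxV
        rw [this, orderOf_one] at hx
        exact hp.one_lt.ne hx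
    intro x
    have : (x : G) ∈ M := by rw [hMN]; exact x.2
    exact Subtype.ext this.2
  have hNpg : IsPGroup p N := fun x => ⟨1, by rw [pow_one]; exact hNp x⟩
  -- the action
  let θ : G →* MulAut N := MulAut.conjNormal
  let s : N →* N := σ.restrict (fun x hx => hNσ x hx)
  have hs4 : ∀ v, s (s (s (s v))) = v := fun v => Subtype.ext (h4 v)
  have hsf : Fpf s := fun v hv => Subtype.ext (hfpf v (congrArg Subtype.val hv))
  have hsN : ∀ v, v * s v * s (s v) * s (s (s v)) = 1 := by
    intro v
    apply hsf
    simp only [map_mul, hs4]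
    rw [mul_comm, ← mul_assoc, ← mul_assoc]
  let sA : MulAut N :=
    { toFun := s
      invFun := fun v => s (s (s v))
      left_inv := fun v => hs4 v
      right_inv := fun v => hs4 v
      map_mul' := fun a b => map_mul s a b }
  have hθσ : ∀ g, θ (σ g) = sA * θ g * sA⁻¹ := by
    intro g
    rw [eq_mul_inv_iff_mul_eq]
    ext v
    have e1 : ((θ (σ g) (s v) : N) : G) = σ g * σ v * (σ g)⁻¹ := MulAut.conjNormal_apply _ _
    have e2 : ((θ g v : N) : G) = g * v * g⁻¹ := MulAut.conjNormal_apply _ _
    show ((θ (σ g) (s v) : N) : G) = σ ((θ g v : N) : G)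
    rw [e1, e2, map_mul, map_mul, map_inv]
  set H : Subgroup (MulAut N) := θ.range with hH
  have hsAH : ∀ h ∈ H, sA * h * sA⁻¹ ∈ H := by
    rintro _ ⟨g, rfl⟩
    exact ⟨σ g, hθσ g⟩
  let σH : H →* H := (MulAut.conj sA).toMonoidHom.restrict (fun h hh => hsAH h hh)
  have hσHval : ∀ h : H, ((σH h : H) : MulAut N) = sA * h * sA⁻¹ := fun h => rfl
  have hsA4 : sA * sA * sA * sA = 1 := by
    ext v
    exact congrArg Subtype.val (hs4 v)
  have hσH4 : ∀ h, σH (σH (σH (σH h))) = h := by
    intro h
    apply Subtype.ext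
    rw [hσHval, hσHval, hσHval, hσHval]
    have e : sA * (sA * (sA * (sA * (h : MulAut N) * sA⁻¹) * sA⁻¹) * sA⁻¹) * sA⁻¹
        = (sA * sA * sA * sA) * h * (sA * sA * sA * sA)⁻¹ := by group
    rw [e, hsA4]; group
  have hσHf : Fpf σH := hfpf.of_surjective θ.rangeRestrict θ.rangeRestrict_surjective
    (fun g => Subtype.ext (hθσ g))
  have hHs : Group.IsSolvable H := Group.isSolvable_of_surjective θ.rangeRestrict_surjective
  have hHfin : Finite H := inferInstance
  have hcomp : ∀ (x : H) (v : N), s (x • v) = σH x • s v := by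
    intro x v
    show s ((x : MulAut N) v) = (sA * x * sA⁻¹) (s v)
    have : sA⁻¹ (s v) = v := by
      show s (s (s (s v))) = v
      exact hs4 v
    rw [MulAut.mul_apply, MulAut.mul_apply, this]
    rfl
  -- O_p(H) = 1
  have hOp : pCore p H = ⊥ := by
    set P := pCore p H with hP
    have hPp : IsPGroup p P := L0.pCore_isPGroup p H
    have hPn : P.Normal := inferInstance
    -- fixed points
    let M0 : Subgroup N :=
      { carrier := {v | ∀ z ∈ P, z • v = v}
        mul_mem' := by
          intro a b ha hb z hz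
          rw [smul_mul', ha z hz, hb z hz]
        one_mem' := by intro z _; exact smul_one z
        inv_mem' := by
          intro a ha z hz
          rw [smul_inv', ha z hz] }
    have hcardM0 : M0 ≠ ⊥ := by
      intro hbot
      have h1 := hPp.card_modEq_card_fixedPoints N
      have h2 : Nat.card (MulAction.fixedPoints P N) = 1 := by
        rw [Nat.card_eq_one_iff_unique]
        refine ⟨⟨?_⟩, ⟨⟨1, fun z => smul_one z⟩⟩⟩
        rintro ⟨a, ha⟩ ⟨b, hb⟩
        have ha' : a ∈ M0 := fun z hz => ha ⟨z, hz⟩
        have hb' : b ∈ M0 := fun z hz => hb ⟨z, hz⟩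
        rw [hbot, mem_bot] at ha' hb'
        exact Subtype.ext (ha'.trans hb'.symm)
      rw [h2] at h1
      have h3 : p ∣ Nat.card N := hpd
      have h4 : (0 : ℕ) ≡ 1 [MOD p] := ((Nat.modEq_zero_iff_dvd.2 h3).symm).trans h1
      have h5 := (Nat.modEq_iff_dvd' (zero_le_one)).1 h4
      exact hp.one_lt.ne' (Nat.dvd_one.1 (by simpa using h5))
    have hPσ : ∀ z ∈ P, σH z ∈ P := by
      let e : H ≃* H :=
        { toFun := σH
          invFun := fun v => σH (σH (σH v))
          left_inv := fun v => hσH4 v
          right_inv := fun v => hσH4 v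
          map_mul' := fun a b => map_mul σH a b }
      intro z hz
      have h1 : P.map e.toMonoidHom = P := by
        have := L0.pCore_characteristic p H
        exact characteristic_iff_map_eq.1 this e
      rw [← h1]
      exact mem_map_of_mem e.toMonoidHom hz
    have hMN : M0.map N.subtype = N := by
      apply hmin
      · constructor
        rintro _ ⟨v, hv, rfl⟩ g
        refine ⟨θ g v, ?_, ?_⟩
        · intro z hz
          have h1 : (⟨θ g, g, rfl⟩ : H)⁻¹ * z * (⟨θ g, g, rfl⟩ : H) ∈ P := by
            have := hPn.conj_mem z hz (⟨θ g, g, rfl⟩ : H)⁻¹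
            simpa using this
          have h2 := hv _ h1
          rw [mul_smul, mul_smul, inv_smul_eq_iff] at h2
          exact h2
        · simp [θ]
      · rintro _ ⟨v, hv, rfl⟩
        refine ⟨s v, ?_, rfl⟩
        intro z hz
        have h1 := hv _ (hPσ _ (hPσ _ (hPσ _ hz)))
        have h2 := congrArg s h1
        rw [hcomp, hσH4] at h2
        exact h2
      · exact (map_le_range _ _).trans (by simp)
      · intro h
        exact hcardM0 ((Subgroup.map_eq_bot_iff_of_injective _ (Subgroup.subtype_injective N)).1 h)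
    rw [eq_bot_iff]
    intro z hz
    rw [mem_bot]
    apply Subtype.ext
    ext v
    have hv : (v : G) ∈ M0.map N.subtype := by rw [hMN]; exact v.2
    obtain ⟨v', hv', hvv⟩ := hv
    have : v' = v := Subtype.ext hvv
    subst this
    exact congrArg Subtype.val (hv' z hz)
  -- the Fitting subgroup of H is a p'-group
  set F := fittingSubgroup H with hF
  have hFnil : Group.IsNilpotent F := L0.fittingSubgroup_isNilpotent H
  have hFp : ¬ p ∣ Nat.card F := by
    have h1 := L0.not_dvd_index_pCore_of_nilpotent (p := p) hFnil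
    have h2 : pCore p F = ⊥ := by
      have h3 := L0.pCore_subgroup_le p F
      rw [hOp, le_bot_iff, Subgroup.map_eq_bot_iff_of_injective _ (Subgroup.subtype_injective F)] at h3
      exact h3
    rw [h2, Subgroup.index_bot] at h1
    exact h1
  have hFσ : ∀ z ∈ F, σH z ∈ F := by
    let e : H ≃* H :=
      { toFun := σH
        invFun := fun v => σH (σH (σH v))
        left_inv := fun v => hσH4 v
        right_inv := fun v => hσH4 v
        map_mul' := fun a b => map_mul σH a b }
    intro z hz
    have h1 : F.map e.toMonoidHom = F := by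
      have := L0.fittingSubgroup_characteristic H
      exact characteristic_iff_map_eq.1 this e
    rw [← h1]
    exact mem_map_of_mem e.toMonoidHom hz
  let σF : F →* F := σH.restrict (fun x hx => hFσ x hx)
  have hσFf : Fpf σF := fun v hv => Subtype.ext (hσHf v (congrArg Subtype.val hv))
  have hcopF : (Nat.card N).Coprime (Nat.card F) := by
    obtain ⟨k, hk⟩ := IsPGroup.iff_card.1 hNpg
    rw [hk]
    apply Nat.Coprime.pow_left
    rwa [Nat.Prime.coprime_iff_not_dvd hp]
  have hmain := order4_nilpotent hFnil hσFf (fun x => Subtype.ext (hσH4 x)) _ N s (fun x v => hcomp x v) hsN hcopF rfl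
  have hτF : ∀ x ∈ F, σH (σH x) = x := by
    intro x hx
    apply Subtype.ext
    ext v
    exact congrArg Subtype.val (hmain ⟨x, hx⟩ v)
  have hCF : centralizer (F : Set H) ≤ F := centralizer_fitting_le hHs
  -- elements of F which are fixed by σ² are inverted
  have hinv : ∀ f : H, σH (σH f) = f → σH f = f⁻¹ := by
    let D : Subgroup H :=
      { carrier := {x | σH (σH x) = x}
        mul_mem' := by
          intro a b ha hb
          show σH (σH (a * b)) = a * b
          rw [map_mul, map_mul, ha, hb]
        one_mem' := by show σH (σH 1) = 1; rw [map_one, map_one]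
        inv_mem' := by
          intro a ha
          show σH (σH a⁻¹) = a⁻¹
          rw [map_inv, map_inv, ha] }
    let σD : D →* D := σH.restrict (fun x hx => by
      show σH (σH (σH x)) = σH x
      rw [show σH (σH x) = x from hx])
    have hσD : Fpf σD := fun v hv => Subtype.ext (hσHf v (congrArg Subtype.val hv))
    intro f hf
    have := hσD.eq_inv (fun g => Subtype.ext g.2) ⟨f, hf⟩
    exact congrArg Subtype.val this
  have hτH : ∀ h : H, σH (σH h) = h := by
    intro h
    set f := h⁻¹ * σH (σH h) with hf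
    have hfF : f ∈ F := by
      apply hCF
      rw [mem_centralizer_iff]
      intro x hx
      -- τ (h x h⁻¹) = h x h⁻¹
      have hFn : F.Normal := inferInstance
      have h1 := hτF _ (hFn.conj_mem x hx h)
      rw [map_mul, map_mul, map_mul, map_mul, map_inv, map_inv, hτF x hx] at h1
      -- σσh x (σσh)⁻¹ = h x h⁻¹
      have h2 : σH (σH h) * x = h * x * h⁻¹ * σH (σH h) := by
        rw [← h1]; group
      rw [hf, mul_assoc h⁻¹, h2]
      group
    have hτf : σH (σH f) = f := hτF f hfF
    have h1 : σH (σH h) = h * f := by rw [hf]; group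
    have h2 : h = h * f * f := by
      have := hσH4 h
      rw [h1, map_mul, map_mul, h1, hτf] at this
      exact this.symm
    have h3 : f * f = 1 := by
      rw [mul_assoc] at h2
      exact mul_eq_left.1 h2.symm
    have h4 := hinv f hτf
    have h5 : f⁻¹ = f := inv_eq_of_mul_eq_one_right h3
    rw [h5] at h4
    have h6 := hσHf f h4
    rw [h1, h6, mul_one]
  have hcomm : ∀ a b : H, a * b = b * a := hσHf.comm_of_sq hτH
  -- conclusion
  rw [_root_.commutator_def, commutator_le]
  intro a _ b _
  have h1 : θ ⁅a, b⁆ = 1 := by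
    rw [map_commutatorElement, commutatorElement_eq_one_iff_mul_comm]
    exact congrArg Subtype.val (hcomm ⟨θ a, a, rfl⟩ ⟨θ b, b, rfl⟩)
  rw [mem_centralizer_iff]
  intro x hx
  have h2 := congrArg (fun f : MulAut N => ((f ⟨x, hx⟩ : N) : G)) h1
  simp only [θ, MulAut.conjNormal_apply, MulAut.one_apply] at h2
  rw [mul_inv_eq_iff_eq_mul] at h2
  exact h2.symm

theorem main (n : ℕ) : ∀ (G : Type*) [Group G] [Finite G], Nat.card G = n → Group.IsSolvable G → ∀ (σ : G →* G),
    (∀ g, σ (σ (σ (σ g))) = g) → Fpf σ → Group.IsNilpotent (commutator G) := by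
  classical
  induction n using Nat.strong_induction_on with
  | _ n ih =>
  intro G _ _ hn hG σ h4 hf
  rcases subsingleton_or_nontrivial G with hsub | hnt
  · infer_instance
  -- minimal invariant normal subgroup
  have hex : ∃ N : Subgroup G, Minimal (fun N : Subgroup G => N.Normal ∧ (∀ x ∈ N, σ x ∈ N) ∧ N ≠ ⊥) N := by
    apply Set.Finite.exists_minimal (s := {N : Subgroup G | N.Normal ∧ (∀ x ∈ N, σ x ∈ N) ∧ N ≠ ⊥})
    · exact Set.toFinite _
    · exact ⟨⊤, inferInstance, fun _ _ => mem_top _, top_ne_bot⟩
  obtain ⟨N, ⟨hNn, hNσ, hNne⟩, hmin⟩ := hex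
  have hkey := key hG σ h4 hf N hNne hNσ (by
    intro M hM1 hM2 hM3 hM4
    exact le_antisymm hM3 (hmin ⟨hM1, hM2, hM4⟩ hM3))
  let σq : G ⧸ N →* G ⧸ N := QuotientGroup.map N N σ (fun x hx => hNσ x hx)
  have hlt : Nat.card (G ⧸ N) < n := by
    have h1 := Subgroup.card_eq_card_quotient_mul_card_subgroup N
    rw [hn] at h1
    have h2 : 0 < Nat.card (G ⧸ N) := Nat.card_pos
    have h3 : 1 < Nat.card N := by
      rcases Nat.lt_or_ge 1 (Nat.card N) with h | h
      · exact h
      · exact absurd (Subgroup.card_eq_one.1 (le_antisymm h Nat.card_pos)) hNne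
    nlinarith
  have hquot := ih _ hlt (G ⧸ N) rfl inferInstance σq (by
    intro g
    obtain ⟨g, rfl⟩ := QuotientGroup.mk'_surjective N g
    exact congrArg (QuotientGroup.mk' N) (h4 g)) (hf.of_surjective (QuotientGroup.mk' N)
      (QuotientGroup.mk'_surjective N) (fun g => rfl))
  -- f : commutator G →* commutator (G ⧸ N)
  have hmap : ∀ x ∈ commutator G, QuotientGroup.mk' N x ∈ commutator (G ⧸ N) := by
    intro x hx
    have h1 : (commutator G).map (QuotientGroup.mk' N) ≤ commutator (G ⧸ N) := by
      rw [_root_.commutator_def, _root_.commutator_def, map_commutator]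
      exact commutator_mono le_top le_top
    exact h1 (mem_map_of_mem _ hx)
  let f : commutator G →* commutator (G ⧸ N) := (QuotientGroup.mk' N).restrict (fun x hx => hmap x hx)
  refine Subgroup.isNilpotent_of_ker_le_center f ?_
  intro x hx
  have hxN : (x : G) ∈ N := by
    have h1 : f x = 1 := hx
    have h2 := congrArg Subtype.val h1
    exact (QuotientGroup.eq_one_iff _).1 h2
  rw [mem_center_iff]
  intro y
  apply Subtype.ext
  have h3 := mem_centralizer_iff.1 (hkey y.2) (x : G) hxN
  exact h3.symm

/-- Let G be a finite solvable group with an automorphism σ satisfying σ⁴ = 1 and fixing only the identity. Then the derived subgroup G' is nilpotent. -/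
theorem result {G : Type*} [Group G] [Finite G] (hG : Group.IsSolvable G) (σ : MulAut G) (hσ : σ ^ 4 = 1) (hfpf : ∀ g : G, σ g = g → g = 1) : Group.IsNilpotent (commutator G) := by
  refine main _ G rfl hG σ.toMonoidHom ?_ hfpf
  intro g
  have h1 := congrArg (fun f : MulAut G => f g) hσ
  simp only [pow_succ, pow_zero, one_mul, MulAut.mul_apply, MulAut.one_apply] at h1
  exact h1

end Cfsg.Agent.S3794
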