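import Cfsg.Statements.S3800
import Mathlib
import Cfsg.Agent.H6.NoSL2

set_option autoImplicit false
open Cfsg

namespace Cfsg.Agent.S3800

open Subgroup Cfsg.Agent.H6

theorem normalizer_map_pp {X : Type*} [Group X] [Finite X] {p : ℕ} [hp : Fact p.Prime] {O R : Subgroup X} (hO : O.Normal) (hOp : (Nat.card ↥O).Coprime p) (hR : IsPGroup p ↥R) :
    normalizer ((R.map (QuotientGroup.mk' O) : Subgroup (X ⧸ O)) : Set (X ⧸ O)) = (normalizer (R : Set X)).map (QuotientGroup.mk' O) := by
  obtain ⟨π, hπ⟩ : ∃ π : X →* X ⧸ O, π = QuotientGroup.mk' O := ⟨_, rfl⟩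
  have hπs : Function.Surjective π := by rw [hπ]; exact QuotientGroup.mk'_surjective _
  have hcm : ∀ A : Subgroup X, (A.map π).comap π = O ⊔ A := by
    intro A; rw [hπ, Subgroup.comap_map_eq, QuotientGroup.ker_mk', sup_comm]
  rw [← hπ]
  refine le_antisymm ?_ (Subgroup.le_normalizer_map π)
  intro y hy
  obtain ⟨x, rfl⟩ := hπs y
  have h1 : cj x (O ⊔ R) = O ⊔ R := by
    rw [mem_norm] at hy
    rw [← hcm]
    ext y
    have h2 : π y ∈ cj (π x) (R.map π) ↔ π y ∈ R.map π := by rw [hy]
    rw [mem_cj] at h2 ⊢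
    show π (x⁻¹ * y * x) ∈ R.map π ↔ π y ∈ R.map π
    rw [map_mul, map_mul, map_inv]
    exact h2
  have hs := sylIn_sup (p := p) hR hOp ((normalizer_eq_top_iff.2 hO).ge.trans' le_top)
  have hs2 := hs.cj x
  rw [h1] at hs2
  obtain ⟨h, hh, e⟩ := hs2.conj hs
  have h3 : h * x ∈ normalizer (R : Set X) := by rw [mem_norm, cj_mul]; exact e
  have h4 : π h ∈ (normalizer (R : Set X)).map π := by
    have h5 : π h ∈ R.map π := by
      have : h ∈ (R.map π).comap π := by rw [hcm]; exact hh
      exact this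
    exact Subgroup.map_mono le_normalizer h5
  have h6 : π x = (π h)⁻¹ * π (h * x) := by rw [map_mul]; group
  rw [h6]
  exact mul_mem (inv_mem h4) (mem_map_of_mem π h3)

/-- Let G be a finite group, N a normal subgroup of G whose order is prime to p, and P a p-subgroup of G. Then in G/N the normalizer of the image of P is the image of N_G(P), and the centralizer of the image of P is the image of C_G(P). -/
theorem result {G : Type*} [Group G] [Finite G] {p : ℕ} [Fact p.Prime] (N : Subgroup G) [N.Normal] (hN : (Nat.card N).Coprime p) (P : Subgroup G) (hP : IsPGroup p P) : Subgroup.normalizer ((P.map (QuotientGroup.mk' N)) : Set (G ⧸ N)) = (Subgroup.normalizer (P : Set G)).map (QuotientGroup.mk' N) ∧ Subgroup.centralizer ((P.map (QuotientGroup.mk' N)) : Set (G ⧸ N)) = (Subgroup.centralizer (P : Set G)).map (QuotientGroup.mk' N) := by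
  have h1 := normalizer_map_pp (p := p) ‹N.Normal› hN hP
  refine ⟨h1, le_antisymm ?_ ?_⟩
  · intro y hy
    have hyN : y ∈ normalizer ((P.map (QuotientGroup.mk' N)) : Set (G ⧸ N)) := Subgroup.centralizer_le_normalizer _ hy
    rw [h1] at hyN
    obtain ⟨x, hx, rfl⟩ := hyN
    refine ⟨x, ?_, rfl⟩
    rw [SetLike.mem_coe, mem_centralizer_iff]
    intro a ha
    rw [mem_centralizer_iff] at hy
    have h2 := hy _ (mem_map_of_mem (QuotientGroup.mk' N) ha)
    rw [← map_mul, ← map_mul] at h2
    have h3 : (a * x)⁻¹ * (x * a) ∈ N := QuotientGroup.eq.1 h2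
    have h4 : (a * x)⁻¹ * (x * a) ∈ P := by
      have e : (a * x)⁻¹ * (x * a) = (x⁻¹ * a⁻¹ * x) * a := by group
      rw [e]
      refine mul_mem ?_ ha
      have := (mem_normalizer_iff.1 (inv_mem hx) a⁻¹).1 (inv_mem ha)
      simpa using this
    have h5 : (a * x)⁻¹ * (x * a) = 1 := by
      have hcop : (Nat.card N).Coprime (Nat.card P) := by
        obtain ⟨n, hn⟩ := IsPGroup.iff_card.mp hP
        rw [hn]; exact hN.pow_right n
      have := Subgroup.inf_eq_bot_of_coprime hcop
      rw [← mem_bot, ← this]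
      exact ⟨h3, h4⟩
    exact inv_mul_eq_one.1 h5
  · rintro _ ⟨x, hx, rfl⟩
    rw [mem_centralizer_iff]
    rintro _ ⟨a, ha, rfl⟩
    rw [SetLike.mem_coe, mem_centralizer_iff] at hx
    rw [← map_mul, ← map_mul, hx a ha]

end Cfsg.Agent.S3800
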