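import Cfsg.Statements.S3962

set_option autoImplicit false
open Cfsg

namespace Cfsg.Agent.S3962

/-- Let `G` be a perfect group and `π : G →* Q` a surjective homomorphism whose kernel is central. Then `π` maps the centre of `G` onto the centre of `Q`. Taking `π` to be the map to `G ⧸ Z(G)` shows that the central quotient of a perfect group has trivial centre. -/
theorem result {G Q : Type*} [Group G] [Group Q] (hG : Group.IsPerfect G) (π : G →* Q) (hπ : Function.Surjective π) (hker : π.ker ≤ Subgroup.center G) : (Subgroup.center G).map π = Subgroup.center Q := by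
  apply le_antisymm
  · rintro _ ⟨x, hx, rfl⟩
    rw [Subgroup.mem_center_iff]
    intro q
    obtain ⟨g, rfl⟩ := hπ q
    rw [← map_mul, ← map_mul, Subgroup.mem_center_iff.1 hx g]
  · intro q hq
    obtain ⟨x, rfl⟩ := hπ q
    refine ⟨x, ?_, rfl⟩
    have hc : ∀ g : G, x * g * x⁻¹ * g⁻¹ ∈ Subgroup.center G := by
      intro g
      apply hker
      rw [MonoidHom.mem_ker]
      have := Subgroup.mem_center_iff.1 hq (π g)
      simp only [map_mul, map_inv]
      rw [← this]; group
    let φ : G →* Subgroup.center G :=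
      { toFun := fun g => ⟨x * g * x⁻¹ * g⁻¹, hc g⟩
        map_one' := by apply Subtype.ext; simp
        map_mul' := by
          intro g h
          apply Subtype.ext
          show x * (g * h) * x⁻¹ * (g * h)⁻¹ = (x * g * x⁻¹ * g⁻¹) * (x * h * x⁻¹ * h⁻¹)
          have h1 := Subgroup.mem_center_iff.1 (hc h) g
          calc x * (g * h) * x⁻¹ * (g * h)⁻¹ = x * g * x⁻¹ * (x * h * x⁻¹ * h⁻¹) * g⁻¹ := by group
            _ = x * g * x⁻¹ * g⁻¹ * (g * (x * h * x⁻¹ * h⁻¹)) * g⁻¹ := by group
            _ = x * g * x⁻¹ * g⁻¹ * ((x * h * x⁻¹ * h⁻¹) * g) * g⁻¹ := by rw [h1]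
            _ = _ := by group }
    have hφ : ∀ g, φ g = 1 := by
      intro g
      have h1 : commutator G ≤ φ.ker := by
        rw [commutator_def, Subgroup.commutator_le]
        intro a _ b _
        rw [MonoidHom.mem_ker, map_commutatorElement, commutatorElement_eq_one_iff_mul_comm]
        exact Subtype.ext (Subgroup.mem_center_iff.1 (φ b).2 (φ a))
      have h2 : g ∈ commutator G := by rw [hG.commutator_eq_top]; trivial
      exact h1 h2
    refine Subgroup.mem_center_iff.2 ?_
    intro g
    have h1 : x * g * x⁻¹ * g⁻¹ = 1 := congrArg Subtype.val (hφ g)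
    have h2 : x * g * x⁻¹ = g := mul_inv_eq_one.1 h1
    exact (mul_inv_eq_iff_eq_mul.1 h2).symm

end Cfsg.Agent.S3962
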