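import Cfsg.Statements.S3968
import Mathlib
import Cfsg.Agent.H5.W22
import Cfsg.Agent.H4.Burnside
import Cfsg.Agent.H4.Clifford2

set_option autoImplicit false
open Cfsg

namespace Cfsg.Agent.S3968

open Module

theorem list_sum_apply {α : Type*} (l : List (α → ℂ)) (x : α) : l.sum x = (l.map fun f => f x).sum := by
  induction l with
  | nil => simp
  | cons a l ih => simp [ih]

theorem central_of_norm {G : Type*} [Group G] [Finite G] (χ : Cfsg.IrrCharacter G) (hfaith : ∀ g : G, χ.1 g = χ.1 1 → g = 1) (g : G)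
    (h : ‖χ.1 g‖ = ‖χ.1 1‖) : g ∈ Subgroup.center G := by
  obtain ⟨n, ρ, hρ, hρχ⟩ := χ.2
  have hinj : Function.Injective ρ := by
    rw [injective_iff_map_eq_one]
    intro x hx
    apply hfaith
    rw [← hρχ]
    show LinearMap.trace ℂ _ (ρ x) = LinearMap.trace ℂ _ (ρ 1)
    rw [hx, map_one ρ]
  have h1 : ‖ρ.character g‖ = (finrank ℂ (Fin n → ℂ) : ℝ) := by
    rw [hρχ, h, ← hρχ, Representation.char_one]
    simp
  obtain ⟨ω, hω⟩ := (H4.norm_char_eq_iff ρ g).1 h1
  rw [Subgroup.mem_center_iff]
  intro x
  apply hinj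
  rw [map_mul, map_mul, hω]
  ext v i
  simp

/-- Let `p` be a prime and `G` a finite group with a faithful irreducible complex character of degree `p` (so `G` is an irreducible linear group in `p` variables). If `p ^ 2` divides the order of `G`, then the centre of `G` is nontrivial. -/
theorem result {G : Type*} [Group G] [Finite G] (p : ℕ) (hp : p.Prime) (χ : Cfsg.IrrCharacter G) (hdeg : χ.1 1 = p) (hfaith : ∀ g : G, χ.1 g = χ.1 1 → g = 1) (hdiv : p ^ 2 ∣ Nat.card G) : Subgroup.center G ≠ ⊥ := by
  classical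
  haveI := Fintype.ofFinite G
  haveI hF : Fact p.Prime := ⟨hp⟩
  obtain ⟨P⟩ : Nonempty (Sylow p G) := inferInstance
  haveI : Fintype (P : Subgroup G) := Fintype.ofFinite _
  have hPc : p ^ 2 ∣ Nat.card (P : Subgroup G) := P.pow_dvd_card_of_pow_dvd_card hdiv
  have hp0 : (p : ℂ) ≠ 0 := by exact_mod_cast hp.ne_zero
  obtain ⟨k, hk⟩ := IsPGroup.iff_card.mp P.2
  by_cases hab : ∀ a b : (P : Subgroup G), a * b = b * a
  · intro hZ
    have hvan : ∀ g : (P : Subgroup G), g ≠ 1 → χ.1 (g : G) = 0 := by
      intro g hg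
      obtain ⟨n, ρ, hρ, hρχ⟩ := χ.2
      have hfin : (finrank ℂ (Fin n → ℂ) : ℂ) = p := by
        rw [← hdeg, ← hρχ, Representation.char_one]
      have hfin' : finrank ℂ (Fin n → ℂ) = p := by exact_mod_cast hfin
      have hPC : (P : Subgroup G) ≤ Subgroup.centralizer ({(g : G)} : Set G) := by
        intro x hx
        rw [Subgroup.mem_centralizer_singleton_iff]
        exact congrArg Subtype.val (hab ⟨x, hx⟩ g)
      have hcop : Nat.Coprime (finrank ℂ (Fin n → ℂ)) (Subgroup.centralizer ({(g : G)} : Set G)).index := by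
        rw [hfin', Nat.Prime.coprime_iff_not_dvd hp]
        intro hd
        exact P.not_dvd_index (hd.trans (Subgroup.index_dvd_of_le hPC))
      rcases H4.char_eq_zero_or_norm_eq ρ hρ g hcop with h | h
      · rw [← hρχ]; exact h
      · exfalso
        apply hg
        have h2 : ‖χ.1 (g : G)‖ = ‖χ.1 1‖ := by
          rw [hdeg, ← hρχ, h, hfin']
          simp
        have h3 := central_of_norm χ hfaith (g : G) h2
        rw [hZ, Subgroup.mem_bot] at h3
        exact Subtype.ext h3
    obtain ⟨m, hm⟩ := H4.inner_nat (N := (P : Subgroup G)) (H5.irr_isCharacter χ) (H5.isIrrCharacter_trivial (G := (P : Subgroup G)))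
    have h1 : classInner (fun n : (P : Subgroup G) => χ.1 (n : G)) (fun _ => (1 : ℂ)) = (Nat.card (P : Subgroup G) : ℂ)⁻¹ * p := by
      unfold classInner
      congr 1
      rw [Finset.sum_eq_single (1 : (P : Subgroup G))]
      · simp [hdeg]
      · intro b _ hb
        have hb' := hvan b hb
        show χ.1 (b : G) * _ = 0
        rw [hb', zero_mul]
      · intro h; exact absurd (Finset.mem_univ _) h
    rw [h1] at hm
    have h2 : (p : ℂ) = (m * Nat.card (P : Subgroup G) : ℕ) := by
      have h3 : (Nat.card (P : Subgroup G) : ℂ) ≠ 0 := by exact_mod_cast Nat.card_pos.ne'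
      push_cast
      rw [← hm]
      field_simp
    have h3 : p = m * Nat.card (P : Subgroup G) := by exact_mod_cast h2
    have h4 : p ^ 2 ∣ p := by
      conv_rhs => rw [h3]
      exact hPc.mul_left m
    have h5 := Nat.le_of_dvd hp.pos h4
    have := hp.two_le
    nlinarith
  · -- nonabelian Sylow
    obtain ⟨l, hl, hsum⟩ := H5.IsCharacter.exists_list (H5.isCharacter_restrict (P : Subgroup G) (H5.irr_isCharacter χ))
    have hval : ∀ x : (P : Subgroup G), χ.1 (x : G) = (l.map fun f => f x).sum := by
      intro x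
      have := congrFun hsum x
      rw [list_sum_apply] at this
      exact this
    have hdegs : ∀ ψ ∈ l, ψ 1 = (charDegree ψ : ℂ) := fun ψ hψ =>
      H5.IsCharacter.one_eq_charDegree (H5.irr_isCharacter ⟨ψ, hl ψ hψ⟩)
    have hpos : ∀ ψ ∈ l, 1 ≤ charDegree ψ := by
      intro ψ hψ
      have h1 := H5.charDegree_dvd_card (hl ψ hψ)
      rcases Nat.eq_zero_or_pos (charDegree ψ) with h0 | h0
      · rw [h0] at h1
        exact absurd (Nat.eq_zero_of_zero_dvd h1) Nat.card_pos.ne'
      · exact h0
    have hsumdeg : (l.map charDegree).sum = p := by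
      have h1 := hval 1
      rw [Subgroup.coe_one, hdeg] at h1
      have h2 : (l.map fun f => f 1) = l.map (fun f => (charDegree f : ℂ)) := List.map_congr_left hdegs
      rw [h2] at h1
      have h3 : ((l.map charDegree).sum : ℂ) = (l.map (fun f => (charDegree f : ℂ))).sum := by
        rw [Nat.cast_list_sum, List.map_map]; rfl
      rw [← h3] at h1
      exact_mod_cast h1.symm
    obtain ⟨ψ, hψ, hψ1⟩ : ∃ ψ ∈ l, charDegree ψ ≠ 1 := by
      by_contra hcon
      push Not at hcon
      apply hab
      intro x y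
      have h1 : χ.1 ((x * y * x⁻¹ * y⁻¹ : (P : Subgroup G)) : G) = χ.1 1 := by
        have h0 : χ.1 1 = χ.1 ((1 : (P : Subgroup G)) : G) := rfl
        rw [h0, hval, hval]
        congr 1
        apply List.map_congr_left
        intro f hf
        obtain ⟨lam, hlam⟩ := H4.exists_hom_of_degree_one (H5.irr_isCharacter ⟨f, hl f hf⟩) (by
          show f 1 = 1
          rw [hdegs f hf, hcon f hf]; simp)
        have hf' : ∀ z, f z = (lam z : ℂ) := fun z => congrFun hlam z
        rw [hf', hf']
        simp only [map_mul, map_inv, map_one]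
        rw [mul_comm (lam x) (lam y), mul_inv_cancel_right, mul_inv_cancel]
      have h2 : x * y * x⁻¹ * y⁻¹ = 1 := Subtype.ext (hfaith _ h1)
      have h3 : x * y * x⁻¹ = y := by
        have := congrArg (· * y) h2
        simpa using this
      rwa [mul_inv_eq_iff_eq_mul] at h3
    have hψp : p ≤ charDegree ψ := by
      have h1 := H5.charDegree_dvd_card (hl ψ hψ)
      rw [hk] at h1
      obtain ⟨j, -, hj⟩ := (Nat.dvd_prime_pow hp).mp h1
      rw [hj]
      rcases Nat.eq_zero_or_pos j with h0 | h0
      · exfalso; apply hψ1; rw [hj, h0, pow_zero]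
      · calc p = p ^ 1 := (pow_one p).symm
          _ ≤ p ^ j := Nat.pow_le_pow_right hp.pos h0
    obtain ⟨l1, l2, hll⟩ := List.append_of_mem hψ
    have hnil : l1 = [] ∧ l2 = [] := by
      rw [hll, List.map_append, List.map_cons, List.sum_append, List.sum_cons] at hsumdeg
      have key : ∀ l' : List (↥(P : Subgroup G) → ℂ), (∀ f ∈ l', f ∈ l) → (l'.map charDegree).sum = 0 → l' = [] := by
        intro l' hl' h0
        rcases l' with _ | ⟨a, l'⟩
        · rfl
        · exfalso
          have h1 := hpos a (hl' a (by simp))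
          rw [List.map_cons, List.sum_cons] at h0
          omega
      constructor
      · exact key l1 (fun f hf => by rw [hll]; simp [hf]) (by omega)
      · exact key l2 (fun f hf => by rw [hll]; simp [hf]) (by omega)
    have hψχ : ∀ x : (P : Subgroup G), χ.1 (x : G) = ψ x := by
      intro x
      rw [hval, hll, hnil.1, hnil.2]
      simp
    haveI : Nontrivial (P : Subgroup G) := by
      by_contra hcon
      rw [not_nontrivial_iff_subsingleton] at hcon
      exact hab fun a b => Subsingleton.elim _ _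
    haveI := P.2.center_nontrivial
    obtain ⟨z, hz⟩ := exists_ne (1 : Subgroup.center (P : Subgroup G))
    obtain ⟨n, ρ, hρ, hρψ⟩ := hl ψ hψ
    obtain ⟨c, hc⟩ := H4.center_scalar ρ hρ (z : (P : Subgroup G)) z.2
    have h1 : ‖ρ.character (z : (P : Subgroup G))‖ = (finrank ℂ (Fin n → ℂ) : ℝ) :=
      (H4.norm_char_eq_iff ρ _).2 ⟨c, hc⟩
    have h2 : ‖χ.1 ((z : (P : Subgroup G)) : G)‖ = ‖χ.1 1‖ := by
      have h0 : χ.1 1 = χ.1 ((1 : (P : Subgroup G)) : G) := rfl
      rw [h0, hψχ, hψχ, ← hρψ, h1, Representation.char_one]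
      simp
    have h3 := central_of_norm χ hfaith _ h2
    intro hZ
    rw [hZ, Subgroup.mem_bot] at h3
    apply hz
    exact Subtype.ext (Subtype.ext h3)

end Cfsg.Agent.S3968
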