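import Cfsg.Statements.S3970
import Mathlib
import Cfsg.Agent.H3.RankAct

set_option autoImplicit false
open Cfsg

namespace Cfsg.Agent.S3970

open Subgroup
universe u

theorem rank_le_one_of_card {P : Type*} [Group P] [Finite P] (h : Nat.card P ≤ 2) : Group.rank P ≤ 1 := by
  classical
  haveI : IsCyclic P := by
    rcases Nat.lt_or_ge (Nat.card P) 2 with h1 | h1
    · haveI : Subsingleton P := (Nat.card_eq_one_iff_unique.1 (by have := Nat.card_pos (α := P); omega)).1
      infer_instance
    · haveI : Fact (Nat.Prime 2) := ⟨Nat.prime_two⟩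
      exact isCyclic_of_prime_card (p := 2) (le_antisymm h h1)
  obtain ⟨x, hx⟩ := IsCyclic.exists_generator (α := P)
  have : Subgroup.closure (({x} : Finset P) : Set P) = ⊤ := by
    rw [Finset.coe_singleton, ← Subgroup.zpowers_eq_closure, eq_top_iff]
    intro y _
    exact hx y
  simpa using Group.rank_le this

theorem main (n : ℕ) : ∀ (G : Type u) [Group G] [Finite G], Nat.card G = n →
    (∀ p : ℕ, p.Prime → p ∣ Nat.card G → (∃ q : ℕ, q.Prime ∧ q ∣ Nat.card G ∧ p < q) → ∀ P : Sylow p G, IsMulCommutative (P : Subgroup G) ∧ Group.rank (P : Subgroup G) ≤ 2) →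
    ¬ 12 ∣ Nat.card G → Group.IsSolvable G := by
  classical
  induction n using Nat.strong_induction_on with
  | _ n ih =>
  intro G _ _ hn h h12
  by_cases h1 : Nat.card G = 1
  · haveI : Subsingleton G := (Nat.card_eq_one_iff_unique.1 h1).1
    infer_instance
  have hpr : (Nat.card G).minFac.Prime := Nat.minFac_prime h1
  set p := (Nat.card G).minFac with hpdef
  haveI hpF : Fact p.Prime := ⟨hpr⟩
  have hpd : p ∣ Nat.card G := Nat.minFac_dvd _
  have hmin : ∀ q : ℕ, q.Prime → q ∣ Nat.card G → p ≤ q := fun q hq hqd => Nat.minFac_le_of_dvd hq.two_le hqd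
  clear_value p
  by_cases hex : ∃ q : ℕ, q.Prime ∧ q ∣ Nat.card G ∧ p < q
  · have hnpc : HasNormalPComplement p G := by
      obtain ⟨P⟩ : Nonempty (Sylow p G) := inferInstance
      obtain ⟨hab, hr⟩ := h p hpr hpd hex P
      by_cases h23 : p = 2 ∧ 3 ∣ Nat.card G
      · refine H3.npc_of_rank (d := 1) P hab ?_ ?_
        · apply rank_le_one_of_card
          obtain ⟨k, hk⟩ := IsPGroup.iff_card.mp P.2
          have hkd : p ^ k ∣ Nat.card G := hk ▸ Subgroup.card_subgroup_dvd_card (P : Subgroup G)
          rw [hk]
          rcases k with _ | _ | k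
          · simp
          · rw [h23.1]; norm_num
          · exfalso
            apply h12
            have h4 : 4 ∣ Nat.card G := by
              refine Dvd.dvd.trans ?_ hkd
              rw [h23.1, pow_succ, pow_succ]
              exact ⟨2 ^ k, by ring⟩
            have : Nat.Coprime 4 3 := by norm_num
            exact this.mul_dvd_of_dvd_of_dvd h4 h23.2
        · intro q hq hqG hqp i hi1 hi2 hd
          have : i = 1 := le_antisymm hi2 hi1
          subst this
          rw [pow_one, h23.1] at hd
          have := Nat.le_of_dvd (by norm_num) hd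
          have := hq.two_le
          omega
      · refine H3.npc_of_rank (d := 2) P hab hr ?_
        intro q hq hqG hqp i hi1 hi2 hd
        have hpq : p < q := lt_of_le_of_ne (hmin q hq hqG) (Ne.symm hqp)
        have h2p := hpr.two_le
        have hq1 : ¬ q ∣ p - 1 := by
          intro h
          have := Nat.le_of_dvd (by omega) h
          omega
        have hi : i = 1 ∨ i = 2 := by omega
        rcases hi with rfl | rfl
        · rw [pow_one] at hd; exact hq1 hd
        · have e : p ^ 2 - 1 = (p - 1) * (p + 1) := by
            obtain ⟨m, rfl⟩ : ∃ m, p = m + 1 := ⟨p - 1, by omega⟩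
            rw [Nat.add_sub_cancel]
            have : (m + 1) ^ 2 = m * (m + 1 + 1) + 1 := by ring
            omega
          rw [e] at hd
          rcases hq.dvd_mul.1 hd with h | h
          · exact hq1 h
          · have := Nat.le_of_dvd (by omega) h
            have hqe : q = p + 1 := by omega
            have hp2 : p = 2 := by
              by_contra hp2
              have hodd := hpr.odd_of_ne_two hp2
              have hqodd := hq.odd_of_ne_two (by omega)
              rw [hqe] at hqodd
              exact (Nat.not_even_iff_odd.2 hqodd) (by simpa using hodd.add_one)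
            apply h23
            refine ⟨hp2, ?_⟩
            rw [hp2] at hqe
            rw [hqe] at hqG
            exact hqG
    obtain ⟨N, hN, hcop, k, hk⟩ := H1.hasNormalPComplement_iff.1 hnpc
    have hlt : Nat.card N < n := by
      rw [← hn]
      refine lt_of_le_of_ne (Nat.le_of_dvd Nat.card_pos (Subgroup.card_subgroup_dvd_card N)) ?_
      intro hcard
      rw [hcard] at hcop
      exact Nat.not_coprime_of_dvd_of_dvd hpr.one_lt hpd dvd_rfl hcop
    haveI hNs : Group.IsSolvable N := by
      refine ih _ hlt N rfl ?_ ?_
      · intro r hr hrN hq R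
        haveI : Fact r.Prime := ⟨hr⟩
        have hrp : r ≠ p := by
          rintro rfl
          exact Nat.not_coprime_of_dvd_of_dvd hpr.one_lt hrN dvd_rfl hcop
        obtain ⟨S⟩ : Nonempty (Sylow r G) := inferInstance
        have hSN : (S : Subgroup G) ≤ N := H3.sylow_le_of_index S N (by
          rw [hk]
          intro hd
          exact hrp ((Nat.prime_dvd_prime_iff_eq hr hpr).1 (hr.dvd_of_dvd_pow hd)))
        obtain ⟨q, hq, hqN, hrq⟩ := hq
        obtain ⟨hab, hrk⟩ := h r hr (hrN.trans (Subgroup.card_subgroup_dvd_card N)) ⟨q, hq, hqN.trans (Subgroup.card_subgroup_dvd_card N), hrq⟩ S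
        have e1 : ↥(R : Subgroup N) ≃* ↥((S.subtype hSN : Sylow r N) : Subgroup N) := Sylow.equiv R (S.subtype hSN)
        have e2 : ↥((S.subtype hSN : Sylow r N) : Subgroup N) ≃* ↥(S : Subgroup G) := Subgroup.subgroupOfEquivOfLe hSN
        have e := e1.trans e2
        constructor
        · refine ⟨⟨fun a b => e.injective ?_⟩⟩
          rw [map_mul, map_mul]
          exact hab.is_comm.comm _ _
        · rw [Group.rank_congr e]; exact hrk
      · intro hd
        exact h12 (hd.trans (Subgroup.card_subgroup_dvd_card N))
    haveI hQs : Group.IsSolvable (G ⧸ N) := by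
      haveI : Group.IsNilpotent (G ⧸ N) := (IsPGroup.of_card (p := p) (n := k) (by rw [← hk]; rfl)).isNilpotent
      infer_instance
    exact Group.isSolvable_of_ker_le_range N.subtype (QuotientGroup.mk' N) (by
      rw [QuotientGroup.ker_mk', Subgroup.range_subtype])
  · have : IsPGroup p G := by
      rw [IsPGroup.iff_card]
      refine ⟨_, Nat.eq_prime_pow_of_unique_prime_dvd Nat.card_pos.ne' ?_⟩
      intro q hq hqd
      by_contra hne
      exact hex ⟨q, hq, hqd, lt_of_le_of_ne (hmin q hq hqd) (Ne.symm hne)⟩
    haveI : Group.IsNilpotent G := this.isNilpotent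
    infer_instance

/-- Let `G` be a finite group such that for every prime `p` dividing its order, other than the largest such prime, the Sylow `p`-subgroups are abelian and generated by at most two elements, and suppose `12` does not divide the order of `G`. Then `G` is solvable. In particular a group of cube-free order not divisible by `12` is solvable. -/
theorem result {G : Type*} [Group G] [Finite G] (h : ∀ p : ℕ, p.Prime → p ∣ Nat.card G → (∃ q : ℕ, q.Prime ∧ q ∣ Nat.card G ∧ p < q) → ∀ P : Sylow p G, IsMulCommutative (P : Subgroup G) ∧ Group.rank (P : Subgroup G) ≤ 2) (h12 : ¬ 12 ∣ Nat.card G) : Group.IsSolvable G := by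
  exact main _ G rfl h h12

end Cfsg.Agent.S3970
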