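import Cfsg.Statements.S3971
import Mathlib
import Cfsg.Agent.H3.RankAct

set_option autoImplicit false
open Cfsg

namespace Cfsg.Agent.S3971

open Subgroup

theorem rank_le_two {K : Type*} [Group K] [Finite K] (C : Subgroup K) (hC : IsCyclic C) (hi : C.index ≤ 2) : Group.rank K ≤ 2 := by
  classical
  obtain ⟨c, hc⟩ := hC.exists_generator
  have hCc : C ≤ closure ({(c : K)} : Set K) := by
    intro x hx
    obtain ⟨n, hn⟩ := mem_zpowers_iff.1 (hc ⟨x, hx⟩)
    rw [← zpowers_eq_closure, mem_zpowers_iff]
    exact ⟨n, congrArg Subtype.val hn⟩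
  obtain ⟨y, hy⟩ : ∃ y : K, closure ({(c : K), y} : Set K) = ⊤ := by
    by_cases hCt : C = ⊤
    · refine ⟨1, ?_⟩
      rw [eq_top_iff, ← hCt]
      exact hCc.trans (closure_mono (by simp))
    · obtain ⟨y, hy⟩ : ∃ y, y ∉ C := by
        by_contra hcon
        push Not at hcon
        exact hCt (eq_top_iff.2 fun x _ => hcon x)
      refine ⟨y, ?_⟩
      set D := closure ({(c : K), y} : Set K) with hD
      have hCD : C < D := by
        refine lt_of_le_of_ne (hCc.trans (closure_mono (by simp))) ?_
        intro h
        apply hy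
        rw [h]
        exact subset_closure (by simp)
      have h1 := Subgroup.relIndex_mul_index hCD.le
      have h2 : C.relIndex D ≠ 1 := by
        rw [Ne, Subgroup.relIndex_eq_one]
        exact hCD.not_ge
      have h30 : C.index ≠ 0 := Subgroup.index_ne_zero_of_finite
      have h3 : C.relIndex D ≠ 0 := by
        intro h; rw [h, zero_mul] at h1; exact h30 h1.symm
      have h4 : D.index ≠ 0 := Subgroup.index_ne_zero_of_finite
      rw [← Subgroup.index_eq_one]
      have h5 : 2 ≤ C.relIndex D := by omega
      by_contra h6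
      have h7 : 2 ≤ D.index := by omega
      have := Nat.mul_le_mul h5 h7
      omega
  have h1 : closure ((({(c : K), y} : Finset K)) : Set K) = ⊤ := by simpa using hy
  exact (Group.rank_le h1).trans Finset.card_le_two

/-- Let `G` be a finite group of order `2 ^ a * n` with `n` odd and not divisible by `3`, and suppose `G` has an element of order `2 ^ (a - 1)` (so a Sylow `2`-subgroup has a cyclic subgroup of index at most `2`). Then `G` has a normal subgroup of order `n`. -/
theorem result {G : Type*} [Group G] [Finite G] (a n : ℕ) (hG : Nat.card G = 2 ^ a * n) (hn : Odd n) (h3 : ¬ 3 ∣ n) (hx : ∃ x : G, orderOf x = 2 ^ (a - 1)) : ∃ N : Subgroup G, N.Normal ∧ Nat.card N = n := by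
  classical
  haveI hF2 : Fact (Nat.Prime 2) := ⟨Nat.prime_two⟩
  obtain ⟨x, hx⟩ := hx
  have hcardC : Nat.card (zpowers x) = 2 ^ (a - 1) := by rw [Nat.card_zpowers, hx]
  have hCp : IsPGroup 2 (zpowers x) := IsPGroup.of_card hcardC
  obtain ⟨S, hS⟩ := hCp.exists_le_sylow
  have hScard : Nat.card (S : Subgroup G) = 2 ^ a := by
    rw [S.card_eq_multiplicity, hG]
    congr 1
    rw [Nat.factorization_mul (by positivity) (by rintro rfl; simp at hn), Nat.factorization_pow]
    simp only [Finsupp.coe_add, Finsupp.coe_smul, Pi.add_apply, Pi.smul_apply, smul_eq_mul]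
    rw [Nat.prime_two.factorization_self, Nat.factorization_eq_zero_of_not_dvd (by
      intro h; exact (Nat.not_even_iff_odd.2 hn) (even_iff_two_dvd.2 h))]
    ring
  have hrank : ∀ Q : Subgroup G, IsPGroup 2 Q → Group.rank Q ≤ 2 := by
    intro Q hQ
    obtain ⟨T, hT⟩ := hQ.exists_le_sylow
    let f : Q →* (S : Subgroup G) := (Sylow.equiv T S).toMonoidHom.comp (Subgroup.inclusion hT)
    have hf : Function.Injective f := (Sylow.equiv T S).injective.comp (Subgroup.inclusion_injective hT)
    let C' : Subgroup (S : Subgroup G) := (zpowers x).subgroupOf (S : Subgroup G)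
    have hC'i : C'.index ≤ 2 := by
      have h1 : Nat.card C' = 2 ^ (a - 1) := by
        rw [← hcardC]
        exact Nat.card_congr (Subgroup.subgroupOfEquivOfLe hS).toEquiv
      have h2 := C'.card_mul_index
      rw [h1, hScard] at h2
      rcases a with _ | a
      · rw [Nat.zero_sub, pow_zero, one_mul] at h2
        omega
      · rw [Nat.add_sub_cancel, pow_succ] at h2
        have := Nat.eq_of_mul_eq_mul_left (by positivity) h2
        omega
    have hC'c : IsCyclic C' := (Subgroup.subgroupOfEquivOfLe hS).isCyclic.2 inferInstance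
    apply rank_le_two (C'.comap f)
    · have hinj : Function.Injective (f.subgroupComap C') := by
        intro u v huv
        apply Subtype.ext
        apply hf
        exact congrArg Subtype.val huv
      exact isCyclic_of_injective _ hinj
    · rw [Subgroup.index_comap]
      have h3 := Subgroup.relIndex_le_of_le_right (H := C') (le_top : f.range ≤ ⊤) (by
        rw [Subgroup.relIndex_top_right]; exact Subgroup.index_ne_zero_of_finite)
      rw [Subgroup.relIndex_top_right] at h3
      omega
  have hnpc : HasNormalPComplement 2 G := by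
    apply H1.frobenius_criterion
    intro Q hQ g hg hgo
    have key : (centralizer (Q : Set G)).subgroupOf (zpowers g) = ⊤ := by
      apply H1.eq_top_of_forall_sylow_le
      intro q hq
      obtain ⟨R⟩ : Nonempty (Sylow q (zpowers g)) := inferInstance
      refine ⟨R, ?_⟩
      intro y hy
      rw [mem_subgroupOf]
      obtain ⟨k, hk⟩ := (IsPGroup.iff_orderOf.mp R.2) ⟨y, hy⟩
      rw [Subgroup.orderOf_mk] at hk
      have hone : orderOf (y : G) = q ^ k := by rw [Subgroup.orderOf_coe, hk]
      rcases Nat.eq_zero_or_pos k with rfl | hk0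
      · rw [pow_zero, orderOf_eq_one_iff] at hone
        rw [hone]; exact one_mem _
      have hqg : q ∣ orderOf g := by
        have h1 : orderOf (y : G) ∣ orderOf g := by
          rw [Subgroup.orderOf_coe, ← Nat.card_zpowers g]; exact _root_.orderOf_dvd_natCard _
        exact (dvd_pow_self q hk0.ne').trans (hone ▸ h1)
      have hq2 : q ≠ 2 := by
        rintro rfl
        exact Nat.not_coprime_of_dvd_of_dvd (by norm_num) hqg dvd_rfl hgo
      have hqG : q ∣ 2 ^ a * n := by rw [← hG]; exact hqg.trans (_root_.orderOf_dvd_natCard _)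
      have hqn : q ∣ n := by
        rcases (hq.out.dvd_mul).1 hqG with h | h
        · exact absurd ((Nat.prime_dvd_prime_iff_eq hq.out Nat.prime_two).1 (hq.out.dvd_of_dvd_pow h)) hq2
        · exact h
      have hq3 : q ≠ 3 := by rintro rfl; exact h3 hqn
      have hyN : (y : G) ∈ normalizer (Q : Set G) := by
        have : zpowers g ≤ normalizer (Q : Set G) := by rw [zpowers_le]; exact hg
        exact this y.2
      refine H3.rank_centralizes (d := 2) hq2 hQ (hrank Q hQ) ?_ hyN ⟨k, hone⟩
      intro i hi1 hi2 hd
      have hi : i = 1 ∨ i = 2 := by omega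
      rcases hi with rfl | rfl
      · have := Nat.le_of_dvd (by norm_num) hd
        have := hq.out.two_le
        omega
      · exact hq3 ((Nat.prime_dvd_prime_iff_eq hq.out Nat.prime_three).1 (by simpa using hd))
    have h1 : (⟨g, mem_zpowers g⟩ : zpowers g) ∈ (centralizer (Q : Set G)).subgroupOf (zpowers g) := by rw [key]; trivial
    rw [mem_subgroupOf] at h1
    exact h1
  obtain ⟨N, hN, hcop, k, hk⟩ := H1.hasNormalPComplement_iff.1 hnpc
  refine ⟨N, hN, ?_⟩
  have h1 := N.card_mul_index
  rw [hk, hG] at h1
  have hn2 : Nat.Coprime n 2 := (Nat.coprime_comm.1 (Nat.coprime_two_left.2 hn))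
  apply Nat.dvd_antisymm
  · exact (hcop.pow_right a).dvd_of_dvd_mul_left (h1 ▸ Dvd.intro _ rfl)
  · exact (hn2.pow_right k).dvd_of_dvd_mul_right (h1 ▸ Dvd.intro_left _ rfl)

end Cfsg.Agent.S3971
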