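import Cfsg.Statements.S3976
import Mathlib
import Cfsg.Agent.H3.SubCount

set_option autoImplicit false
open Cfsg

namespace Cfsg.Agent.S3976

/-- the conjugation action on subgroups of given order -/
@[reducible] noncomputable def act (G : Type*) [Group G] (k : ℕ) : MulAction G {H : Subgroup G // Nat.card H = k} where
  smul g H := ⟨H.1.map (MulAut.conj g).toMonoidHom, by
    rw [Subgroup.card_map_of_injective (MulAut.conj g).injective]; exact H.2⟩
  one_smul H := by
    apply Subtype.ext
    show H.1.map (MulAut.conj (1 : G)).toMonoidHom = H.1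
    rw [map_one]
    exact Subgroup.map_id _
  mul_smul g h H := by
    apply Subtype.ext
    show H.1.map (MulAut.conj (g * h)).toMonoidHom = (H.1.map (MulAut.conj h).toMonoidHom).map (MulAut.conj g).toMonoidHom
    rw [Subgroup.map_map, map_mul]
    rfl

/-- Let `p` be a prime and `G` a group of order `p ^ m`. For every `s ≤ m` the number of normal subgroups of `G` of order `p ^ s` is congruent to `1` modulo `p`. -/
theorem result {G : Type*} [Group G] [Finite G] (p m s : ℕ) (hp : p.Prime) (hG : Nat.card G = p ^ m) (hs : s ≤ m) : Nat.card {H : Subgroup G // H.Normal ∧ Nat.card H = p ^ s} ≡ 1 [MOD p] := by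
  haveI : Fact p.Prime := ⟨hp⟩
  have hpG : IsPGroup p G := IsPGroup.of_card hG
  letI := act G (p ^ s)
  have h1 := hpG.card_modEq_card_fixedPoints {H : Subgroup G // Nat.card H = p ^ s}
  have h2 := H3.card_subgroups_modEq (G := G) p s hp (by rw [hG]; exact pow_dvd_pow p hs)
  have h3 : Nat.card (MulAction.fixedPoints G {H : Subgroup G // Nat.card H = p ^ s}) = Nat.card {H : Subgroup G // H.Normal ∧ Nat.card H = p ^ s} := by
    apply Nat.card_congr
    refine ⟨fun H => ⟨H.1.1, ?_, H.1.2⟩, fun H => ⟨⟨H.1, H.2.2⟩, ?_⟩, fun H => rfl, fun H => rfl⟩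
    · refine ⟨fun n hn g => ?_⟩
      have h4 := congrArg Subtype.val (H.2 g)
      have h5 : H.1.1.map (MulAut.conj g).toMonoidHom = H.1.1 := h4
      rw [← h5]
      exact ⟨n, hn, rfl⟩
    · intro g
      apply Subtype.ext
      show H.1.map (MulAut.conj g).toMonoidHom = H.1
      have := H.2.1
      apply le_antisymm
      · rintro _ ⟨n, hn, rfl⟩
        exact this.conj_mem n hn g
      · intro n hn
        refine ⟨g⁻¹ * n * g, ?_, ?_⟩
        · have := this.conj_mem n hn g⁻¹
          rwa [inv_inv] at this
        · show g * (g⁻¹ * n * g) * g⁻¹ = n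
          group
  rw [h3] at h1
  exact h1.symm.trans h2

end Cfsg.Agent.S3976
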