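import Cfsg.Statements.S3992
import Mathlib
import Cfsg.Agent.H3.Higman
import Cfsg.Agent.L0.Coprime2
import Cfsg.Agent.L0.Core
import Cfsg.Agent.L0.GenFit

set_option autoImplicit false
open Cfsg

namespace Cfsg.Agent.S3992

open Subgroup Cfsg.Agent.L0
open scoped commutatorElement

def Eppo (X : Type*) [Group X] : Prop := ∀ a b : ℕ, a.Prime → b.Prime → a ≠ b → ∀ g : X, orderOf g ≠ a * b

theorem eppo_of {X : Type*} [Group X] (h : ∀ g : X, g ≠ 1 → IsPrimePow (orderOf g)) : Eppo X := by
  intro a b ha hb hab g hg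
  have h1 : g ≠ 1 := by
    rintro rfl
    rw [orderOf_one] at hg
    have := ha.two_le
    have := hb.two_le
    nlinarith
  obtain ⟨p, k, hp, hk, he⟩ := h g h1
  rw [← Nat.prime_iff] at hp
  rw [hg] at he
  have h2 : a ∣ p ^ k := he ▸ Dvd.intro _ rfl
  have h3 : b ∣ p ^ k := he ▸ Dvd.intro_left _ rfl
  exact hab (((Nat.prime_dvd_prime_iff_eq ha hp).1 (ha.dvd_of_dvd_pow h2)).trans ((Nat.prime_dvd_prime_iff_eq hb hp).1 (hb.dvd_of_dvd_pow h3)).symm)

theorem eppo_quot {X : Type*} [Group X] [Finite X] (h : Eppo X) (N : Subgroup X) [N.Normal] : Eppo (X ⧸ N) := by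
  intro a b ha hb hab g hg
  obtain ⟨x, rfl⟩ := QuotientGroup.mk'_surjective N g
  have h1 : a * b ∣ orderOf x := hg ▸ orderOf_map_dvd (QuotientGroup.mk' N) x
  have h0 : 0 < orderOf x := orderOf_pos x
  have hab0 : 0 < a * b := Nat.mul_pos ha.pos hb.pos
  apply h a b ha hb hab (x ^ (orderOf x / (a * b)))
  rw [orderOf_pow_of_dvd (Nat.div_pos (Nat.le_of_dvd h0 h1) hab0).ne' (Nat.div_dvd_of_dvd h1), Nat.div_div_self h1 h0.ne']

theorem key {X : Type*} [Group X] [Finite X] (h : Eppo X) {K : Subgroup X} (hK : ¬ Group.IsSolvable K) {x : X}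
    (hx : ∀ k ∈ K, x * k = k * x) : x = 1 := by
  by_contra hx1
  have h1 : orderOf x ≠ 1 := fun h => hx1 (orderOf_eq_one_iff.1 h)
  obtain ⟨b, hb, hbd⟩ := Nat.exists_prime_and_dvd h1
  have h0 : 0 < orderOf x := orderOf_pos x
  have ho : orderOf (x ^ (orderOf x / b)) = b := by
    rw [orderOf_pow_of_dvd (Nat.div_pos (Nat.le_of_dvd h0 hbd) hb.pos).ne' (Nat.div_dvd_of_dvd hbd), Nat.div_div_self hbd h0.ne']
  obtain ⟨a, ha, had, hab⟩ : ∃ a : ℕ, a.Prime ∧ a ∣ Nat.card K ∧ a ≠ b := by
    by_contra hno
    push Not at hno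
    apply hK
    haveI : Fact b.Prime := ⟨hb⟩
    have h2 : IsPGroup b K := IsPGroup.of_card (Nat.eq_prime_pow_of_unique_prime_dvd Nat.card_pos.ne' (fun {d} hd hdd => hno d hd hdd))
    haveI := h2.isNilpotent
    infer_instance
  haveI : Fact a.Prime := ⟨ha⟩
  obtain ⟨y, hy⟩ := exists_prime_orderOf_dvd_card' (G := K) a had
  have hc : Commute (y : X) (x ^ (orderOf x / b)) := (show Commute (y : X) x from (hx y y.2).symm).pow_right _
  apply h a b ha hb hab ((y : X) * x ^ (orderOf x / b))
  have hy' : orderOf (y : X) = a := by rw [Subgroup.orderOf_coe, hy]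
  rw [hc.orderOf_mul_eq_mul_orderOf_of_coprime (by rw [hy', ho]; exact (Nat.coprime_primes ha hb).2 hab), hy', ho]

theorem solv_ext {X : Type*} [Group X] (N : Subgroup X) [N.Normal] (h1 : Group.IsSolvable N) (h2 : Group.IsSolvable (X ⧸ N)) : Group.IsSolvable X :=
  Group.isSolvable_of_ker_le_range N.subtype (QuotientGroup.mk' N) (by rw [QuotientGroup.ker_mk', Subgroup.range_subtype])

/-- Let G be a finite non-solvable group in which every element has prime-power order, and let R be its largest solvable normal subgroup. Then R is a p-group for some prime p; G/R has a non-abelian simple normal subgroup contained in every nontrivial normal subgroup of G/R (its unique minimal normal subgroup); and the order of every solvable subgroup of G has at most two prime divisors. -/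
theorem result {G : Type*} [Group G] [Finite G] (hns : ¬ Group.IsSolvable G) (hpp : ∀ g : G, g ≠ 1 → IsPrimePow (orderOf g))
    (R : Subgroup G) [R.Normal] (hRs : Group.IsSolvable ↥R) (hRmax : ∀ N : Subgroup G, N.Normal → Group.IsSolvable ↥N → N ≤ R) :
    (∃ p : ℕ, p.Prime ∧ IsPGroup p ↥R) ∧
      (∃ M : Subgroup (G ⧸ R), M.Normal ∧ IsSimpleGroup ↥M ∧ ¬ IsMulCommutative ↥M ∧
        ∀ N : Subgroup (G ⧸ R), N.Normal → N ≠ ⊥ → M ≤ N) ∧
      ∀ H : Subgroup G, Group.IsSolvable ↥H → (Nat.card ↥H).primeFactors.card ≤ 2 := by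
  classical
  have hE := eppo_of hpp
  refine ⟨?_, ?_, ?_⟩
  · by_cases hRb : R = ⊥
    · subst hRb
      exact ⟨2, Nat.prime_two, IsPGroup.of_bot⟩
    obtain ⟨V, hV, hVR, hVb, hVmin⟩ := H1.exists_minimal_normal_le R hRb
    haveI hVs : Group.IsSolvable V := isSolvable_subgroup_of_le hVR hRs
    haveI hVc : IsMulCommutative V := H1.isMulCommutative_of_minimal_of_solvable V hVb hVmin
    obtain ⟨p, hp, hVp⟩ := H1.exists_prime_pow_eq_one_of_minimal V hVb hVmin
    haveI : Fact p.Prime := ⟨hp⟩
    have hVP : V ≤ pCore p G := le_pCore (H1.isPGroup_of_pow_eq_one V hVp)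
    refine ⟨p, hp, ?_⟩
    by_contra hRP
    have hRP' : ¬ R ≤ pCore p G := fun h => hRP ((pCore_isPGroup p G).to_le h)
    set P := pCore p G with hP
    have hPp : IsPGroup p P := pCore_isPGroup p G
    have hPs : Group.IsSolvable P := by haveI := hPp.isNilpotent; infer_instance
    have hPR : P ≤ R := hRmax P inferInstance hPs
    have hRbn : R.map (QuotientGroup.mk' P) ≠ ⊥ := by
      intro h
      rw [Subgroup.map_eq_bot_iff, QuotientGroup.ker_mk'] at h
      exact hRP' h
    haveI hRbN : (R.map (QuotientGroup.mk' P)).Normal := ‹R.Normal›.map _ (QuotientGroup.mk'_surjective P)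
    obtain ⟨W, hW, hWR, hWb, hWmin⟩ := H1.exists_minimal_normal_le _ hRbn
    have hRbs : Group.IsSolvable (R.map (QuotientGroup.mk' P)) :=
      Group.isSolvable_of_surjective (f := (QuotientGroup.mk' P).subgroupMap R) ((QuotientGroup.mk' P).subgroupMap_surjective R)
    haveI hWs : Group.IsSolvable W := isSolvable_subgroup_of_le hWR hRbs
    haveI hWc : IsMulCommutative W := H1.isMulCommutative_of_minimal_of_solvable W hWb hWmin
    obtain ⟨q, hq, hWq⟩ := H1.exists_prime_pow_eq_one_of_minimal W hWb hWmin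
    haveI : Fact q.Prime := ⟨hq⟩
    have hWpg : IsPGroup q W := H1.isPGroup_of_pow_eq_one W hWq
    have hqp : q ≠ p := by
      rintro rfl
      apply hWb
      rw [eq_bot_iff, ← pCore_quotient_pCore q G]
      exact le_pCore hWpg
    have hEq := eppo_quot hE P
    have hWcyc : IsCyclic W := by
      by_contra hnc
      -- Sylow of the preimage
      let f : W.comap (QuotientGroup.mk' P) →* W := (QuotientGroup.mk' P).subgroupComap W
      have hf : Function.Surjective f := by
        rintro ⟨w, hw⟩
        obtain ⟨x, rfl⟩ := QuotientGroup.mk'_surjective P w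
        exact ⟨⟨x, hw⟩, rfl⟩
      obtain ⟨S⟩ : Nonempty (Sylow q (W.comap (QuotientGroup.mk' P))) := inferInstance
      have hST : (S : Subgroup _).map f = ⊤ := by
        have h1 := (S.mapSurjective hf).3 (hWpg.to_subgroup ⊤) le_top
        rw [Sylow.coe_mapSurjective] at h1
        exact h1.symm
      set Q0 := (S : Subgroup _).map (W.comap (QuotientGroup.mk' P)).subtype with hQ0
      have hQp : IsPGroup q Q0 := S.2.map _
      have hcop : (Nat.card Q0).Coprime (Nat.card P) := by
        obtain ⟨a, ha⟩ := IsPGroup.iff_card.mp hQp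
        obtain ⟨b, hb⟩ := IsPGroup.iff_card.mp hPp
        rw [ha, hb]
        exact Nat.Coprime.pow _ _ ((Nat.coprime_primes hq hp).2 hqp)
      have hdisj : Q0 ⊓ P = ⊥ := Subgroup.inf_eq_bot_of_coprime hcop
      have hQW : ∀ x ∈ Q0, QuotientGroup.mk' P x ∈ W := by
        rintro _ ⟨x, hx, rfl⟩
        exact x.2
      have hQc : IsMulCommutative Q0 := by
        refine ⟨⟨?_⟩⟩
        rintro ⟨a, ha⟩ ⟨b, hb⟩
        apply Subtype.ext
        show a * b = b * a
        have h1 : QuotientGroup.mk' P (a * b) = QuotientGroup.mk' P (b * a) := by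
          rw [map_mul, map_mul]
          exact congrArg Subtype.val (hWc.1.1 ⟨_, hQW a ha⟩ ⟨_, hQW b hb⟩)
        have h2 : (a * b)⁻¹ * (b * a) ∈ Q0 ⊓ P := by
          refine ⟨?_, QuotientGroup.eq.1 h1⟩
          exact Q0.mul_mem (Q0.inv_mem (Q0.mul_mem ha hb)) (Q0.mul_mem hb ha)
        rw [hdisj, mem_bot] at h2
        exact inv_mul_eq_one.1 h2
      have hQnc : ¬ IsCyclic Q0 := by
        intro hcyc
        apply hnc
        let g : Q0 →* W := ((QuotientGroup.mk' P).comp Q0.subtype).codRestrict W (fun x => hQW x x.2)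
        apply isCyclic_of_surjective g
        intro w
        have h1 : w ∈ (S : Subgroup _).map f := by rw [hST]; trivial
        obtain ⟨x, hx, rfl⟩ := h1
        exact ⟨⟨x, ⟨x, hx, rfl⟩⟩, rfl⟩
      have h1 := closure_centralizers_eq hQc hQnc (N := P) (by rw [Subgroup.normalizer_eq_top (H := P)]; exact le_top) hcop
      apply hVb
      rw [eq_bot_iff]
      refine hVP.trans ?_
      rw [← h1, Subgroup.closure_le]
      rintro x ⟨hxP, v, hv, hv1, hvx⟩
      obtain ⟨i, hi⟩ := (IsPGroup.iff_orderOf.mp hQp) ⟨v, hv⟩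
      obtain ⟨j, hj⟩ := (IsPGroup.iff_orderOf.mp hPp) ⟨x, hxP⟩
      rw [Subgroup.orderOf_mk] at hi hj
      rcases H3.adj hq hp hqp (hE q p hq hp hqp) hi hj hvx with h | h
      · exact absurd h hv1
      · exact h
    -- the commutator subgroup centralizes W
    have hGns : ¬ Group.IsSolvable (G ⧸ P) := fun h => hns (solv_ext P hPs h)
    have hCns : ¬ Group.IsSolvable (commutator (G ⧸ P)) := by
      intro h
      apply hGns
      apply solv_ext (commutator (G ⧸ P)) h
      exact Group.isSolvable_of_comm (fun a b => (inferInstance : CommGroup (Abelianization (G ⧸ P))).mul_comm a b)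
    obtain ⟨⟨w, hw⟩, hw1⟩ := Subgroup.ne_bot_iff_exists_ne_one.1 hWb
    have hpow : ∀ a : G ⧸ P, ∃ m : ℤ, ∀ x ∈ W, a * x * a⁻¹ = x ^ m := by
      intro a
      obtain ⟨m, hm⟩ := MonoidHom.map_cyclic (MulAut.conjNormal (H := W) a).toMonoidHom
      exact ⟨m, fun x hx => congrArg Subtype.val (hm ⟨x, hx⟩)⟩
    apply hw1
    apply Subtype.ext
    refine key hEq hCns (x := w) ?_
    have h1 : commutator (G ⧸ P) ≤ centralizer ({w} : Set (G ⧸ P)) := by
      rw [_root_.commutator_def, Subgroup.commutator_le]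
      intro a _ b _
      rw [mem_centralizer_singleton_iff]
      obtain ⟨m, hm⟩ := hpow a
      obtain ⟨n, hn⟩ := hpow b
      have e1 : (a * b) * w * (a * b)⁻¹ = w ^ (n * m) := by
        have : (a * b) * w * (a * b)⁻¹ = a * (b * w * b⁻¹) * a⁻¹ := by group
        rw [this, hn w hw, hm _ (zpow_mem hw n), zpow_mul]
      have e2 : (b * a) * w * (b * a)⁻¹ = w ^ (n * m) := by
        have : (b * a) * w * (b * a)⁻¹ = b * (a * w * a⁻¹) * b⁻¹ := by group
        rw [this, hm w hw, hn _ (zpow_mem hw m), mul_comm n m, zpow_mul]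
      have e3 : (a * b) * w * (a * b)⁻¹ = (b * a) * w * (b * a)⁻¹ := e1.trans e2.symm
      rw [commutatorElement_def]
      have e4 : (b * a)⁻¹ * (a * b) * w = w * ((b * a)⁻¹ * (a * b)) := by
        calc (b * a)⁻¹ * (a * b) * w = (b * a)⁻¹ * ((a * b) * w * (a * b)⁻¹) * (a * b) := by group
          _ = (b * a)⁻¹ * ((b * a) * w * (b * a)⁻¹) * (a * b) := by rw [e3]
          _ = w * ((b * a)⁻¹ * (a * b)) := by group
      -- w conjugated
      obtain ⟨m', hm'⟩ := hpow (b * a)⁻¹
      obtain ⟨n', hn'⟩ := hpow (b * a)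
      have e5 : a * b * a⁻¹ * b⁻¹ = (b * a) * ((b * a)⁻¹ * (a * b)) * (b * a)⁻¹ := by group
      have hall : ∀ x ∈ W, (b * a)⁻¹ * (a * b) * x = x * ((b * a)⁻¹ * (a * b)) := by
        intro x hx
        have e1 : (a * b) * x * (a * b)⁻¹ = x ^ (n * m) := by
          have : (a * b) * x * (a * b)⁻¹ = a * (b * x * b⁻¹) * a⁻¹ := by group
          rw [this, hn x hx, hm _ (zpow_mem hx n), zpow_mul]
        have e2 : (b * a) * x * (b * a)⁻¹ = x ^ (n * m) := by
          have : (b * a) * x * (b * a)⁻¹ = b * (a * x * a⁻¹) * b⁻¹ := by group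
          rw [this, hm x hx, hn _ (zpow_mem hx m), mul_comm n m, zpow_mul]
        have e3 : (a * b) * x * (a * b)⁻¹ = (b * a) * x * (b * a)⁻¹ := e1.trans e2.symm
        calc (b * a)⁻¹ * (a * b) * x = (b * a)⁻¹ * ((a * b) * x * (a * b)⁻¹) * (a * b) := by group
          _ = (b * a)⁻¹ * ((b * a) * x * (b * a)⁻¹) * (a * b) := by rw [e3]
          _ = x * ((b * a)⁻¹ * (a * b)) := by group
      have hwx : (b * a)⁻¹ * w * (b * a) ∈ W := by
        have := hW.conj_mem w hw (b * a)⁻¹
        rwa [inv_inv] at this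
      have h6 := hall _ hwx
      rw [e5]
      calc (b * a) * ((b * a)⁻¹ * (a * b)) * (b * a)⁻¹ * w = (b * a) * (((b * a)⁻¹ * (a * b)) * ((b * a)⁻¹ * w * (b * a))) * (b * a)⁻¹ := by group
        _ = (b * a) * (((b * a)⁻¹ * w * (b * a)) * ((b * a)⁻¹ * (a * b))) * (b * a)⁻¹ := by rw [h6]
        _ = w * ((b * a) * ((b * a)⁻¹ * (a * b)) * (b * a)⁻¹) := by group
    intro k hk
    exact (mem_centralizer_singleton_iff.1 (h1 hk)).symm
  · -- the quotient by R
    have hEq := eppo_quot hE R
    have hQns : ¬ Group.IsSolvable (G ⧸ R) := fun h => hns (solv_ext R hRs h)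
    have hrad : ∀ N : Subgroup (G ⧸ R), N.Normal → Group.IsSolvable N → N = ⊥ := by
      intro N hN hNs
      have hRL : R ≤ N.comap (QuotientGroup.mk' R) := by
        intro y hy
        rw [mem_comap, (QuotientGroup.mk'_apply R y), (QuotientGroup.eq_one_iff y).2 hy]; exact one_mem _
      have h1 : Group.IsSolvable (N.comap (QuotientGroup.mk' R)) := by
        refine Group.isSolvable_of_ker_le_range (Subgroup.inclusion hRL) ((QuotientGroup.mk' R).subgroupComap N) ?_
        rintro ⟨x, hx⟩ hxk
        have h2 : QuotientGroup.mk' R x = 1 := congrArg Subtype.val hxk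
        exact ⟨⟨x, (QuotientGroup.eq_one_iff x).1 h2⟩, rfl⟩
      have h2 := hRmax _ (hN.comap _) h1
      rw [← Subgroup.map_comap_eq_self_of_surjective (QuotientGroup.mk'_surjective R) N, Subgroup.map_eq_bot_iff, QuotientGroup.ker_mk']
      exact h2
    have hF : fittingSubgroup (G ⧸ R) = ⊥ := by
      apply hrad _ inferInstance
      haveI := fittingSubgroup_isNilpotent (G ⧸ R)
      infer_instance
    obtain ⟨K, hK⟩ : ∃ K : Subgroup (G ⧸ R), IsComponent K := by
      by_contra hno
      push Not at hno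
      have h1 : layer (G ⧸ R) = ⊥ := by
        rw [eq_bot_iff, layer_le_iff]
        intro K hK
        exact absurd hK (hno K)
      have h2 := centralizer_generalizedFitting_le (G ⧸ R)
      rw [generalizedFittingSubgroup, hF, h1, bot_sup_eq] at h2
      apply hQns
      have h3 : ∀ x : G ⧸ R, x = 1 := by
        intro x
        have : x ∈ centralizer ((⊥ : Subgroup (G ⧸ R)) : Set (G ⧸ R)) := by
          rw [mem_centralizer_iff]
          intro y hy
          rw [SetLike.mem_coe, mem_bot] at hy
          rw [hy]; simp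
        exact mem_bot.1 (h2 this)
      exact Group.isSolvable_of_comm (fun a b => by rw [h3 a, h3 b])
    have hKns : ¬ Group.IsSolvable K := quasisimple_not_isSolvable hK.2
    have hcen : center K = ⊥ := by
      rw [eq_bot_iff]
      intro z hz
      rw [mem_bot]
      apply Subtype.ext
      apply key hEq hKns
      intro k hk
      exact (congrArg Subtype.val (mem_center_iff.1 hz ⟨k, hk⟩)).symm
    have hKn : K.Normal := by
      constructor
      intro x hx g
      have h1 : K.map (MulAut.conj g).toMonoidHom = K := by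
        by_contra hne
        have h2 := isComponent_map_equiv (MulAut.conj g) hK
        have h3 := component_commute h2 hK hne
        apply quasisimple_ne_bot h2.2
        rw [eq_bot_iff]
        intro y hy
        rw [mem_bot]
        apply key hEq hKns
        intro k hk
        have h4 := mem_centralizer_iff.1 (Subgroup.commutator_eq_bot_iff_le_centralizer.1 h3 hy) k hk
        exact h4.symm
      rw [← h1]
      exact ⟨x, hx, rfl⟩
    refine ⟨K, hKn, ?_, ?_, ?_⟩
    · haveI := hK.2.2
      haveI := quasisimple_nontrivial hK.2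
      exact IsSimpleGroup.isSimpleGroup_of_surjective ((QuotientGroup.quotientMulEquivOfEq hcen).trans QuotientGroup.quotientBot).toMonoidHom
        ((QuotientGroup.quotientMulEquivOfEq hcen).trans QuotientGroup.quotientBot).surjective
    · intro hc
      exact hKns (Group.isSolvable_of_comm (fun a b => hc.1.1 a b))
    · intro N hN hNb
      rcases component_normal_cases hK (N := N) with h | h
      · exact h
      · exfalso
        apply hNb
        rw [eq_bot_iff]
        intro y hy
        rw [mem_bot]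
        apply key hEq hKns
        intro k hk
        have h4 := mem_centralizer_iff.1 (Subgroup.commutator_eq_bot_iff_le_centralizer.1 h hk) y hy
        exact h4
  · intro H hH
    by_contra hcon
    push Not at hcon
    obtain ⟨a, ha, b, hb, c, hc, hab, hac, hbc⟩ := Finset.two_lt_card.1 hcon
    have pa := Nat.prime_of_mem_primeFactors ha
    have pb := Nat.prime_of_mem_primeFactors hb
    have pc := Nat.prime_of_mem_primeFactors hc
    refine H3.higman hH pa pb pc hab hbc hac (Nat.dvd_of_mem_primeFactors ha) (Nat.dvd_of_mem_primeFactors hb) (Nat.dvd_of_mem_primeFactors hc) ?_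
    intro s hs t ht hst g
    rw [← Subgroup.orderOf_coe]
    apply hE s t _ _ hst
    · rcases hs with rfl | rfl | rfl <;> assumption
    · rcases ht with rfl | rfl | rfl <;> assumption

end Cfsg.Agent.S3992
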