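import Cfsg.Statements.S3994
import Mathlib
import Cfsg.Agent.H3.FrobSol2

set_option autoImplicit false
open Cfsg

namespace Cfsg.Agent.S3994

open Subgroup in
theorem decomp {G : Type*} [Group G] [Finite G] {a b : ℕ} (hab : a.Coprime b) (P : G → Prop)
    (hP : ∀ y z : G, y ^ a = 1 → z ^ b = 1 → z * y = y * z → (P (y * z) ↔ P y)) :
    Nat.card {x : G // x ^ (a * b) = 1 ∧ P x} =
      Nat.card ((y : {y : G // y ^ a = 1 ∧ P y}) × {z : G // z * (y : G) = y * z ∧ z ^ b = 1}) := by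
  obtain ⟨u, v, huv⟩ : IsCoprime (a : ℤ) (b : ℤ) := Nat.isCoprime_iff_coprime.2 hab
  symm
  apply Nat.card_congr
  have key : ∀ y z : G, y ^ a = 1 → z * y = y * z → z ^ b = 1 → (y * z) ^ (v * (b : ℤ)) = y := by
    intro y z hy hyz hz
    have hc : Commute y z := hyz.symm
    rw [hc.mul_zpow]
    have h1 : z ^ (v * (b : ℤ)) = 1 := by
      rw [mul_comm, zpow_mul, zpow_natCast, hz, one_zpow]
    have h2 : y ^ (v * (b : ℤ)) = y := by
      have h3 : y ^ (u * (a : ℤ)) = 1 := by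
        rw [mul_comm u, zpow_mul, zpow_natCast, hy, one_zpow]
      calc y ^ (v * (b : ℤ)) = y ^ (u * (a : ℤ)) * y ^ (v * (b : ℤ)) := by
            rw [h3, one_mul]
        _ = y ^ (u * (a : ℤ) + v * (b : ℤ)) := (zpow_add _ _ _).symm
        _ = y := by rw [huv, zpow_one]
    rw [h1, h2, mul_one]
  have hmem : ∀ y z : G, y ^ a = 1 → P y → z * y = y * z → z ^ b = 1 →
      (y * z) ^ (a * b) = 1 ∧ P (y * z) := by
    intro y z hy hPy hyz hz
    have hc : Commute y z := hyz.symm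
    refine ⟨?_, (hP y z hy hz hyz).2 hPy⟩
    rw [hc.mul_pow, pow_mul, hy, one_pow, mul_comm a b, pow_mul z, hz, one_pow, one_mul]
  apply Equiv.ofBijective (fun t : (y : {y : G // y ^ a = 1 ∧ P y}) × {z : G // z * (y : G) = y * z ∧ z ^ b = 1} =>
    (⟨(t.1 : G) * (t.2 : G), hmem _ _ t.1.2.1 t.1.2.2 t.2.2.1 t.2.2.2⟩ : {x : G // x ^ (a * b) = 1 ∧ P x}))
  constructor
  · rintro ⟨⟨y, hy, hPy⟩, ⟨z, hz1, hz2⟩⟩ ⟨⟨y', hy', hPy'⟩, ⟨z', hz1', hz2'⟩⟩ h
    have h1 : y * z = y' * z' := congrArg Subtype.val h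
    have h2 : y = y' := by
      rw [← key y z hy hz1 hz2, ← key y' z' hy' hz1' hz2', h1]
    subst h2
    have h3 : z = z' := mul_left_cancel h1
    subst h3
    rfl
  · rintro ⟨x, hx1, hx2⟩
    have h1 : x ^ (v * (b : ℤ)) * x ^ (u * (a : ℤ)) = x := by
      rw [← zpow_add, add_comm, huv, zpow_one]
    have hz2 : (x ^ (u * (a : ℤ))) ^ b = 1 := by
      rw [← zpow_natCast, ← zpow_mul]
      have : u * (a : ℤ) * (b : ℤ) = ((a * b : ℕ) : ℤ) * u := by push_cast; ring
      rw [this, zpow_mul, zpow_natCast, hx1, one_zpow]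
    have hc : Commute (x ^ (v * (b : ℤ))) (x ^ (u * (a : ℤ))) := (Commute.refl x).zpow_zpow _ _
    have hy1 : (x ^ (v * (b : ℤ))) ^ a = 1 := by
      rw [← zpow_natCast, ← zpow_mul]
      have : v * (b : ℤ) * (a : ℤ) = ((a * b : ℕ) : ℤ) * v := by push_cast; ring
      rw [this, zpow_mul, zpow_natCast, hx1, one_zpow]
    refine ⟨⟨⟨_, hy1, ?_⟩, ⟨_, hc.eq.symm, hz2⟩⟩, Subtype.ext h1⟩
    rw [← hP _ _ hy1 hz2 hc.eq.symm, h1]; exact hx2

/-- Let G be a finite group and n a positive integer. The number of elements of G whose order is divisible by n is either 0 or divisible by the largest divisor of the order of G that is coprime to n. -/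
theorem result {G : Type*} [Group G] [Finite G] (n : ℕ) (hn : 0 < n) :
    Nat.card {g : G // n ∣ orderOf g} = 0 ∨
      (Nat.card G / Nat.gcd (Nat.card G) (n ^ Nat.card G)) ∣ Nat.card {g : G // n ∣ orderOf g} := by
  right
  classical
  set g := Nat.card G with hg
  set A := Nat.gcd g (n ^ g) with hA
  have hg0 : 0 < g := Nat.card_pos
  have hAg : A ∣ g := Nat.gcd_dvd_left _ _
  have hA0 : 0 < A := Nat.gcd_pos_of_pos_left _ hg0
  set b := g / A with hb
  have hgAb : g = A * b := (Nat.mul_div_cancel' hAg).symm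
  have hb0 : b ≠ 0 := by rintro h; rw [h, mul_zero] at hgAb; omega
  have hnb : ∀ r : ℕ, r.Prime → r ∣ n → ¬ r ∣ b := by
    intro r hr hrn hrb
    set k := g.factorization r with hk
    have h1 : r ^ k ∣ g := Nat.ordProj_dvd g r
    have hkg : k ≤ g := (Nat.factorization_lt r hg0.ne').le
    have h2 : r ^ k ∣ n ^ g := (pow_dvd_pow r hkg).trans (pow_dvd_pow_of_dvd hrn g)
    have h3 : r ^ k ∣ A := Nat.dvd_gcd h1 h2
    have h4 : r ^ (k + 1) ∣ g := by
      rw [hgAb, pow_succ]; exact mul_dvd_mul h3 hrb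
    have h5 := (hr.pow_dvd_iff_le_factorization hg0.ne').1 h4
    omega
  have hcop : A.Coprime b := by
    apply Nat.Coprime.symm
    rw [Nat.coprime_comm]
    apply Nat.coprime_of_dvd
    intro r hr hrA hrb
    have h1 : r ∣ n ^ g := hrA.trans (Nat.gcd_dvd_right _ _)
    exact hnb r hr (hr.dvd_of_dvd_pow h1) hrb
  have hcopn : n.Coprime b := by
    apply Nat.coprime_of_dvd
    intro r hr hrn hrb
    exact hnb r hr hrn hrb
  have hT : Nat.card {g : G // n ∣ orderOf g} = Nat.card {x : G // x ^ (A * b) = 1 ∧ n ∣ orderOf x} := by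
    apply Nat.card_congr
    apply Equiv.subtypeEquivRight
    intro x
    rw [← hgAb, hg]
    simp
  rw [hT, decomp hcop (fun x => n ∣ orderOf x) (by
    intro y z hy hz hyz
    have hc : Commute y z := hyz.symm
    have h1 : orderOf y ∣ A := orderOf_dvd_of_pow_eq_one hy
    have h2 : orderOf z ∣ b := orderOf_dvd_of_pow_eq_one hz
    have h3 : (orderOf y).Coprime (orderOf z) := Nat.Coprime.coprime_dvd_left h1 (Nat.Coprime.coprime_dvd_right h2 hcop)
    rw [hc.orderOf_mul_eq_mul_orderOf_of_coprime h3]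
    constructor
    · intro h
      exact (Nat.Coprime.coprime_dvd_right h2 hcopn).dvd_of_dvd_mul_right h
    · intro h
      exact dvd_mul_of_dvd_left h _)]
  haveI : Fintype {y : G // y ^ A = 1 ∧ n ∣ orderOf y} := Fintype.ofFinite _
  rw [Nat.card_sigma]
  apply H3.class_dvd (fun y => y ^ A = 1 ∧ n ∣ orderOf y) (fun x y hxy hx => by
      obtain ⟨c, hc⟩ := isConj_iff.1 hxy
      rw [← hc]
      refine ⟨by rw [conj_pow, hx.1]; group, ?_⟩
      have : orderOf (c * x * c⁻¹) = orderOf x := MulEquiv.orderOf_eq (MulAut.conj c) x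
      rw [this]; exact hx.2) (fun y => Nat.card {z : G // z * y = y * z ∧ z ^ b = 1})
  · intro x y hxy
    obtain ⟨c, rfl⟩ := isConj_iff.1 hxy
    apply Nat.card_congr
    refine ⟨fun z => ⟨c * z.1 * c⁻¹, ?_, ?_⟩, fun z => ⟨c⁻¹ * z.1 * c, ?_, ?_⟩, ?_, ?_⟩
    · have := z.2.1
      calc c * z.1 * c⁻¹ * (c * x * c⁻¹) = c * (z.1 * x) * c⁻¹ := by group
        _ = c * (x * z.1) * c⁻¹ := by rw [this]
        _ = _ := by group
    · rw [conj_pow, z.2.2]; group
    · have := z.2.1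
      calc c⁻¹ * z.1 * c * x = c⁻¹ * (z.1 * (c * x * c⁻¹)) * c := by group
        _ = c⁻¹ * ((c * x * c⁻¹) * z.1) * c := by rw [this]
        _ = _ := by group
    · have e1 : c⁻¹ * z.1 * c = c⁻¹ * z.1 * c⁻¹⁻¹ := by rw [inv_inv]
      rw [e1, conj_pow, z.2.2]; group
    · intro z; apply Subtype.ext; show c⁻¹ * (c * z.1 * c⁻¹) * c = z.1; group
    · intro z; apply Subtype.ext; show c * (c⁻¹ * z.1 * c) * c⁻¹ = z.1; group
  · intro y hy
    set C := Subgroup.centralizer ({y} : Set G) with hC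
    have h1 : Nat.card {z : G // z * y = y * z ∧ z ^ b = 1} = Nat.card {z : ↥C // z ^ b = 1} := by
      apply Nat.card_congr
      refine ⟨fun z => ⟨⟨z.1, by rw [hC, Subgroup.mem_centralizer_singleton_iff]; exact z.2.1⟩, Subtype.ext z.2.2⟩,
        fun z => ⟨z.1.1, Subgroup.mem_centralizer_singleton_iff.1 z.1.2, congrArg Subtype.val z.2⟩, fun z => rfl, fun z => rfl⟩
    rw [h1, H3.card_sol_gcd]
    have h5 := H3.frob_sol (G := ↥C) (Nat.gcd b (Nat.card ↥C)) (Nat.gcd_dvd_right _ _)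
    refine dvd_trans ?_ (mul_dvd_mul_left _ h5)
    rw [← Nat.gcd_mul_left]
    apply Nat.dvd_gcd
    · exact dvd_mul_left b _
    · rw [Subgroup.index_mul_card, ← hg, hgAb]
      exact dvd_mul_left b A

end Cfsg.Agent.S3994
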