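import Cfsg.Statements.S3995
import Mathlib
import Cfsg.Agent.H3.FrobSol2
import Cfsg.Agent.H1.Rank1

set_option autoImplicit false
open Cfsg

namespace Cfsg.Agent.S3995

open Subgroup
universe u

theorem totient_dvd {G : Type u} [Group G] [Finite G] (m : ℕ) : m.totient ∣ Nat.card {g : G // orderOf g = m} := by
  classical
  haveI : Fintype G := Fintype.ofFinite G
  haveI : Fintype (Subgroup G) := Fintype.ofFinite _
  rw [Nat.card_eq_fintype_card, ← Finset.card_univ, Finset.card_eq_sum_ones]
  apply H3.sum_dvd_of_fiber (fun y : {y : G // orderOf y = m} => zpowers (y : G)) (fun _ => 1)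
  intro b
  by_cases hb : ∃ y0 : {y : G // orderOf y = m}, zpowers (y0 : G) = b
  · obtain ⟨y0, rfl⟩ := hb
    rw [← Finset.card_eq_sum_ones, ← Fintype.card_subtype, ← Nat.card_eq_fintype_card]
    have h1 : Nat.card {x : {y : G // orderOf y = m} // zpowers (x : G) = zpowers (y0 : G)} = Nat.card {y : G // zpowers y = zpowers (y0 : G)} := by
      apply Nat.card_congr
      refine ⟨fun x => ⟨x.1.1, x.2⟩, fun y => ⟨⟨y.1, ?_⟩, y.2⟩, fun _ => rfl, fun _ => rfl⟩
      rw [← Nat.card_zpowers, y.2, Nat.card_zpowers, y0.2]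
    rw [h1, H3.card_gens, y0.2]
  · have h1 : (Finset.univ.filter (fun a : {y : G // orderOf y = m} => zpowers (a : G) = b)) = ∅ := by
      rw [Finset.filter_eq_empty_iff]
      intro a _ ha
      exact hb ⟨a, ha⟩
    rw [h1, Finset.sum_empty]
    exact dvd_zero _

theorem frob_sum {G : Type u} [Group G] [Finite G] (k : ℕ) (hk : k ∣ Nat.card G) :
    k ∣ ∑ m ∈ k.divisors, Nat.card {g : G // orderOf g = m} := by
  classical
  have hk0 : k ≠ 0 := by rintro rfl; exact Nat.card_pos.ne' (Nat.eq_zero_of_zero_dvd hk)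
  haveI : Fintype G := Fintype.ofFinite G
  have h1 : ∑ m ∈ k.divisors, Nat.card {g : G // orderOf g = m} = Nat.card {x : G // x ^ k = 1} := by
    have e := sum_card_orderOf_eq_card_pow_eq_one (G := G) hk0
    refine Eq.trans (Finset.sum_congr rfl fun m _ => ?_) (e.trans ?_)
    · rw [Nat.card_eq_fintype_card, Fintype.card_subtype]
    · rw [Nat.card_eq_fintype_card, Fintype.card_subtype]
  rw [h1]
  exact H3.frob_sol k hk

theorem div_pq {p q : ℕ} (hp : p.Prime) (hq : q.Prime) : (p * q).divisors = {1, p, q, p * q} := by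
  ext x
  simp only [Nat.mem_divisors, Finset.mem_insert, Finset.mem_singleton]
  constructor
  · rintro ⟨h, -⟩
    obtain ⟨y, z, hy, hz, rfl⟩ := (Nat.dvd_mul).1 h
    rcases (Nat.dvd_prime hp).1 hy with rfl | rfl <;> rcases (Nat.dvd_prime hq).1 hz with rfl | rfl <;> simp
  · intro h
    refine ⟨?_, Nat.mul_ne_zero hp.ne_zero hq.ne_zero⟩
    rcases h with rfl | rfl | rfl | rfl
    · exact one_dvd _
    · exact dvd_mul_right _ _
    · exact dvd_mul_left _ _
    · exact dvd_rfl

theorem div_4p {p : ℕ} (hp : p.Prime) : (4 * p).divisors = {1, 2, 4, p, 2 * p, 4 * p} := by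
  ext x
  simp only [Nat.mem_divisors, Finset.mem_insert, Finset.mem_singleton]
  constructor
  · rintro ⟨h, -⟩
    obtain ⟨y, z, hy, hz, rfl⟩ := (Nat.dvd_mul).1 h
    have hy' : y = 1 ∨ y = 2 ∨ y = 4 := by
      have h1 := Nat.le_of_dvd (by norm_num) hy
      interval_cases y <;> simp_all
      all_goals omega
    rcases hy' with rfl | rfl | rfl <;> rcases (Nat.dvd_prime hp).1 hz with rfl | rfl <;> simp
  · intro h
    refine ⟨?_, Nat.mul_ne_zero (by norm_num) hp.ne_zero⟩
    rcases h with rfl | rfl | rfl | rfl | rfl | rfl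
    · exact one_dvd _
    · exact ⟨2 * p, by ring⟩
    · exact ⟨p, by ring⟩
    · exact ⟨4, by ring⟩
    · exact ⟨2, by ring⟩
    · exact dvd_rfl

section
variable {G : Type u} [Group G] [Finite G] (n : ℕ)
  (hc : ∀ m, (∃ g : G, orderOf g = m) → Nat.card {g : G // orderOf g = m} = 1 ∨ Nat.card {g : G // orderOf g = m} = n)
include hc

omit hc in
theorem c_zero (m : ℕ) (h : ¬ ∃ g : G, orderOf g = m) : Nat.card {g : G // orderOf g = m} = 0 := by
  haveI : IsEmpty {g : G // orderOf g = m} := ⟨fun g => h ⟨g.1, g.2⟩⟩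
  exact Nat.card_of_isEmpty

omit hc [Finite G] in
theorem c_one : Nat.card {g : G // orderOf g = 1} = 1 := by
  rw [Nat.card_eq_one_iff_unique]
  refine ⟨⟨fun a b => Subtype.ext ?_⟩, ⟨1, orderOf_one⟩⟩
  rw [orderOf_eq_one_iff.1 a.2, orderOf_eq_one_iff.1 b.2]

theorem c_ge (m : ℕ) (hm : 3 ≤ m) (h : ∃ g : G, orderOf g = m) : Nat.card {g : G // orderOf g = m} = n := by
  rcases hc m h with h1 | h1
  · exfalso
    have h2 := totient_dvd (G := G) m
    rw [h1, Nat.dvd_one, Nat.totient_eq_one_iff] at h2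
    omega
  · exact h1

theorem c_p {p : ℕ} (hp : p.Prime) (hp2 : p ≠ 2) (hpG : p ∣ Nat.card G) :
    Nat.card {g : G // orderOf g = p} = n ∧ p ∣ 1 + n ∧ 2 ∣ n := by
  haveI : Fact p.Prime := ⟨hp⟩
  have hp3 : 3 ≤ p := by have := hp.two_le; omega
  have h1 := c_ge n hc p hp3 (exists_prime_orderOf_dvd_card' p hpG)
  refine ⟨h1, ?_, ?_⟩
  · have h2 := frob_sum (G := G) p hpG
    rw [hp.divisors, Finset.sum_insert (by simp; omega), Finset.sum_singleton, c_one, h1] at h2
    exact h2
  · rw [← h1]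
    refine dvd_trans ?_ (totient_dvd (G := G) p)
    rw [Nat.totient_prime hp]
    obtain ⟨k, hk⟩ := hp.odd_of_ne_two hp2
    exact ⟨k, by omega⟩

theorem no_p2 {p : ℕ} (hp : p.Prime) (hp2 : p ≠ 2) (g : G) : orderOf g ≠ p ^ 2 := by
  intro hg
  have hp3 : 3 ≤ p := by have := hp.two_le; omega
  have hpG : p ^ 2 ∣ Nat.card G := hg ▸ _root_.orderOf_dvd_natCard g
  obtain ⟨h1, h2, h3⟩ := c_p n hc hp hp2 ((dvd_pow_self p (by norm_num)).trans hpG)
  have h4 := c_ge n hc (p ^ 2) (by nlinarith) ⟨g, hg⟩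
  have h5 := frob_sum (G := G) (p ^ 2) hpG
  rw [Nat.sum_divisors_prime_pow hp, Finset.sum_range_succ, Finset.sum_range_succ, Finset.sum_range_one, pow_zero, pow_one,
    c_one, h1, h4] at h5
  have h6 : p ∣ 1 + n + n := (dvd_pow_self p (by norm_num)).trans h5
  have h7 : p ∣ 1 := by
    have : p ∣ (1 + n) * 2 := h2.mul_right 2
    have h8 : (1 + n) * 2 = (1 + n + n) + 1 := by ring
    rw [h8] at this
    exact (Nat.dvd_add_right h6).1 this
  exact hp.one_lt.ne' (Nat.dvd_one.1 h7)

theorem no_two_odd {p q : ℕ} (hp : p.Prime) (hp2 : p ≠ 2) (hq : q.Prime) (hq2 : q ≠ 2) (hpG : p ∣ Nat.card G) (hqG : q ∣ Nat.card G) :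
    p = q := by
  by_contra hne
  obtain ⟨h1, h2, h3⟩ := c_p n hc hp hp2 hpG
  obtain ⟨h1', h2', h3'⟩ := c_p n hc hq hq2 hqG
  have hcop : Nat.Coprime p q := (Nat.coprime_primes hp hq).2 hne
  have h5 := frob_sum (G := G) (p * q) (hcop.mul_dvd_of_dvd_of_dvd hpG hqG)
  have hp3 : 3 ≤ p := by have := hp.two_le; omega
  have hq3 : 3 ≤ q := by have := hq.two_le; omega
  have e1 : p < p * q := by nlinarith
  have e2 : q < p * q := by nlinarith
  rw [div_pq hp hq, Finset.sum_insert (by simp; omega), Finset.sum_insert (by simp; omega), Finset.sum_insert (by simp; omega),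
    Finset.sum_singleton, c_one, h1, h1'] at h5
  have h6 : p ∣ 1 + (n + (n + Nat.card {g : G // orderOf g = p * q})) := (dvd_mul_right p q).trans h5
  by_cases hex : ∃ g : G, orderOf g = p * q
  · rw [c_ge n hc _ (by omega) hex] at h6
    have h7 : p ∣ (1 + n) * 3 := h2.mul_right 3
    have h8 : (1 + n) * 3 = (1 + (n + (n + n))) + 2 := by ring
    rw [h8] at h7
    have h9 := (Nat.dvd_add_right h6).1 h7
    have := Nat.le_of_dvd (by norm_num) h9
    omega
  · rw [c_zero _ hex] at h6
    have h7 : p ∣ (1 + n) * 2 := h2.mul_right 2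
    have h8 : (1 + n) * 2 = (1 + (n + (n + 0))) + 1 := by ring
    rw [h8] at h7
    have h9 := (Nat.dvd_add_right h6).1 h7
    have := Nat.le_of_dvd (by norm_num) h9
    omega

theorem no_4p {p : ℕ} (hp : p.Prime) (hp2 : p ≠ 2) (hpG : p ∣ Nat.card G) (h21 : Nat.card {g : G // orderOf g = 2} = 1)
    (h2p : ∃ g : G, orderOf g = 2 * p) (g : G) : orderOf g ≠ 4 := by
  intro hg
  obtain ⟨h1, h2, h3⟩ := c_p n hc hp hp2 hpG
  have hp3 : 3 ≤ p := by have := hp.two_le; omega
  have h4 := c_ge n hc 4 (by norm_num) ⟨g, hg⟩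
  have h2p' := c_ge n hc (2 * p) (by omega) h2p
  have hcop : Nat.Coprime 4 p := by
    have : Nat.Coprime (2 ^ 2) p := Nat.Coprime.pow_left 2 ((Nat.coprime_primes Nat.prime_two hp).2 (Ne.symm hp2))
    simpa using this
  have h5 := frob_sum (G := G) (4 * p) (hcop.mul_dvd_of_dvd_of_dvd (hg ▸ _root_.orderOf_dvd_natCard g) hpG)
  have hp4 : p ≠ 4 := by rintro rfl; norm_num at hp
  rw [div_4p hp, Finset.sum_insert (by simp; omega), Finset.sum_insert (by simp; omega), Finset.sum_insert (by simp; omega),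
    Finset.sum_insert (by simp; omega), Finset.sum_insert (by simp; omega),
    Finset.sum_singleton, c_one, h21, h4, h1, h2p'] at h5
  have h6 : p ∣ 1 + (1 + (n + (n + (n + Nat.card {g : G // orderOf g = 4 * p})))) := (dvd_mul_left p 4).trans h5
  by_cases hex : ∃ g : G, orderOf g = 4 * p
  · rw [c_ge n hc _ (by omega) hex] at h6
    have h7 : p ∣ (1 + n) * 4 := h2.mul_right 4
    have h8 : (1 + n) * 4 = (1 + (1 + (n + (n + (n + n))))) + 2 := by ring
    rw [h8] at h7
    have h9 := (Nat.dvd_add_right h6).1 h7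
    have := Nat.le_of_dvd (by norm_num) h9
    omega
  · rw [c_zero _ hex] at h6
    have h7 : p ∣ (1 + n) * 3 := h2.mul_right 3
    have h8 : (1 + n) * 3 = (1 + (1 + (n + (n + (n + 0))))) + 1 := by ring
    rw [h8] at h7
    have h9 := (Nat.dvd_add_right h6).1 h7
    have := Nat.le_of_dvd (by norm_num) h9
    omega

theorem c_two_one (hG : 2 ∣ Nat.card G) (hn : 2 ∣ n) : Nat.card {g : G // orderOf g = 2} = 1 := by
  haveI : Fact (Nat.Prime 2) := ⟨Nat.prime_two⟩
  rcases hc 2 (exists_prime_orderOf_dvd_card' 2 hG) with h | h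
  · exact h
  · exfalso
    have h2 := frob_sum (G := G) 2 hG
    rw [Nat.prime_two.divisors, Finset.sum_insert (by simp), Finset.sum_singleton, c_one, h] at h2
    omega

theorem no_8 (g : G) : orderOf g ≠ 8 := by
  intro hg
  have h8G : 8 ∣ Nat.card G := hg ▸ _root_.orderOf_dvd_natCard g
  have h8 := c_ge n hc 8 (by norm_num) ⟨g, hg⟩
  have h4 := c_ge n hc 4 (by norm_num) ⟨g ^ 2, by rw [orderOf_pow_of_dvd (by norm_num) (by rw [hg]; norm_num), hg]⟩
  have ht := totient_dvd (G := G) 8
  rw [h8, show Nat.totient 8 = 4 by decide] at ht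
  have h21 := c_two_one n hc (dvd_trans (by norm_num) h8G) (dvd_trans (by norm_num) ht)
  have h5 := frob_sum (G := G) (2 ^ 2) (dvd_trans (by norm_num) h8G)
  rw [Nat.sum_divisors_prime_pow Nat.prime_two, Finset.sum_range_succ, Finset.sum_range_succ, Finset.sum_range_one, pow_zero, pow_one,
    c_one, h21, show 2 ^ 2 = 4 by norm_num, h4] at h5
  omega

end
theorem pow_p_of_no {G : Type u} [Group G] [Finite G] {p : ℕ} (hp : p.Prime) (hno : ∀ g : G, orderOf g ≠ p ^ 2) (g : G) (j : ℕ)
    (hj : orderOf g = p ^ j) : g ^ p = 1 := by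
  rcases j with _ | _ | j
  · rw [pow_zero, orderOf_eq_one_iff] at hj; rw [hj, one_pow]
  · rw [← orderOf_dvd_iff_pow_eq_one, hj, zero_add, pow_one]
  · exfalso
    have hp0 := hp.pos
    apply hno (g ^ p ^ j)
    rw [orderOf_pow_of_dvd (by positivity) (by rw [hj]; exact pow_dvd_pow _ (by omega)), hj,
        Nat.pow_div (by omega) hp0]
    congr 1
    omega

theorem mixed {G : Type u} [Group G] [Finite G] (n : ℕ)
    (hc : ∀ m, (∃ g : G, orderOf g = m) → Nat.card {g : G // orderOf g = m} = 1 ∨ Nat.card {g : G // orderOf g = m} = n)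
    {p : ℕ} (hp : p.Prime) (hp2 : p ≠ 2) (hpG : p ∣ Nat.card G) (h2G : 2 ∣ Nat.card G) :
    ∃ (P : Type) (_ : Group P) (_ : Finite P), IsPGroup p P ∧ Monoid.exponent P = p ∧
        Nonempty (G ≃* Multiplicative (ZMod 2) × P) := by
  classical
  haveI hF2 : Fact (Nat.Prime 2) := ⟨Nat.prime_two⟩
  haveI hFp : Fact p.Prime := ⟨hp⟩
  obtain ⟨h1, h2, h3⟩ := c_p n hc hp hp2 hpG
  have h21 := c_two_one n hc h2G h3
  obtain ⟨z, hz⟩ := exists_prime_orderOf_dvd_card' 2 h2G
  have huniq : ∀ y : G, orderOf y = 2 → y = z := by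
    intro y hy
    rw [Nat.card_eq_one_iff_unique] at h21
    haveI := h21.1
    exact congrArg Subtype.val (Subsingleton.elim (⟨y, hy⟩ : {g : G // orderOf g = 2}) ⟨z, hz⟩)
  have hcomm : ∀ x : G, Commute z x := by
    intro x
    have h4 := huniq (x * z * x⁻¹) (by
      have : x * z * x⁻¹ = MulAut.conj x z := rfl
      rw [this, MulEquiv.orderOf_eq, hz])
    have h5 : x * z = z * x := by
      calc x * z = (x * z * x⁻¹) * x := by group
        _ = z * x := by rw [h4]
    exact h5.symm
  have h2p : ∃ g : G, orderOf g = 2 * p := by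
    obtain ⟨x, hx⟩ := exists_prime_orderOf_dvd_card' (G := G) p hpG
    refine ⟨z * x, ?_⟩
    rw [(hcomm x).orderOf_mul_eq_mul_orderOf_of_coprime, hz, hx]
    rw [hz, hx]
    exact (Nat.coprime_primes Nat.prime_two hp).2 (Ne.symm hp2)
  have hno4 : ∀ g : G, orderOf g ≠ 2 ^ 2 := fun g => no_4p n hc hp hp2 hpG h21 h2p g
  obtain ⟨T⟩ : Nonempty (Sylow 2 G) := inferInstance
  have hT : (T : Subgroup G) ≤ zpowers z := by
    intro t ht
    obtain ⟨j, hj⟩ := (IsPGroup.iff_orderOf.mp T.2) ⟨t, ht⟩
    rw [Subgroup.orderOf_mk] at hj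
    have h4 := pow_p_of_no Nat.prime_two hno4 t j hj
    rcases (Nat.dvd_prime Nat.prime_two).1 (orderOf_dvd_of_pow_eq_one h4) with h5 | h5
    · rw [orderOf_eq_one_iff] at h5
      rw [h5]; exact one_mem _
    · rw [huniq t h5]; exact mem_zpowers z
  have hTc : Nat.card (T : Subgroup G) ∣ 2 := by
    have h4 := Subgroup.card_dvd_of_le hT
    rwa [Nat.card_zpowers, hz] at h4
  obtain ⟨P⟩ : Nonempty (Sylow p G) := inferInstance
  obtain ⟨b, hb⟩ := IsPGroup.iff_card.mp P.2
  have hcop2 : Nat.Coprime 2 (Nat.card (P : Subgroup G)) := by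
    rw [hb]
    exact Nat.Coprime.pow_right _ ((Nat.coprime_primes Nat.prime_two hp).2 (Ne.symm hp2))
  have hidx : (P : Subgroup G).index = 2 := by
    have h4 : (P : Subgroup G).index = 2 ^ ((P : Subgroup G).index.primeFactorsList.length) := by
      apply Nat.eq_prime_pow_of_unique_prime_dvd Subgroup.index_ne_zero_of_finite
      intro q hq hqd
      by_contra hq2
      have hqG : q ∣ Nat.card G := hqd.trans (Subgroup.index_dvd_card _)
      have := no_two_odd n hc hp hp2 hq hq2 hpG hqG
      subst this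
      exact P.not_dvd_index hqd
    generalize (P : Subgroup G).index.primeFactorsList.length = j at h4
    have h5 : 2 ^ j ∣ 2 := by
      refine dvd_trans ?_ hTc
      apply T.pow_dvd_card_of_pow_dvd_card
      rw [← h4]; exact Subgroup.index_dvd_card _
    have h6 : 2 ∣ (P : Subgroup G).index := by
      have := (P : Subgroup G).card_mul_index
      rw [← this] at h2G
      exact hcop2.dvd_of_dvd_mul_left h2G
    rw [h4] at h6 ⊢
    exact Nat.dvd_antisymm h5 h6
  have hPc : Nat.card (P : Subgroup G) * 2 = Nat.card G := by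
    have := (P : Subgroup G).card_mul_index
    rwa [hidx] at this
  have hcz : Nat.card (zpowers z) = 2 := by rw [Nat.card_zpowers, hz]
  let e0 : Multiplicative (ZMod 2) ≃* zpowers z := mulEquivOfPrimeCardEq (p := 2) (by simp) hcz
  let f : Multiplicative (ZMod 2) × (P : Subgroup G) →* G :=
    MonoidHom.noncommCoprod ((zpowers z).subtype.comp e0.toMonoidHom) (P : Subgroup G).subtype (by
      intro a b
      obtain ⟨k, hk⟩ := mem_zpowers_iff.1 (e0 a).2
      show Commute ((e0 a : zpowers z) : G) (b : G)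
      rw [← hk]
      exact (hcomm _).zpow_left k)
  have hf : ∀ a b, f (a, b) = ((e0 a : zpowers z) : G) * (b : G) := fun a b => rfl
  have hinj : Function.Injective f := by
    rw [injective_iff_map_eq_one]
    rintro ⟨a, b⟩ hab
    rw [hf] at hab
    have hdis : zpowers z ⊓ (P : Subgroup G) = ⊥ := L0.inf_eq_bot_of_coprime' (by rw [hcz]; exact hcop2)
    have h4 : ((e0 a : zpowers z) : G) ∈ zpowers z ⊓ (P : Subgroup G) := by
      refine Subgroup.mem_inf.2 ⟨(e0 a).2, ?_⟩
      rw [eq_inv_of_mul_eq_one_left hab]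
      exact inv_mem b.2
    rw [hdis, mem_bot] at h4
    rw [h4, one_mul] at hab
    have h5 : e0 a = 1 := Subtype.ext h4
    rw [map_eq_one_iff _ e0.injective] at h5
    rw [h5]
    exact Prod.ext rfl (Subtype.ext hab)
  have hbij : Function.Bijective f := by
    rw [Nat.bijective_iff_injective_and_card]
    refine ⟨hinj, ?_⟩
    rw [Nat.card_prod, ← hPc, mul_comm]
    congr 1
    simp
  have hexp : Monoid.exponent (P : Subgroup G) = p := by
    have h4 : Monoid.exponent (P : Subgroup G) ∣ p := by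
      rw [Monoid.exponent_dvd_iff_forall_pow_eq_one]
      intro x
      obtain ⟨j, hj⟩ := (IsPGroup.iff_orderOf.mp P.2) x
      apply Subtype.ext
      show (x : G) ^ p = 1
      exact pow_p_of_no hp (no_p2 n hc hp hp2) (x : G) j (by rw [Subgroup.orderOf_coe]; exact hj)
    rcases (Nat.dvd_prime hp).1 h4 with h5 | h5
    · exfalso
      rw [Monoid.exp_eq_one_iff] at h5
      have h6 : Nat.card (P : Subgroup G) = 1 := Nat.card_eq_one_iff_unique.2 ⟨h5, inferInstance⟩
      rw [h6] at hPc
      rw [← hPc] at hpG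
      exact hp2 ((Nat.prime_dvd_prime_iff_eq hp Nat.prime_two).1 (by simpa using hpG))
    · exact h5
  let e1 : Shrink.{0} (P : Subgroup G) ≃* (P : Subgroup G) := Shrink.mulEquiv
  refine ⟨Shrink.{0} (P : Subgroup G), inferInstance, inferInstance, ?_, ?_, ⟨?_⟩⟩
  · exact P.2.of_equiv e1.symm
  · rw [Monoid.exponent_eq_of_mulEquiv e1, hexp]
  · exact (MulEquiv.ofBijective f hbij).symm.trans (MulEquiv.prodCongr (MulEquiv.refl _) e1.symm)

/-- Let G be a finite group such that the numbers of elements of each order that occurs in G (the numbers #{g : o(g) = m}, m ranging over the element orders of G) take exactly two values, 1 and some n ≠ 1. Then either G is a p-group of exponent p and order at least 3 for some prime p, or G is the quaternion group of order 8, or G is cyclic of order 4, or G ≅ Z₂ × P for a p-group P of exponent p with p an odd prime. -/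
theorem result {G : Type*} [Group G] [Finite G] (n : ℕ) (hn : n ≠ 1) (h : ((fun m : ℕ => Nat.card {g : G // orderOf g = m}) '' Set.range (orderOf : G → ℕ)) = {1, n}) :
    (∃ p : ℕ, p.Prime ∧ IsPGroup p G ∧ 3 ≤ Nat.card G ∧ Monoid.exponent G = p) ∨
      Nonempty (G ≃* QuaternionGroup 2) ∨ (IsCyclic G ∧ Nat.card G = 4) ∨
      (∃ (p : ℕ) (P : Type) (_ : Group P) (_ : Finite P), p.Prime ∧ p ≠ 2 ∧ IsPGroup p P ∧ Monoid.exponent P = p ∧
        Nonempty (G ≃* Multiplicative (ZMod 2) × P)) := by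
  classical
  haveI hF2 : Fact (Nat.Prime 2) := ⟨Nat.prime_two⟩
  have hc : ∀ m, (∃ g : G, orderOf g = m) → Nat.card {g : G // orderOf g = m} = 1 ∨ Nat.card {g : G // orderOf g = m} = n := by
    rintro m ⟨g, rfl⟩
    have h1 : (fun m : ℕ => Nat.card {g : G // orderOf g = m}) (orderOf g) ∈
      ((fun m : ℕ => Nat.card {g : G // orderOf g = m}) '' Set.range (orderOf : G → ℕ)) := ⟨orderOf g, ⟨g, rfl⟩, rfl⟩
    rw [h] at h1
    simpa using h1
  have hcard3 : 3 ≤ Nat.card G := by
    have h1 : n ∈ ({1, n} : Set ℕ) := by simp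
    rw [← h] at h1
    obtain ⟨_, ⟨g, rfl⟩, hg⟩ := h1
    have hg' : Nat.card {x : G // orderOf x = orderOf g} = n := hg
    haveI : Nonempty {x : G // orderOf x = orderOf g} := ⟨⟨g, rfl⟩⟩
    have h2 : 0 < n := hg' ▸ Nat.card_pos
    have h3 : orderOf g ≠ 1 := by
      intro h4
      rw [h4, c_one] at hg'
      exact hn hg'.symm
    have h4 : Nat.card {x : G // orderOf x = orderOf g} < Nat.card G :=
      Finite.card_subtype_lt (x := (1 : G)) (by rw [orderOf_one]; exact h3.symm)
    omega
  have hpg : ∀ p : ℕ, p.Prime → (∀ q : ℕ, q.Prime → q ∣ Nat.card G → q = p) → IsPGroup p G := by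
    intro p hp hq
    haveI : Fact p.Prime := ⟨hp⟩
    rw [IsPGroup.iff_card]
    exact ⟨_, Nat.eq_prime_pow_of_unique_prime_dvd Nat.card_pos.ne' (fun {q} hq1 hq2 => hq q hq1 hq2)⟩
  have hexpp : ∀ p : ℕ, p.Prime → IsPGroup p G → (∀ g : G, orderOf g ≠ p ^ 2) → Monoid.exponent G = p := by
    intro p hp hG hno
    haveI : Fact p.Prime := ⟨hp⟩
    have h4 : Monoid.exponent G ∣ p := by
      rw [Monoid.exponent_dvd_iff_forall_pow_eq_one]
      intro x
      obtain ⟨j, hj⟩ := (IsPGroup.iff_orderOf.mp hG) x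
      exact pow_p_of_no hp hno x j hj
    rcases (Nat.dvd_prime hp).1 h4 with h5 | h5
    · exfalso
      rw [Monoid.exp_eq_one_iff] at h5
      have h6 : Nat.card G = 1 := Nat.card_eq_one_iff_unique.2 ⟨h5, inferInstance⟩
      omega
    · exact h5
  by_cases hodd : ∃ p : ℕ, p.Prime ∧ p ≠ 2 ∧ p ∣ Nat.card G
  · obtain ⟨p, hp, hp2, hpG⟩ := hodd
    by_cases h2G : 2 ∣ Nat.card G
    · right; right; right
      obtain ⟨P, i1, i2, h1, h2, h3⟩ := mixed n hc hp hp2 hpG h2G
      exact ⟨p, P, i1, i2, hp, hp2, h1, h2, h3⟩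
    · left
      have hG := hpg p hp (by
        intro q hq hqG
        symm
        refine no_two_odd n hc hp hp2 hq ?_ hpG hqG
        rintro rfl; exact h2G hqG)
      exact ⟨p, hp, hG, hcard3, hexpp p hp hG (no_p2 n hc hp hp2)⟩
  · have hG := hpg 2 Nat.prime_two (by
      intro q hq hqG
      by_contra hq2
      exact hodd ⟨q, hq, hq2, hqG⟩)
    by_cases h4 : ∃ g : G, orderOf g = 4
    · obtain ⟨g, hg⟩ := h4
      have h4G : 4 ∣ Nat.card G := hg ▸ _root_.orderOf_dvd_natCard g
      have hn4 := c_ge n hc 4 (by norm_num) ⟨g, hg⟩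
      have hn2 : 2 ∣ n := by
        rw [← hn4]
        have := totient_dvd (G := G) 4
        rwa [show Nat.totient 4 = 2 by decide] at this
      have h21 := c_two_one n hc (dvd_trans (by norm_num) h4G) hn2
      have hu : ∀ H K : Subgroup G, Nat.card H = 2 → Nat.card K = 2 → H = K := by
        have huniq : ∀ y z : G, orderOf y = 2 → orderOf z = 2 → y = z := by
          intro y z hy hz
          rw [Nat.card_eq_one_iff_unique] at h21
          haveI := h21.1
          exact congrArg Subtype.val (Subsingleton.elim (⟨y, hy⟩ : {g : G // orderOf g = 2}) ⟨z, hz⟩)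
        intro H K hH hK
        obtain ⟨x, hx⟩ := exists_prime_orderOf_dvd_card' (G := H) 2 (by rw [hH])
        obtain ⟨y, hy⟩ := exists_prime_orderOf_dvd_card' (G := K) 2 (by rw [hK])
        have e1 : zpowers (x : G) = H := by
          apply Subgroup.eq_of_le_of_card_ge
          · rw [zpowers_le]; exact x.2
          · rw [Nat.card_zpowers, Subgroup.orderOf_coe, hx, hH]
        have e2 : zpowers (y : G) = K := by
          apply Subgroup.eq_of_le_of_card_ge
          · rw [zpowers_le]; exact y.2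
          · rw [Nat.card_zpowers, Subgroup.orderOf_coe, hy, hK]
        rw [← e1, ← e2, huniq x y (by rw [Subgroup.orderOf_coe, hx]) (by rw [Subgroup.orderOf_coe, hy])]
      rcases H1.cyclic_or_quat hG hu with hcyc | ⟨-, m, hm, ⟨e⟩⟩
      · right; right; left
        refine ⟨hcyc, ?_⟩
        obtain ⟨x, hx⟩ := hcyc.exists_generator
        have hox : orderOf x = Nat.card G := orderOf_eq_card_of_forall_mem_zpowers hx
        obtain ⟨k, hk⟩ := IsPGroup.iff_card.mp hG
        rcases Nat.lt_or_ge k 3 with hk3 | hk3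
        · have : k = 2 := by
            have h5 : k = 0 ∨ k = 1 ∨ k = 2 := by omega
            rcases h5 with rfl | rfl | rfl
            · rw [hk] at hcard3; norm_num at hcard3
            · rw [hk] at hcard3; norm_num at hcard3
            · rfl
          rw [hk, this]; norm_num
        · exfalso
          apply no_8 n hc (x ^ 2 ^ (k - 3))
          rw [orderOf_pow_of_dvd (by positivity) (by rw [hox, hk]; exact pow_dvd_pow _ (by omega)), hox, hk,
            Nat.pow_div (by omega) (by norm_num)]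
          have : k - (k - 3) = 3 := by omega
          rw [this]
          try norm_num
      · right; left
        rcases Nat.lt_or_ge m 2 with hm2 | hm2
        · have : m = 1 := by omega
          subst this
          exact ⟨e⟩
        · exfalso
          apply no_8 n hc (e.symm ((QuaternionGroup.a 1 : QuaternionGroup (2 ^ m)) ^ 2 ^ (m - 2)))
          rw [MulEquiv.orderOf_eq, orderOf_pow_of_dvd (by positivity)
            (by rw [QuaternionGroup.orderOf_a_one]; exact (pow_dvd_pow _ (by omega)).trans (dvd_mul_left _ _)),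
            QuaternionGroup.orderOf_a_one]
          have e3 : 2 * 2 ^ m = 2 ^ 3 * 2 ^ (m - 2) := by
            rw [← pow_succ', ← pow_add]; congr 1; omega
          rw [e3, Nat.mul_div_cancel _ (by positivity)]
          norm_num
    · left
      refine ⟨2, Nat.prime_two, hG, hcard3, hexpp 2 Nat.prime_two hG ?_⟩
      intro g hg
      exact h4 ⟨g, hg⟩

end Cfsg.Agent.S3995
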