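import Cfsg.Statements.S3997
import Mathlib

set_option autoImplicit false
open Cfsg

namespace Cfsg.Agent.S3997

theorem card_pow {G : Type*} [Group G] [Finite G] (n : ℕ) (hn : n ≠ 0) :
    Nat.card {g : G // g ^ n = 1} = ∑ d ∈ n.divisors, Nat.card {g : G // orderOf g = d} := by
  classical
  haveI : Fintype G := Fintype.ofFinite G
  have h1 := sum_card_orderOf_eq_card_pow_eq_one (G := G) hn
  rw [Nat.card_eq_fintype_card, Fintype.card_subtype, ← h1]
  apply Finset.sum_congr rfl
  intro d _
  rw [Nat.card_eq_fintype_card, Fintype.card_subtype]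

theorem mem_sylow {G : Type*} [Group G] [Finite G] {p : ℕ} [hp : Fact p.Prime] (P : Sylow p G) (hP : (P : Subgroup G).Normal) (g : G) (a : ℕ)
    (hg : g ^ p ^ a = 1) : g ∈ (P : Subgroup G) := by
  have h1 : IsPGroup p ↥(Subgroup.zpowers g) := by
    obtain ⟨k, -, hk⟩ := (Nat.dvd_prime_pow hp.out).1 (orderOf_dvd_of_pow_eq_one hg)
    exact IsPGroup.of_card (n := k) (by rw [Nat.card_zpowers, hk])
  have h2 : IsPGroup p ↥((P : Subgroup G) ⊔ Subgroup.zpowers g) := P.isPGroup'.to_sup_of_normal_left h1
  have h3 := P.is_maximal' h2 le_sup_left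
  rw [← h3]
  exact Subgroup.mem_sup_right (Subgroup.mem_zpowers g)

/-- Let G and H be finite groups with the same order type: for every m they have the same number of elements of order m. If G is nilpotent then so is H. -/
theorem result {G H : Type*} [Group G] [Finite G] [Group H] [Finite H] (hT : (∀ m : ℕ, Nat.card {g : G // orderOf g = m} = Nat.card {h : H // orderOf h = m})) (hG : Group.IsNilpotent G) :
    Group.IsNilpotent H := by
  classical
  have hpow : ∀ n : ℕ, n ≠ 0 → Nat.card {g : G // g ^ n = 1} = Nat.card {h : H // h ^ n = 1} := by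
    intro n hn
    rw [card_pow n hn, card_pow n hn]
    exact Finset.sum_congr rfl fun d _ => hT d
  have hcard : Nat.card G = Nat.card H := by
    have h1 := hpow (Nat.card G * Nat.card H) (Nat.mul_ne_zero Nat.card_pos.ne' Nat.card_pos.ne')
    have h2 : Nat.card {g : G // g ^ (Nat.card G * Nat.card H) = 1} = Nat.card G := by
      apply Nat.card_congr
      refine ⟨fun x => x.1, fun x => ⟨x, by rw [pow_mul, pow_card_eq_one', one_pow]⟩, fun x => rfl, fun x => rfl⟩
    have h3 : Nat.card {h : H // h ^ (Nat.card G * Nat.card H) = 1} = Nat.card H := by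
      apply Nat.card_congr
      refine ⟨fun x => x.1, fun x => ⟨x, by rw [mul_comm, pow_mul, pow_card_eq_one', one_pow]⟩, fun x => rfl, fun x => rfl⟩
    rw [← h2, h1, h3]
  apply ((Group.isNilpotent_of_finite_tfae (G := H)).out 0 3).mpr
  intro p hp P
  haveI := hp
  haveI := hG
  have S : Sylow p G := default
  have hSn : (S : Subgroup G).Normal := inferInstance
  set a := (Nat.card H).factorization p with ha
  have hPc : Nat.card ↥(P : Subgroup H) = p ^ a := P.card_eq_multiplicity
  have hSc : Nat.card ↥(S : Subgroup G) = p ^ a := by rw [S.card_eq_multiplicity, hcard]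
  have h1 : Nat.card {g : G // g ^ p ^ a = 1} = p ^ a := by
    have h0 : Nat.card {g : G // g ^ p ^ a = 1} = Nat.card ↥(S : Subgroup G) := by
      apply Nat.card_congr
      refine ⟨fun x => ⟨x.1, mem_sylow S hSn _ a x.2⟩, fun x => ⟨x.1, ?_⟩, fun x => rfl, fun x => rfl⟩
      have h2 : x ^ Nat.card ↥(S : Subgroup G) = 1 := pow_card_eq_one'
      rw [hSc] at h2
      exact congrArg Subtype.val h2
    rw [h0, hSc]
  have h2 : Nat.card {h : H // h ^ p ^ a = 1} = p ^ a := by rw [← hpow _ (pow_pos hp.out.pos a).ne', h1]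
  -- every subgroup Q of order p^a is this set
  have key : ∀ Q : Subgroup H, Nat.card ↥Q = p ^ a → ∀ h : H, h ^ p ^ a = 1 → h ∈ Q := by
    intro Q hQ h hh
    have h3 : (Q : Set H) = {h : H | h ^ p ^ a = 1} := by
      apply Set.eq_of_subset_of_ncard_le
      · intro x hx
        have h4 : (⟨x, hx⟩ : ↥Q) ^ Nat.card ↥Q = 1 := pow_card_eq_one'
        rw [hQ] at h4
        exact congrArg Subtype.val h4
      · rw [← Nat.card_coe_set_eq, ← Nat.card_coe_set_eq]
        show Nat.card {h : H // h ^ p ^ a = 1} ≤ Nat.card ↥Q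
        rw [h2, hQ]
      · exact Set.toFinite _
    have h4 : h ∈ (Q : Set H) := by rw [h3]; exact hh
    exact h4
  refine ⟨fun x hx g => ?_⟩
  apply key _ hPc
  have h3 : (⟨x, hx⟩ : ↥(P : Subgroup H)) ^ Nat.card ↥(P : Subgroup H) = 1 := pow_card_eq_one'
  rw [hPc] at h3
  have h4 : x ^ p ^ a = 1 := congrArg Subtype.val h3
  rw [conj_pow, h4]; group

end Cfsg.Agent.S3997
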