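import Cfsg.Statements.S3998
import Cfsg.Agent.L0.Core
import Cfsg.Agent.L0.SZ

set_option autoImplicit false
open Cfsg

namespace Cfsg.Agent.S3998

open Subgroup

/-- `N` is a Hall subgroup for the primes `≥ r`. -/
def HallU {G : Type*} [Group G] (r : ℕ) (N : Subgroup G) : Prop :=
  (∀ p : ℕ, p.Prime → p ∣ Nat.card N → r ≤ p) ∧ (∀ p : ℕ, p.Prime → p ∣ N.index → p < r)

theorem supersolvable_map {G H : Type*} [Group G] [Group H] (f : G →* H) (hf : Function.Surjective f)
    (hG : IsSupersolvable G) : IsSupersolvable H := by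
  obtain ⟨n, K, h0, hn, hK, hs⟩ := hG
  refine ⟨n, fun i => (K i).map f, ?_, ?_, ?_, ?_⟩
  · simp [h0]
  · simp only [hn]; rw [← MonoidHom.range_eq_map]; exact MonoidHom.range_eq_top.2 hf
  · intro i; exact (hK i).map f hf
  · intro i
    obtain ⟨g, hg⟩ := hs i
    refine ⟨f g, ?_⟩
    simp only [hg, Subgroup.map_sup]
    congr 1
    exact MonoidHom.map_zpowers f g

theorem exists_prime_normal {G : Type*} [Group G] [Finite G] [Nontrivial G] (hG : IsSupersolvable G) :
    ∃ (p : ℕ) (P : Subgroup G), p.Prime ∧ P.Normal ∧ Nat.card P = p := by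
  classical
  obtain ⟨n, K, h0, hn, hK, hs⟩ := hG
  -- first nontrivial term
  have hex : ∃ i : ℕ, ∃ h : i < n + 1, K ⟨i, h⟩ ≠ ⊥ :=
    ⟨n, Nat.lt_succ_self n, by
      have : (⟨n, Nat.lt_succ_self n⟩ : Fin (n+1)) = Fin.last n := rfl
      rw [this, hn]; exact top_ne_bot⟩
  obtain ⟨hi, hne⟩ := Nat.find_spec hex
  set i := Nat.find hex with hidef
  have hi0 : i ≠ 0 := by
    intro h
    apply hne
    have : (⟨i, hi⟩ : Fin (n+1)) = 0 := Fin.ext h
    rw [this, h0]
  obtain ⟨j, hj⟩ := Nat.exists_eq_succ_of_ne_zero hi0
  have hjn : j < n := by omega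
  have hKj : K (Fin.castSucc ⟨j, hjn⟩) = ⊥ := by
    by_contra h
    have := Nat.find_min hex (m := j) (by omega)
    exact this ⟨by omega, h⟩
  obtain ⟨g, hg⟩ := hs ⟨j, hjn⟩
  rw [hKj, bot_sup_eq] at hg
  have e1 : (⟨i, hi⟩ : Fin (n+1)) = Fin.succ ⟨j, hjn⟩ := Fin.ext hj
  rw [e1] at hne
  have hnorm : (zpowers g).Normal := hg ▸ hK _
  rw [hg] at hne
  have hcard : Nat.card (zpowers g) ≠ 1 := fun h => hne (Subgroup.card_eq_one.1 h)
  obtain ⟨p, hp, hpd⟩ := Nat.exists_prime_and_dvd hcard
  have hfp := Fact.mk hp
  rw [Nat.card_zpowers] at hpd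
  have hord : 0 < orderOf g := orderOf_pos g
  set a := g ^ (orderOf g / p) with ha
  have hdp : orderOf g / p ∣ orderOf g := Nat.div_dvd_of_dvd hpd
  have hdne : orderOf g / p ≠ 0 := by
    have := Nat.le_of_dvd hord hpd
    exact (Nat.div_pos this hp.pos).ne'
  have hoa : orderOf a = p := by
    rw [ha, orderOf_pow_of_dvd hdne hdp]
    exact Nat.div_div_self hpd hord.ne'
  refine ⟨p, zpowers a, hp, ⟨?_⟩, by rw [Nat.card_zpowers, hoa]⟩
  intro x hx h
  have hxg : x ∈ zpowers g := by
    have : zpowers a ≤ zpowers g := by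
      rw [zpowers_le, ha]; exact Subgroup.pow_mem _ (mem_zpowers g) _
    exact this hx
  have hyg : h * x * h⁻¹ ∈ zpowers g := hnorm.conj_mem x hxg h
  have hxp : x ^ p = 1 := by
    obtain ⟨k, rfl⟩ := mem_zpowers_iff.1 hx
    rw [← zpow_natCast, ← zpow_mul, mul_comm, zpow_mul, zpow_natCast, ← hoa, pow_orderOf_eq_one, one_zpow]
  have hyp : (h * x * h⁻¹) ^ p = 1 := by rw [conj_pow, hxp]; simp
  -- elements of zpowers g with y^p = 1 are in zpowers a
  obtain ⟨k, hk⟩ := mem_powers_iff_mem_zpowers.2 hyg
  simp only at hk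
  rw [← hk] at hyp ⊢
  rw [← pow_mul] at hyp
  have hdvd := orderOf_dvd_of_pow_eq_one hyp
  obtain ⟨q, hq⟩ := hpd
  have hq' : orderOf g / p = q := by rw [hq, Nat.mul_div_cancel_left _ hp.pos]
  rw [hq, mul_comm] at hdvd
  have hqk : q ∣ k := Nat.dvd_of_mul_dvd_mul_right hp.pos hdvd
  obtain ⟨t, rfl⟩ := hqk
  rw [pow_mul, ← hq', ← ha]
  exact Subgroup.pow_mem _ (mem_zpowers a) _

theorem index_comap_mk {G : Type*} [Group G] (P : Subgroup G) [P.Normal] (N : Subgroup (G ⧸ P)) :
    (N.comap (QuotientGroup.mk' P)).index = N.index :=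
  Subgroup.index_comap_of_surjective _ (QuotientGroup.mk'_surjective P)

/-- a normal subgroup of prime order `p` in a group of order `p * m`, `p` smaller than all primes dividing `m` is central -/
theorem central_of_small {G : Type*} [Group G] [Finite G] {p m : ℕ} (hp : p.Prime) (P : Subgroup G) [hPn : P.Normal]
    (hP : Nat.card P = p) (hG : Nat.card G = p * m) (hm : ∀ q : ℕ, q.Prime → q ∣ m → p < q) :
    P ≤ center G := by
  have hfp := Fact.mk hp
  -- action on P
  let φ : G →* MulAut P := MulAut.conjNormal
  have hcyc : IsCyclic P := isCyclic_of_prime_card hP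
  have hcardAut : Nat.card (MulAut P) = p - 1 := by
    rw [IsCyclic.card_mulAut P, hP, Nat.totient_prime hp]
  have hker : φ.ker = ⊤ := by
    rw [← Subgroup.index_eq_one]
    have h1 : φ.ker.index ∣ p - 1 := by
      rw [Subgroup.index_ker, ← hcardAut]
      exact Subgroup.card_subgroup_dvd_card _
    have h2 : φ.ker.index ∣ p * m := hG ▸ Subgroup.index_dvd_card _
    by_contra hne
    obtain ⟨q, hq, hqd⟩ := Nat.exists_prime_and_dvd hne
    have h3 : q ≤ p - 1 := Nat.le_of_dvd (by have := hp.two_le; omega) (hqd.trans h1)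
    have h4 : q ∣ p * m := hqd.trans h2
    rcases (Nat.Prime.dvd_mul hq).1 h4 with h | h
    · have := (Nat.prime_dvd_prime_iff_eq hq hp).1 h
      have := hp.two_le
      omega
    · have := hm q hq h
      omega
  intro x hx
  rw [mem_center_iff]
  intro g
  have hg : g ∈ φ.ker := by rw [hker]; trivial
  rw [MonoidHom.mem_ker] at hg
  have := congrArg (fun f : MulAut P => ((f ⟨x, hx⟩ : P) : G)) hg
  simp only [φ, MulAut.conjNormal_apply, MulAut.one_apply] at this
  rw [mul_inv_eq_iff_eq_mul] at this
  exact this

theorem hallU_supersolvable (n : ℕ) : ∀ (G : Type*) [Group G] [Finite G], Nat.card G = n → IsSupersolvable G →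
    ∀ r : ℕ, ∃ N : Subgroup G, N.Normal ∧ HallU r N := by
  induction n using Nat.strong_induction_on with
  | _ n ih =>
  intro G _ _ hcard hG r
  rcases subsingleton_or_nontrivial G with hsub | hnt
  · refine ⟨⊥, inferInstance, ?_, ?_⟩
    · intro p hp hd
      simp at hd
      exact absurd hd hp.one_lt.ne'
    · intro p hp hd
      rw [Subgroup.index_bot, Nat.card_of_subsingleton (1 : G)] at hd
      exact absurd (Nat.dvd_one.1 hd) hp.one_lt.ne'
  · obtain ⟨p, P, hp, hPn, hPc⟩ := exists_prime_normal hG
    have hfp := Fact.mk hp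
    have hq : Nat.card (G ⧸ P) < n := by
      have h1 := Subgroup.card_eq_card_quotient_mul_card_subgroup P
      rw [hcard, hPc] at h1
      have : 0 < Nat.card (G ⧸ P) := Nat.card_pos
      have := hp.two_le
      nlinarith
    obtain ⟨N0, hN0n, hN01, hN02⟩ := ih _ hq (G ⧸ P) rfl
      (supersolvable_map (QuotientGroup.mk' P) (QuotientGroup.mk'_surjective P) hG) r
    set N := N0.comap (QuotientGroup.mk' P) with hN
    have hNn : N.Normal := inferInstance
    have hNc : Nat.card N = p * Nat.card N0 := by
      rw [hN, L0.card_comap_mk', hPc]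
    have hNi : N.index = N0.index := index_comap_mk P N0
    by_cases hrp : r ≤ p
    · refine ⟨N, hNn, ?_, ?_⟩
      · intro q hq hd
        rw [hNc] at hd
        rcases (Nat.Prime.dvd_mul hq).1 hd with h | h
        · rwa [(Nat.prime_dvd_prime_iff_eq hq hp).1 h]
        · exact hN01 q hq h
      · intro q hq hd
        rw [hNi] at hd
        exact hN02 q hq hd
    · push Not at hrp
      have hPN : P ≤ N := by
        intro x hx
        rw [hN, mem_comap]
        have : (QuotientGroup.mk' P) x = 1 := (QuotientGroup.eq_one_iff x).2 hx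
        rw [this]; exact N0.one_mem
      have hcop : Nat.Coprime p (Nat.card N0) := by
        rw [Nat.Prime.coprime_iff_not_dvd hp]
        intro h
        have := hN01 p hp h
        omega
      set PN := P.subgroupOf N with hPNdef
      have hPNc : Nat.card PN = p := by
        rw [hPNdef, Nat.card_congr (Subgroup.subgroupOfEquivOfLe hPN).toEquiv, hPc]
      have hPNn : PN.Normal := inferInstance
      have hcent : PN ≤ center N := central_of_small hp PN hPNc hNc (by
        intro q hq hd
        have := hN01 q hq hd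
        omega)
      have hPNi : PN.index = Nat.card N0 := by
        have h1 := Subgroup.card_mul_index PN
        rw [hPNc, hNc] at h1
        exact Nat.eq_of_mul_eq_mul_left hp.pos h1
      obtain ⟨K, hK⟩ := Subgroup.exists_right_complement'_of_coprime (N := PN) (by rw [hPNc, hPNi]; exact hcop)
      have hKc : Nat.card K = Nat.card N0 := by
        have h1 := hK.card_mul
        rw [hPNc, hNc] at h1
        exact Nat.eq_of_mul_eq_mul_left hp.pos h1
      have hKn : K.Normal := by
        constructor
        intro k hk g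
        obtain ⟨⟨a, b⟩, hab⟩ := hK.existsUnique g |>.exists
        have hac : (a : N) ∈ center N := hcent a.2
        rw [mem_center_iff] at hac
        have hab' : (a : N) * (b : N) = g := hab
        rw [← hab', mul_inv_rev]
        have h1 : (a : N) * b * k * ((b : N)⁻¹ * (a : N)⁻¹) = b * k * (b : N)⁻¹ := by
          have h2 : (a : N) * ((b : N) * k * (b : N)⁻¹) = ((b : N) * k * (b : N)⁻¹) * a := (hac _).symm
          calc (a : N) * b * k * ((b : N)⁻¹ * (a : N)⁻¹) = (a : N) * ((b : N) * k * (b : N)⁻¹) * (a : N)⁻¹ := by group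
            _ = ((b : N) * k * (b : N)⁻¹) * a * (a : N)⁻¹ := by rw [h2]
            _ = _ := by group
        rw [h1]
        exact K.mul_mem (K.mul_mem b.2 hk) (K.inv_mem b.2)
      have hKi : K.index = p := by
        have h1 := Subgroup.card_mul_index K
        rw [hKc, hNc, mul_comm p] at h1
        exact Nat.eq_of_mul_eq_mul_left (Nat.card_pos) h1
      -- K is the set of x with x ^ |N0| = 1
      have hKmem : ∀ x : N, x ∈ K ↔ x ^ Nat.card N0 = 1 := by
        intro x
        constructor
        · intro hx
          have := pow_card_eq_one' (x := (⟨x, hx⟩ : K))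
          rw [hKc] at this
          simpa using congrArg Subtype.val this
        · intro hx
          have h1 : (QuotientGroup.mk x : N ⧸ K) ^ Nat.card N0 = 1 := by
            rw [← QuotientGroup.mk_pow, hx]; rfl
          have h2 : (QuotientGroup.mk x : N ⧸ K) ^ p = 1 := by
            rw [← hKi]; exact pow_card_eq_one'
          have h3 := Nat.dvd_gcd (orderOf_dvd_of_pow_eq_one h2) (orderOf_dvd_of_pow_eq_one h1)
          rw [hcop] at h3
          rw [← QuotientGroup.eq_one_iff]
          exact orderOf_eq_one_iff.1 (Nat.dvd_one.1 h3)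
      refine ⟨K.map N.subtype, ⟨?_⟩, ?_, ?_⟩
      · rintro x hx g
        obtain ⟨x0, hx0, rfl⟩ := mem_map.1 hx
        have h1 : g * (x0 : G) * g⁻¹ ∈ N := hNn.conj_mem _ x0.2 g
        refine mem_map.2 ⟨⟨_, h1⟩, ?_, rfl⟩
        rw [hKmem]
        have hx0 := (hKmem x0).1 hx0
        apply Subtype.ext
        have h2 := congrArg Subtype.val hx0
        simp only [SubgroupClass.coe_pow, OneMemClass.coe_one] at h2 ⊢
        rw [conj_pow, h2]; simp
      · intro q hq hd
        rw [L0.card_map_subtype, hKc] at hd
        exact hN01 q hq hd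
      · intro q hq hd
        rw [Subgroup.index_map_subtype, hKi, hNi] at hd
        rcases (Nat.Prime.dvd_mul hq).1 hd with h | h
        · rw [(Nat.prime_dvd_prime_iff_eq hq hp).1 h]; exact hrp
        · exact hN02 q hq h

theorem card_unique {n m k m' k' r : ℕ} (h : n = m * k) (h' : n = m' * k') (hm : ∀ p : ℕ, p.Prime → p ∣ m → r ≤ p)
    (hk : ∀ p : ℕ, p.Prime → p ∣ k → p < r) (hm' : ∀ p : ℕ, p.Prime → p ∣ m' → r ≤ p)
    (hk' : ∀ p : ℕ, p.Prime → p ∣ k' → p < r) : m = m' := by
  have c1 : Nat.Coprime m k' := by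
    rw [Nat.coprime_iff_gcd_eq_one]
    by_contra hne
    obtain ⟨q, hq, hd⟩ := Nat.exists_prime_and_dvd hne
    have h1 := hm q hq (hd.trans (Nat.gcd_dvd_left _ _))
    have h2 := hk' q hq (hd.trans (Nat.gcd_dvd_right _ _))
    omega
  have c2 : Nat.Coprime m' k := by
    rw [Nat.coprime_iff_gcd_eq_one]
    by_contra hne
    obtain ⟨q, hq, hd⟩ := Nat.exists_prime_and_dvd hne
    have h1 := hm' q hq (hd.trans (Nat.gcd_dvd_left _ _))
    have h2 := hk q hq (hd.trans (Nat.gcd_dvd_right _ _))
    omega
  apply Nat.dvd_antisymm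
  · exact c1.dvd_of_dvd_mul_right (h' ▸ h ▸ Dvd.intro _ rfl)
  · exact c2.dvd_of_dvd_mul_right (h ▸ h' ▸ Dvd.intro _ rfl)

theorem mem_of_pow {G : Type*} [Group G] [Finite G] {r : ℕ} {N : Subgroup G} [N.Normal] (h : HallU r N) (x : G) :
    x ∈ N ↔ x ^ Nat.card N = 1 := by
  constructor
  · intro hx
    exact congrArg Subtype.val (pow_card_eq_one' (x := (⟨x, hx⟩ : N)))
  · intro hx
    have h1 : (QuotientGroup.mk x : G ⧸ N) ^ Nat.card N = 1 := by
      rw [← QuotientGroup.mk_pow, hx]; rfl
    have h2 : (QuotientGroup.mk x : G ⧸ N) ^ N.index = 1 := pow_card_eq_one'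
    have h3 := Nat.dvd_gcd (orderOf_dvd_of_pow_eq_one h2) (orderOf_dvd_of_pow_eq_one h1)
    have hcop : Nat.gcd N.index (Nat.card N) = 1 := by
      by_contra hne
      obtain ⟨q, hq, hd⟩ := Nat.exists_prime_and_dvd hne
      have h1 := h.1 q hq (hd.trans (Nat.gcd_dvd_right _ _))
      have h2 := h.2 q hq (hd.trans (Nat.gcd_dvd_left _ _))
      omega
    rw [hcop] at h3
    rw [← QuotientGroup.eq_one_iff]
    exact orderOf_eq_one_iff.1 (Nat.dvd_one.1 h3)

/-- Let G and H be finite groups with the same order type (for every m the same number of elements of order m). If G is supersolvable then H is solvable. -/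
theorem result {G H : Type*} [Group G] [Finite G] [Group H] [Finite H] (hT : (∀ m : ℕ, Nat.card {g : G // orderOf g = m} = Nat.card {h : H // orderOf h = m})) (hG : Cfsg.IsSupersolvable G) :
    Group.IsSolvable H := by
  classical
  -- order preserving bijection
  have hbij : ∃ e : G ≃ H, ∀ g, orderOf (e g) = orderOf g := by
    have e1 : ∀ m, Nonempty ({g : G // orderOf g = m} ≃ {h : H // orderOf h = m}) := by
      intro m
      exact Finite.card_eq.1 (hT m)
    have e1 : ∀ m, ({g : G // orderOf g = m} ≃ {h : H // orderOf h = m}) := fun m => Classical.choice (e1 m)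
    refine ⟨(Equiv.sigmaFiberEquiv (orderOf : G → ℕ)).symm.trans ((Equiv.sigmaCongrRight fun m => (e1 m)).trans
      (Equiv.sigmaFiberEquiv (orderOf : H → ℕ))), ?_⟩
    intro g
    simp only [Equiv.trans_apply]
    exact ((e1 (orderOf g)) ⟨g, rfl⟩).2
  obtain ⟨e, he⟩ := hbij
  have hcard : Nat.card G = Nat.card H := Nat.card_congr e
  have hcount : ∀ m : ℕ, Nat.card {g : G // g ^ m = 1} = Nat.card {h : H // h ^ m = 1} := by
    intro m
    apply Nat.card_congr
    refine e.subtypeEquiv ?_
    intro g
    rw [← orderOf_dvd_iff_pow_eq_one, ← orderOf_dvd_iff_pow_eq_one, he]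
  -- descending induction
  have main : ∀ j : ℕ, ∀ r : ℕ, r + j = Nat.card H + 1 → ∃ N : Subgroup H, N.Normal ∧ HallU r N ∧ Group.IsSolvable N := by
    intro j
    induction j with
    | zero =>
      intro r hr
      refine ⟨⊥, inferInstance, ⟨?_, ?_⟩, ?_⟩
      · intro p hp hd
        simp at hd
        exact absurd hd hp.one_lt.ne'
      · intro p hp hd
        rw [Subgroup.index_bot] at hd
        have := Nat.le_of_dvd Nat.card_pos hd
        omega
      · infer_instance
    | succ j ih =>
      intro r hr
      obtain ⟨M, hMn, hM, hMs⟩ := ih (r + 1) (by omega)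
      by_cases hrp : r.Prime
      · have hfr := Fact.mk hrp
        obtain ⟨Q⟩ := (inferInstance : Nonempty (Sylow r H))
        set L := M ⊔ (Q : Subgroup H) with hL
        -- card L
        have hdisj : Nat.Coprime (Nat.card M) (Nat.card Q) := by
          obtain ⟨k, hk⟩ := IsPGroup.iff_card.1 Q.2
          rw [hk]
          apply Nat.Coprime.pow_right
          rw [Nat.coprime_comm, Nat.Prime.coprime_iff_not_dvd hrp]
          intro hd
          have := hM.1 r hrp hd
          omega
        have hLd : Nat.card L ∣ Nat.card M * Nat.card Q := L0.card_sup_dvd_of_normal_left M Q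
        have hML : M ≤ L := le_sup_left
        have hQL : (Q : Subgroup H) ≤ L := le_sup_right
        have hLH : HallU r L := by
          constructor
          · intro p hp hd
            rcases (Nat.Prime.dvd_mul hp).1 (hd.trans hLd) with h | h
            · have := hM.1 p hp h; omega
            · obtain ⟨k, hk⟩ := IsPGroup.iff_card.1 Q.2
              rw [hk] at h
              have := (Nat.prime_dvd_prime_iff_eq hp hrp).1 (hp.dvd_of_dvd_pow h)
              omega
          · intro p hp hd
            have h1 : p ∣ M.index := hd.trans (Subgroup.index_dvd_of_le hML)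
            have h2 := hM.2 p hp h1
            have h3 : p ≠ r := by
              rintro rfl
              exact Q.not_dvd_index (hd.trans (Subgroup.index_dvd_of_le hQL))
            omega
        obtain ⟨N, hNn, hN⟩ := hallU_supersolvable _ G rfl hG r
        have hNL : Nat.card N = Nat.card L := by
          refine card_unique (n := Nat.card G) (k := N.index) (k' := L.index) (r := r) ?_ ?_ hN.1 hN.2 hLH.1 hLH.2
          · exact (Subgroup.card_mul_index N).symm
          · rw [hcard]; exact (Subgroup.card_mul_index L).symm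
        have hc1 : Nat.card {g : G // g ^ Nat.card L = 1} = Nat.card L := by
          rw [← hNL]
          apply Nat.card_congr
          refine Equiv.subtypeEquivRight ?_
          intro x
          exact (mem_of_pow hN x).symm
        rw [hcount] at hc1
        have hset : ∀ x : H, x ∈ L ↔ x ^ Nat.card L = 1 := by
          have h1 : (L : Set H) ⊆ {x : H | x ^ Nat.card L = 1} := by
            intro x hx
            exact congrArg Subtype.val (pow_card_eq_one' (x := (⟨x, hx⟩ : L)))
          have h2 : (L : Set H) = {x : H | x ^ Nat.card L = 1} := by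
            apply Set.eq_of_subset_of_ncard_le h1
            have h3 : ({x : H | x ^ Nat.card L = 1} : Set H).ncard = Nat.card L := hc1
            rw [h3]
            exact le_of_eq rfl
          intro x
          exact Set.ext_iff.1 h2 x
        have hLn : L.Normal := by
          constructor
          intro x hx g
          rw [hset] at hx ⊢
          rw [conj_pow, hx]; simp
        refine ⟨L, hLn, hLH, ?_⟩
        -- solvable
        have hMsub : Group.IsSolvable (M.subgroupOf L) := L0.isSolvable_subgroupOf hMs
        have hquot : Group.IsSolvable (L ⧸ M.subgroupOf L) := by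
          have hpg : IsPGroup r (L ⧸ M.subgroupOf L) := by
            have hidx : (M.subgroupOf L).index ∣ Nat.card Q := by
              have h1 := Subgroup.card_mul_index (M.subgroupOf L)
              rw [Nat.card_congr (Subgroup.subgroupOfEquivOfLe hML).toEquiv] at h1
              have h2 : Nat.card M * (M.subgroupOf L).index ∣ Nat.card M * Nat.card Q := by rw [h1]; exact hLd
              exact Nat.dvd_of_mul_dvd_mul_left Nat.card_pos h2
            obtain ⟨k, hk⟩ := IsPGroup.iff_card.1 Q.2
            rw [hk] at hidx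
            obtain ⟨l, -, hl⟩ := (Nat.dvd_prime_pow hrp).1 hidx
            exact IsPGroup.of_card hl
          have := hpg.isNilpotent
          infer_instance
        exact (Group.isSolvable_iff_subgroup_quotient (M.subgroupOf L)).2 ⟨hMsub, hquot⟩
      · refine ⟨M, hMn, ⟨?_, ?_⟩, hMs⟩
        · intro p hp hd
          have := hM.1 p hp hd
          omega
        · intro p hp hd
          have := hM.2 p hp hd
          have h3 : p ≠ r := by rintro rfl; exact hrp hp
          omega
  obtain ⟨N, -, hN, hNs⟩ := main (Nat.card H + 1) 0 (by omega)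
  have hNtop : N = ⊤ := by
    rw [← Subgroup.index_eq_one]
    by_contra hne
    obtain ⟨q, hq, hd⟩ := Nat.exists_prime_and_dvd hne
    have := hN.2 q hq hd
    omega
  rw [hNtop] at hNs
  exact L0.isSolvable_of_mulEquiv Subgroup.topEquiv hNs
end Cfsg.Agent.S3998
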