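import Cfsg.Statements.S4002
import Mathlib
import Cfsg.Agent.H3.Higman

set_option autoImplicit false
open Cfsg

namespace Cfsg.Agent.S4002

theorem aux {G : Type*} [Group G] [Finite G] (n : ℕ) (h : Set.range (orderOf : G → ℕ) = {k : ℕ | 1 ≤ k ∧ k ≤ n})
    (hs : Group.IsSolvable G) {p q r : ℕ} (hp : p.Prime) (hq : q.Prime) (hr : r.Prime) (hpq : p < q) (hqr : q < r) (hrn : r ≤ n)
    (hlarge : n < p * q) : False := by
  have hmem : ∀ a : ℕ, a.Prime → a ≤ n → a ∣ Nat.card G := by
    intro a ha han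
    have h1 : a ∈ Set.range (orderOf : G → ℕ) := by rw [h]; exact ⟨ha.one_lt.le, han⟩
    obtain ⟨g, hg⟩ := h1
    rw [← hg]; exact _root_.orderOf_dvd_natCard g
  have hno : ∀ a b : ℕ, n < a * b → ∀ g : G, orderOf g ≠ a * b := by
    intro a b hab g hg
    have h1 : orderOf g ∈ Set.range (orderOf : G → ℕ) := ⟨g, rfl⟩
    rw [h, hg] at h1
    exact absurd h1.2 (not_le_of_gt hab)
  have h2 : n < p * r := lt_of_lt_of_le hlarge (Nat.mul_le_mul_left _ hqr.le)
  have h3 : n < q * r := lt_of_lt_of_le h2 (Nat.mul_le_mul_right _ hpq.le)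
  refine H3.higman hs hp hq hr hpq.ne hqr.ne (hpq.trans hqr).ne (hmem p hp (by omega)) (hmem q hq (by omega)) (hmem r hr hrn) ?_
  intro a ha b hb hab
  apply hno
  rcases ha with rfl | rfl | rfl <;> rcases hb with rfl | rfl | rfl
  · exact absurd rfl hab
  · exact hlarge
  · exact h2
  · rw [mul_comm]; exact hlarge
  · exact absurd rfl hab
  · exact h3
  · rw [mul_comm]; exact h2
  · rw [mul_comm]; exact h3
  · exact absurd rfl hab

/-- If the set of element orders of a finite group G is {1, 2, …, n} with n ≥ 7, then G is not solvable. -/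
theorem result {G : Type*} [Group G] [Finite G] (n : ℕ) (hn : 7 ≤ n) (h : Set.range (orderOf : G → ℕ) = {k : ℕ | 1 ≤ k ∧ k ≤ n}) : ¬ Group.IsSolvable G := by
  intro hs
  by_cases h1 : n < 15
  · exact aux n h hs (p := 3) (q := 5) (r := 7) (by norm_num) (by norm_num) (by norm_num) (by norm_num) (by norm_num) hn (by omega)
  · by_cases h2 : n < 35
    · exact aux n h hs (p := 5) (q := 7) (r := 11) (by norm_num) (by norm_num) (by norm_num) (by norm_num) (by norm_num) (by omega) (by omega)
    · obtain ⟨a, ha⟩ : ∃ a, a = n / 8 := ⟨_, rfl⟩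
      have ha4 : 4 ≤ a := by omega
      obtain ⟨p, hp, hp1, hp2⟩ := Nat.exists_prime_lt_and_le_two_mul a (by omega)
      obtain ⟨q, hq, hq1, hq2⟩ := Nat.exists_prime_lt_and_le_two_mul (2 * a) (by omega)
      obtain ⟨r, hr, hr1, hr2⟩ := Nat.exists_prime_lt_and_le_two_mul (4 * a) (by omega)
      refine aux n h hs (p := p) (q := q) (r := r) hp hq hr (by omega) (by omega) (by omega) ?_
      have h3 : n < 8 * (a + 1) := by omega
      have h4 : (a + 1) * (2 * a + 1) ≤ p * q := Nat.mul_le_mul (by omega) (by omega)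
      have h5 : 8 * (a + 1) ≤ (a + 1) * (2 * a + 1) := by nlinarith
      omega

end Cfsg.Agent.S4002
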