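import Cfsg.Statements.S4005
import Cfsg.Agent.H4.Burnside
import Cfsg.Agent.H4.Glau9
import Cfsg.Agent.H1.BS7
import Cfsg.Agent.L0.Coprime2
import Mathlib.GroupTheory.FixedPointFree

set_option autoImplicit false
open Cfsg

namespace Cfsg.Agent.S4005

/-- A finite group whose set of element orders is exactly {1, 2, 3} has either a normal elementary abelian 3-subgroup of index 2 or a normal elementary abelian 2-subgroup of index 3. -/
theorem result {G : Type*} [Group G] [Finite G] (h : Set.range (orderOf : G → ℕ) = {k : ℕ | 1 ≤ k ∧ k ≤ 3}) :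
    (∃ N : Subgroup G, N.Normal ∧ Cfsg.IsElementaryAbelian 3 N ∧ N.index = 2) ∨
      (∃ N : Subgroup G, N.Normal ∧ Cfsg.IsElementaryAbelian 2 N ∧ N.index = 3) := by
    classical
    haveI : Fact (Nat.Prime 2) := ⟨Nat.prime_two⟩
    haveI : Fact (Nat.Prime 3) := ⟨Nat.prime_three⟩
    have hord : ∀ g : G, orderOf g = 1 ∨ orderOf g = 2 ∨ orderOf g = 3 := by
      intro g
      have h1 : orderOf g ∈ Set.range (orderOf : G → ℕ) := ⟨g, rfl⟩
      rw [h] at h1
      obtain ⟨h2, h3⟩ := h1
      omega
    obtain ⟨g2, hg2⟩ : ∃ g : G, orderOf g = 2 := by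
      have h1 : (2 : ℕ) ∈ Set.range (orderOf : G → ℕ) := by rw [h]; exact ⟨by norm_num, by norm_num⟩
      exact h1
    obtain ⟨g3, hg3⟩ : ∃ g : G, orderOf g = 3 := by
      have h1 : (3 : ℕ) ∈ Set.range (orderOf : G → ℕ) := by rw [h]; exact ⟨by norm_num, by norm_num⟩
      exact h1
    -- primes
    have hprime : ∀ q : ℕ, q.Prime → q ∣ Nat.card G → q = 2 ∨ q = 3 := by
      intro q hq hd
      haveI : Fact q.Prime := ⟨hq⟩
      obtain ⟨x, hx⟩ := exists_prime_orderOf_dvd_card' q hd
      rcases hord x with h1 | h1 | h1
      · rw [h1] at hx; exact absurd hx.symm hq.one_lt.ne'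
      · left; omega
      · right; omega
    -- card
    obtain ⟨a, b, hcard⟩ : ∃ a b : ℕ, Nat.card G = 2 ^ a * 3 ^ b := by
      obtain ⟨a, m, hm, hc⟩ := Nat.exists_eq_two_pow_mul_odd (n := Nat.card G) Nat.card_pos.ne'
      have h1 : ∀ {d : ℕ}, d.Prime → d ∣ m → d = 3 := by
        intro d hd hdm
        rcases hprime d hd (hc ▸ Dvd.dvd.mul_left hdm _) with h2 | h2
        · exfalso
          rw [h2] at hdm
          exact (Nat.not_even_iff_odd.mpr hm) (even_iff_two_dvd.mpr hdm)
        · exact h2
      refine ⟨a, m.primeFactorsList.length, ?_⟩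
      rw [hc, ← Nat.eq_prime_pow_of_unique_prime_dvd (by rintro rfl; simp at hm) h1]
    have hsolv : Group.IsSolvable G := H4.burnside_paqb_aux (Nat.card G) G 2 3 a b Nat.prime_two Nat.prime_three hcard rfl
    have hnt : Nontrivial G := ⟨⟨g2, 1, by rintro rfl; simp at hg2⟩⟩
    obtain ⟨p, V, hp, hVn, hVne, hVp⟩ := H4.exists_normal_pgroup_solv hsolv hnt
    -- no commuting 2-elements and 3-elements
    have hno : ∀ x y : G, orderOf x = 2 → orderOf y = 3 → ¬ Commute x y := by
      intro x y hx hy hxy
      have h1 := hxy.orderOf_mul_eq_mul_orderOf_of_coprime (by rw [hx, hy]; norm_num)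
      rcases hord (x * y) with h2 | h2 | h2 <;> rw [h1, hx, hy] at h2 <;> omega
    have h2elt : ∀ (P : Subgroup G), IsPGroup 2 P → ∀ x ∈ P, x ≠ 1 → orderOf x = 2 := by
      intro P hP x hx hx1
      obtain ⟨k, hk⟩ := (IsPGroup.iff_orderOf.mp hP) ⟨x, hx⟩
      rw [Subgroup.orderOf_mk] at hk
      rcases hord x with h1 | h1 | h1
      · exact absurd (orderOf_eq_one_iff.mp h1) hx1
      · exact h1
      · exfalso
        rw [h1] at hk
        have h3 : 3 ∣ 2 ^ k := ⟨1, by omega⟩
        exact absurd (Nat.prime_three.dvd_of_dvd_pow h3) (by norm_num)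
    have h3elt : ∀ (P : Subgroup G), IsPGroup 3 P → ∀ x ∈ P, x ≠ 1 → orderOf x = 3 := by
      intro P hP x hx hx1
      obtain ⟨k, hk⟩ := (IsPGroup.iff_orderOf.mp hP) ⟨x, hx⟩
      rw [Subgroup.orderOf_mk] at hk
      rcases hord x with h1 | h1 | h1
      · exact absurd (orderOf_eq_one_iff.mp h1) hx1
      · exfalso
        rw [h1] at hk
        have h3 : 2 ∣ 3 ^ k := ⟨1, by omega⟩
        exact absurd (Nat.prime_two.dvd_of_dvd_pow h3) (by norm_num)
      · exact h1
    -- noncyclic abelian groups do not act
    have hcyc : ∀ (E N : Subgroup G), N.Normal → N ≠ ⊥ → IsMulCommutative E →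
        (Nat.card E).Coprime (Nat.card N) → (∀ e ∈ E, e ≠ 1 → ∀ n ∈ N, n ≠ 1 → ¬ Commute e n) → IsCyclic E := by
      intro E N hN hNne hE hcop hfix
      by_contra hnc
      have h1 := L0.closure_centralizers_eq hE hnc (by
        haveI := hN
        rw [Subgroup.normalizer_eq_top]; exact le_top) hcop
      apply hNne
      rw [← h1, eq_bot_iff, Subgroup.closure_le]
      rintro x ⟨hx, v, hv, hv1, hvx⟩
      by_contra hx1
      exact hfix v hv hv1 x hx (fun h2 => hx1 (by simp [h2])) hvx
    have hcopP : ∀ (E N : Subgroup G), IsPGroup 2 E → IsPGroup 3 N → (Nat.card E).Coprime (Nat.card N) := by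
      intro E N hE hN
      obtain ⟨i, hi⟩ := hE.exists_card_eq
      obtain ⟨j, hj⟩ := hN.exists_card_eq
      rw [hi, hj]
      exact Nat.Coprime.pow _ _ (by norm_num)
    -- Sylow 2-subgroups are abelian
    obtain ⟨T⟩ : Nonempty (Sylow 2 G) := inferInstance
    have hTcomm : ∀ x ∈ (T : Subgroup G), ∀ y ∈ (T : Subgroup G), x * y = y * x := by
      have hsq : ∀ x ∈ (T : Subgroup G), x * x = 1 := by
        intro x hx
        by_cases hx1 : x = 1
        · simp [hx1]
        · have h1 := h2elt T T.isPGroup' x hx hx1
          rw [← pow_two, ← h1, pow_orderOf_eq_one]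
      have hinv : ∀ x ∈ (T : Subgroup G), x⁻¹ = x := fun x hx => inv_eq_of_mul_eq_one_left (hsq x hx)
      intro x hx y hy
      have h1 := hinv _ ((T : Subgroup G).mul_mem hx hy)
      rw [mul_inv_rev, hinv x hx, hinv y hy] at h1
      exact h1.symm
    have hTmc : IsMulCommutative (T : Subgroup G) := ⟨⟨fun x y => Subtype.ext (hTcomm x x.2 y y.2)⟩⟩
    have hpd : p ∣ Nat.card G := by
      haveI : Fact p.Prime := ⟨hp⟩
      obtain ⟨k, hk⟩ := hVp.exists_card_eq
      have hk0 : k ≠ 0 := by
        rintro rfl
        rw [pow_zero] at hk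
        exact hVne (Subgroup.card_eq_one.mp hk)
      exact dvd_trans (dvd_trans (dvd_pow_self p hk0) (hk ▸ dvd_rfl)) (Subgroup.card_subgroup_dvd_card V)
    obtain ⟨v, hv, hv1⟩ : ∃ v ∈ V, v ≠ 1 := by
      by_contra hcon
      push Not at hcon
      exact hVne (by rw [eq_bot_iff]; intro x hx; simpa using hcon x hx)
    rcases hprime p hp hpd with rfl | rfl
    · -- p = 2
      right
      have hVT : V ≤ (T : Subgroup G) := by
        obtain ⟨S, hS⟩ := hVp.exists_le_sylow
        obtain ⟨g, hg⟩ := MulAction.exists_smul_eq G S T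
        intro x hx
        rw [← hg, Sylow.coe_subgroup_smul, Subgroup.mem_pointwise_smul_iff_inv_smul_mem]
        apply hS
        rw [← map_inv, MulAut.smul_def, MulAut.conj_apply]
        exact hVn.conj_mem x hx _
      obtain ⟨R⟩ : Nonempty (Sylow 3 G) := inferInstance
      have hCn : (Subgroup.centralizer (V : Set G)).Normal := by
        haveI := hVn; infer_instance
      have hCT : (Subgroup.centralizer (V : Set G)) = T := by
        have hC2 : IsPGroup 2 (Subgroup.centralizer (V : Set G)) := by
          rw [IsPGroup.iff_orderOf]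
          rintro ⟨x, hx⟩
          rw [Subgroup.orderOf_mk]
          rcases hord x with h1 | h1 | h1
          · exact ⟨0, h1⟩
          · exact ⟨1, h1⟩
          · exfalso
            exact hno v x (h2elt V hVp v hv hv1) h1 (Subgroup.mem_centralizer_iff.mp hx v hv)
        have hle : (T : Subgroup G) ≤ Subgroup.centralizer (V : Set G) := by
          intro x hx
          rw [Subgroup.mem_centralizer_iff]
          intro w hw
          exact hTcomm w (hVT hw) x hx
        exact T.is_maximal' hC2 hle
      have hTn : (T : Subgroup G).Normal := hCT ▸ hCn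
      refine ⟨T, hTn, ⟨hTmc, ?_⟩, ?_⟩
      · intro x hx
        by_cases hx1 : x = 1
        · simp [hx1]
        · have h1 := h2elt T T.isPGroup' x hx hx1
          rw [← h1, pow_orderOf_eq_one]
      · -- index
        obtain ⟨k, hk⟩ := R.isPGroup'.exists_card_eq
        have hk2 : k < 2 := by
          by_contra hcon
          push Not at hcon
          obtain ⟨E₀, hE₀⟩ := Sylow.exists_subgroup_card_pow_prime (G := R) 3 (n := 2) (by rw [hk]; exact pow_dvd_pow 3 hcon)
          have hEc : Nat.card (E₀.map (R : Subgroup G).subtype) = 3 ^ 2 := by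
            rw [Subgroup.card_map_of_injective (Subgroup.subtype_injective _), hE₀]
          have hEm : IsMulCommutative (E₀.map (R : Subgroup G).subtype) := IsPGroup.isMulCommutative_of_card_eq_prime_sq hEc
          have hE3 : IsPGroup 3 (E₀.map (R : Subgroup G).subtype) := IsPGroup.of_card hEc
          have h1 := hcyc (E₀.map (R : Subgroup G).subtype) V hVn hVne hEm (hcopP V _ hVp hE3).symm (by
            intro e he he1 n hn hn1 hcm
            exact hno n e (h2elt V hVp n hn hn1) (h3elt _ hE3 e he he1) hcm.symm)
          obtain ⟨g, hg⟩ := h1.exists_generator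
          have h2 : orderOf g = 9 := by
            rw [orderOf_eq_card_of_forall_mem_zpowers hg, hEc]; norm_num
          have h3 : orderOf (g : G) = 9 := by rw [Subgroup.orderOf_coe, h2]
          rcases hord (g : G) with h4 | h4 | h4 <;> omega
        have hRb : Nat.card R = 3 := by
          have h1 : 3 ∣ Nat.card R := by
            have h2 : 3 ∣ Nat.card G := hg3 ▸ orderOf_dvd_natCard g3
            exact R.dvd_card_of_dvd_card h2
          interval_cases k
          · rw [hk] at h1; norm_num at h1
          · rw [hk]; norm_num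
        have h1 := Subgroup.card_mul_index (T : Subgroup G)
        have h2 : ¬ 2 ∣ (T : Subgroup G).index := T.not_dvd_index
        have h3 : (T : Subgroup G).index = 3 ^ b := by
          have h4 : (T : Subgroup G).index ∣ 2 ^ a * 3 ^ b := by rw [← hcard, ← h1]; exact Dvd.intro_left _ rfl
          have h5 : (T : Subgroup G).index ∣ 3 ^ b := by
            apply Nat.Coprime.dvd_of_dvd_mul_left _ h4
            exact (Nat.Coprime.pow_right _ ((Nat.Prime.coprime_iff_not_dvd Nat.prime_two).mpr h2).symm)
          have h6 : 3 ^ b ∣ (T : Subgroup G).index := by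
            have h7 : 3 ^ b ∣ Nat.card T * (T : Subgroup G).index := by rw [h1, hcard]; exact Dvd.intro_left _ rfl
            obtain ⟨j, hj⟩ := T.isPGroup'.exists_card_eq
            rw [hj] at h7
            exact Nat.Coprime.dvd_of_dvd_mul_left (Nat.Coprime.pow _ _ (by norm_num)) h7
          exact Nat.dvd_antisymm h5 h6
        have h4 : Nat.card R = 3 ^ b := by
          rw [Sylow.card_eq_multiplicity, hcard, Nat.factorization_mul (by positivity) (by positivity)]
          congr 1
          rw [Finsupp.add_apply, Nat.factorization_pow, Nat.factorization_pow]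
          simp [Nat.prime_two.factorization, Nat.prime_three.factorization]
        rw [h3, ← h4, hRb]
    · -- p = 3
      left
      have hTc : IsCyclic (T : Subgroup G) := hcyc T V hVn hVne hTmc (hcopP _ _ T.isPGroup' hVp) (by
        intro e he he1 n hn hn1
        exact hno e n (h2elt T T.isPGroup' e he he1) (h3elt V hVp n hn hn1))
      have hT2 : Nat.card T = 2 := by
        obtain ⟨g, hg⟩ := hTc.exists_generator
        have h2 : orderOf g = Nat.card T := orderOf_eq_card_of_forall_mem_zpowers hg
        have h1 : 2 ∣ Nat.card T := T.dvd_card_of_dvd_card (hg2 ▸ orderOf_dvd_natCard g2)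
        have h4 := hord (g : G)
        rw [Subgroup.orderOf_coe] at h4
        have h5 : 0 < Nat.card T := Nat.card_pos
        omega
      obtain ⟨P, N, hN, hNc⟩ := H1.npc_of_cyclic_two T hTc
      have hPT : Nat.card P = 2 := (Nat.card_congr (Sylow.equiv P T).toEquiv).trans hT2
      have hidx : N.index = 2 := by rw [hNc.symm.index_eq_card, hPT]
      have hN3 : ∀ x ∈ N, x ≠ 1 → orderOf x = 3 := by
        intro x hx hx1
        rcases hord x with h1 | h1 | h1
        · exact absurd (orderOf_eq_one_iff.mp h1) hx1
        · exfalso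
          have h2 : 2 ∣ Nat.card N := by
            rw [← h1, ← Subgroup.orderOf_mk x hx]; exact orderOf_dvd_natCard _
          have h3 := Subgroup.card_mul_index N
          have h4 := Subgroup.card_mul_index (P : Subgroup G)
          have h5 : ¬ 2 ∣ (P : Subgroup G).index := P.not_dvd_index
          apply h5
          rw [hPT] at h4
          rw [hidx] at h3
          have h6 : (P : Subgroup G).index = Nat.card N := by omega
          rw [h6]; exact h2
        · exact h1
      refine ⟨N, hN, ⟨?_, ?_⟩, hidx⟩
      · -- g2 acts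
        have hfpf : MonoidHom.FixedPointFree (MulAut.conjNormal (H := N) g2) := by
          intro x hx
          by_contra hx1
          have h1 : g2 * (x : G) * g2⁻¹ = x := by
            have := congrArg (fun t : N => (t : G)) hx
            simpa using this
          exact hno g2 x hg2 (hN3 x x.2 (fun h2 => hx1 (Subtype.ext h2))) (by
            show g2 * (x : G) = x * g2
            rw [mul_inv_eq_iff_eq_mul] at h1; exact h1)
        have hinv : Function.Involutive (MulAut.conjNormal (H := N) g2) := by
          intro x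
          apply Subtype.ext
          have h1 : g2 * g2 = 1 := by rw [← pow_two, ← hg2, pow_orderOf_eq_one]
          have h2 : g2⁻¹ = g2 := inv_eq_of_mul_eq_one_left h1
          rw [MulAut.conjNormal_apply, MulAut.conjNormal_apply, h2]
          rw [show g2 * (g2 * (x : G) * g2) * g2 = (g2 * g2) * x * (g2 * g2) by group, h1]
          simp
        exact ⟨⟨fun x y => hfpf.commute_all_of_involutive hinv x y⟩⟩
      · intro x hx
        by_cases hx1 : x = 1
        · simp [hx1]
        · rw [← hN3 x hx hx1, pow_orderOf_eq_one]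

end Cfsg.Agent.S4005
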