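import Cfsg.Statements.S4200
import Mathlib

set_option autoImplicit false
open Cfsg

namespace Cfsg.Agent.S4200

/-- Let Y be a subgroup of the finite group X, of index m. Then the numbers of conjugacy classes satisfy k(Y) ≤ m·k(X) and k(X) ≤ m·k(Y), and the second inequality is strict unless Y is normal in X. -/
theorem result {X : Type*} [Group X] [Finite X] (Y : Subgroup X) : Nat.card (ConjClasses Y) ≤ Y.index * Nat.card (ConjClasses X) ∧ Nat.card (ConjClasses X) ≤ Y.index * Nat.card (ConjClasses Y) ∧ (¬ Y.Normal → Nat.card (ConjClasses X) < Y.index * Nat.card (ConjClasses Y)) := by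
  classical
  have h0 := card_comm_eq_card_conjClasses_mul_card X
  have h1 := card_comm_eq_card_conjClasses_mul_card Y
  have hX : Y.index * Nat.card Y = Nat.card X := Subgroup.index_mul_card Y
  have posY : 0 < Nat.card Y := Nat.card_pos
  have posI : 0 < Y.index := Nat.pos_of_ne_zero Subgroup.index_ne_zero_of_finite
  have hf : ∀ (x : X) (q : X ⧸ Y), ∃ z : X, (∃ y : X, (y : X ⧸ Y) = q ∧ Commute x y) → ((z : X ⧸ Y) = q ∧ Commute x z) := by
    intro x q
    by_cases h : ∃ y : X, (y : X ⧸ Y) = q ∧ Commute x y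
    · obtain ⟨y, hy⟩ := h
      exact ⟨y, fun _ => hy⟩
    · exact ⟨1, fun h' => absurd h' h⟩
  choose f hf using hf
  have m1 : ∀ x y : X, Commute x y → (f x y)⁻¹ * y ∈ Y ∧ Commute x ((f x y)⁻¹ * y) := by
    intro x y hxy
    obtain ⟨a, b⟩ := hf x y ⟨y, rfl, hxy⟩
    exact ⟨QuotientGroup.eq.mp a, (b.inv_right).mul_right hxy⟩
  have m2 : ∀ x y : X, Commute x y → (f ((f x y)⁻¹ * y) x)⁻¹ * x ∈ Y ∧
      Commute ((f ((f x y)⁻¹ * y) x)⁻¹ * x) ((f x y)⁻¹ * y) := by
    intro x y hxy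
    have := m1 _ x (m1 x y hxy).2.symm
    exact ⟨this.1, this.2.symm⟩
  let φ : {p : X × X // Commute p.1 p.2} → ((X ⧸ Y) × (X ⧸ Y)) × {p : Y × Y // Commute p.1 p.2} :=
    fun p => (((p.1.1 : X ⧸ Y), (p.1.2 : X ⧸ Y)),
      ⟨(⟨_, (m2 p.1.1 p.1.2 p.2).1⟩, ⟨_, (m1 p.1.1 p.1.2 p.2).1⟩), by
        apply Subtype.ext; exact (m2 p.1.1 p.1.2 p.2).2⟩)
  have hφ : Function.Injective φ := by
    rintro ⟨⟨x, y⟩, hxy⟩ ⟨⟨x', y'⟩, hxy'⟩ h
    have a1 : (x : X ⧸ Y) = x' := congrArg (fun t => t.1.1) h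
    have a2 : (y : X ⧸ Y) = y' := congrArg (fun t => t.1.2) h
    have a3 : (f x y)⁻¹ * y = (f x' y')⁻¹ * y' := congrArg (fun t => (t.2.1.2 : X)) h
    have a4 : (f ((f x y)⁻¹ * y) x)⁻¹ * x = (f ((f x' y')⁻¹ * y') x')⁻¹ * x' := congrArg (fun t => (t.2.1.1 : X)) h
    rw [a3, a1] at a4
    have a5 : x = x' := mul_left_cancel a4
    subst a5
    rw [a2] at a3
    have a6 : y = y' := mul_left_cancel a3
    subst a6
    rfl
  have h3 := Nat.card_le_card_of_injective φ hφ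
  have e3 : Nat.card (((X ⧸ Y) × (X ⧸ Y)) × {p : Y × Y // Commute p.1 p.2}) =
      (Y.index * Nat.card (ConjClasses Y)) * Nat.card X := by
    rw [Nat.card_prod, Nat.card_prod, h1, ← hX]
    show Y.index * Y.index * _ = _
    ring
  have posX : 0 < Nat.card X := Nat.card_pos
  refine ⟨?_, ?_, ?_⟩
  · have h4 : Nat.card {p : Y × Y // Commute p.1 p.2} ≤ Nat.card {p : X × X // Commute p.1 p.2} := by
      apply Nat.card_le_card_of_injective
        (fun p => (⟨((p.1.1 : X), (p.1.2 : X)), by have := congrArg Subtype.val p.2.eq; exact this⟩ : {p : X × X // Commute p.1 p.2}))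
      rintro ⟨⟨x, y⟩, hxy⟩ ⟨⟨x', y'⟩, hxy'⟩ h
      have a1 : x = x' := Subtype.ext (congrArg (fun t => t.1.1) h)
      have a2 : y = y' := Subtype.ext (congrArg (fun t => t.1.2) h)
      subst a1; subst a2; rfl
    rw [h0, h1, ← hX] at h4
    apply Nat.le_of_mul_le_mul_right _ posY
    calc _ ≤ _ := h4
      _ = _ := by ring
  · rw [h0, e3] at h3
    exact Nat.le_of_mul_le_mul_right h3 posX
  · intro hN
    by_contra hcon
    push Not at hcon
    have h4 : Nat.card {p : X × X // Commute p.1 p.2} = Nat.card (((X ⧸ Y) × (X ⧸ Y)) × {p : Y × Y // Commute p.1 p.2}) := by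
      apply le_antisymm h3
      rw [h0, e3]
      exact Nat.mul_le_mul_right _ hcon
    have hb := (Nat.bijective_iff_injective_and_card φ).mpr ⟨hφ, h4⟩
    apply hN
    constructor
    intro m hm x
    obtain ⟨p, hp⟩ := hb.2 (((x⁻¹ : X), (1 : X)), ⟨(⟨1, Y.one_mem⟩, ⟨m, hm⟩), Commute.one_left _⟩)
    obtain ⟨⟨a, b⟩, hab⟩ := p
    have a1 : (a : X ⧸ Y) = (x⁻¹ : X) := congrArg (fun t => t.1.1) hp
    have a2 : (f a b)⁻¹ * b = m := congrArg (fun t => (t.2.1.2 : X)) hp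
    have a3 := (m1 a b hab).2
    rw [a2] at a3
    rw [QuotientGroup.eq] at a1
    -- a commutes with m, a⁻¹ * x⁻¹ ∈ Y
    have : x * m * x⁻¹ = (a⁻¹ * x⁻¹)⁻¹ * m * (a⁻¹ * x⁻¹) := by
      have e : a * m * a⁻¹ = m := by rw [a3.eq]; group
      calc x * m * x⁻¹ = x * (a * m * a⁻¹) * x⁻¹ := by rw [e]
        _ = _ := by group
    rw [this]
    exact Y.mul_mem (Y.mul_mem (Y.inv_mem a1) hm) a1

end Cfsg.Agent.S4200
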