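import Cfsg.Statements.S4201
import Mathlib

set_option autoImplicit false
open Cfsg

namespace Cfsg.Agent.S4201

/-- If N is a normal subgroup of the finite group X then k(X) ≤ k(N)·k(X ⧸ N), where k denotes the number of conjugacy classes. -/
theorem result {X : Type*} [Group X] [Finite X] (N : Subgroup X) [N.Normal] : Nat.card (ConjClasses X) ≤ Nat.card (ConjClasses N) * Nat.card (ConjClasses (X ⧸ N)) := by
  classical
  have h0 := card_comm_eq_card_conjClasses_mul_card X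
  have h1 := card_comm_eq_card_conjClasses_mul_card N
  have h2 := card_comm_eq_card_conjClasses_mul_card (X ⧸ N)
  have hX : Nat.card X = Nat.card (X ⧸ N) * Nat.card N := Subgroup.card_eq_card_quotient_mul_card_subgroup N
  have hf : ∀ (x : X) (q : X ⧸ N), ∃ z : X, (∃ y : X, (y : X ⧸ N) = q ∧ Commute x y) → ((z : X ⧸ N) = q ∧ Commute x z) := by
    intro x q
    by_cases h : ∃ y : X, (y : X ⧸ N) = q ∧ Commute x y
    · obtain ⟨y, hy⟩ := h
      exact ⟨y, fun _ => hy⟩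
    · exact ⟨1, fun h' => absurd h' h⟩
  choose f hf using hf
  have m1 : ∀ x y : X, Commute x y → (f x y)⁻¹ * y ∈ N ∧ Commute x ((f x y)⁻¹ * y) := by
    intro x y hxy
    obtain ⟨a, b⟩ := hf x y ⟨y, rfl, hxy⟩
    exact ⟨QuotientGroup.eq.mp a, (b.inv_right).mul_right hxy⟩
  have m2 : ∀ x y : X, Commute x y → (f ((f x y)⁻¹ * y) x)⁻¹ * x ∈ N ∧
      Commute ((f ((f x y)⁻¹ * y) x)⁻¹ * x) ((f x y)⁻¹ * y) := by
    intro x y hxy
    have := m1 _ x (m1 x y hxy).2.symm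
    exact ⟨this.1, this.2.symm⟩
  let φ : {p : X × X // Commute p.1 p.2} → {p : (X ⧸ N) × (X ⧸ N) // Commute p.1 p.2} × {p : N × N // Commute p.1 p.2} :=
    fun p => (⟨((p.1.1 : X ⧸ N), (p.1.2 : X ⧸ N)), by
        show (p.1.1 : X ⧸ N) * (p.1.2 : X ⧸ N) = (p.1.2 : X ⧸ N) * (p.1.1 : X ⧸ N)
        rw [← QuotientGroup.mk_mul, ← QuotientGroup.mk_mul, p.2.eq]⟩,
      ⟨(⟨_, (m2 p.1.1 p.1.2 p.2).1⟩, ⟨_, (m1 p.1.1 p.1.2 p.2).1⟩), by
        apply Subtype.ext; exact (m2 p.1.1 p.1.2 p.2).2⟩)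
  have hφ : Function.Injective φ := by
    rintro ⟨⟨x, y⟩, hxy⟩ ⟨⟨x', y'⟩, hxy'⟩ h
    have a1 : (x : X ⧸ N) = x' := congrArg (fun t => t.1.1.1) h
    have a2 : (y : X ⧸ N) = y' := congrArg (fun t => t.1.1.2) h
    have a3 : (f x y)⁻¹ * y = (f x' y')⁻¹ * y' := congrArg (fun t => (t.2.1.2 : X)) h
    have a4 : (f ((f x y)⁻¹ * y) x)⁻¹ * x = (f ((f x' y')⁻¹ * y') x')⁻¹ * x' := congrArg (fun t => (t.2.1.1 : X)) h
    rw [a3, a1] at a4
    have a5 : x = x' := mul_left_cancel a4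
    subst a5
    rw [a2] at a3
    have a6 : y = y' := mul_left_cancel a3
    subst a6
    rfl
  have h3 := Nat.card_le_card_of_injective φ hφ
  rw [Nat.card_prod, h0, h1, h2, hX] at h3
  have p1 : 0 < Nat.card (X ⧸ N) * Nat.card N := Nat.mul_pos Nat.card_pos Nat.card_pos
  apply Nat.le_of_mul_le_mul_right _ p1
  calc _ ≤ _ := h3
    _ = _ := by ring

end Cfsg.Agent.S4201
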