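import Cfsg.Statements.S4203
import Mathlib
import Cfsg.Agent.H3.Basic
import Cfsg.Agent.H3.SwapOrb
import Cfsg.Agent.H4.Burnside

set_option autoImplicit false
open Cfsg

namespace Cfsg.Agent.S4203

open Subgroup Cfsg.Agent.H3

theorem index_modEq_one {A : Type*} [Group A] [Finite A] {p : ℕ} [Fact p.Prime] (P : Sylow p A)
    (K : Subgroup A) (hK : normalizer ((P : Subgroup A) : Set A) ≤ K) : K.index ≡ 1 [MOD p] := by
  have hPK : (P : Subgroup A) ≤ K := le_normalizer.trans hK
  have h1 := P.isPGroup'.card_modEq_card_fixedPoints (A ⧸ K)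
  have h2 : Nat.card (MulAction.fixedPoints P (A ⧸ K)) = 1 := by
    rw [Nat.card_eq_one_iff_unique]
    have key : ∀ x ∈ MulAction.fixedPoints P (A ⧸ K), x = ((1 : A) : A ⧸ K) := by
      intro x hx
      induction x using QuotientGroup.induction_on with | _ g =>
      have h3 : ∀ y ∈ (P : Subgroup A), g⁻¹ * y * g ∈ K := by
        intro y hy
        have h4 : ((y * g : A) : A ⧸ K) = (g : A ⧸ K) := hx ⟨y, hy⟩
        have h5 := K.inv_mem (QuotientGroup.eq.mp h4)
        have h6 : ((y * g)⁻¹ * g)⁻¹ = g⁻¹ * y * g := by group
        rwa [h6] at h5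
      have h7 : ((g⁻¹ • P : Sylow p A) : Subgroup A) ≤ K := by
        intro z hz
        have h8 := (mem_smul_sylow_iff P g⁻¹ z).mp hz
        rw [inv_inv] at h8
        have h9 := h3 _ h8
        have : g⁻¹ * (g * z * g⁻¹) * g = z := by group
        rwa [this] at h9
      obtain ⟨k, hk⟩ := MulAction.exists_smul_eq K (P.subtype hPK) ((g⁻¹ • P).subtype h7)
      rw [Sylow.smul_subtype] at hk
      have h10 : k • P = g⁻¹ • P := Sylow.subtype_injective hk
      have h11 : (g * k) • P = P := by
        rw [mul_smul]
        have : (k : A) • P = k • P := rfl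
        rw [this, h10, smul_inv_smul]
      have h12 : g * k ∈ K := hK (Sylow.smul_eq_iff_mem_normalizer.mp h11)
      rw [QuotientGroup.eq]
      have h13 : g ∈ K := by
        have := K.mul_mem h12 (K.inv_mem k.2)
        rwa [mul_inv_cancel_right] at this
      rw [mul_one]
      exact K.inv_mem h13
    constructor
    · constructor
      intro x y
      exact Subtype.ext ((key x x.2).trans (key y y.2).symm)
    · refine ⟨⟨((1 : A) : A ⧸ K), ?_⟩⟩
      intro y
      show (((y : A) * 1 : A) : A ⧸ K) = ((1 : A) : A ⧸ K)
      rw [QuotientGroup.eq]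
      simpa using hPK y.2
  rw [h2] at h1
  exact h1

theorem key : ∀ (n : ℕ) (G : Type*) [Group G] [Finite G] (_ : Nat.card G = n)
    (_ : ∀ M : Subgroup G, IsCoatom M → ∃ p : ℕ, p.Prime ∧ (M.index = p ∨ M.index = p ^ 2)),
    Group.IsSolvable G := by
  intro n
  induction n using Nat.strong_induction_on with | _ n ih =>
  intro G _ _ hn h
  rcases subsingleton_or_nontrivial G with hs | hs
  · infer_instance
  -- minimal normal subgroup
  obtain ⟨N, hN, hNmin⟩ : ∃ N : Subgroup G, (N.Normal ∧ N ≠ ⊥) ∧ ∀ M : Subgroup G, (M.Normal ∧ M ≠ ⊥) → M ≤ N → M = N := by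
    have hfin : (Set.univ : Set (Subgroup G)).Finite := Set.toFinite _
    have hne : {N : Subgroup G | N.Normal ∧ N ≠ ⊥}.Nonempty := ⟨⊤, inferInstance, bot_ne_top.symm⟩
    obtain ⟨N, hN⟩ := (Set.toFinite {N : Subgroup G | N.Normal ∧ N ≠ ⊥}).exists_minimal hne
    exact ⟨N, hN.1, fun M hM hMN => le_antisymm hMN (hN.2 hM hMN)⟩
  have hNn := hN.1
  -- quotient solvable
  have hq : Group.IsSolvable (G ⧸ N) := by
    apply ih (Nat.card (G ⧸ N)) ?_ (G ⧸ N) rfl
    · intro M hM
      have hs := QuotientGroup.mk'_surjective N
      have h1 := Subgroup.isCoatom_comap_of_surjective hs hM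
      obtain ⟨p, hp, h2⟩ := h _ h1
      rw [Subgroup.index_comap_of_surjective _ hs] at h2
      exact ⟨p, hp, h2⟩
    · have h1 := N.card_mul_index
      have h2 : 1 < Nat.card N := (Subgroup.one_lt_card_iff_ne_bot N).mpr hN.2
      have h3 : N.index = Nat.card (G ⧸ N) := rfl
      have h4 : 0 < Nat.card (G ⧸ N) := Nat.card_pos
      rw [h3, hn] at h1
      nlinarith
  suffices hNs : Group.IsSolvable N by
    exact Group.isSolvable_of_ker_le_range N.subtype (QuotientGroup.mk' N) (by simp)
  -- the largest prime divisor
  have hcN : 1 < Nat.card N := (Subgroup.one_lt_card_iff_ne_bot N).mpr hN.2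
  have hpf : (Nat.card N).primeFactors.Nonempty := Nat.nonempty_primeFactors.mpr hcN
  set p := (Nat.card N).primeFactors.max' hpf with hpdef
  have hpmem := (Nat.card N).primeFactors.max'_mem hpf
  rw [← hpdef, Nat.mem_primeFactors] at hpmem
  have hp := hpmem.1
  have hpmax : ∀ q : ℕ, q.Prime → q ∣ Nat.card N → q ≤ p := by
    intro q hq hqd
    exact Finset.le_max' _ _ (Nat.mem_primeFactors.mpr ⟨hq, hqd, Nat.card_pos.ne'⟩)
  have := Fact.mk hp
  obtain ⟨P⟩ := (inferInstance : Nonempty (Sylow p N))
  have hFr := Sylow.normalizer_sup_eq_top P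
  by_cases htop : normalizer (((P : Subgroup N).map N.subtype : Subgroup G) : Set G) = ⊤
  · -- N is a p-group
    have hPn : ((P : Subgroup N).map N.subtype).Normal := Subgroup.normalizer_eq_top_iff.mp htop
    have hP1 : (P : Subgroup N).map N.subtype ≠ ⊥ := by
      intro h1
      rw [Subgroup.map_eq_bot_iff_of_injective _ N.subtype_injective] at h1
      have h2 := P.dvd_card_of_dvd_card hpmem.2.1
      rw [h1, Subgroup.card_bot] at h2
      exact hp.one_lt.ne' (Nat.dvd_one.mp h2)
    have h1 := hNmin _ ⟨hPn, hP1⟩ (Subgroup.map_subtype_le _)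
    have h2 : (P : Subgroup N) = ⊤ := by
      apply Subgroup.map_injective N.subtype_injective
      rw [h1, ← MonoidHom.range_eq_map, Subgroup.range_subtype]
    have h3 : IsPGroup p N := by
      have := P.isPGroup'
      rw [h2] at this
      exact IsPGroup.of_equiv this Subgroup.topEquiv
    have := h3.isNilpotent
    infer_instance
  · obtain ⟨M, hM, hle⟩ := (eq_top_or_exists_le_coatom (normalizer (((P : Subgroup N).map N.subtype : Subgroup G) : Set G))).resolve_left htop
    have hMN : M ⊔ N = ⊤ := top_le_iff.mp (hFr ▸ sup_le_sup_right hle N)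
    have hidx : M.relIndex N = M.index := by
      have e1 : N.index = N.relIndex M := by
        have := Subgroup.relIndex_sup_right M N
        rw [hMN, Subgroup.relIndex_top_right] at this
        exact this
      have e2 := relIndex_mul_card_inf N M
      have e3 := relIndex_mul_card_inf M N
      have e4 := N.card_mul_index
      have e5 := M.card_mul_index
      rw [inf_comm] at e3
      have hpos : 0 < Nat.card M := Nat.card_pos
      apply Nat.eq_of_mul_eq_mul_left hpos
      rw [e5, ← e4, ← e3, e1, ← e2]
      ring
    have hmod : M.relIndex N ≡ 1 [MOD p] := by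
      apply index_modEq_one P (M.subgroupOf N)
      intro x hx
      rw [Subgroup.mem_subgroupOf]
      apply hle
      exact Subgroup.le_normalizer_map N.subtype (Subgroup.mem_map_of_mem N.subtype hx)
    obtain ⟨q, hq, hqi⟩ := h M hM
    have hqd : q ∣ M.relIndex N := by
      rw [hidx]
      rcases hqi with h1 | h1
      · rw [h1]
      · rw [h1]; exact dvd_pow_self q two_ne_zero
    have hqN : q ∣ Nat.card N := hqd.trans (Subgroup.relIndex_dvd_card M N)
    have hqp := hpmax q hq hqN
    have hqne : q ≠ p := by
      rintro rfl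
      have h1 := (Nat.modEq_zero_iff_dvd).mpr hqd
      have h2 := h1.symm.trans hmod
      have h3 := (Nat.modEq_iff_dvd' (Nat.zero_le 1)).mp h2
      exact hp.one_lt.ne' (Nat.dvd_one.mp h3)
    have hqlt : q < p := lt_of_le_of_ne hqp hqne
    have hq2 := hq.two_le
    rw [hidx] at hmod
    rcases hqi with h1 | h1
    · exfalso
      rw [h1] at hmod
      have h3 := (Nat.modEq_iff_dvd' (by omega)).mp hmod.symm
      have := Nat.le_of_dvd (by omega) h3
      omega
    · rw [h1] at hmod
      have h3 := (Nat.modEq_iff_dvd' (Nat.one_le_pow _ _ (by omega))).mp hmod.symm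
      have h4 : q ^ 2 - 1 = (q + 1) * (q - 1) := by
        have := Nat.sq_sub_sq q 1
        rw [one_pow] at this
        exact this
      rw [h4] at h3
      rcases (Nat.Prime.dvd_mul hp).mp h3 with h5 | h5
      · have h6 := Nat.le_of_dvd (by omega) h5
        have h7 : p = q + 1 := by omega
        have h8 : q = 2 := by
          rcases hq.eq_two_or_odd' with h | h
          · exact h
          · exfalso
            have h9 : Even p := by rw [h7]; exact h.add_one
            have h10 := (Nat.Prime.even_iff hp).mp h9
            omega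
        have h11 : p = 3 := by omega
        obtain ⟨i, j, hij⟩ := eq_two_pow_mul_three_pow (Nat.card N) Nat.card_pos.ne' (by
          intro r hr hrd
          have h12 := hpmax r hr hrd
          rw [h11] at h12
          interval_cases r
          · exact absurd hr (by norm_num)
          · exact absurd hr (by norm_num)
          · left; rfl
          · right; rfl)
        exact Cfsg.Agent.H4.burnside_paqb_aux _ _ 2 3 i j (by norm_num) (by norm_num) hij rfl
      · have h6 := Nat.le_of_dvd (by omega) h5
        omega

/-- A finite group in which every maximal subgroup has index a prime or the square of a prime is solvable. -/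
theorem result {G : Type*} [Group G] [Finite G] (h : ∀ M : Subgroup G, IsCoatom M → ∃ p : ℕ, p.Prime ∧ (M.index = p ∨ M.index = p ^ 2)) : Group.IsSolvable G := by
  exact key _ G rfl h

end Cfsg.Agent.S4203
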