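import Cfsg.Statements.S4205
import Mathlib

set_option autoImplicit false
open Cfsg

namespace Cfsg.Agent.S4205

/-- In a finite group whose upper central series reaches the whole group at step `c` (nilpotent of class at most `c`), starting from any subgroup and taking normalizers `c` times reaches the whole group. -/
theorem result {G : Type*} [Group G] [Finite G] (c : ℕ) (hG : Subgroup.upperCentralSeries G c = ⊤) (H : Subgroup G) : (fun K : Subgroup G => Subgroup.normalizer (K : Set G))^[c] H = ⊤ := by
  have key : ∀ i : ℕ, Subgroup.upperCentralSeries G i ≤
      (fun K : Subgroup G => Subgroup.normalizer (K : Set G))^[i] H := by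
    intro i
    induction i with
    | zero => simp
    | succ i ih =>
      rw [Function.iterate_succ_apply']
      intro x hx
      rw [Subgroup.mem_normalizer_iff]
      have hx' := (Subgroup.mem_upperCentralSeries_succ_iff (G := G)).mp hx
      have hxi : x⁻¹ ∈ Subgroup.upperCentralSeries G (i + 1) := Subgroup.inv_mem _ hx
      have hxi' := (Subgroup.mem_upperCentralSeries_succ_iff (G := G)).mp hxi
      intro h
      constructor
      · intro hh
        have h1 := ih (hx' h)
        have : x * h * x⁻¹ = (x * h * x⁻¹ * h⁻¹) * h := by group
        rw [this]
        exact Subgroup.mul_mem _ h1 hh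
      · intro hh
        have h1 := ih (hxi' (x * h * x⁻¹))
        have : h = (x⁻¹ * (x * h * x⁻¹) * x⁻¹⁻¹ * (x * h * x⁻¹)⁻¹) * (x * h * x⁻¹) := by group
        rw [this]
        exact Subgroup.mul_mem _ h1 hh
  have := key c
  rw [hG] at this
  exact top_le_iff.mp this

end Cfsg.Agent.S4205
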