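import Cfsg.Statements.S4213
import Cfsg.Agent.H3.FrobSol2
import Cfsg.Agent.H2.Basic
import Mathlib

set_option autoImplicit false
open Cfsg

namespace Cfsg.Agent.S4213

open Subgroup
universe u

theorem cnt {G : Type*} [Group G] [Finite G] (M : Subgroup G) [M.Normal] (k n : ℕ) (h : ∀ x : G, x ^ k ∈ M → x ^ n = 1) :
    Nat.card {y : G ⧸ M // y ^ k = 1} * Nat.card M ≤ Nat.card {x : G // x ^ n = 1} := by
  rw [← Nat.card_prod]
  have hmk : ∀ (y : G ⧸ M) (m : M), ((y.out * m : G) : G ⧸ M) = y := by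
    intro y m
    rw [QuotientGroup.mk_mul, (QuotientGroup.eq_one_iff (m : G)).2 m.2, mul_one]
    exact Quotient.out_eq' y
  let f : {y : G ⧸ M // y ^ k = 1} × M → {x : G // x ^ n = 1} := fun z => ⟨z.1.1.out * z.2, by
    apply h
    rw [← QuotientGroup.eq_one_iff, QuotientGroup.mk_pow, hmk]
    exact z.1.2⟩
  refine Nat.card_le_card_of_injective f ?_
  rintro ⟨⟨y, hy⟩, m⟩ ⟨⟨y', hy'⟩, m'⟩ hz
  have h1 : (y.out * m : G) = y'.out * m' := congrArg Subtype.val hz
  have h2 : y = y' := by rw [← hmk y m, h1, hmk]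
  subst h2
  have h3 := mul_left_cancel h1
  have h4 : m = m' := Subtype.ext h3
  subst h4
  rfl

theorem main (N : ℕ) : ∀ (G : Type u) [Group G] [Finite G], Group.IsSolvable G → Nat.card G ≤ N → ∀ n, n ∣ Nat.card G →
    Nat.card {x : G // x ^ n = 1} = n → ∃ H : Subgroup G, Nat.card H = n ∧ ∀ x ∈ H, x ^ n = 1 := by
  induction N with
  | zero =>
    intro G _ _ _ h
    have : 0 < Nat.card G := Nat.card_pos
    omega
  | succ N IH =>
    intro G _ _ hs hN n hn hcount
    rcases subsingleton_or_nontrivial G with hsub | hnt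
    · have h1 : Nat.card G = 1 := Nat.card_unique
      rw [h1, Nat.dvd_one] at hn
      exact ⟨⊥, by rw [Subgroup.card_bot, hn], fun x _ => Subsingleton.elim _ _⟩
    obtain ⟨p, M, hp, hMn, -, hM1, hMc, hMp⟩ := H2.exists_elemAb_normal (⊤ : Subgroup G) top_ne_bot inferInstance
    haveI : Fact p.Prime := ⟨hp⟩
    have hMP : IsPGroup p M := fun x => ⟨1, Subtype.ext (by rw [pow_one]; exact hMp x x.2)⟩
    haveI : Nontrivial M := (Subgroup.nontrivial_iff_ne_bot M).2 hM1
    obtain ⟨b, hb0, hb⟩ := (IsPGroup.nontrivial_iff_card hMP).1 inferInstance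
    have hcard : Nat.card G = Nat.card (G ⧸ M) * p ^ b := by rw [← hb]; exact Subgroup.card_eq_card_quotient_mul_card_subgroup M
    have hlt : Nat.card (G ⧸ M) ≤ N := by
      have h1 : 2 ≤ p ^ b := by
        calc 2 ≤ p := hp.two_le
          _ = p ^ 1 := (pow_one p).symm
          _ ≤ p ^ b := Nat.pow_le_pow_right hp.pos hb0
      have h2 : 0 < Nat.card (G ⧸ M) := Nat.card_pos
      have h3 : Nat.card (G ⧸ M) * 2 ≤ Nat.card G := by rw [hcard]; exact Nat.mul_le_mul_left _ h1
      omega
    have hn0 : 0 < n := Nat.pos_of_dvd_of_pos hn Nat.card_pos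
    haveI hsq : Group.IsSolvable (G ⧸ M) := inferInstance
    have hpos : ∀ k : ℕ, 0 < Nat.card {y : G ⧸ M // y ^ k = 1} := fun k => by
      haveI : Nonempty {y : G ⧸ M // y ^ k = 1} := ⟨⟨1, one_pow k⟩⟩
      exact Nat.card_pos
    have hcomap : ∀ H' : Subgroup (G ⧸ M), Nat.card (H'.comap (QuotientGroup.mk' M)) = Nat.card H' * p ^ b := by
      intro H'
      have e1 := Subgroup.card_mul_index (H'.comap (QuotientGroup.mk' M))
      rw [Subgroup.index_comap_of_surjective _ (QuotientGroup.mk'_surjective M), hcard, ← Subgroup.card_mul_index H'] at e1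
      have e2 : 0 < H'.index := Nat.pos_of_ne_zero Subgroup.index_ne_zero_of_finite
      apply Nat.eq_of_mul_eq_mul_right e2
      rw [e1]; ring
    by_cases hpn : p ∣ n
    · obtain ⟨a, m, hm, hnam⟩ := Nat.exists_eq_pow_mul_and_not_dvd hn0.ne' p hp.one_lt.ne'
      have ha : 1 ≤ a := by
        by_contra h
        have : a = 0 := by omega
        rw [this, pow_zero, one_mul] at hnam
        exact hm (hnam ▸ hpn)
      by_cases hba : b ≤ a
      · obtain ⟨c, rfl⟩ := Nat.exists_eq_add_of_le hba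
        have hn' : n = (p ^ c * m) * p ^ b := by rw [hnam, pow_add]; ring
        have hdvd : (p ^ c * m) ∣ Nat.card (G ⧸ M) := by
          rw [hn', hcard] at hn
          exact Nat.dvd_of_mul_dvd_mul_right (pow_pos hp.pos b) hn
        have himp : ∀ x : G, x ^ (p ^ c * m) ∈ M → x ^ n = 1 := by
          intro x hx
          obtain ⟨d, rfl⟩ := Nat.exists_eq_succ_of_ne_zero hb0.ne'
          rw [hn', pow_mul, pow_succ, mul_comm (p ^ d) p, pow_mul, hMp _ hx, one_pow]
        have h1 := cnt M _ n himp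
        rw [hcount, hb] at h1
        have h2 := H3.frob_sol (G := G ⧸ M) _ hdvd
        have h3 := Nat.le_of_dvd (hpos _) h2
        have h4 : Nat.card {y : G ⧸ M // y ^ (p ^ c * m) = 1} = p ^ c * m := by
          refine le_antisymm ?_ h3
          rw [hn'] at h1
          exact Nat.le_of_mul_le_mul_right h1 (pow_pos hp.pos b)
        obtain ⟨H', hH'1, hH'2⟩ := IH (G ⧸ M) hsq hlt _ hdvd h4
        refine ⟨H'.comap (QuotientGroup.mk' M), by rw [hcomap, hH'1, ← hn'], fun x hx => himp x ?_⟩
        rw [← QuotientGroup.eq_one_iff, QuotientGroup.mk_pow]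
        exact hH'2 _ hx
      · exfalso
        have hmd : m ∣ Nat.card (G ⧸ M) := by
          have h1 : m ∣ Nat.card (G ⧸ M) * p ^ b := by rw [← hcard]; exact (Dvd.intro_left _ hnam.symm).trans hn
          exact Nat.Coprime.dvd_of_dvd_mul_right (Nat.Coprime.pow_right b ((Nat.Prime.coprime_iff_not_dvd hp).2 hm).symm) h1
        have himp : ∀ x : G, x ^ m ∈ M → x ^ n = 1 := by
          intro x hx
          obtain ⟨d, rfl⟩ := Nat.exists_eq_add_of_le ha
          rw [hnam, mul_comm, pow_mul, add_comm 1 d, pow_succ, mul_comm (p ^ d) p, pow_mul, hMp _ hx, one_pow]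
        have h1 := cnt M _ n himp
        rw [hcount, hb] at h1
        have h3 := Nat.le_of_dvd (hpos _) (H3.frob_sol (G := G ⧸ M) _ hmd)
        have h4 : m * p ^ b ≤ p ^ a * m := by
          calc m * p ^ b ≤ _ := Nat.mul_le_mul_right _ h3
            _ ≤ n := h1
            _ = _ := hnam
        have hm0 : 0 < m := Nat.pos_of_ne_zero (fun h => hm (h ▸ dvd_zero p))
        rw [mul_comm] at h4
        have h5 := Nat.le_of_mul_le_mul_right h4 hm0
        have h6 : p ^ a < p ^ b := Nat.pow_lt_pow_right hp.one_lt (by omega)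
        omega
    · have hcop : n.Coprime p := ((Nat.Prime.coprime_iff_not_dvd hp).2 hpn).symm
      have hdvd : n ∣ Nat.card (G ⧸ M) := by
        rw [hcard] at hn
        exact Nat.Coprime.dvd_of_dvd_mul_right (Nat.Coprime.pow_right b hcop) hn
      have h3 := Nat.le_of_dvd (hpos _) (H3.frob_sol (G := G ⧸ M) _ hdvd)
      obtain ⟨j, hj⟩ : ∃ j : ℕ, p ∣ 1 + n * j := by
        obtain ⟨j, hj⟩ := Nat.exists_mul_mod_eq_one_of_coprime hcop hp.one_lt
        refine ⟨j * (p - 1), ?_⟩
        have h7 : (n * j) ≡ 1 [MOD p] := by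
          unfold Nat.ModEq
          rw [hj.2, Nat.mod_eq_of_lt hp.one_lt]
        have h8 : 1 + n * (j * (p - 1)) ≡ 1 + 1 * (p - 1) [MOD p] := by
          rw [← mul_assoc]
          exact Nat.ModEq.add_left 1 (Nat.ModEq.mul_right _ h7)
        have h9 : 1 + 1 * (p - 1) = p := by have := hp.one_lt; omega
        rw [h9] at h8
        exact (Nat.modEq_zero_iff_dvd).1 (h8.trans (Nat.modEq_zero_iff_dvd.2 dvd_rfl))
      have hlift : ∀ y : G ⧸ M, y ^ n = 1 → ∃ x : G, x ^ n = 1 ∧ (x : G ⧸ M) = y := by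
        intro y hy
        obtain ⟨g, rfl⟩ := QuotientGroup.mk_surjective y
        have hg : g ^ n ∈ M := by rw [← QuotientGroup.eq_one_iff, QuotientGroup.mk_pow]; exact hy
        refine ⟨g ^ (1 + n * j), ?_, ?_⟩
        · obtain ⟨t, ht⟩ := hj
          rw [← pow_mul, mul_comm, pow_mul, ht, pow_mul, hMp _ hg, one_pow]
        · rw [QuotientGroup.mk_pow, pow_add, pow_one, pow_mul, hy, one_pow, mul_one]
      choose! f hf1 hf2 using hlift
      have h5 : Nat.card {y : G ⧸ M // y ^ n = 1} ≤ Nat.card {x : G // x ^ n = 1} := by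
        refine Nat.card_le_card_of_injective (fun y => ⟨f y.1, hf1 y.1 y.2⟩) ?_
        intro y y' hyy
        have := congrArg Subtype.val hyy
        simp only at this
        exact Subtype.ext (by rw [← hf2 y.1 y.2, this, hf2 y'.1 y'.2])
      rw [hcount] at h5
      obtain ⟨H', hH'1, hH'2⟩ := IH (G ⧸ M) hsq hlt _ hdvd (le_antisymm h5 h3)
      have hMH : M ≤ H'.comap (QuotientGroup.mk' M) := by
        intro x hx
        rw [Subgroup.mem_comap, show QuotientGroup.mk' M x = 1 from (QuotientGroup.eq_one_iff x).2 hx]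
        exact one_mem _
      obtain ⟨H, hH⟩ : ∃ H, H = H'.comap (QuotientGroup.mk' M) := ⟨_, rfl⟩
      rw [← hH] at hMH
      have hHc : Nat.card H = n * p ^ b := by rw [hH, hcomap, hH'1]
      have hMc' : Nat.card (M.subgroupOf H) = p ^ b := by
        rw [← hb]; exact Nat.card_congr (Subgroup.subgroupOfEquivOfLe hMH).toEquiv
      have hidx : (M.subgroupOf H).index = n := by
        have := Subgroup.card_mul_index (M.subgroupOf H)
        rw [hMc', hHc, mul_comm n] at this
        exact Nat.eq_of_mul_eq_mul_left (pow_pos hp.pos b) this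
      obtain ⟨K, hK⟩ := Subgroup.exists_right_complement'_of_coprime (N := M.subgroupOf H) (by
        rw [hMc', hidx]; exact Nat.Coprime.pow_left b hcop.symm)
      have hKc : Nat.card K = n := by rw [← hidx]; exact hK.symm.index_eq_card.symm
      refine ⟨K.map H.subtype, ?_, ?_⟩
      · rw [← hKc]; exact Nat.card_congr (K.equivMapOfInjective _ H.subtype_injective).symm.toEquiv
      · rintro _ ⟨x, hx, rfl⟩
        have h6 : (⟨x, hx⟩ : K) ^ Nat.card K = 1 := pow_card_eq_one'
        rw [hKc] at h6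
        have h7 : x ^ n = 1 := congrArg Subtype.val h6
        rw [← map_pow, h7, map_one]

/-- If `G` is a finite solvable group and `n` divides the order of `G` and exactly `n` elements `x` of `G` satisfy `x^n = 1`, then these elements form a normal subgroup. -/
theorem result {G : Type*} [Group G] [Finite G] [Group.IsSolvable G] (n : ℕ) (hn : n ∣ Nat.card G) (hcount : Nat.card {x : G // x ^ n = 1} = n) : ∃ H : Subgroup G, H.Normal ∧ (H : Set G) = {x : G | x ^ n = 1} := by
  obtain ⟨H, hH1, hH2⟩ := main (Nat.card G) G inferInstance le_rfl n hn hcount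
  have hset : (H : Set G) = {x : G | x ^ n = 1} := by
    refine Set.eq_of_subset_of_ncard_le (fun x hx => hH2 x hx) ?_ (Set.toFinite _)
    have e1 : ({x : G | x ^ n = 1} : Set G).ncard = n := hcount
    have e2 : (H : Set G).ncard = n := by rw [← hH1]; rfl
    rw [e1, e2]
  refine ⟨H, ⟨fun x hx g => ?_⟩, hset⟩
  have h1 : g * x * g⁻¹ ∈ {x : G | x ^ n = 1} := by
    show (g * x * g⁻¹) ^ n = 1
    rw [conj_pow, hH2 x hx, mul_one, mul_inv_cancel]
  rw [← hset] at h1
  exact h1

end Cfsg.Agent.S4213
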