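import Cfsg.Statements.S4217
import Cfsg.Agent.H6.Gasch
import Mathlib

set_option autoImplicit false
open Cfsg

namespace Cfsg.Agent.S4217

open Pointwise Subgroup

theorem main : ∀ (n : ℕ) (G : Type*) [Group G] [Finite G] (A : Subgroup G) [A.Normal], Nat.card A ≤ n →
    (∀ a ∈ A, ∀ b ∈ A, a * b = b * a) →
    (∀ p : ℕ, p.Prime → ∃ U K : Subgroup G, A ≤ U ∧ ¬ p ∣ U.index ∧ K ≤ U ∧ K ⊓ A = ⊥ ∧ K ⊔ A = U) →
    ∃ K : Subgroup G, K ⊓ A = ⊥ ∧ K ⊔ A = ⊤ := by
  intro n
  induction n with
  | zero => 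
    intro G _ _ A _ h
    exact absurd h (by have : 0 < Nat.card A := Nat.card_pos
                       omega)
  | succ n ih =>
    intro G _ _ A hAn hAc hc hloc
    by_cases hA1 : A = ⊥
    · exact ⟨⊤, by rw [hA1, inf_bot_eq], by rw [top_sup_eq]⟩
    have hcard1 : Nat.card A ≠ 1 := fun h => hA1 (Subgroup.card_eq_one.1 h)
    obtain ⟨p, hp, hpA⟩ := Nat.exists_prime_and_dvd hcard1
    haveI : Fact p.Prime := ⟨hp⟩
    obtain ⟨k, r, hr, hkr⟩ := Nat.exists_eq_pow_mul_and_not_dvd (Nat.card_pos (α := A)).ne' p hp.one_lt.ne'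
    have hcop : (p ^ k).Coprime r := Nat.Coprime.pow_left k ((Nat.Prime.coprime_iff_not_dvd hp).2 hr)
    have mk : ∀ s : ℕ, ∃ L : Subgroup G, L.Normal ∧ ∀ x, x ∈ L ↔ x ∈ A ∧ x ^ s = 1 := by
      intro s
      refine ⟨{ carrier := {x | x ∈ A ∧ x ^ s = 1}
                one_mem' := ⟨one_mem _, one_pow _⟩
                mul_mem' := ?_
                inv_mem' := ?_ }, ⟨?_⟩, fun x => Iff.rfl⟩
      · rintro a b ⟨ha, ha1⟩ ⟨hb, hb1⟩
        refine ⟨mul_mem ha hb, ?_⟩
        have : Commute a b := hc a ha b hb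
        rw [this.mul_pow, ha1, hb1, one_mul]
      · rintro a ⟨ha, ha1⟩
        exact ⟨inv_mem ha, by rw [inv_pow, ha1, inv_one]⟩
      · rintro x ⟨hx, hx1⟩ g
        refine ⟨hAn.conj_mem x hx g, ?_⟩
        rw [conj_pow, hx1, mul_one, mul_inv_cancel]
    obtain ⟨P, hPn, hP⟩ := mk (p ^ k)
    obtain ⟨B, hBn, hB⟩ := mk r
    have hPB : P ⊓ B = ⊥ := by
      rw [eq_bot_iff]
      rintro x ⟨hx1, hx2⟩
      have h1 : orderOf x ∣ p ^ k := orderOf_dvd_of_pow_eq_one ((hP x).1 hx1).2
      have h2 : orderOf x ∣ r := orderOf_dvd_of_pow_eq_one ((hB x).1 hx2).2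
      exact orderOf_eq_one_iff.1 (Nat.eq_one_of_dvd_coprimes hcop h1 h2)
    have hBA : B ≤ A := fun x hx => ((hB x).1 hx).1
    have hPA : P ≤ A := fun x hx => ((hP x).1 hx).1
    have hcardpow : ∀ a ∈ A, a ^ (p ^ k * r) = 1 := by
      intro a ha
      rw [← hkr]
      exact congrArg Subtype.val (pow_card_eq_one' (x := (⟨a, ha⟩ : A)))
    have hAdec : ∀ a ∈ A, ∃ x ∈ P, ∃ b ∈ B, a = b * x := by
      intro a ha
      have hbez := Nat.gcd_eq_gcd_ab (p ^ k) r
      rw [hcop] at hbez
      refine ⟨a ^ ((r : ℤ) * Nat.gcdB (p ^ k) r), ?_, a ^ (((p ^ k : ℕ) : ℤ) * Nat.gcdA (p ^ k) r), ?_, ?_⟩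
      · rw [hP]
        refine ⟨zpow_mem ha _, ?_⟩
        rw [← zpow_natCast, ← zpow_mul, show (r : ℤ) * Nat.gcdB (p ^ k) r * ((p ^ k : ℕ) : ℤ) = ((p ^ k * r : ℕ) : ℤ) * Nat.gcdB (p ^ k) r by push_cast; ring, zpow_mul,
          zpow_natCast, hcardpow a ha, one_zpow]
      · rw [hB]
        refine ⟨zpow_mem ha _, ?_⟩
        rw [← zpow_natCast, ← zpow_mul, show ((p ^ k : ℕ) : ℤ) * Nat.gcdA (p ^ k) r * (r : ℤ) = ((p ^ k * r : ℕ) : ℤ) * Nat.gcdA (p ^ k) r by push_cast; ring, zpow_mul,
          zpow_natCast, hcardpow a ha, one_zpow]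
      · rw [← zpow_add, ← hbez, Nat.cast_one, zpow_one]
    have hBlt : Nat.card B < Nat.card A := by
      have hle := Subgroup.card_le_of_le hBA
      refine lt_of_le_of_ne hle fun heq => ?_
      have hBeq : B = A := Subgroup.eq_of_le_of_card_ge hBA heq.ge
      obtain ⟨x, hx⟩ := exists_prime_orderOf_dvd_card' p hpA
      have h1 : (x : G) ^ r = 1 := ((hB x).1 (hBeq ▸ x.2)).2
      have h2 : orderOf (x : G) = p := by rw [Subgroup.orderOf_coe]; exact hx
      exact hr (h2 ▸ orderOf_dvd_of_pow_eq_one h1)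
    -- step one: complement modulo B
    obtain ⟨U, K, hAU, hUp, hKU, hKA, hKAU⟩ := hloc p hp
    let π := QuotientGroup.mk' B
    have hπ : Function.Surjective π := QuotientGroup.mk'_surjective B
    have hπ1 : ∀ x, π x = 1 ↔ x ∈ B := fun x => QuotientGroup.eq_one_iff x
    haveI : (A.map π).Normal := hAn.map _ hπ
    obtain ⟨H', hH'1, hH'2⟩ := H6.gaschutz (K := A.map π) (U := U.map π) (A := K.map π) (by
        rintro _ ⟨a, ha, rfl⟩ _ ⟨b, hb, rfl⟩
        rw [← map_mul, ← map_mul, hc a ha b hb]) (Subgroup.map_mono hAU) (by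
        have h1 : IsPGroup p ↥(A.map π) := by
          rintro ⟨_, a, ha, rfl⟩
          refine ⟨k, Subtype.ext ?_⟩
          show (π a) ^ p ^ k = 1
          rw [← map_pow, hπ1, hB]
          exact ⟨pow_mem ha _, by rw [← pow_mul]; exact hcardpow a ha⟩
        obtain ⟨j, hj⟩ := h1.exists_card_eq
        have h2 : (U.map π).index = U.index := by
          have : (U.map π).index = U.index := Subgroup.index_map_eq U hπ (by rw [QuotientGroup.ker_mk']; exact hBA.trans hAU)
          exact this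
        rw [hj, h2]
        exact Nat.Coprime.pow_left j ((Nat.Prime.coprime_iff_not_dvd hp).2 hUp)) (Subgroup.map_mono hKU) (by
        rw [eq_bot_iff]
        rintro _ ⟨⟨x, hx, rfl⟩, ⟨a, ha, hax⟩⟩
        rw [Subgroup.mem_bot]
        have h1 : π (x⁻¹ * a) = 1 := by rw [map_mul, map_inv, hax, inv_mul_cancel]
        have h2 := hBA ((hπ1 _).1 h1)
        have h3 : x ∈ A := by
          have := mul_mem ha (inv_mem h2)
          have e : a * (x⁻¹ * a)⁻¹ = x := by group
          rwa [e] at this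
        have h4 : x ∈ K ⊓ A := ⟨hx, h3⟩
        rw [hKA, Subgroup.mem_bot] at h4
        rw [h4, map_one]) (by rw [sup_comm, ← Subgroup.map_sup, hKAU])
    let H : Subgroup G := H'.comap π
    have hBH : B ≤ H := fun x hx => by
      show π x ∈ H'
      rw [(hπ1 x).2 hx]; exact one_mem _
    have hHA : ∀ x ∈ H, x ∈ A → x ∈ B := by
      intro x hx hxA
      rw [← hπ1, ← Subgroup.mem_bot, ← hH'1]
      exact ⟨hx, ⟨x, hxA, rfl⟩⟩
    have hHAtop : H ⊔ A = ⊤ := by
      rw [Subgroup.eq_top_iff']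
      intro g
      obtain ⟨_, ⟨a, ha, rfl⟩, h, hh, hg⟩ := hH'2 (π g)
      have h1 : a⁻¹ * g ∈ H := by
        show π (a⁻¹ * g) ∈ H'
        rw [map_mul, map_inv, hg, inv_mul_cancel_left]; exact hh
      have h2 : g = a * (a⁻¹ * g) := by group
      rw [h2]
      exact mul_mem (Subgroup.mem_sup_right ha) (Subgroup.mem_sup_left h1)
    have hinfB : A ⊓ H = B := le_antisymm (fun x hx => hHA x hx.2 hx.1) (le_inf hBA hBH)
    haveI : (B.subgroupOf H).Normal := inferInstance
    obtain ⟨L, hL1, hL2⟩ := ih ↥H (B.subgroupOf H) (by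
        have : Nat.card (B.subgroupOf H) = Nat.card B := Nat.card_congr (Subgroup.subgroupOfEquivOfLe hBH).toEquiv
        rw [this]; omega) (by
        intro a ha b hb
        exact Subtype.ext (hc a (hBA ha) b (hBA hb))) (by
        intro q hq
        obtain ⟨U, K, hAU, hUq, hKU, hKA, hKAU⟩ := hloc q hq
        have hUH : (H ⊓ U) ⊔ A = U := by
          apply le_antisymm (sup_le inf_le_right hAU)
          intro u hu
          have : u ∈ A ⊔ H := by rw [sup_comm, hHAtop]; exact mem_top u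
          obtain ⟨a, ha, h, hh, rfl⟩ := Subgroup.mem_sup_of_normal_left.1 this
          have h1 : h ∈ U := by
            have := U.mul_mem (U.inv_mem (hAU ha)) hu
            rwa [inv_mul_cancel_left] at this
          exact mul_mem (Subgroup.mem_sup_right ha) (Subgroup.mem_sup_left (Subgroup.mem_inf.2 ⟨hh, h1⟩))
        have hidx : U.relIndex H = U.index := by
          have e1 : A.relIndex H = A.index := by
            rw [← Subgroup.relIndex_sup_right, hHAtop, Subgroup.relIndex_top_right]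
          have e2 : A.relIndex (H ⊓ U) = A.relIndex U := by
            conv_rhs => rw [← hUH]
            rw [Subgroup.relIndex_sup_right]
          have e3 : A.relIndex U * U.index = A.index := Subgroup.relIndex_mul_index hAU
          have e4 : B.relIndex (H ⊓ U) * (H ⊓ U).relIndex H = B.relIndex H := Subgroup.relIndex_mul_relIndex _ _ _ (le_inf hBH (hBA.trans hAU)) inf_le_left
          have e5 : B.relIndex H = A.relIndex H := by rw [← hinfB, Subgroup.inf_relIndex_right]
          have e6 : B.relIndex (H ⊓ U) = A.relIndex (H ⊓ U) := by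
            have : B = A ⊓ (H ⊓ U) := by
              rw [← inf_assoc, hinfB]; exact (inf_eq_left.2 (hBA.trans hAU)).symm
            rw [this, Subgroup.inf_relIndex_right]
          have e7 : (H ⊓ U).relIndex H = U.relIndex H := Subgroup.inf_relIndex_left _ _
          rw [e6, e2, e7, e5, e1, ← e3] at e4
          exact Nat.eq_of_mul_eq_mul_left (Nat.pos_of_ne_zero (Subgroup.index_ne_zero_of_finite (H := A.subgroupOf U))) e4
        refine ⟨U.subgroupOf H, (U ⊓ (P ⊔ K)).subgroupOf H, Subgroup.subgroupOf_mono H (hBA.trans hAU), ?_, Subgroup.subgroupOf_mono H inf_le_left, ?_, ?_⟩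
        · show ¬ q ∣ U.relIndex H
          rw [hidx]; exact hUq
        · rw [eq_bot_iff]
          rintro x ⟨hx1, hx2⟩
          have hx3 : (x : G) ∈ P ⊔ K := (Subgroup.mem_inf.1 (Subgroup.mem_subgroupOf.1 hx1)).2
          have hx4 : (x : G) ∈ B := Subgroup.mem_subgroupOf.1 hx2
          obtain ⟨a, ha, y, hy, hay⟩ := Subgroup.mem_sup_of_normal_left.1 hx3
          have hyA : y ∈ A := by
            have := A.mul_mem (A.inv_mem (hPA ha)) (hBA hx4)
            rwa [← hay, inv_mul_cancel_left] at this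
          have hy1 : y ∈ K ⊓ A := ⟨hy, hyA⟩
          rw [hKA, Subgroup.mem_bot] at hy1
          rw [hy1, mul_one] at hay
          have : (x : G) ∈ P ⊓ B := ⟨hay ▸ ha, hx4⟩
          rw [hPB, Subgroup.mem_bot] at this
          rw [Subgroup.mem_bot]
          exact Subtype.ext this
        · apply le_antisymm (sup_le (Subgroup.subgroupOf_mono H inf_le_left) (Subgroup.subgroupOf_mono H (hBA.trans hAU)))
          intro w hw
          have hw1 : (w : G) ∈ A ⊔ K := by
            rw [sup_comm, hKAU]; exact Subgroup.mem_subgroupOf.1 hw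
          obtain ⟨a, ha, y, hy, hay⟩ := Subgroup.mem_sup_of_normal_left.1 hw1
          obtain ⟨x, hx, b, hb, rfl⟩ := hAdec a ha
          have hbH : b ∈ H := hBH hb
          have e : w = (⟨b, hbH⟩ : ↥H) * ((⟨b, hbH⟩ : ↥H)⁻¹ * w) := by group
          rw [e]
          refine mul_mem (Subgroup.mem_sup_right (Subgroup.mem_subgroupOf.2 hb)) (Subgroup.mem_sup_left (Subgroup.mem_subgroupOf.2 (Subgroup.mem_inf.2 ⟨?_, ?_⟩)))
          · exact U.mul_mem (U.inv_mem (hAU (hBA hb))) (Subgroup.mem_subgroupOf.1 hw)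
          · have : (((⟨b, hbH⟩ : ↥H)⁻¹ * w : ↥H) : G) = x * y := by
              show b⁻¹ * (w : G) = x * y
              rw [← hay]; group
            rw [this]
            exact mul_mem (Subgroup.mem_sup_left hx) (Subgroup.mem_sup_right hy))
    refine ⟨L.map H.subtype, ?_, ?_⟩
    · rw [eq_bot_iff]
      rintro _ ⟨⟨x, hx, rfl⟩, hxA⟩
      have h1 : x ∈ L ⊓ B.subgroupOf H := ⟨hx, Subgroup.mem_subgroupOf.2 (hHA x x.2 hxA)⟩
      rw [hL1, Subgroup.mem_bot] at h1
      rw [h1]; exact one_mem _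
    · rw [eq_top_iff, ← hHAtop]
      refine sup_le ?_ le_sup_right
      intro h hh
      have h1 : (⟨h, hh⟩ : ↥H) ∈ L ⊔ B.subgroupOf H := by rw [hL2]; exact mem_top _
      have h2 := Subgroup.mem_map_of_mem H.subtype h1
      rw [Subgroup.map_sup, Subgroup.subgroupOf_map_subtype] at h2
      exact (sup_le_sup_left (inf_le_left.trans hBA) _) h2

/-- Let `A` be an abelian normal subgroup of the finite group `G`. Then `A` has a complement in `G` if and only if, for every prime `p` dividing the index of `A`, there are a Sylow `p`-subgroup `S` of `G/A` and a subgroup `K` of `G` with `K ∩ A = 1` and `KA` equal to the preimage of `S` (that is, `A` has a complement in the preimage of a Sylow `p`-subgroup of `G/A`). -/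
theorem result {G : Type*} [Group G] [Finite G] (A : Subgroup G) [A.Normal] (hA : IsMulCommutative A) : (∃ K : Subgroup G, K.IsComplement' A) ↔ ∀ p : ℕ, p.Prime → p ∣ A.index → ∃ (S : Sylow p (G ⧸ A)) (K : Subgroup G), K ⊓ A = ⊥ ∧ K ⊔ A = (S : Subgroup (G ⧸ A)).comap (QuotientGroup.mk' A) := by
  have hAn : A.Normal := inferInstance
  constructor
  · rintro ⟨K, hK⟩ p hp hpd
    haveI : Fact p.Prime := ⟨hp⟩
    obtain ⟨S⟩ : Nonempty (Sylow p (G ⧸ A)) := inferInstance
    have hAU : A ≤ (S : Subgroup (G ⧸ A)).comap (QuotientGroup.mk' A) := by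
      intro a ha
      rw [Subgroup.mem_comap, show QuotientGroup.mk' A a = 1 from (QuotientGroup.eq_one_iff a).2 ha]
      exact one_mem _
    refine ⟨S, K ⊓ (S : Subgroup (G ⧸ A)).comap (QuotientGroup.mk' A), ?_, ?_⟩
    · rw [eq_bot_iff]
      rintro x ⟨⟨hx1, -⟩, hx2⟩
      have := hK.disjoint.le_bot (show x ∈ K ⊓ A from ⟨hx1, hx2⟩)
      exact this
    · apply le_antisymm (sup_le inf_le_right hAU)
      intro u hu
      have : u ∈ A ⊔ K := by rw [sup_comm, hK.sup_eq_top]; exact mem_top u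
      obtain ⟨a, ha, h, hh, rfl⟩ := Subgroup.mem_sup_of_normal_left.1 this
      have h1 := mul_mem (inv_mem (hAU ha)) hu
      rw [inv_mul_cancel_left] at h1
      exact mul_mem (Subgroup.mem_sup_right ha) (Subgroup.mem_sup_left (Subgroup.mem_inf.2 ⟨hh, h1⟩))
  · intro h
    obtain ⟨K, hK1, hK2⟩ := main (Nat.card A) G A le_rfl (fun a ha b hb => congrArg Subtype.val (hA.is_comm.comm ⟨a, ha⟩ ⟨b, hb⟩)) (by
      intro p hp
      haveI : Fact p.Prime := ⟨hp⟩
      by_cases hpd : p ∣ A.index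
      · obtain ⟨S, K, h1, h2⟩ := h p hp hpd
        refine ⟨(S : Subgroup (G ⧸ A)).comap (QuotientGroup.mk' A), K, ?_, ?_, ?_, h1, h2⟩
        · rw [← h2]; exact le_sup_right
        · rw [Subgroup.index_comap_of_surjective _ (QuotientGroup.mk'_surjective A)]
          exact S.not_dvd_index
        · rw [← h2]; exact le_sup_left
      · exact ⟨A, ⊥, le_rfl, hpd, bot_le, bot_inf_eq _, bot_sup_eq _⟩)
    refine ⟨K, Subgroup.isComplement'_of_disjoint_and_mul_eq_univ (disjoint_iff.2 hK1) ?_⟩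
    rw [← Subgroup.mul_normal, hK2]; rfl

end Cfsg.Agent.S4217
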