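import Cfsg.Statements.S4218
import Mathlib
import Cfsg.Agent.H6.PSolvC
import Cfsg.Agent.H2.ActStab
import Cfsg.Agent.H3.SymSyl

set_option autoImplicit false
open Cfsg

namespace Cfsg.Agent.S4218

open Subgroup Cfsg.Agent.L0
open scoped commutatorElement

theorem frattini_le_map {X Y : Type*} [Group X] [Group Y] (e : X ≃* Y) {x : X} (hx : x ∈ frattini X) : e x ∈ frattini Y := by
  have key : ∀ M : Subgroup Y, IsCoatom M → e x ∈ M := by
    intro M hM
    have h1 : IsCoatom (M.comap e.toMonoidHom) := by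
      refine ⟨?_, ?_⟩
      · intro h
        apply hM.1
        rw [← Subgroup.map_comap_eq_self_of_surjective (f := e.toMonoidHom) e.surjective M, h, Subgroup.map_top_of_surjective _ e.surjective]
      · intro L hL
        have h2 : M < L.map e.toMonoidHom := by
          rw [← Subgroup.map_comap_eq_self_of_surjective (f := e.toMonoidHom) e.surjective M]
          exact (Subgroup.map_lt_map_iff_of_injective e.injective).2 hL
        have h3 := hM.2 _ h2
        have h4 := congrArg (Subgroup.comap e.toMonoidHom) h3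
        rw [Subgroup.comap_map_eq_self_of_injective e.injective, Subgroup.comap_top] at h4
        exact h4
    exact frattini_le_coatom h1 hx
  unfold frattini Order.radical
  rw [Subgroup.mem_iInf]
  intro M
  rw [Subgroup.mem_iInf]
  intro hM
  exact key M hM

theorem commutator_le_frattini {D : Type*} [Group D] [Finite D] [hD : Group.IsNilpotent D] : commutator D ≤ frattini D := by
  unfold frattini Order.radical
  exact le_iInf₂ (fun M hM => H3.commutator_le_coatom hM)

/-- Let `G` be a finite `p`-solvable group, `N₀ = O_{p'}(G)`, `P₁ = O_{p',p}(G)`, and let `F ≤ P₁` be the preimage of the Frattini subgroup of `P₁/N₀`. Then an element `g` of `G` induces the identity on `P₁/F` by conjugation (that is, `g x g⁻¹ x⁻¹ ∈ F` for all `x ∈ P₁`) if and only if `g ∈ P₁`: the group `G/P₁` acts faithfully on `P₁/F`. -/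
theorem result {G : Type*} [Group G] [Finite G] {p : ℕ} [Fact p.Prime] (hG : Cfsg.IsPSolvable p G) (g : G) : (∀ x ∈ Cfsg.pPrimePCore p G, g * x * g⁻¹ * x⁻¹ ∈ ((frattini (↥(Cfsg.pPrimePCore p G) ⧸ (Cfsg.pPrimeCore p G).subgroupOf (Cfsg.pPrimePCore p G))).comap (QuotientGroup.mk' ((Cfsg.pPrimeCore p G).subgroupOf (Cfsg.pPrimePCore p G)))).map (Cfsg.pPrimePCore p G).subtype) ↔ g ∈ Cfsg.pPrimePCore p G := by
  classical
  set N₀ := pPrimeCore p G with hN₀
  set P₁ := pPrimePCore p G with hP₁
  have hN₀P : N₀ ≤ P₁ := by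
    intro y hy
    rw [hP₁, pPrimePCore, mem_comap, (QuotientGroup.mk'_apply (pPrimeCore p G) y), (QuotientGroup.eq_one_iff y).2 hy]; exact one_mem _
  have hP₁n : P₁.Normal := (inferInstance : (pCore p (G ⧸ pPrimeCore p G)).Normal).comap _
  -- the isomorphism
  set Pb := pCore p (G ⧸ N₀) with hPb
  let f : P₁ →* Pb := (QuotientGroup.mk' N₀).subgroupComap Pb
  have hf : Function.Surjective f := by
    rintro ⟨y, hy⟩
    obtain ⟨x, rfl⟩ := QuotientGroup.mk'_surjective N₀ y
    exact ⟨⟨x, hy⟩, rfl⟩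
  have hker : f.ker = N₀.subgroupOf P₁ := by
    ext x
    rw [MonoidHom.mem_ker, mem_subgroupOf, Subtype.ext_iff]
    exact QuotientGroup.eq_one_iff (x : G)
  let e : (P₁ ⧸ N₀.subgroupOf P₁) ≃* Pb :=
    (QuotientGroup.quotientMulEquivOfEq hker.symm).trans (QuotientGroup.quotientKerEquivOfSurjective f hf)
  have he : ∀ x : P₁, e (QuotientGroup.mk' (N₀.subgroupOf P₁) x) = f x := fun x => rfl
  have hPc : IsPGroup p Pb := pCore_isPGroup p _
  constructor
  · intro hg
    -- the subgroup acting trivially on the Frattini quotient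
    have hFn : ((frattini Pb).map Pb.subtype).Normal := normal_map_subtype_of_characteristic _
    let C : Subgroup (G ⧸ N₀) :=
      { carrier := {x | ∀ y ∈ Pb, x * y * x⁻¹ * y⁻¹ ∈ (frattini Pb).map Pb.subtype}
        one_mem' := by intro y hy; simp
        mul_mem' := by
          intro a b ha hb y hy
          have h1 := hb y hy
          have h2 := ha y hy
          have e : a * b * y * (a * b)⁻¹ * y⁻¹ = (a * (b * y * b⁻¹ * y⁻¹) * a⁻¹) * (a * y * a⁻¹ * y⁻¹) := by group
          rw [e]
          exact mul_mem (hFn.conj_mem _ h1 a) h2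
        inv_mem' := by
          intro a ha y hy
          have h2 := ha y hy
          have e : a⁻¹ * y * a⁻¹⁻¹ * y⁻¹ = a⁻¹ * (a * y * a⁻¹ * y⁻¹)⁻¹ * a⁻¹⁻¹ := by group
          rw [e]
          exact hFn.conj_mem _ (inv_mem h2) _ }
    have hCn : C.Normal := by
      constructor
      intro a ha g y hy
      have h1 := ha (g⁻¹ * y * g) (by
        have := (inferInstance : Pb.Normal).conj_mem y hy g⁻¹
        rwa [inv_inv] at this)
      have e : g * a * g⁻¹ * y * (g * a * g⁻¹)⁻¹ * y⁻¹ = g * (a * (g⁻¹ * y * g) * a⁻¹ * (g⁻¹ * y * g)⁻¹) * g⁻¹ := by group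
      rw [e]
      exact hFn.conj_mem _ h1 g
    have hcent : centralizer (Pb : Set (G ⧸ N₀)) ≤ Pb :=
      H6.psolv_cent_le (Fact.out : p.Prime) (H2.psolvable_surj hG _ (QuotientGroup.mk'_surjective N₀)) (pPrimeCore_quotient_pPrimeCore p G)
    have hCp : IsPGroup p C := by
      have h1 : ∀ q : ℕ, q.Prime → q ∣ Nat.card C → q = p := by
        intro q hq hqd
        by_contra hqp
        haveI : Fact q.Prime := ⟨hq⟩
        obtain ⟨x, hx⟩ := exists_prime_orderOf_dvd_card' (G := C) q hqd
        have hxo : orderOf (x : G ⧸ N₀) = q := by rw [Subgroup.orderOf_coe, hx]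
        have hcop : (Nat.card (zpowers (x : G ⧸ N₀))).Coprime (Nat.card Pb) := by
          obtain ⟨a, ha⟩ := IsPGroup.iff_card.mp hPc
          rw [Nat.card_zpowers, hxo, ha]
          exact Nat.Coprime.pow_right _ ((Nat.coprime_primes hq Fact.out).2 hqp)
        have hzC : zpowers (x : G ⧸ N₀) ≤ C := by rw [zpowers_le]; exact x.2
        have h2 : ⁅Pb, zpowers (x : G ⧸ N₀)⁆ = ⊥ := by
          apply commutator_eq_bot_of_le_frattini (by rw [Subgroup.normalizer_eq_top (H := Pb)]; exact le_top) hcop (Or.inl inferInstance)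
          rw [Subgroup.commutator_le]
          intro y hy z hz
          have h3 := hzC hz y hy
          have e : ⁅y, z⁆ = (z * y * z⁻¹ * y⁻¹)⁻¹ := by rw [commutatorElement_def]; group
          rw [e]; exact inv_mem h3
        have h3 : (x : G ⧸ N₀) ∈ Pb := by
          apply hcent
          rw [mem_centralizer_iff]
          intro y hy
          have h4 : ⁅y, (x : G ⧸ N₀)⁆ ∈ ⁅Pb, zpowers (x : G ⧸ N₀)⁆ := commutator_mem_commutator hy (mem_zpowers _)
          rw [h2, mem_bot, commutatorElement_eq_one_iff_mul_comm] at h4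
          exact h4
        have h5 : orderOf (x : G ⧸ N₀) ∣ Nat.card Pb := by
          have := _root_.orderOf_dvd_natCard (⟨x, h3⟩ : Pb)
          rwa [Subgroup.orderOf_mk] at this
        obtain ⟨a, ha⟩ := IsPGroup.iff_card.mp hPc
        rw [hxo, ha] at h5
        exact hqp ((Nat.prime_dvd_prime_iff_eq hq Fact.out).1 (hq.dvd_of_dvd_pow h5))
      exact IsPGroup.of_card (Nat.eq_prime_pow_of_unique_prime_dvd Nat.card_pos.ne' (fun {d} hd hdd => h1 d hd hdd))
    have hgC : QuotientGroup.mk' N₀ g ∈ C := by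
      intro y hy
      obtain ⟨x, rfl⟩ := QuotientGroup.mk'_surjective N₀ y
      have hxP : x ∈ P₁ := hy
      obtain ⟨z, hz, hzg⟩ := hg x hxP
      rw [SetLike.mem_coe, mem_comap] at hz
      have h1 := frattini_le_map e hz
      have h1 : f z ∈ frattini Pb := h1
      refine ⟨f z, h1, ?_⟩
      show QuotientGroup.mk' N₀ (z : G) = _
      have h2 : (z : G) = g * x * g⁻¹ * x⁻¹ := hzg
      rw [h2, map_mul, map_mul, map_mul, map_inv, map_inv]
    exact le_pCore hCp hgC
  · intro hg x hx
    haveI := hPc.isNilpotent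
    have h1 : (⟨g, hg⟩ * ⟨x, hx⟩ * ⟨g, hg⟩⁻¹ * ⟨x, hx⟩⁻¹ : P₁) ∈ (frattini (P₁ ⧸ N₀.subgroupOf P₁)).comap (QuotientGroup.mk' (N₀.subgroupOf P₁)) := by
      rw [mem_comap]
      have h2 : f (⟨g, hg⟩ * ⟨x, hx⟩ * ⟨g, hg⟩⁻¹ * ⟨x, hx⟩⁻¹ : P₁) ∈ frattini Pb := by
        apply commutator_le_frattini
        rw [map_mul, map_mul, map_mul, map_inv, map_inv, ← commutatorElement_def, _root_.commutator_def]
        exact commutator_mem_commutator (mem_top _) (mem_top _)
      have h3 := frattini_le_map e.symm h2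
      rw [← he, MulEquiv.symm_apply_apply] at h3
      exact h3
    exact ⟨_, h1, rfl⟩

end Cfsg.Agent.S4218
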