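import Cfsg.Statements.S4219
import Mathlib
import Cfsg.Agent.H3.Basic

set_option autoImplicit false
open Cfsg

namespace Cfsg.Agent.S4219

/-- Let a finite group `G` act `t`-fold transitively on a finite set, let `H` be the stabilizer of `t` distinct points and `P` a Sylow `p`-subgroup of `H`. Then the normalizer of `P` in `G` is `t`-fold transitive on the fixed points of `P`: any `t` distinct fixed points of `P` can be carried to any other `t` distinct fixed points of `P` by an element normalizing `P`. -/
theorem result {G : Type*} [Group G] [Finite G] {α : Type*} [Fintype α] [MulAction G α] {t : ℕ} (hG : MulAction.IsMultiplyPretransitive G α t) (x : Fin t ↪ α) {p : ℕ} [Fact p.Prime] (P : Sylow p (MulAction.stabilizer G x)) (a b : Fin t ↪ α) (ha : ∀ i, a i ∈ MulAction.fixedPoints ((P : Subgroup (MulAction.stabilizer G x)).map (MulAction.stabilizer G x).subtype) α) (hb : ∀ i, b i ∈ MulAction.fixedPoints ((P : Subgroup (MulAction.stabilizer G x)).map (MulAction.stabilizer G x).subtype) α) : ∃ g ∈ Subgroup.normalizer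 ((((P : Subgroup (MulAction.stabilizer G x)).map (MulAction.stabilizer G x).subtype) : Subgroup G) : Set G), g • a = b := by
  classical
  set P0 : Subgroup G := (P : Subgroup (MulAction.stabilizer G x)).map (MulAction.stabilizer G x).subtype with hP0
  -- stabilizers have the same cardinality
  have hst : ∀ c : Fin t ↪ α, Nat.card (MulAction.stabilizer G c) = Nat.card (MulAction.stabilizer G x) := by
    intro c
    obtain ⟨g, hg⟩ := hG.exists_smul_eq x c
    rw [← hg, MulAction.stabilizer_smul_eq_stabilizer_map_conj]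
    exact Subgroup.card_map_of_injective (MulAut.conj g).injective
  have hP0c : Nat.card P0 = Nat.card P := Subgroup.card_map_of_injective (Subgroup.subtype_injective _)
  have hle : ∀ c : Fin t ↪ α, (∀ i, c i ∈ MulAction.fixedPoints P0 α) → P0 ≤ MulAction.stabilizer G c := by
    intro c hc y hy
    rw [MulAction.mem_stabilizer_iff]
    ext i
    exact hc i ⟨y, hy⟩
  obtain ⟨h, hh⟩ := hG.exists_smul_eq a b
  set Sb := MulAction.stabilizer G b with hSb
  have hPb : P0 ≤ Sb := hle b hb
  -- Sylow subgroups of Sb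
  have hcard : Nat.card (P0.subgroupOf Sb) = p ^ (Nat.card Sb).factorization p := by
    rw [Nat.card_congr (Subgroup.subgroupOfEquivOfLe hPb).toEquiv, hP0c, P.card_eq_multiplicity, hst b]
  let T1 : Sylow p Sb := Sylow.ofCard (P0.subgroupOf Sb) hcard
  have hPb2 : P0.map (MulAut.conj h).toMonoidHom ≤ Sb := by
    rintro _ ⟨y, hy, rfl⟩
    rw [hSb, MulAction.mem_stabilizer_iff]
    show (h * y * h⁻¹) • b = b
    have h1 : y • a = a := hle a ha hy
    rw [← hh, mul_smul, mul_smul, inv_smul_smul, h1]
  have hcard2 : Nat.card ((P0.map (MulAut.conj h).toMonoidHom).subgroupOf Sb) = p ^ (Nat.card Sb).factorization p := by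
    rw [Nat.card_congr (Subgroup.subgroupOfEquivOfLe hPb2).toEquiv,
      Subgroup.card_map_of_injective (MulAut.conj h).injective, hP0c, P.card_eq_multiplicity, hst b]
  let T2 : Sylow p Sb := Sylow.ofCard _ hcard2
  obtain ⟨k, hk⟩ := MulAction.exists_smul_eq Sb T2 T1
  refine ⟨k * h, ?_, ?_⟩
  · -- k h normalizes P0
    have key : ∀ y ∈ P0, (k : G) * h * y * ((k : G) * h)⁻¹ ∈ P0 := by
      intro y hy
      have h1 : (⟨h * y * h⁻¹, hPb2 ⟨y, hy, rfl⟩⟩ : Sb) ∈ T2 := by
        show (h * y * h⁻¹) ∈ P0.map (MulAut.conj h).toMonoidHom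
        exact ⟨y, hy, rfl⟩
      have h2 := Cfsg.Agent.H3.conj_mem_smul_sylow T2 k _ h1
      rw [hk] at h2
      have h3 : (k : G) * (h * y * h⁻¹) * (k : G)⁻¹ ∈ P0 := h2
      have h4 : (k : G) * h * y * ((k : G) * h)⁻¹ = (k : G) * (h * y * h⁻¹) * (k : G)⁻¹ := by group
      rw [h4]; exact h3
    exact Subgroup.mem_normalizer_fintype key
  · rw [mul_smul, hh]
    exact k.2

end Cfsg.Agent.S4219
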