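import Cfsg.Statements.S4275
import Mathlib

set_option autoImplicit false
open Cfsg

namespace Cfsg.Agent.S4275

/-- Let G be a transitive group of permutations of a finite set Ω, let o ∈ Ω, and let α be an automorphism of G. Then α is induced by conjugation by a permutation of Ω normalizing G if and only if the image under α of the stabilizer of o fixes some point of Ω. -/
theorem result {Ω : Type*} [Fintype Ω] (G : Subgroup (Equiv.Perm Ω)) (htr : MulAction.IsPretransitive G Ω) (o : Ω) (α : G ≃* G) : (∃ σ : Equiv.Perm Ω, σ ∈ Subgroup.normalizer (G : Set (Equiv.Perm Ω)) ∧ ∀ g : G, ((α g : G) : Equiv.Perm Ω) = σ * (g : Equiv.Perm Ω) * σ⁻¹) ↔ ∃ ω : Ω, ∀ g ∈ (MulAction.stabilizer G o).map α.toMonoidHom, g • ω = ω := by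
  classical
  constructor
  · rintro ⟨σ, _, hσ⟩
    refine ⟨σ o, ?_⟩
    rintro g hg
    obtain ⟨h, hh, rfl⟩ := hg
    have h1 : (h : Equiv.Perm Ω) o = o := hh
    show ((α h : G) : Equiv.Perm Ω) (σ o) = σ o
    rw [hσ h]
    simp [Equiv.Perm.mul_apply, h1]
  · rintro ⟨ω, hω⟩
    have hst : ∀ g : G, (g : Equiv.Perm Ω) o = o → ((α g : G) : Equiv.Perm Ω) ω = ω := by
      intro g hg
      exact hω (α g) (Subgroup.mem_map_of_mem _ hg)
    -- the reverse, by counting
    have hcard : Nat.card (MulAction.stabilizer G o) = Nat.card (MulAction.stabilizer G ω) := by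
      have h1 : ∀ a : Ω, Nat.card (MulAction.stabilizer G a) * Nat.card Ω = Nat.card G := by
        intro a
        have h2 := MulAction.index_stabilizer_of_transitive G a
        rw [← h2, Subgroup.card_mul_index]
      have hpos : 0 < Nat.card Ω := by
        have : Nonempty Ω := ⟨o⟩
        exact Nat.card_pos
      apply Nat.eq_of_mul_eq_mul_right hpos
      rw [h1, h1]
    have hmapeq : (MulAction.stabilizer G o).map α.toMonoidHom = MulAction.stabilizer G ω := by
      apply Subgroup.eq_of_le_of_card_ge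
      · intro g hg; exact hω g hg
      · rw [← hcard]
        exact (Nat.card_congr ((MulAction.stabilizer G o).equivMapOfInjective α.toMonoidHom α.injective).toEquiv).le
    have hst' : ∀ g : G, ((α g : G) : Equiv.Perm Ω) ω = ω → (g : Equiv.Perm Ω) o = o := by
      intro g hg
      have h1 : α g ∈ (MulAction.stabilizer G o).map α.toMonoidHom := by rw [hmapeq]; exact hg
      obtain ⟨h, hh, hhg⟩ := h1
      have : h = g := α.injective hhg
      rw [← this]; exact hh
    have htr' : ∀ a : Ω, ∃ g : G, (g : Equiv.Perm Ω) o = a := fun a => htr.exists_smul_eq o a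
    choose t ht using htr'
    let f : Ω → Ω := fun a => ((α (t a) : G) : Equiv.Perm Ω) ω
    have hf : ∀ g : G, f ((g : Equiv.Perm Ω) o) = ((α g : G) : Equiv.Perm Ω) ω := by
      intro g
      have h1 : ((g⁻¹ * t ((g : Equiv.Perm Ω) o) : G) : Equiv.Perm Ω) o = o := by
        rw [Subgroup.coe_mul, Equiv.Perm.mul_apply, ht, Subgroup.coe_inv, Equiv.Perm.inv_eq_iff_eq]
      have h2 := hst _ h1
      rw [map_mul, map_inv, Subgroup.coe_mul, Equiv.Perm.mul_apply, Subgroup.coe_inv, Equiv.Perm.inv_eq_iff_eq] at h2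
      exact h2
    have hfinj : Function.Injective f := by
      intro a b hab
      rw [← ht a, ← ht b] at hab ⊢
      rw [hf, hf] at hab
      have h1 : ((α ((t b)⁻¹ * t a) : G) : Equiv.Perm Ω) ω = ω := by
        rw [map_mul, map_inv, Subgroup.coe_mul, Equiv.Perm.mul_apply, Subgroup.coe_inv, Equiv.Perm.inv_eq_iff_eq]
        exact hab
      have h2 := hst' _ h1
      rw [Subgroup.coe_mul, Equiv.Perm.mul_apply, Subgroup.coe_inv, Equiv.Perm.inv_eq_iff_eq] at h2
      exact h2
    let σ : Equiv.Perm Ω := Equiv.ofBijective f (Finite.injective_iff_bijective.mp hfinj)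
    have hσ : ∀ g : G, ((α g : G) : Equiv.Perm Ω) = σ * (g : Equiv.Perm Ω) * σ⁻¹ := by
      intro g
      rw [eq_mul_inv_iff_mul_eq]
      ext a
      show ((α g : G) : Equiv.Perm Ω) (f a) = f ((g : Equiv.Perm Ω) a)
      rw [← ht a, hf]
      have h1 : (g : Equiv.Perm Ω) ((t a : Equiv.Perm Ω) o) = ((g * t a : G) : Equiv.Perm Ω) o := rfl
      rw [h1, hf, map_mul]
      rfl
    refine ⟨σ, ?_, hσ⟩
    rw [Subgroup.mem_normalizer_iff]
    intro x
    constructor
    · intro hx
      rw [← hσ ⟨x, hx⟩]; exact (α ⟨x, hx⟩).2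
    · intro hx
      obtain ⟨g, hg⟩ := α.surjective ⟨_, hx⟩
      have h1 : ((α g : G) : Equiv.Perm Ω) = σ * x * σ⁻¹ := by rw [hg]
      rw [hσ g] at h1
      have h2 : (g : Equiv.Perm Ω) = x := mul_left_cancel (mul_right_cancel h1)
      rw [← h2]; exact g.2

end Cfsg.Agent.S4275
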