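import Cfsg.Statements.S4283
import Mathlib
import Cfsg.Agent.H3.Frob

set_option autoImplicit false
open Cfsg

namespace Cfsg.Agent.S4283

/-- Let G be a finite group with centre Z and let K, H be abelian subgroups of G containing Z such that G/Z is a Frobenius group with complement H/Z and kernel K/Z. Then the conjugacy class sizes of G are exactly 1, [G : K] and [G : H], and these two indices are coprime. (This is the converse half of the characterization of finite groups whose conjugacy class sizes are exactly 1, m and n with m and n coprime.) -/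
theorem result {G : Type*} [Group G] [Finite G] (K H : Subgroup G) (hZK : Subgroup.center G ≤ K) (hZH : Subgroup.center G ≤ H) (hK : IsMulCommutative K) (hH : IsMulCommutative H) (hFrob : Cfsg.IsFrobeniusComplement (H.map (QuotientGroup.mk' (Subgroup.center G)))) (hker : Cfsg.frobeniusKernel (H.map (QuotientGroup.mk' (Subgroup.center G))) = (K.map (QuotientGroup.mk' (Subgroup.center G)) : Set (G ⧸ Subgroup.center G))) : Set.range (fun x : G => (Subgroup.centralizer ({x} : Set G)).index) = ({1, K.index, H.index} : Set ℕ) ∧ K.index.Coprime H.index := by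
  classical
  set Z := Subgroup.center G with hZ
  set π := QuotientGroup.mk' Z with hπ
  have hπs : Function.Surjective π := QuotientGroup.mk'_surjective Z
  have hkerK : π.ker ≤ K := by rw [hπ, QuotientGroup.ker_mk']; exact hZK
  have hkerH : π.ker ≤ H := by rw [hπ, QuotientGroup.ker_mk']; exact hZH
  have iK : (K.map π).index = K.index := Subgroup.index_map_eq K hπs hkerK
  have iH : (H.map π).index = H.index := Subgroup.index_map_eq H hπs hkerH
  have hmemK : ∀ x : G, π x ∈ K.map π ↔ x ∈ K := by
    intro x
    constructor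
    · rintro ⟨y, hy, hyx⟩
      have : y⁻¹ * x ∈ Z := QuotientGroup.eq.mp hyx
      have h2 := K.mul_mem hy (hZK this)
      simpa using h2
    · exact fun h => Subgroup.mem_map_of_mem _ h
  have hmemH : ∀ x : G, π x ∈ H.map π ↔ x ∈ H := by
    intro x
    constructor
    · rintro ⟨y, hy, hyx⟩
      have : y⁻¹ * x ∈ Z := QuotientGroup.eq.mp hyx
      have h2 := H.mul_mem hy (hZH this)
      simpa using h2
    · exact fun h => Subgroup.mem_map_of_mem _ h
  have hπ1 : ∀ x : G, π x = 1 ↔ x ∈ Z := fun x => QuotientGroup.eq_one_iff x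
  have hKn : (K.map π).Normal := by
    constructor
    intro n hn g
    have hn' : n ∈ frobeniusKernel (H.map π) := by rw [hker]; exact hn
    have h2 : g * n * g⁻¹ ∈ frobeniusKernel (H.map π) := by
      rw [Cfsg.Agent.H3.mem_frobeniusKernel_iff] at *
      rcases hn' with h | h
      · left; rw [h]; simp
      · right
        intro c hc
        apply h (g⁻¹ * c)
        have : (g⁻¹ * c)⁻¹ * n * (g⁻¹ * c) = c⁻¹ * (g * n * g⁻¹) * c := by group
        rw [this]; exact hc
    rw [hker] at h2
    exact h2
  obtain ⟨c1, c2, c3, c4⟩ := Cfsg.Agent.H3.frobenius_coprime (K.map π) (H.map π) hFrob hker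
  have hcop : K.index.Coprime H.index := by
    rw [← iK, ← iH, ← c1, ← c2]; exact c3.symm
  have hF := (Cfsg.Agent.H3.isFrobeniusComplement_iff _).mp hFrob
  have hKc : ∀ a ∈ K, ∀ b ∈ K, a * b = b * a := fun a ha b hb =>
    congrArg Subtype.val (hK.is_comm.comm (⟨a, ha⟩ : K) ⟨b, hb⟩)
  have hHc : ∀ a ∈ H, ∀ b ∈ H, a * b = b * a := fun a ha b hb =>
    congrArg Subtype.val (hH.is_comm.comm (⟨a, ha⟩ : H) ⟨b, hb⟩)
  -- centralizer of an element of H outside Z
  have cH : ∀ x ∈ H, x ∉ Z → Subgroup.centralizer ({x} : Set G) = H := by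
    intro x hx hxZ
    apply le_antisymm
    · intro g hg
      rw [Subgroup.mem_centralizer_singleton_iff] at hg
      rw [← hmemH]
      by_contra hgH
      apply hxZ
      rw [← hπ1]
      apply hF.2.2 _ hgH _ ((hmemH x).mpr hx)
      rw [← map_inv, ← map_mul, ← map_mul, mul_assoc, ← hg, inv_mul_cancel_left]
      exact (hmemH x).mpr hx
    · intro g hg
      rw [Subgroup.mem_centralizer_singleton_iff]
      exact hHc g hg x hx
  have conjidx : ∀ g x : G, (Subgroup.centralizer ({g⁻¹ * x * g} : Set G)).index = (Subgroup.centralizer ({x} : Set G)).index := by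
    intro g x
    rw [← Cfsg.Agent.H3.card_isConj, ← Cfsg.Agent.H3.card_isConj]
    have hc : IsConj x (g⁻¹ * x * g) := isConj_iff.mpr ⟨g⁻¹, by simp⟩
    apply Nat.card_congr
    exact Equiv.subtypeEquivRight (fun y => ⟨fun h => hc.trans h, fun h => hc.symm.trans h⟩)
  have cK : ∀ x ∈ K, x ∉ Z → Subgroup.centralizer ({x} : Set G) = K := by
    intro x hx hxZ
    apply le_antisymm
    · intro g hg
      rw [Subgroup.mem_centralizer_singleton_iff] at hg
      rw [← hmemK]
      by_contra hgK
      have h1 : π g ∉ frobeniusKernel (H.map π) := by rw [hker]; exact hgK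
      rw [Cfsg.Agent.H3.mem_frobeniusKernel_iff] at h1
      push Not at h1
      obtain ⟨hg1, c, hc⟩ := h1
      obtain ⟨c, rfl⟩ := hπs c
      -- c⁻¹ g c ∈ H nontrivial mod Z, commutes with c⁻¹ x c
      have h2 : π (c⁻¹ * x * c) ∈ H.map π := by
        by_contra h3
        have h4 := hF.2.2 _ h3 _ hc (by
          have : (π (c⁻¹ * x * c))⁻¹ * ((π c)⁻¹ * π g * π c) * π (c⁻¹ * x * c) = (π c)⁻¹ * π g * π c := by
            simp only [← map_inv, ← map_mul]
            congr 1
            calc (c⁻¹ * x * c)⁻¹ * (c⁻¹ * g * c) * (c⁻¹ * x * c) = c⁻¹ * (x⁻¹ * (g * x)) * c := by group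
              _ = c⁻¹ * (x⁻¹ * (x * g)) * c := by rw [hg]
              _ = c⁻¹ * g * c := by group
          rw [this]; exact hc)
        apply hg1
        have : π g = π c * ((π c)⁻¹ * π g * π c) * (π c)⁻¹ := by group
        rw [this, h4]; simp
      have h3 : π (c⁻¹ * x * c) ∈ K.map π := by
        have := hKn.conj_mem _ ((hmemK x).mpr hx) (π c)⁻¹
        rw [inv_inv] at this
        rw [map_mul, map_mul, map_inv]; exact this
      have h4 : π (c⁻¹ * x * c) ∈ K.map π ⊓ H.map π := ⟨h3, h2⟩
      rw [c4, Subgroup.mem_bot] at h4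
      apply hxZ
      rw [← hπ1]
      have : π x = π c * π (c⁻¹ * x * c) * (π c)⁻¹ := by simp only [← map_inv, ← map_mul]; congr 1; group
      rw [this, h4]; simp
    · intro g hg
      rw [Subgroup.mem_centralizer_singleton_iff]
      exact hKc g hg x hx
  refine ⟨?_, hcop⟩
  ext n
  simp only [Set.mem_range, Set.mem_insert_iff, Set.mem_singleton_iff]
  constructor
  · rintro ⟨x, rfl⟩
    by_cases hxZ : x ∈ Z
    · left
      rw [Subgroup.index_eq_one, ← top_le_iff]
      intro g _
      rw [Subgroup.mem_centralizer_singleton_iff]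
      exact Subgroup.mem_center_iff.mp hxZ g
    · right
      by_cases hxK : x ∈ K
      · left; rw [cK x hxK hxZ]
      · right
        have h1 : π x ∉ frobeniusKernel (H.map π) := by
          rw [hker]; intro h; exact hxK ((hmemK x).mp h)
        rw [Cfsg.Agent.H3.mem_frobeniusKernel_iff] at h1
        push Not at h1
        obtain ⟨hg1, c, hc⟩ := h1
        obtain ⟨c, rfl⟩ := hπs c
        have h2 : c⁻¹ * x * c ∈ H := by
          rw [← hmemH, map_mul, map_mul, map_inv]; exact hc
        have h3 : c⁻¹ * x * c ∉ Z := by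
          rw [← hπ1]
          intro h4
          apply hg1
          have : π x = π c * π (c⁻¹ * x * c) * (π c)⁻¹ := by simp only [← map_inv, ← map_mul]; congr 1; group
          rw [this, h4]; simp
        rw [← conjidx c x, cH _ h2 h3]
  · rintro (rfl | rfl | rfl)
    · refine ⟨1, ?_⟩
      rw [Subgroup.index_eq_one, ← top_le_iff]
      intro g _
      rw [Subgroup.mem_centralizer_singleton_iff]; simp
    · -- K nontrivial mod Z
      have hKne : ∃ x ∈ K, x ∉ Z := by
        by_contra hcon
        push Not at hcon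
        have h1 : K.map π = ⊥ := by
          rw [eq_bot_iff]
          rintro _ ⟨x, hx, rfl⟩
          exact Subgroup.mem_bot.mpr ((hπ1 x).mpr (hcon x hx))
        rw [h1, Subgroup.card_bot] at c1
        exact hF.2.1 (Subgroup.index_eq_one.mp c1.symm)
      obtain ⟨x, hx, hxZ⟩ := hKne
      exact ⟨x, by rw [cK x hx hxZ]⟩
    · have hHne : ∃ x ∈ H, x ∉ Z := by
        by_contra hcon
        push Not at hcon
        apply hF.1
        rw [eq_bot_iff]
        rintro _ ⟨x, hx, rfl⟩
        exact Subgroup.mem_bot.mpr ((hπ1 x).mpr (hcon x hx))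
      obtain ⟨x, hx, hxZ⟩ := hHne
      exact ⟨x, by rw [cH x hx hxZ]⟩

end Cfsg.Agent.S4283
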