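import Cfsg.Statements.S4297
import Mathlib
import Cfsg.Agent.H3.DivComp
import Cfsg.Agent.H7.Quat

set_option autoImplicit false
open Cfsg

namespace Cfsg.Agent.S4297

open Quaternion in
def q4 (a b c d : ℝ) : ℍ[ℝ] := ⟨a, b, c, d⟩

open Quaternion in
theorem q4_mul (a₁ a₂ a₃ a₄ b₁ b₂ b₃ b₄ : ℝ) : q4 a₁ a₂ a₃ a₄ * q4 b₁ b₂ b₃ b₄ =
      q4 (a₁ * b₁ - a₂ * b₂ - a₃ * b₃ - a₄ * b₄) (a₁ * b₂ + a₂ * b₁ + a₃ * b₄ - a₄ * b₃)
        (a₁ * b₃ - a₂ * b₄ + a₃ * b₁ + a₄ * b₂) (a₁ * b₄ + a₂ * b₃ - a₃ * b₂ + a₄ * b₁) := by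
  apply Quaternion.ext
  · rw [Quaternion.re_mul]; rfl
  · rw [Quaternion.imI_mul]; rfl
  · rw [Quaternion.imJ_mul]; rfl
  · rw [Quaternion.imK_mul]; rfl

open Quaternion in
theorem quat_sub (n : ℕ) (hn : 2 ≤ n) : ∃ Φ : QuaternionGroup n →* (ℍ[ℝ])ˣ, Function.Injective Φ := by
  have hn0 : NeZero n := ⟨by omega⟩
  have h2n : 2 * n ≠ 0 := by omega
  obtain ⟨ζ, hprim⟩ : ∃ ζ : ℂ, IsPrimitiveRoot ζ (2 * n) := ⟨_, Complex.isPrimitiveRoot_exp (2 * n) h2n⟩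
  let f : ℂ →* ℍ[ℝ] := (Quaternion.ofComplex : ℂ →ₐ[ℝ] ℍ[ℝ])
  have hf : ∀ z : ℂ, f z = q4 z.re z.im 0 0 := fun z => rfl
  have hfinj : Function.Injective f := by
    intro z w h
    rw [hf, hf] at h
    have h1 := congrArg (fun q : ℍ[ℝ] => q.re) h
    have h2 := congrArg (fun q : ℍ[ℝ] => q.imI) h
    exact Complex.ext h1 h2
  have hζu : IsUnit ζ := hprim.isUnit h2n
  let ζu : ℂˣ := hζu.unit
  let x : (ℍ[ℝ])ˣ := Units.map f ζu
  let j : ℍ[ℝ] := q4 0 0 1 0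
  have hneg1 : (-1 : ℍ[ℝ]) = q4 (-1) 0 0 0 := by
    apply Quaternion.ext
    · rfl
    · show -(0 : ℝ) = 0; simp
    · show -(0 : ℝ) = 0; simp
    · show -(0 : ℝ) = 0; simp
  have hjj : j * j = -1 := by
    rw [hneg1, q4_mul]; norm_num
  let y : (ℍ[ℝ])ˣ := ⟨j, -j, by rw [mul_neg, hjj, neg_neg], by rw [neg_mul, hjj, neg_neg]⟩
  have hxn : ∀ k : ℕ, ((x ^ k : (ℍ[ℝ])ˣ) : ℍ[ℝ]) = f (ζ ^ k) := by
    intro k
    rw [map_pow]
    simp only [Units.val_pow_eq_pow_val]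
    rfl
  have hζn : ζ ^ n = -1 := by
    have h1 : (ζ ^ n) ^ 2 = 1 := by rw [← pow_mul, mul_comm n 2, hprim.pow_eq_one]
    have h1b : (ζ ^ n - 1) * (ζ ^ n + 1) = 0 := by linear_combination h1
    rcases (mul_eq_zero.mp h1b).imp sub_eq_zero.mp eq_neg_of_add_eq_zero_left with h | h
    · exfalso
      have := hprim.pow_ne_one_of_pos_of_lt (by omega) (by omega : n < 2 * n)
      exact this h
    · exact h
  have hnorm : ‖ζ‖ = 1 := hprim.norm'_eq_one h2n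
  have hinv : ζ⁻¹ = (starRingEnd ℂ) ζ := by
    rw [Complex.inv_def, Complex.normSq_eq_norm_sq, hnorm]; simp
  have g1 : y * y = x ^ n := by
    apply Units.ext
    rw [hxn, hζn]
    show j * j = f (-1)
    rw [hjj, hf, hneg1]
    simp
  have g2 : x * y = y * x⁻¹ := by
    have hxy : ∀ z w : ℂ, w = (starRingEnd ℂ) z → f z * j = j * f w := by
      rintro z w rfl
      rw [hf, hf, q4_mul, q4_mul]
      simp
    apply Units.ext
    have h1 : ((x⁻¹ : (ℍ[ℝ])ˣ) : ℍ[ℝ]) = f (ζ⁻¹) := by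
      have h2 : x⁻¹ = Units.map f ζu⁻¹ := (map_inv _ _).symm
      rw [h2]
      show f ((ζu⁻¹ : ℂˣ) : ℂ) = _
      congr 1
      rw [Units.val_inv_eq_inv_val]
      rfl
    show f ζ * j = j * ((x⁻¹ : (ℍ[ℝ])ˣ) : ℍ[ℝ])
    rw [h1]
    exact hxy ζ ζ⁻¹ hinv
  have g3 : orderOf x = 2 * n := by
    rw [← orderOf_units]
    have h1 : (x : ℍ[ℝ]) = f ζ := rfl
    rw [h1, orderOf_injective f hfinj, hprim.eq_orderOf]
  have g4 : y ∉ Subgroup.zpowers x := by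
    rintro ⟨k, hk⟩
    have hpow : ∀ k : ℤ, ∃ z : ℂ, ((x ^ k : (ℍ[ℝ])ˣ) : ℍ[ℝ]) = f z := by
      intro k
      have h1 : x ^ k = Units.map f (ζu ^ k) := (map_zpow _ _ _).symm
      exact ⟨((ζu ^ k : ℂˣ) : ℂ), by rw [h1]; rfl⟩
    obtain ⟨z, hz⟩ := hpow k
    have h1 : (x ^ k : (ℍ[ℝ])ˣ) = y := hk
    rw [h1] at hz
    have h2 : j = f z := hz
    rw [hf] at h2
    have h3 := congrArg (fun q : ℍ[ℝ] => q.imJ) h2
    exact one_ne_zero h3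
  obtain ⟨Φ, hΦ, -, -⟩ := Cfsg.Agent.H7.quaternion_hom (n := n) x y g1 g2 g3 g4
  exact ⟨Φ, hΦ⟩

/-- For every n ≥ 2 the dicyclic group of order 4n (generated by an element a of order 2n and an element x with x² = aⁿ and x a x⁻¹ = a⁻¹) occurs as a Frobenius complement of some finite Frobenius group. -/
theorem result (n : ℕ) (hn : 2 ≤ n) :
    ∃ (L : Type) (_ : Group L) (_ : Finite L) (H : Subgroup L), Cfsg.IsFrobeniusComplement H ∧ Nonempty (H ≃* QuaternionGroup n) := by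
  have hn0 : NeZero n := ⟨by omega⟩
  obtain ⟨Φ, hΦ⟩ := quat_sub n hn
  have hfin : Finite (QuaternionGroup n) := inferInstance
  have hfinr : Finite Φ.range := Set.finite_range Φ
  obtain ⟨L, i1, i2, D, h1, ⟨e2⟩⟩ := Cfsg.Agent.H3.exists_frobenius_of_divisionRing Φ.range (by
    intro h
    have h1 : Φ (QuaternionGroup.xa 0) ∈ Φ.range := ⟨_, rfl⟩
    rw [h, Subgroup.mem_bot, ← map_one Φ] at h1
    have h2 := hΦ h1
    rw [QuaternionGroup.one_def] at h2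
    cases h2)
  exact ⟨L, i1, i2, D, h1, ⟨((MonoidHom.ofInjective hΦ).trans e2).symm⟩⟩

end Cfsg.Agent.S4297
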