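import Cfsg.Statements.S4298
import Mathlib
import Cfsg.Agent.H3.DivComp

set_option autoImplicit false
open Cfsg

namespace Cfsg.Agent.S4298

def tab : List ℕ := [0, 0, 0, 0, 0, 0, 0, 0, 0, 0, 0, 0, 0, 0, 0, 382, 309, 94, 0, 0, 0, 273, 61, 471, 0, 0, 0, 0, 126, 0, 0, 292, 0, 0, 362, 0, 0, 49, 0, 0, 0, 541, 215, 0, 0, 0, 605, 0, 597, 0, 0, 0, 0, 328, 0, 0, 504, 0, 0, 418, 0, 0, 488, 0, 0, 170, 0, 427, 0, 183, 0, 0, 0, 0, 106, 560, 0, 0, 0, 239, 0]

def code (h : Matrix.SpecialLinearGroup (Fin 2) (ZMod 3)) : ℕ :=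
  tab.getD ((h.1 0 0).val * 27 + (h.1 0 1).val * 9 + (h.1 1 0).val * 3 + (h.1 1 1).val) 0

def dig (n : ℕ) : ZMod 5 := (⟨n % 5, Nat.mod_lt _ (by decide)⟩ : Fin 5)

def act (h : Matrix.SpecialLinearGroup (Fin 2) (ZMod 3)) (v : ZMod 5 × ZMod 5) : ZMod 5 × ZMod 5 :=
  (dig (code h / 125) * v.1 + dig (code h / 25) * v.2, dig (code h / 5) * v.1 + dig (code h) * v.2)

theorem code_one : ∀ v, act 1 v = v := by decide +kernel

theorem act_mul : ∀ g h v, act (g * h) v = act g (act h v) := by decide +kernel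

theorem act_fpf : ∀ h, h ≠ 1 → ∀ v, act h v = v → v = 0 := by decide +kernel

/-- The group SL(2,3) of order 24 (the binary tetrahedral group) occurs as a Frobenius complement of some finite Frobenius group. -/
theorem result :
    ∃ (L : Type) (_ : Group L) (_ : Finite L) (H : Subgroup L), Cfsg.IsFrobeniusComplement H ∧ Nonempty (H ≃* Matrix.SpecialLinearGroup (Fin 2) (ZMod 3)) := by
  let : DistribMulAction (Matrix.SpecialLinearGroup (Fin 2) (ZMod 3)) (ZMod 5 × ZMod 5) :=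
    { smul := act
      one_smul := code_one
      mul_smul := act_mul
      smul_zero := by
        intro h
        show act h 0 = 0
        simp [act]
      smul_add := by
        intro h v w
        show act h (v + w) = act h v + act h w
        simp only [act, Prod.fst_add, Prod.snd_add, Prod.mk_add_mk, Prod.mk.injEq]
        constructor <;> ring }
  have hnt5 : Nontrivial (ZMod 5 × ZMod 5) := ⟨⟨0, 1, by decide⟩⟩
  have hnt : Nontrivial (Matrix.SpecialLinearGroup (Fin 2) (ZMod 3)) := ⟨⟨1, -1, by decide +kernel⟩⟩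
  obtain ⟨L, i1, i2, C, h1, ⟨e⟩⟩ := Cfsg.Agent.H3.frobenius_of_action (H := Matrix.SpecialLinearGroup (Fin 2) (ZMod 3))
    (A := ZMod 5 × ZMod 5) act_fpf
  exact ⟨L, i1, i2, C, h1, ⟨e.symm⟩⟩

end Cfsg.Agent.S4298
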