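import Cfsg.Statements.S4299
import Mathlib
import Cfsg.Agent.H3.DivComp

set_option autoImplicit false
open Cfsg

namespace Cfsg.Agent.S4299

/-- Every nontrivial finite cyclic group occurs as a Frobenius complement of some finite Frobenius group. -/
theorem result {C : Type*} [Group C] [Finite C] [IsCyclic C] [Nontrivial C] :
    ∃ (L : Type) (_ : Group L) (_ : Finite L) (H : Subgroup L), Cfsg.IsFrobeniusComplement H ∧ Nonempty (C ≃* H) := by
  have hn : Nat.card C ≠ 0 := Nat.card_pos.ne'
  have : NeZero (Nat.card C) := ⟨hn⟩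
  have hprim := Complex.isPrimitiveRoot_exp (Nat.card C) hn
  have hcard : Nat.card (rootsOfUnity (Nat.card C) ℂ) = Nat.card C := hprim.card_rootsOfUnity
  have hcyc : IsCyclic (rootsOfUnity (Nat.card C) ℂ) := inferInstance
  have e : C ≃* rootsOfUnity (Nat.card C) ℂ := mulEquivOfCyclicCardEq hcard.symm
  have hfin : Finite (rootsOfUnity (Nat.card C) ℂ) := Finite.of_equiv _ e.toEquiv
  obtain ⟨L, i1, i2, D, h1, ⟨e2⟩⟩ := Cfsg.Agent.H3.exists_frobenius_of_divisionRing (rootsOfUnity (Nat.card C) ℂ) (by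
    intro h
    have h1 : 1 < Nat.card C := Finite.one_lt_card
    rw [h, Subgroup.card_bot] at hcard
    omega)
  exact ⟨L, i1, i2, D, h1, ⟨e.trans e2⟩⟩

end Cfsg.Agent.S4299
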