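import Cfsg.Statements.S4300
import Mathlib

set_option autoImplicit false
open Cfsg

namespace Cfsg.Agent.S4300

/-- Let G act faithfully and primitively on a set X, and suppose the stabilizer of some point is a simple group. Then either G is simple, or G has a normal subgroup, neither trivial nor the whole group, that acts regularly on X (transitively with trivial point stabilizers). -/
theorem result {G : Type*} [Group G] {X : Type*} [MulAction G X] [FaithfulSMul G X]
    (hprim : MulAction.IsPreprimitive G X) (x : X) (hsimple : IsSimpleGroup (MulAction.stabilizer G x)) :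
    IsSimpleGroup G ∨ ∃ N : Subgroup G, N.Normal ∧ N ≠ ⊥ ∧ N ≠ ⊤ ∧
      MulAction.IsPretransitive N X ∧ ∀ y : X, MulAction.stabilizer N y = ⊥ := by
  classical
  by_cases hS : IsSimpleGroup G
  · exact Or.inl hS
  right
  have hnt : Nontrivial (MulAction.stabilizer G x) := hsimple.toNontrivial
  have hntG : Nontrivial G := Function.Injective.nontrivial (Subgroup.subtype_injective (MulAction.stabilizer G x))
  have : ∃ N : Subgroup G, N.Normal ∧ N ≠ ⊥ ∧ N ≠ ⊤ := by
    by_contra h
    push Not at h
    exact hS ⟨fun N hN => by
      by_cases hb : N = ⊥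
      · exact Or.inl hb
      · exact Or.inr (h N hN hb)⟩
  obtain ⟨N, hN, hNb, hNt⟩ := this
  refine ⟨N, hN, hNb, hNt, ?_⟩
  have htr : MulAction.IsPretransitive N X := by
    apply MulAction.IsQuasiPreprimitive.isPretransitive_of_normal
    intro h
    apply hNb
    rw [eq_bot_iff]
    intro n hn
    rw [Subgroup.mem_bot]
    apply FaithfulSMul.eq_of_smul_eq_smul (α := X)
    intro a
    have : a ∈ MulAction.fixedPoints N X := by rw [h]; trivial
    rw [one_smul]
    exact this ⟨n, hn⟩
  refine ⟨htr, ?_⟩
  have hx : MulAction.stabilizer N x = ⊥ := by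
    rcases hsimple.eq_bot_or_eq_top_of_normal (N.subgroupOf (MulAction.stabilizer G x)) inferInstance with h | h
    · rw [eq_bot_iff]
      intro n hn
      have h1 : (⟨(n : G), hn⟩ : MulAction.stabilizer G x) ∈ N.subgroupOf (MulAction.stabilizer G x) := n.2
      rw [h, Subgroup.mem_bot] at h1
      rw [Subgroup.mem_bot]
      exact Subtype.ext (by have := congrArg Subtype.val h1; exact this)
    · exfalso
      apply hNt
      rw [Subgroup.subgroupOf_eq_top] at h
      rw [← top_le_iff]
      intro g _
      obtain ⟨n, hn⟩ := htr.exists_smul_eq x (g • x)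
      have h1 : (n : G)⁻¹ * g ∈ MulAction.stabilizer G x := by
        rw [MulAction.mem_stabilizer_iff, mul_smul, inv_smul_eq_iff]
        exact hn.symm
      have h2 := N.mul_mem n.2 (h h1)
      simpa using h2
  intro y
  rw [eq_bot_iff]
  intro n hn
  obtain ⟨m, hm⟩ := htr.exists_smul_eq x y
  have h1 : m⁻¹ * n * m ∈ MulAction.stabilizer N x := by
    rw [MulAction.mem_stabilizer_iff] at *
    rw [mul_assoc, mul_smul, mul_smul, hm, hn, ← hm, inv_smul_smul]
  rw [hx, Subgroup.mem_bot] at h1
  rw [Subgroup.mem_bot]
  have : n = m * (m⁻¹ * n * m) * m⁻¹ := by group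
  rw [this, h1]; simp

end Cfsg.Agent.S4300
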