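import Cfsg.Statements.S4301
import Mathlib

set_option autoImplicit false
open Cfsg

namespace Cfsg.Agent.S4301

open Equiv

theorem emb_two {X : Type*} {k : ℕ} (hk : 2 ≤ k) (e : Fin k ↪ X) (x y : X) (hxy : x ≠ y) :
    ∃ e' : Fin k ↪ X, e' ⟨0, by omega⟩ = x ∧ e' ⟨1, by omega⟩ = y := by
  classical
  set i0 : Fin k := ⟨0, by omega⟩
  set i1 : Fin k := ⟨1, by omega⟩
  have h01 : e i0 ≠ e i1 := fun h => by
    have := congrArg Fin.val (e.injective h)
    simp [i0, i1] at this
  set w := swap (e i0) x (e i1) with hw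
  have hwx : w ≠ x := by
    intro h
    have h1 : swap (e i0) x (e i1) = swap (e i0) x (e i0) := by rw [swap_apply_left]; exact h
    exact h01 ((swap (e i0) x).injective h1).symm
  refine ⟨e.trans (swap w y * swap (e i0) x).toEmbedding, ?_, ?_⟩
  · show (swap w y * swap (e i0) x) (e i0) = x
    rw [Perm.mul_apply, swap_apply_left, swap_apply_of_ne_of_ne (Ne.symm hwx) hxy]
  · show (swap w y * swap (e i0) x) (e i1) = y
    rw [Perm.mul_apply, ← hw, swap_apply_left]

/-- One-point extension of a multiply transitive group. Let X be a set and G a group of permutations of Option X (the set X with one extra point ∗ = none) all of whose elements fix ∗, such that G is k-transitive on the points of X for some k ≥ 2, X having at least k points. Suppose a permutation h of Option X and an element g of G satisfy: h interchanges ∗ with a point x of X and fixes a point y of X; g interchanges x and y; (g h)³ and h² lie in G; and for every f in G fixing x, the product h f h lies in G and fixes x. Then an element of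 the group generated by G and h fixes ∗ exactly when it lies in G, and that group acts (k+1)-transitively on Option X. -/
theorem result {X : Type*} (G : Subgroup (Equiv.Perm (Option X))) (hfix : ∀ f ∈ G, f none = none)
    (k : ℕ) (hk : 2 ≤ k) (hkX : Nonempty (Fin k ↪ X))
    (htrans : ∀ a b : Fin k ↪ X, ∃ f ∈ G, ∀ i, f (some (a i)) = some (b i))
    (h g : Equiv.Perm (Option X)) (hg : g ∈ G) (x y : X)
    (h1 : h none = some x) (h2 : h (some x) = none) (h3 : h (some y) = some y)
    (h4 : g (some x) = some y) (h5 : g (some y) = some x)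
    (h6 : (g * h) ^ 3 ∈ G) (h7 : h ^ 2 ∈ G)
    (h8 : ∀ f ∈ G, f (some x) = some x → h * f * h ∈ G ∧ (h * f * h) (some x) = some x) :
    (∀ f ∈ Subgroup.closure ((G : Set (Equiv.Perm (Option X))) ∪ {h}), f none = none ↔ f ∈ G) ∧
      MulAction.IsMultiplyPretransitive (Subgroup.closure ((G : Set (Equiv.Perm (Option X))) ∪ {h})) (Option X) (k + 1) := by
  classical
  obtain ⟨e⟩ := hkX
  have htwo : ∀ a b c d : X, a ≠ b → c ≠ d → ∃ f ∈ G, f (some a) = some c ∧ f (some b) = some d := by
    intro a b c d hab hcd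
    obtain ⟨u, hu0, hu1⟩ := emb_two hk e a b hab
    obtain ⟨v, hv0, hv1⟩ := emb_two hk e c d hcd
    obtain ⟨f, hf, hfi⟩ := htrans u v
    refine ⟨f, hf, ?_, ?_⟩
    · have := hfi ⟨0, by omega⟩; rwa [hu0, hv0] at this
    · have := hfi ⟨1, by omega⟩; rwa [hu1, hv1] at this
  have hxy : x ≠ y := by
    intro h
    rw [← h, h2] at h3
    exact Option.some_ne_none _ h3.symm
  -- the double coset set
  let Γ : Equiv.Perm (Option X) → Prop := fun f => f ∈ G ∨ ∃ a ∈ G, ∃ b ∈ G, f = a * h * b
  have hΓl : ∀ a ∈ G, ∀ f, Γ f → Γ (a * f) := by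
    rintro a ha f (hf | ⟨b, hb, c, hc, rfl⟩)
    · exact Or.inl (G.mul_mem ha hf)
    · exact Or.inr ⟨a * b, G.mul_mem ha hb, c, hc, by group⟩
  have hΓr : ∀ a ∈ G, ∀ f, Γ f → Γ (f * a) := by
    rintro a ha f (hf | ⟨b, hb, c, hc, rfl⟩)
    · exact Or.inl (G.mul_mem hf ha)
    · exact Or.inr ⟨b, hb, c * a, G.mul_mem hc ha, by group⟩
  have hhGh : ∀ f ∈ G, Γ (h * f * h) := by
    intro f hf
    by_cases hfx : f (some x) = some x
    · exact Or.inl (h8 f hf hfx).1
    · obtain ⟨z, hz⟩ : ∃ z, f (some x) = some z := by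
        cases hfz : f (some x) with
        | none =>
          exfalso
          have := hfix f hf
          rw [← this] at hfz
          exact Option.some_ne_none _ (f.injective hfz)
        | some z => exact ⟨z, rfl⟩
      have hxz : x ≠ z := fun h => hfx (by rw [hz, h])
      obtain ⟨a, ha, hax, hay⟩ := htwo x y x z hxy hxz
      set b := (a * g)⁻¹ * f with hb
      have hbG : b ∈ G := G.mul_mem (G.inv_mem (G.mul_mem ha hg)) hf
      have hbx : b (some x) = some x := by
        rw [hb, Perm.mul_apply, hz, Perm.inv_eq_iff_eq, Perm.mul_apply, h4, hay]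
      have hfab : f = a * g * b := by rw [hb]; group
      have h9 := (h8 a ha hax).1
      have h10 := (h8 b hbG hbx).1
      set u := (g * h) ^ 3 with hu
      have hhg : h⁻¹ * g * h⁻¹ = ((h ^ 2)⁻¹ * g⁻¹ * u) * h * ((h ^ 2)⁻¹ * g⁻¹ * (h ^ 2)⁻¹) := by
        rw [hu]
        have e1 : (g * h) ^ 3 = g * h * g * h * g * h := by
          rw [pow_succ, pow_succ, pow_one]; group
        rw [e1]; group
      have h11 : h * f * h = (h * a * h) * (h⁻¹ * g * h⁻¹) * (h * b * h) := by rw [hfab]; group
      rw [h11]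
      apply hΓr _ h10
      apply hΓl _ h9
      rw [hhg]
      exact Or.inr ⟨_, G.mul_mem (G.mul_mem (G.inv_mem h7) (G.inv_mem hg)) h6, _,
        G.mul_mem (G.mul_mem (G.inv_mem h7) (G.inv_mem hg)) (G.inv_mem h7), rfl⟩
  have hΓh : ∀ f, Γ f → Γ (h * f) := by
    rintro f (hf | ⟨b, hb, c, hc, rfl⟩)
    · exact Or.inr ⟨1, G.one_mem, f, hf, by group⟩
    · have : h * (b * h * c) = (h * b * h) * c := by group
      rw [this]
      exact hΓr c hc _ (hhGh b hb)
  have hclos : ∀ f ∈ Subgroup.closure ((G : Set (Equiv.Perm (Option X))) ∪ {h}), Γ f := by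
    intro f hf
    induction hf using Subgroup.closure_induction_left with
    | one => exact Or.inl G.one_mem
    | mul_left s hs f _ ih =>
      rcases hs with hs | hs
      · exact hΓl s hs f ih
      · rw [Set.mem_singleton_iff] at hs; rw [hs]; exact hΓh f ih
    | inv_mul_cancel s hs f _ ih =>
      rcases hs with hs | hs
      · exact hΓl _ (G.inv_mem hs) f ih
      · rw [Set.mem_singleton_iff] at hs; rw [hs]
        have : h⁻¹ * f = (h ^ 2)⁻¹ * (h * f) := by group
        rw [this]
        exact hΓl _ (G.inv_mem h7) _ (hΓh f ih)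
  have hGle : G ≤ Subgroup.closure ((G : Set (Equiv.Perm (Option X))) ∪ {h}) :=
    fun a ha => Subgroup.subset_closure (Or.inl ha)
  have hhle : h ∈ Subgroup.closure ((G : Set (Equiv.Perm (Option X))) ∪ {h}) :=
    Subgroup.subset_closure (Or.inr rfl)
  constructor
  · intro f hf
    constructor
    · intro hfn
      rcases hclos f hf with h9 | ⟨a, ha, b, hb, rfl⟩
      · exact h9
      · exfalso
        rw [Perm.mul_apply, Perm.mul_apply, hfix b hb, h1] at hfn
        have h10 := hfix a ha
        rw [← h10] at hfn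
        exact Option.some_ne_none _ (a.injective hfn)
    · intro hf'; exact hfix f hf'
  · constructor
    set Γ' := Subgroup.closure ((G : Set (Equiv.Perm (Option X))) ∪ {h}) with hΓ'
    have hto : ∀ z : Option X, ∃ γ ∈ Γ', γ z = none := by
      intro z
      cases z with
      | none => exact ⟨1, Γ'.one_mem, rfl⟩
      | some w =>
        by_cases hw : w = x
        · exact ⟨h, hhle, by rw [hw, h2]⟩
        · obtain ⟨f, hf, hf1, -⟩ := htwo w x x w hw (Ne.symm hw)
          exact ⟨h * f, Γ'.mul_mem hhle (hGle hf), by rw [Perm.mul_apply, hf1, h2]⟩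
    have hred : ∀ a : Fin (k + 1) ↪ Option X, ∃ γ ∈ Γ', γ (a 0) = none ∧ ∃ a' : Fin k ↪ X, ∀ i, γ (a i.succ) = some (a' i) := by
      intro a
      obtain ⟨γ, hγ, hγ0⟩ := hto (a 0)
      have hne : ∀ i : Fin k, ∃ w, γ (a i.succ) = some w := by
        intro i
        cases hw : γ (a i.succ) with
        | none =>
          exfalso
          rw [← hγ0] at hw
          exact Fin.succ_ne_zero i (a.injective (γ.injective hw))
        | some w => exact ⟨w, rfl⟩
      choose a' ha' using hne
      refine ⟨γ, hγ, hγ0, ⟨a', ?_⟩, ha'⟩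
      intro i j hij
      have h9 : γ (a i.succ) = γ (a j.succ) := by rw [ha', ha', hij]
      exact Fin.succ_injective _ (a.injective (γ.injective h9))
    intro a b
    obtain ⟨γ, hγ, hγ0, a', ha'⟩ := hred a
    obtain ⟨δ, hδ, hδ0, b', hb'⟩ := hred b
    obtain ⟨f, hf, hfi⟩ := htrans a' b'
    refine ⟨⟨δ⁻¹ * f * γ, Γ'.mul_mem (Γ'.mul_mem (Γ'.inv_mem hδ) (hGle hf)) hγ⟩, ?_⟩
    ext i : 1
    show (δ⁻¹ * f * γ) (a i) = b i
    rw [Perm.mul_apply, Perm.mul_apply, Perm.inv_eq_iff_eq]
    refine Fin.cases ?_ (fun i => ?_) i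
    · rw [hγ0, hfix f hf, hδ0]
    · rw [ha', hfi, hb']

end Cfsg.Agent.S4301
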