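import Cfsg.Statements.S4304
import Cfsg.Agent.H2.SylCount
import Cfsg.Agent.H2.ClassSize
import Mathlib

set_option autoImplicit false
open Cfsg

namespace Cfsg.Agent.S4304

open Cfsg.Agent.H2 Cfsg.Agent.L0

universe u

open scoped commutatorElement in
set_option maxHeartbeats 2000000 in
theorem main (n : ℕ) : ∀ (G : Type u) [Group G] [Finite G], Nat.card G = n → Nat.card (Sylow 7 G) ≠ 15 := by
  induction n using Nat.strong_induction_on with
  | _ n ih =>
  intro G _ _ hGn h15
  classical
  have h7p : Fact (Nat.Prime 7) := ⟨by norm_num⟩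
  have h2p : Fact (Nat.Prime 2) := ⟨Nat.prime_two⟩
  have hsn : ∀ (g : G) (Q : Sylow 7 G), g • Q = Q ↔ g ∈ Subgroup.normalizer ((Q : Subgroup G) : Set G) :=
    fun g Q => Sylow.smul_eq_iff_mem_normalizer
  -- faithfulness
  have hfaith : ∀ g : G, (∀ Q : Sylow 7 G, g ∈ Subgroup.normalizer ((Q : Subgroup G) : Set G)) → g = 1 := by
    let K : Subgroup G := (MulAction.toPermHom G (Sylow 7 G)).ker
    have hKn : ∀ g, g ∈ K ↔ ∀ Q : Sylow 7 G, g ∈ Subgroup.normalizer ((Q : Subgroup G) : Set G) := by
      intro g
      rw [MonoidHom.mem_ker, Equiv.ext_iff]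
      apply forall_congr'
      intro Q
      rw [← hsn]
      rfl
    have hKbot : K = ⊥ := by
      by_contra hne
      have h1 : Nat.card (G ⧸ K) < n := by
        rw [← hGn, ← Subgroup.index_eq_card, ← Subgroup.card_mul_index K]
        have h2 : 1 < Nat.card K := (Subgroup.one_lt_card_iff_ne_bot K).2 hne
        have h3 : 0 < K.index := Nat.pos_of_ne_zero Subgroup.index_ne_zero_of_finite
        nlinarith
      apply ih _ h1 (G ⧸ K) rfl
      rw [← h15]
      symm
      apply Nat.card_congr
      refine Equiv.ofBijective (fun P : Sylow 7 G => P.mapSurjective (QuotientGroup.mk'_surjective K)) ⟨?_, Sylow.mapSurjective_surjective _ 7⟩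
      intro P Q hPQ
      have h2 : (P : Subgroup G).map (QuotientGroup.mk' K) = (Q : Subgroup G).map (QuotientGroup.mk' K) := by
        have := congrArg (fun R : Sylow 7 (G ⧸ K) => (R : Subgroup (G ⧸ K))) hPQ
        simpa using this
      have h3 : (Q : Subgroup G) ≤ P := by
        intro x hx
        have h4 : QuotientGroup.mk' K x ∈ (P : Subgroup G).map (QuotientGroup.mk' K) := by rw [h2]; exact ⟨x, hx, rfl⟩
        obtain ⟨y, hy, hyx⟩ := h4
        have h5 : y⁻¹ * x ∈ K := QuotientGroup.eq.1 hyx
        have h6 : x ∈ Subgroup.normalizer ((P : Subgroup G) : Set G) := by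
          have h7 : x = y * (y⁻¹ * x) := by group
          rw [h7]
          exact Subgroup.mul_mem _ (Subgroup.le_normalizer hy) ((hKn _).1 h5 P)
        apply mem_sylow_of_mem_normalizer _ P h6
        exact Q.isPGroup'.to_le (by rw [Subgroup.zpowers_le]; exact hx)
      have h4 := Q.is_maximal' P.isPGroup' h3
      exact Sylow.ext h4
    intro g hg
    have : g ∈ K := (hKn g).2 hg
    rw [hKbot] at this
    exact Subgroup.mem_bot.1 this
  have hXfin : Finite (Sylow 7 G) := inferInstance
  have := Fintype.ofFinite G
  have := Fintype.ofFinite (Sylow 7 G)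
  have hX15 : Fintype.card (Sylow 7 G) = 15 := by rw [← Nat.card_eq_fintype_card]; exact h15
  -- order of P
  have hPcard : ∀ P : Sylow 7 G, Nat.card (P : Subgroup G) = 7 ∨ Nat.card (P : Subgroup G) = 49 := by
    intro P
    obtain ⟨k, hk⟩ := IsPGroup.iff_card.1 P.isPGroup'
    have hk' : Nat.card (P : Subgroup G) = 7 ^ k := hk
    have h1 : Function.Injective ((MulAction.toPermHom G (Sylow 7 G)).comp (P : Subgroup G).subtype) := by
      rw [injective_iff_map_eq_one]
      intro x hx
      apply Subtype.ext
      apply hfaith
      intro Q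
      rw [← hsn]
      exact congrArg (fun σ : Equiv.Perm (Sylow 7 G) => σ Q) hx
    have h2 := Subgroup.card_dvd_of_injective _ h1
    rw [hk', Nat.card_eq_fintype_card, Fintype.card_perm, hX15] at h2
    have h3 : k ≤ 2 := by
      by_contra hcon
      have h4 : 7 ^ 3 ∣ Nat.factorial 15 := dvd_trans (pow_dvd_pow 7 (by omega)) h2
      revert h4
      decide
    have h4 : k ≠ 0 := by
      rintro rfl
      rw [pow_zero] at hk'
      have h5 : (P : Subgroup G) = ⊥ := Subgroup.card_eq_one.1 hk'
      have h6 : (P : Subgroup G).Normal := by rw [h5]; infer_instance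
      have h7 : Nat.card (Sylow 7 G) = 1 := by
        rw [P.card_eq_index_normalizer]
        have h8 : Subgroup.normalizer ((P : Subgroup G) : Set G) = ⊤ := Subgroup.normalizer_eq_top_iff.2 h6
        exact (congrArg Subgroup.index h8).trans Subgroup.index_top
      omega
    interval_cases k
    · exact absurd rfl h4
    · left; rw [hk']; norm_num
    · right; rw [hk']; norm_num
  have hint : ∀ (Q : Sylow 7 G) (x : G), (∃ R : Sylow 7 G, x ∈ (R : Subgroup G)) →
      (x ∈ Subgroup.normalizer ((Q : Subgroup G) : Set G) ↔ x ∈ (Q : Subgroup G)) := by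
    rintro Q x ⟨R, hR⟩
    constructor
    · intro h
      apply mem_sylow_of_mem_normalizer _ Q h
      exact R.isPGroup'.to_le (by rw [Subgroup.zpowers_le]; exact hR)
    · intro h; exact Subgroup.le_normalizer h
  have hsmul : ∀ (Q : Sylow 7 G) (x : G), (∃ R : Sylow 7 G, x ∈ (R : Subgroup G)) →
      (x • Q = Q ↔ x ∈ (Q : Subgroup G)) := by
    intro Q x h
    rw [hsn]; exact hint Q x h
  obtain ⟨P⟩ : Nonempty (Sylow 7 G) := inferInstance
  have hcardeq : ∀ Q : Sylow 7 G, Nat.card (Q : Subgroup G) = Nat.card (P : Subgroup G) := by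
    intro Q; exact Nat.card_congr (Sylow.equiv Q P).toEquiv
  rcases hPcard P with hP | hP
  · -- order 7
    have hP7 : ∀ Q : Sylow 7 G, Nat.card (Q : Subgroup G) = 7 := fun Q => by rw [hcardeq, hP]
    have hv7 : ¬ 7 ^ 2 ∣ Nat.card G := by
      intro h
      have h1 : 7 ^ 2 ∣ Nat.card (P : Subgroup G) := P.pow_dvd_card_of_pow_dvd_card h
      rw [hP] at h1; revert h1; decide
    have hv7' : 7 ∣ Nat.card G := hP ▸ Subgroup.card_subgroup_dvd_card (P : Subgroup G)
    have hTI : ∀ Q R : Sylow 7 G, Q ≠ R → ∀ x, x ∈ (Q : Subgroup G) → x ∈ (R : Subgroup G) → x = 1 := by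
      intro Q R hQR x hx hxR
      by_contra hx1
      apply hQR
      have h1 : (Q : Subgroup G) ⊓ (R : Subgroup G) = Q := by
        apply Subgroup.eq_of_le_of_card_ge inf_le_left
        have h2 : Nat.card ((Q : Subgroup G) ⊓ (R : Subgroup G) : Subgroup G) ∣ 7 := by
          have := Subgroup.card_dvd_of_le (inf_le_left : (Q : Subgroup G) ⊓ (R : Subgroup G) ≤ Q)
          rwa [hP7 Q] at this
        rcases (Nat.dvd_prime (by norm_num)).1 h2 with h | h
        · exfalso; apply hx1
          have h3 := Subgroup.card_eq_one.1 h
          have h4 : x ∈ (Q : Subgroup G) ⊓ (R : Subgroup G) := ⟨hx, hxR⟩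
          rw [h3] at h4; exact Subgroup.mem_bot.1 h4
        · rw [h, hP7 Q]
      exact (Sylow.ext (Q.is_maximal' R.isPGroup' (inf_eq_left.1 h1))).symm
    set N : Subgroup G := Subgroup.normalizer ((P : Subgroup G) : Set G) with hN
    set C : Subgroup G := Subgroup.centralizer ((P : Subgroup G) : Set G) with hC
    have hCN : C ≤ N := Subgroup.centralizer_le_normalizer _
    have hcycP : IsCyclic (P : Subgroup G) := isCyclic_of_prime_card (hP7 P)
    have hPcomm : ∀ x ∈ (P : Subgroup G), ∀ y ∈ (P : Subgroup G), x * y = y * x := by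
      intro x hx y hy
      exact congrArg Subtype.val (hcycP.isMulCommutative.is_comm.comm ⟨x, hx⟩ ⟨y, hy⟩)
    have hCmem : ∀ g, g ∈ C ↔ ∀ p ∈ (P : Subgroup G), p * g = g * p := fun g => Subgroup.mem_centralizer_iff
    have hPC : (P : Subgroup G) ≤ C := fun x hx => (hCmem x).2 (fun p hp => hPcomm p hp x hx)
    have hNfix : ∀ g, g ∈ N ↔ g • P = P := fun g => (hsn g P).symm
    have hP7pow : ∀ x ∈ (P : Subgroup G), x ^ 7 = 1 := by
      intro x hx
      have h1 : (⟨x, hx⟩ : (P : Subgroup G)) ^ Nat.card (P : Subgroup G) = 1 := pow_card_eq_one'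
      rw [hP7 P] at h1
      exact congrArg Subtype.val h1
    -- free orbits of P
    have hfree : ∀ Q : Sylow 7 G, Q ≠ P → ∀ x ∈ (P : Subgroup G), x • Q = Q → x = 1 := by
      intro Q hQ x hx hxQ
      exact hTI P Q hQ.symm x hx ((hsmul Q x ⟨P, hx⟩).1 hxQ)
    let Pf : Finset G := Finset.univ.filter (fun x => x ∈ (P : Subgroup G))
    have hPf : Pf.card = 7 := by
      rw [← hP7 P, Nat.card_eq_fintype_card, Fintype.card_subtype]
    let O : Sylow 7 G → Finset (Sylow 7 G) := fun Q => Pf.image (fun x => x • Q)
    have hO : ∀ Q, Q ≠ P → (O Q).card = 7 := by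
      intro Q hQ
      refine Eq.trans ?_ hPf
      apply Finset.card_image_of_injOn
      intro x hx y hy hxy
      have hx' : x ∈ (P : Subgroup G) := (Finset.mem_filter.1 hx).2
      have hy' : y ∈ (P : Subgroup G) := (Finset.mem_filter.1 hy).2
      have h1 : (y⁻¹ * x) • Q = Q := by
        rw [mul_smul]
        have : x • Q = y • Q := hxy
        rw [this, inv_smul_smul]
      have h2 := hfree Q hQ _ ((P : Subgroup G).mul_mem ((P : Subgroup G).inv_mem hy') hx') h1
      exact (inv_mul_eq_one.1 h2).symm
    have hmemO : ∀ Q R, R ∈ O Q ↔ ∃ x ∈ (P : Subgroup G), x • Q = R := by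
      intro Q R; simp [O, Pf]
    have hPO : ∀ Q, Q ≠ P → P ∉ O Q := by
      intro Q hQ h
      obtain ⟨x, hx, hxQ⟩ := (hmemO Q P).1 h
      apply hQ
      have : Q = x⁻¹ • P := by rw [← hxQ, inv_smul_smul]
      rw [this]; exact (hNfix _).1 (N.inv_mem (hCN (hPC hx)))
    have hC1 : ∀ c ∈ C, ∀ Q, Q ≠ P → c • Q = Q → c = 1 := by
      intro c hc Q hQ hcQ
      have hcP : c • P = P := (hNfix c).1 (hCN hc)
      have hcO : ∀ R ∈ O Q, c • R = R := by
        intro R hR
        obtain ⟨x, hx, rfl⟩ := (hmemO Q R).1 hR
        rw [← mul_smul, ← (hCmem c).1 hc x hx, mul_smul, hcQ]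
      have hc7 : ∀ R : Sylow 7 G, c ^ 7 • R = R := by
        intro R
        have hfixpow : c • R = R → c ^ 7 • R = R := by
          intro h
          have : ∀ n : ℕ, c ^ n • R = R := by
            intro n
            induction n with
            | zero => simp
            | succ n ih => rw [pow_succ, mul_smul, h, ih]
          exact this 7
        by_cases hRP : R = P
        · subst hRP; exact hfixpow hcP
        by_cases hRO : R ∈ O Q
        · exact hfixpow (hcO R hRO)
        -- third orbit
        have hdisj : Disjoint (O Q) (O R) := by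
          rw [Finset.disjoint_left]
          intro S hS hS'
          obtain ⟨x, hx, hxS⟩ := (hmemO Q S).1 hS
          obtain ⟨y, hy, hyS⟩ := (hmemO R S).1 hS'
          apply hRO
          rw [hmemO]
          refine ⟨y⁻¹ * x, (P : Subgroup G).mul_mem ((P : Subgroup G).inv_mem hy) hx, ?_⟩
          rw [mul_smul, hxS, ← hyS, inv_smul_smul]
        have huniv : insert P (O Q ∪ O R) = Finset.univ := by
          rw [← Finset.card_eq_iff_eq_univ, hX15, Finset.card_insert_of_notMem, Finset.card_union_of_disjoint hdisj, hO Q hQ, hO R hRP]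
          rw [Finset.mem_union, not_or]
          exact ⟨hPO Q hQ, hPO R hRP⟩
        have hcR : c • R ∈ insert P (O Q ∪ O R) := by rw [huniv]; exact Finset.mem_univ _
        rw [Finset.mem_insert, Finset.mem_union] at hcR
        rcases hcR with h | h | h
        · exfalso; apply hRP
          have : R = c⁻¹ • P := by rw [← h, inv_smul_smul]
          rw [this]; exact (hNfix _).1 (N.inv_mem (hCN hc))
        · exfalso; apply hRO
          have h1 := hcO _ h
          have h2 : c • R = R := by
            have := congrArg (fun S => c⁻¹ • S) h1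
            simpa only [inv_smul_smul] using this
          rw [← h2]; exact h
        · obtain ⟨x, hx, hxR⟩ := (hmemO R _).1 h
          have hcx : ∀ n : ℕ, c ^ n • R = x ^ n • R := by
            intro n
            induction n with
            | zero => simp
            | succ n ih =>
              have h1 : x ^ n * c = c * x ^ n := (hCmem c).1 hc _ ((P : Subgroup G).pow_mem hx n)
              rw [pow_succ', mul_smul, ih, ← mul_smul, ← h1, mul_smul, ← hxR, ← mul_smul, ← pow_succ]
          rw [hcx 7, hP7pow x hx, one_smul]
      have hc71 : c ^ 7 = 1 := by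
        apply hfaith; intro R; rw [← hsn]; exact hc7 R
      have hcpg : IsPGroup 7 (Subgroup.zpowers c) := isPGroup_zpowers (k := 1) (by rw [pow_one]; exact hc71)
      have hcP' : c ∈ (P : Subgroup G) := mem_sylow_of_mem_normalizer hcpg P (hCN hc)
      have hcQ' : c ∈ (Q : Subgroup G) := mem_sylow_of_mem_normalizer hcpg Q ((hsn c Q).1 hcQ)
      exact hTI P Q hQ.symm c hcP' hcQ'
    obtain ⟨Q0, hQ0⟩ : ∃ Q : Sylow 7 G, Q ≠ P := by
      by_contra hcon
      push Not at hcon
      have : Fintype.card (Sylow 7 G) ≤ 1 := Fintype.card_le_one_iff.2 (fun a b => by rw [hcon a, hcon b])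
      omega
    have hCcard : Nat.card C = 7 ∨ Nat.card C = 14 := by
      have h1 : 7 ∣ Nat.card C := (hP7 P) ▸ Subgroup.card_dvd_of_le hPC
      have h2 : Nat.card C ≤ 14 := by
        have h3 : Nat.card {Q : Sylow 7 G // Q ≠ P} = 14 := by
          rw [Nat.card_eq_fintype_card, Fintype.card_subtype_compl, hX15, Fintype.card_subtype_eq]
        rw [← h3]
        refine Nat.card_le_card_of_injective (fun c : C => (⟨(c : G) • Q0, ?_⟩ : {Q : Sylow 7 G // Q ≠ P})) ?_
        · intro h
          apply hQ0
          have : Q0 = (c : G)⁻¹ • P := by rw [← h, inv_smul_smul]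
          rw [this]; exact (hNfix _).1 (N.inv_mem (hCN c.2))
        · intro c c' hcc
          have h4 : (c : G) • Q0 = (c' : G) • Q0 := congrArg Subtype.val hcc
          have h5 : ((c' : G)⁻¹ * c) • Q0 = Q0 := by rw [mul_smul, h4, inv_smul_smul]
          have h6 := hC1 _ (C.mul_mem (C.inv_mem c'.2) c.2) Q0 hQ0 h5
          exact Subtype.ext (inv_mul_eq_one.1 h6).symm
      have h3 : 0 < Nat.card C := Nat.card_pos
      omega
    have hd6 : C.relIndex N ∣ 6 := relIndex_centralizer_dvd (by norm_num) (hP7 P)
    have hNcard : Nat.card C * C.relIndex N = Nat.card N := by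
      have := Subgroup.card_mul_index (C.subgroupOf N)
      rw [Nat.card_congr (Subgroup.subgroupOfEquivOfLe hCN).toEquiv] at this
      exact this
    have hNidx : N.index = 15 := by rw [← h15]; exact (P.card_eq_index_normalizer).symm
    have hGcard : Nat.card G = 15 * (Nat.card C * C.relIndex N) := by
      rw [hNcard, ← Subgroup.card_mul_index N, hNidx, mul_comm]
    have hC14 : Nat.card C ∣ 14 := by
      rcases hCcard with h | h <;> rw [h] <;> norm_num
    have hmemN_all : ∀ M : Subgroup G, M.Normal → M ≤ N → M = ⊥ := by
      intro M hM hMN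
      rw [eq_bot_iff]
      intro x hx
      rw [Subgroup.mem_bot]
      apply hfaith
      intro Q
      rw [← hsn]
      obtain ⟨g, rfl⟩ := MulAction.exists_smul_eq G P Q
      have h1 : g⁻¹ * x * g ∈ N := by
        apply hMN
        have := hM.conj_mem x hx g⁻¹
        rwa [inv_inv] at this
      have h2 := (hNfix _).1 h1
      have h3 : x • g • P = g • ((g⁻¹ * x * g) • P) := by
        rw [← mul_smul, ← mul_smul]; congr 1; group
      rw [h3, h2]
    -- simplicity
    have hsimple : IsSimpleGroup G := by
      have hnt : Nontrivial G := by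
        rw [← Finite.one_lt_card_iff_nontrivial]
        exact lt_of_lt_of_le (by norm_num) (Nat.le_of_dvd Nat.card_pos hv7')
      refine ⟨fun M hM => ?_⟩
      by_contra hcon
      push Not at hcon
      obtain ⟨hMbot, hMtop⟩ := hcon
      by_cases h7M : 7 ∣ Nat.card M
      · -- all Sylow 7-subgroups in M
        have hle : ∀ Q : Sylow 7 G, (Q : Subgroup G) ≤ M := by
          obtain ⟨x, hx⟩ := exists_prime_orderOf_dvd_card' (G := M) 7 h7M
          have h1 : orderOf (x : G) = 7 := by rw [Subgroup.orderOf_coe]; exact hx
          have h2 : IsPGroup 7 (Subgroup.zpowers (x : G)) := isPGroup_zpowers (k := 1) (by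
            rw [pow_one, ← h1]; exact pow_orderOf_eq_one _)
          obtain ⟨R, hR⟩ := h2.exists_le_sylow
          have h3 : Subgroup.zpowers (x : G) = (R : Subgroup G) := by
            apply Subgroup.eq_of_le_of_card_ge hR
            rw [Nat.card_zpowers, h1, hP7 R]
          have hRM : (R : Subgroup G) ≤ M := by rw [← h3, Subgroup.zpowers_le]; exact x.2
          intro Q
          obtain ⟨g, rfl⟩ := MulAction.exists_smul_eq G R Q
          intro y hy
          have h4 := (H3.mem_smul_sylow_iff R g y).1 hy
          have h5 := hM.conj_mem _ (hRM h4) g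
          have h6 : g * (g⁻¹ * y * g) * g⁻¹ = y := by group
          rwa [h6] at h5
        have hMlt : Nat.card M < n := by
          rw [← hGn]
          exact lt_of_le_of_ne (Subgroup.card_le_card_group M) (fun h => hMtop (Subgroup.eq_top_of_card_eq M h))
        have hv7M : ¬ 7 ^ 2 ∣ Nat.card M := fun h => hv7 (dvd_trans h (Subgroup.card_subgroup_dvd_card M))
        apply ih _ hMlt M rfl
        rw [← h15]
        symm
        apply Nat.card_congr
        refine Equiv.ofBijective (fun Q : Sylow 7 G => Q.subtype (hle Q)) ⟨?_, ?_⟩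
        · intro Q R h; exact Sylow.subtype_injective h
        · intro R
          have h1 : IsPGroup 7 ((R : Subgroup M).map M.subtype) := R.isPGroup'.map _
          obtain ⟨Q, hQ⟩ := h1.exists_le_sylow
          have h2 : (R : Subgroup M).map M.subtype = (Q : Subgroup G) := by
            apply Subgroup.eq_of_le_of_card_ge hQ
            rw [hP7 Q, card_map_subtype, card_sylow_prime R h7M hv7M]
          refine ⟨Q, ?_⟩
          apply Sylow.ext
          show (Q : Subgroup G).subgroupOf M = R
          rw [← h2]
          exact Subgroup.comap_map_eq_self_of_injective M.subtype_injective _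
      · -- order prime to 7
        have hMC : M ⊓ N ≤ C := by
          rintro x ⟨hxM, hxN⟩
          rw [hCmem]
          intro p hp
          have h1 : x * p * x⁻¹ * p⁻¹ ∈ (P : Subgroup G) :=
            (P : Subgroup G).mul_mem ((Subgroup.mem_normalizer_iff.1 hxN p).1 hp) ((P : Subgroup G).inv_mem hp)
          have h2 : x * p * x⁻¹ * p⁻¹ ∈ M := by
            have : x * p * x⁻¹ * p⁻¹ = x * (p * x⁻¹ * p⁻¹) := by group
            rw [this]
            exact M.mul_mem hxM (hM.conj_mem _ (M.inv_mem hxM) p)
          have h3 : (P : Subgroup G) ⊓ M = ⊥ := by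
            apply inf_eq_bot_of_coprime'
            rw [hP7 P]; exact (Nat.Prime.coprime_iff_not_dvd (by norm_num)).2 h7M
          have h4 : x * p * x⁻¹ * p⁻¹ ∈ (P : Subgroup G) ⊓ M := ⟨h1, h2⟩
          rw [h3, Subgroup.mem_bot, mul_inv_eq_one, mul_inv_eq_iff_eq_mul] at h4
          exact h4.symm
        have hMN2 : Nat.card (M ⊓ N : Subgroup G) ∣ 2 := by
          have h1 : Nat.card (M ⊓ N : Subgroup G) ∣ 2 * 7 := dvd_trans (Subgroup.card_dvd_of_le hMC) hC14
          have h2 : Nat.Coprime (Nat.card (M ⊓ N : Subgroup G)) 7 := by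
            rw [Nat.coprime_comm, Nat.Prime.coprime_iff_not_dvd (by norm_num)]
            intro h; exact h7M (dvd_trans h (Subgroup.card_dvd_of_le inf_le_left))
          exact h2.dvd_of_dvd_mul_right h1
        have hMcard : Nat.card (M ⊓ N : Subgroup G) * N.relIndex M = Nat.card M := by
          have := Subgroup.card_mul_index (N.subgroupOf M)
          rw [← this]
          congr 1
          rw [inf_comm, ← Subgroup.subgroupOf_map_subtype, card_map_subtype]
        have hm0 : N.relIndex M ∣ 15 := by
          rw [← hNidx]; exact relIndex_dvd_index_of_normal_right N M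
        have hm1 : N.relIndex M ≠ 1 := by
          intro h
          exact hMbot (hmemN_all M hM (Subgroup.relIndex_eq_one.1 h))
        obtain ⟨r, hr, hrm, hr35⟩ : ∃ r : ℕ, r.Prime ∧ r ∣ N.relIndex M ∧ (r = 3 ∨ r = 5) := by
          obtain ⟨r, hr, hrm⟩ := Nat.exists_prime_and_dvd hm1
          refine ⟨r, hr, hrm, ?_⟩
          have h1 : r ∣ 3 * 5 := dvd_trans hrm hm0
          rcases (Nat.Prime.dvd_mul hr).1 h1 with h | h
          · left; exact (Nat.prime_dvd_prime_iff_eq hr (by norm_num)).1 h
          · right; exact (Nat.prime_dvd_prime_iff_eq hr (by norm_num)).1 h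
        have hM30 : Nat.card M ∣ 30 := by
          rw [← hMcard]; exact mul_dvd_mul hMN2 hm0
        have hrM : r ∣ Nat.card M := by rw [← hMcard]; exact Dvd.dvd.mul_left hrm _
        have hr2M : ¬ r ^ 2 ∣ Nat.card M := by
          intro h
          have := dvd_trans h hM30
          rcases hr35 with h | h <;> subst h <;> revert this <;> decide
        have hrf : Fact r.Prime := ⟨hr⟩
        obtain ⟨F, hF, hPF⟩ := exists_invariant_sylow (p := r) (A := (P : Subgroup G)) (N := M)
          (by rw [Subgroup.normalizer_eq_top_iff.2 hM]; exact le_top)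
          (by rw [hP7 P]; exact (Nat.Prime.coprime_iff_not_dvd (by norm_num)).2 h7M)
          (Or.inl (Group.isSolvable_of_comm (fun a b => hcycP.isMulCommutative.is_comm.comm a b)))
        obtain ⟨S, hS⟩ := hF
        have hFcard : Nat.card F = r := by rw [← hS, card_map_subtype, card_sylow_prime S hrM hr2M]
        have hPF' : (P : Subgroup G) ≤ Subgroup.centralizer (F : Set G) := by
          intro x hx
          apply centralizes_of_card_prime hr hFcard (hPF hx)
          have h1 : orderOf x ∣ 7 := orderOf_dvd_of_pow_eq_one (hP7pow x hx)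
          apply Nat.Coprime.coprime_dvd_left h1
          rcases hr35 with h | h <;> subst h <;> norm_num
        have hFC : F ≤ C := by
          intro y hy
          rw [hCmem]
          intro p hp
          exact (Subgroup.mem_centralizer_iff.1 (hPF' hp) y hy).symm
        have h1 : r ∣ 14 := hFcard ▸ dvd_trans (Subgroup.card_dvd_of_le hFC) hC14
        rcases hr35 with h | h <;> subst h <;> revert h1 <;> decide

    -- G is perfect
    have hnc : ¬ ∀ x y : G, x * y = y * x := by
      intro hcom
      have : N = ⊤ := by
        rw [eq_top_iff]; intro x _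
        exact hCN ((hCmem x).2 (fun p _ => hcom p x))
      rw [this, Subgroup.index_top] at hNidx
      omega
    have hperf : commutator G = ⊤ := by
      rcases hsimple.eq_bot_or_eq_top_of_normal (commutator G) inferInstance with h | h
      · exfalso; apply hnc
        intro x y
        have : ⁅x, y⁆ ∈ commutator G := Subgroup.commutator_mem_commutator (Subgroup.mem_top x) (Subgroup.mem_top y)
        rw [h, Subgroup.mem_bot, commutatorElement_eq_one_iff_mul_comm] at this
        exact this
      · exact h
    have hd1 : C.relIndex N ≠ 1 := by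
      intro h
      have hNC : Subgroup.normalizer ((P : Subgroup G) : Set G) ≤ Subgroup.centralizer ((P : Subgroup G) : Set G) :=
        Subgroup.relIndex_eq_one.1 h
      obtain ⟨S, M, hM, hSM⟩ := H1.hasNormalPComplement_of_normalizer_le_centralizer P hNC
      have h4 : Nat.card M * Nat.card (S : Subgroup G) = Nat.card G := hSM.card_mul
      have hS7 := hP7 S
      have h5 : Nat.card M * 7 = Nat.card G := by rw [← h4, hS7]
      rcases hsimple.eq_bot_or_eq_top_of_normal M hM with hb | ht
      · rw [hb, Subgroup.card_bot, one_mul, hGcard] at h5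
        omega
      · rw [ht, Subgroup.card_top] at h5
        have : 0 < Nat.card G := Nat.card_pos
        omega
    have hd : C.relIndex N = 2 ∨ C.relIndex N = 3 ∨ C.relIndex N = 6 := by
      have h1 : C.relIndex N ≤ 6 := Nat.le_of_dvd (by norm_num) hd6
      have key : ∀ d ≤ 6, d ∣ 6 → d ≠ 1 → (d = 2 ∨ d = 3 ∨ d = 6) := by decide
      exact key _ h1 hd6 hd1
    have hno : ∀ r : ℕ, r.Prime → r ∣ Nat.card G → ¬ r ^ 2 ∣ Nat.card G → (Nat.card G).Coprime (r - 1) → r < 105 → False := by
      intro r hr h1 h2 h3 h4
      have h5 := simple_card_of_coprime hsimple hr h1 h2 h3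
      have h6 : 7 ≤ Nat.card C := by rcases hCcard with h | h <;> omega
      have h7 : 1 ≤ C.relIndex N := by omega
      rw [h5] at hGcard
      nlinarith
    rcases hCcard with hC7 | hC14'
    · rw [hC7] at hGcard
      rcases hd with h | h | h <;> rw [h] at hGcard
      · exact hno 2 Nat.prime_two (by rw [hGcard]; norm_num) (by rw [hGcard]; norm_num) (by norm_num) (by norm_num)
      · exact hno 5 (by norm_num) (by rw [hGcard]; norm_num) (by rw [hGcard]; norm_num) (by rw [hGcard]; norm_num) (by norm_num)
      · exact hno 2 Nat.prime_two (by rw [hGcard]; norm_num) (by rw [hGcard]; norm_num) (by norm_num) (by norm_num)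
    · rw [hC14'] at hGcard
      have hd' : C.relIndex N = 2 ∨ C.relIndex N = 6 := by
        rcases hd with h | h | h
        · left; exact h
        · exfalso
          rw [h] at hGcard
          exact hno 2 Nat.prime_two (by rw [hGcard]; norm_num) (by rw [hGcard]; norm_num) (by norm_num) (by norm_num)
        · right; exact h
      have h4G : 2 ^ 2 ∣ Nat.card G := by rcases hd' with h | h <;> rw [hGcard, h] <;> norm_num
      have h8G : ¬ 2 ^ 3 ∣ Nat.card G := by rcases hd' with h | h <;> rw [hGcard, h] <;> norm_num
      have h4N : 2 ^ 2 ∣ Nat.card N := by rcases hd' with h | h <;> rw [← hNcard, hC14', h] <;> norm_num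
      have hS4 : ∀ S : Sylow 2 G, Nat.card S = 4 := by
        intro S
        have h1 : 2 ^ 2 ∣ Nat.card S := S.pow_dvd_card_of_pow_dvd_card h4G
        obtain ⟨k, hk⟩ := IsPGroup.iff_card.1 S.isPGroup'
        have h3 : k < 3 := by
          by_contra hcon
          apply h8G
          have h2 : Nat.card S ∣ Nat.card G := Subgroup.card_subgroup_dvd_card (S : Subgroup G)
          rw [hk] at h2
          exact dvd_trans (pow_dvd_pow 2 (by omega)) h2
        have h5 : 2 ≤ k := by
          rw [hk] at h1
          exact (Nat.pow_dvd_pow_iff_le_right (by norm_num)).1 h1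
        have h6 : k = 2 := by omega
        rw [hk, h6]; norm_num
      -- elementary subgroup of order four in N
      obtain ⟨T', hT'⟩ := Sylow.exists_subgroup_card_pow_prime 2 h4N
      let T : Subgroup G := T'.map N.subtype
      have hTN : T ≤ N := Subgroup.map_subtype_le _
      have hTcard : Nat.card T = 4 := by
        show Nat.card (T'.map N.subtype) = 4
        rw [card_map_subtype, hT']; norm_num
      have hT2 : IsPGroup 2 T := IsPGroup.of_card (n := 2) (by rw [hTcard]; norm_num)
      obtain ⟨S, hS⟩ := hT2.exists_le_sylow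
      obtain ⟨helem, hconj⟩ := sylow_two_order_four S (hS4 S) hperf
      obtain ⟨s, hsT, hsC⟩ : ∃ s ∈ T, s ∉ C := by
        by_contra hcon
        push Not at hcon
        have h1 := Subgroup.card_dvd_of_le (show T ≤ C from hcon)
        rw [hTcard, hC14'] at h1
        revert h1; decide
      have hss : s * s = 1 := helem s (hS hsT)
      have hsN : s ∈ N := hTN hsT
      have hsinv : s⁻¹ = s := inv_eq_of_mul_eq_one_left hss
      -- involution t of C
      obtain ⟨t', ht'⟩ := exists_prime_orderOf_dvd_card' (G := C) 2 (by rw [hC14']; norm_num)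
      obtain ⟨t, htC⟩ := t'
      have htt : t * t = 1 := by
        have h1 := pow_orderOf_eq_one (⟨t, htC⟩ : C)
        rw [ht', pow_two] at h1
        exact congrArg Subtype.val h1
      have ht1 : t ≠ 1 := by
        intro h
        have : (⟨t, htC⟩ : C) = 1 := Subtype.ext h
        rw [this, orderOf_one] at ht'
        norm_num at ht'
      have htinv : t⁻¹ = t := inv_eq_of_mul_eq_one_left htt
      have hPsq : ∀ x ∈ (P : Subgroup G), x * x = 1 → x = 1 := by
        intro x hx hxx
        have h1 : orderOf x ∣ 2 := orderOf_dvd_of_pow_eq_one (by rw [pow_two]; exact hxx)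
        have h4 : orderOf x ∣ 7 := orderOf_dvd_of_pow_eq_one (hP7pow x hx)
        rw [← orderOf_eq_one_iff]
        exact Nat.eq_one_of_dvd_coprimes (by norm_num) h1 h4
      have htP : t ∉ (P : Subgroup G) := fun h => ht1 (hPsq t h htt)
      have hidx : ((P : Subgroup G).subgroupOf C).index = 2 := by
        have h1 := Subgroup.card_mul_index ((P : Subgroup G).subgroupOf C)
        rw [Nat.card_congr (Subgroup.subgroupOfEquivOfLe hPC).toEquiv, hC14', hP7 P] at h1
        omega
      have hPmul : ∀ x ∈ C, ∀ y ∈ C, (x * y ∈ (P : Subgroup G) ↔ (x ∈ (P : Subgroup G) ↔ y ∈ (P : Subgroup G))) := by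
        intro x hx y hy
        have := Subgroup.mul_mem_iff_of_index_two hidx (a := ⟨x, hx⟩) (b := ⟨y, hy⟩)
        simpa [Subgroup.mem_subgroupOf] using this
      have huniq : ∀ c ∈ C, c * c = 1 → c ≠ 1 → c = t := by
        intro c hc hcc hc1
        have hcP : c ∉ (P : Subgroup G) := fun h => hc1 (hPsq c h hcc)
        have h1 : t * c ∈ (P : Subgroup G) := by
          rw [hPmul t htC c hc]; exact ⟨fun h => absurd h htP, fun h => absurd h hcP⟩
        have h2 : (t * c) * t = t * (t * c) := (hCmem t).1 htC _ h1
        have h3 : (t * c) * (t * c) = 1 := by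
          calc (t * c) * (t * c) = ((t * c) * t) * c := by group
            _ = (t * (t * c)) * c := by rw [h2]
            _ = (t * t) * (c * c) := by group
            _ = 1 := by rw [htt, hcc, one_mul]
        have h4 := hPsq _ h1 h3
        rw [← htinv]; exact (inv_eq_of_mul_eq_one_right h4).symm
      have hCnorm : ∀ g ∈ N, ∀ c ∈ C, g * c * g⁻¹ ∈ C := by
        intro g hg c hc
        rw [hCmem]
        intro p hp
        have h1 : g⁻¹ * p * g ∈ (P : Subgroup G) := by
          have h2 := (Subgroup.mem_normalizer_iff.1 (N.inv_mem hg) p).1 hp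
          rwa [inv_inv] at h2
        have h4 := (hCmem c).1 hc _ h1
        calc p * (g * c * g⁻¹) = g * ((g⁻¹ * p * g) * c) * g⁻¹ := by group
          _ = g * (c * (g⁻¹ * p * g)) * g⁻¹ := by rw [h4]
          _ = g * c * g⁻¹ * p := by group
      have htN : ∀ g ∈ N, g * t * g⁻¹ = t := by
        intro g hg
        apply huniq _ (hCnorm g hg t htC)
        · have : g * t * g⁻¹ * (g * t * g⁻¹) = g * (t * t) * g⁻¹ := by group
          rw [this, htt]; group
        · intro h
          apply ht1
          have : t = g⁻¹ * (g * t * g⁻¹) * g := by group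
          rw [this, h]; group
      have hst : s * t = t * s := by
        have := htN s hsN
        rw [mul_inv_eq_iff_eq_mul] at this; exact this
      -- s inverts P
      have hsP : ∀ x ∈ (P : Subgroup G), s * x * s⁻¹ = x⁻¹ := by
        intro x hx
        have hsx : s * x * s⁻¹ ∈ (P : Subgroup G) := (Subgroup.mem_normalizer_iff.1 hsN x).1 hx
        have hy : x * (s * x * s⁻¹) ∈ (P : Subgroup G) := (P : Subgroup G).mul_mem hx hsx
        have hsy : s * (x * (s * x * s⁻¹)) * s⁻¹ = x * (s * x * s⁻¹) := by
          calc s * (x * (s * x * s⁻¹)) * s⁻¹ = (s * x * s⁻¹) * ((s * s) * x * (s * s)⁻¹) := by group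
            _ = (s * x * s⁻¹) * x := by rw [hss]; group
            _ = x * (s * x * s⁻¹) := hPcomm _ hsx x hx
        by_contra hne
        have hy1 : x * (s * x * s⁻¹) ≠ 1 := fun h => hne (eq_inv_of_mul_eq_one_right h)
        apply hsC
        rw [hCmem]
        intro p hp
        -- p is a power of y
        set y := x * (s * x * s⁻¹) with hydef
        have hz : Subgroup.zpowers y = (P : Subgroup G) := by
          apply Subgroup.eq_of_le_of_card_ge
          · rw [Subgroup.zpowers_le]; exact hy
          · rw [hP7 P, Nat.card_zpowers]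
            have h1 : orderOf y ∣ 7 := orderOf_dvd_of_pow_eq_one (hP7pow y hy)
            rcases (Nat.dvd_prime (by norm_num)).1 h1 with h | h
            · exact absurd (orderOf_eq_one_iff.1 h) hy1
            · rw [h]
        rw [← hz] at hp
        obtain ⟨i, rfl⟩ := Subgroup.mem_zpowers_iff.1 hp
        have h1 : Commute y s := by
          have h2 : s * y = y * s := by rw [mul_inv_eq_iff_eq_mul] at hsy; exact hsy
          exact h2.symm
        exact h1.zpow_left i
      -- the set of involutions
      let I : Finset G := Finset.univ.filter (fun u => u * u = 1 ∧ u ≠ 1)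
      have hI15 : I.card ≤ 15 := by
        have h1 : I.card = (Subgroup.centralizer ({t} : Set G)).index := by
          rw [← H3.card_isConj t, Nat.card_eq_fintype_card, Fintype.card_subtype]
          congr 1
          ext u
          simp only [I, Finset.mem_filter, Finset.mem_univ, true_and]
          constructor
          · rintro ⟨h1, h2⟩; exact hconj t u htt ht1 h1 h2
          · intro h
            obtain ⟨c, rfl⟩ := isConj_iff.1 h
            constructor
            · have : c * t * c⁻¹ * (c * t * c⁻¹) = c * (t * t) * c⁻¹ := by group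
              rw [this, htt]; group
            · intro h2
              apply ht1
              have : t = c⁻¹ * (c * t * c⁻¹) * c := by group
              rw [this, h2]; group
        rw [h1]
        have h2 : N ≤ Subgroup.centralizer ({t} : Set G) := by
          intro g hg
          rw [Subgroup.mem_centralizer_singleton_iff]
          have := htN g hg
          rw [mul_inv_eq_iff_eq_mul] at this
          exact this
        rw [← hNidx]
        exact Nat.le_of_dvd (Nat.pos_of_ne_zero Subgroup.index_ne_zero_of_finite) (Subgroup.index_dvd_of_le h2)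
      let A1 : Finset G := Pf.image (fun x => x * s)
      let A2 : Finset G := Pf.image (fun x => x * s * t)
      have hA1 : A1.card = 7 := by
        refine Eq.trans (Finset.card_image_of_injective _ (mul_left_injective s)) hPf
      have hA2 : A2.card = 7 := by
        refine Eq.trans (Finset.card_image_of_injective _ ?_) hPf
        intro x y h
        exact mul_right_cancel (mul_right_cancel h)
      have hPfm : ∀ x, x ∈ Pf ↔ x ∈ (P : Subgroup G) := by intro x; simp [Pf]
      have hA12 : Disjoint A1 A2 := by
        rw [Finset.disjoint_left]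
        intro u hu hu'
        obtain ⟨x, hx, rfl⟩ := Finset.mem_image.1 hu
        obtain ⟨y, hy, hyx⟩ := Finset.mem_image.1 hu'
        apply htP
        have h1 : t = s⁻¹ * (y⁻¹ * x) * s := by
          have h2 : y * s * t = x * s := hyx
          calc t = s⁻¹ * y⁻¹ * (y * s * t) := by group
            _ = s⁻¹ * y⁻¹ * (x * s) := by rw [h2]
            _ = _ := by group
        rw [h1]
        have h3 := (Subgroup.mem_normalizer_iff.1 (N.inv_mem hsN) (y⁻¹ * x)).1
          ((P : Subgroup G).mul_mem ((P : Subgroup G).inv_mem ((hPfm y).1 hy)) ((hPfm x).1 hx))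
        rwa [inv_inv] at h3
      have htA : t ∉ A1 ∪ A2 := by
        rw [Finset.mem_union, not_or]
        constructor
        · intro h
          obtain ⟨x, hx, hxs⟩ := Finset.mem_image.1 h
          apply hsC
          have : s = x⁻¹ * t := by rw [← hxs]; group
          rw [this]; exact C.mul_mem (C.inv_mem (hPC ((hPfm x).1 hx))) htC
        · intro h
          obtain ⟨x, hx, hxs⟩ := Finset.mem_image.1 h
          apply hsC
          have h1 : x * s = 1 := mul_eq_right.1 hxs
          have : s = x⁻¹ := (inv_eq_of_mul_eq_one_right h1).symm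
          rw [this]; exact C.inv_mem (hPC ((hPfm x).1 hx))
      have hxs : ∀ x ∈ (P : Subgroup G), (x * s) * (x * s) = 1 := by
        intro x hx
        calc (x * s) * (x * s) = x * (s * x * s⁻¹) * (s * s) := by group
          _ = 1 := by rw [hsP x hx, hss]; group
      have hsub : insert t (A1 ∪ A2) ⊆ I := by
        intro u hu
        rw [Finset.mem_insert, Finset.mem_union] at hu
        simp only [I, Finset.mem_filter, Finset.mem_univ, true_and]
        rcases hu with rfl | hu | hu
        · exact ⟨htt, ht1⟩
        · obtain ⟨x, hx, rfl⟩ := Finset.mem_image.1 hu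
          have hx' := (hPfm x).1 hx
          refine ⟨hxs x hx', ?_⟩
          intro h
          apply hsC
          have : s = x⁻¹ := (inv_eq_of_mul_eq_one_right h).symm
          rw [this]; exact C.inv_mem (hPC hx')
        · obtain ⟨x, hx, rfl⟩ := Finset.mem_image.1 hu
          have hx' := (hPfm x).1 hx
          have hxt : Commute (x * s) t := by
            have e1 : Commute x t := (hCmem t).1 htC x hx'
            have e2 : Commute s t := hst
            exact e1.mul_left e2
          refine ⟨?_, ?_⟩
          · have h1 : (x * s * t) * (x * s * t) = ((x * s) * (x * s)) * (t * t) := by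
              calc (x * s * t) * (x * s * t) = (x * s) * (t * (x * s)) * t := by group
                _ = (x * s) * ((x * s) * t) * t := by rw [hxt.eq]
                _ = _ := by group
            rw [h1, hxs x hx', htt, one_mul]
          · intro h
            apply hsC
            have : s = x⁻¹ * t⁻¹ := by
              have h3 : x * s = t⁻¹ := eq_inv_of_mul_eq_one_left h
              rw [← h3]; group
            rw [this]; exact C.mul_mem (C.inv_mem (hPC hx')) (C.inv_mem htC)
      have hAcard : (insert t (A1 ∪ A2)).card = 15 := by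
        rw [Finset.card_insert_of_notMem htA, Finset.card_union_of_disjoint hA12, hA1, hA2]
      have hIeq : insert t (A1 ∪ A2) = I := Finset.eq_of_subset_of_card_le hsub (by rw [hAcard]; exact hI15)
      have hIN : ∀ u : G, u * u = 1 → u ≠ 1 → u ∈ N := by
        intro u hu hu1
        have h1 : u ∈ I := by simp only [I, Finset.mem_filter, Finset.mem_univ, true_and]; exact ⟨hu, hu1⟩
        rw [← hIeq, Finset.mem_insert, Finset.mem_union] at h1
        rcases h1 with rfl | h1 | h1
        · exact hCN htC
        · obtain ⟨x, hx, rfl⟩ := Finset.mem_image.1 h1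
          exact N.mul_mem (hCN (hPC ((hPfm x).1 hx))) hsN
        · obtain ⟨x, hx, rfl⟩ := Finset.mem_image.1 h1
          exact N.mul_mem (N.mul_mem (hCN (hPC ((hPfm x).1 hx))) hsN) (hCN htC)
      apply ht1
      apply hfaith
      intro Q
      rw [← hsn]
      obtain ⟨g, rfl⟩ := MulAction.exists_smul_eq G P Q
      have h1 : g⁻¹ * t * g ∈ N := by
        apply hIN
        · have : g⁻¹ * t * g * (g⁻¹ * t * g) = g⁻¹ * (t * t) * g := by group
          rw [this, htt]; group
        · intro h
          apply ht1
          have : t = g * (g⁻¹ * t * g) * g⁻¹ := by group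
          rw [this, h]; group
      have h2 := (hNfix _).1 h1
      have h3 : t • g • P = g • ((g⁻¹ * t * g) • P) := by
        rw [← mul_smul, ← mul_smul]; congr 1; group
      rw [h3, h2]
  · -- order 49
    exfalso
    let f : G → ℕ := fun x => (Finset.univ.filter (fun Q : Sylow 7 G => x ∈ (Q : Subgroup G))).card
    have hf : ∀ x : G, (∃ R : Sylow 7 G, x ∈ (R : Subgroup G)) → x ≠ 1 → f x = 1 ∨ f x = 8 := by
      rintro x ⟨R, hR⟩ hx1
      have h1 : IsPGroup 7 (Subgroup.zpowers x) := R.isPGroup'.to_le (by rw [Subgroup.zpowers_le]; exact hR)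
      have h2 := h1.card_modEq_card_fixedPoints (Sylow 7 G)
      have h3 : Nat.card (MulAction.fixedPoints (Subgroup.zpowers x) (Sylow 7 G)) = f x := by
        rw [Nat.card_eq_fintype_card]
        show _ = (Finset.univ.filter (fun Q : Sylow 7 G => x ∈ (Q : Subgroup G))).card
        rw [← Set.toFinset_card]
        congr 1
        ext Q
        simp only [Set.mem_toFinset, Finset.mem_filter, Finset.mem_univ, true_and]
        rw [h1.sylow_mem_fixedPoints_iff, Subgroup.zpowers_le]
      rw [h15, h3] at h2
      have h4 : f x ≤ 15 := by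
        rw [← hX15]; exact Finset.card_le_univ _
      have h5 : f x ≠ 15 := by
        intro h6
        apply hx1
        apply hfaith
        intro Q
        have h7 : Finset.univ.filter (fun Q : Sylow 7 G => x ∈ (Q : Subgroup G)) = Finset.univ := by
          rw [← Finset.card_eq_iff_eq_univ, hX15]; exact h6
        have h8 : Q ∈ Finset.univ.filter (fun Q : Sylow 7 G => x ∈ (Q : Subgroup G)) := by rw [h7]; exact Finset.mem_univ _
        exact Subgroup.le_normalizer (Finset.mem_filter.1 h8).2
      have h6 : 15 % 7 = f x % 7 := h2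
      omega
    -- intersections
    have hinter : ∀ P Q : Sylow 7 G, P ≠ Q → Nat.card ((P : Subgroup G) ⊓ (Q : Subgroup G) : Subgroup G) = 7 := by
      intro P Q hPQ
      have hP49 : Nat.card (P : Subgroup G) = 49 := by rw [hcardeq, hP]
      have h1 : Nat.card (MulAction.orbit (P : Subgroup G) Q) * Nat.card (MulAction.stabilizer (P : Subgroup G) Q) = 49 := by
        rw [← hP49]
        have := Fintype.ofFinite (P : Subgroup G)
        have h2 := MulAction.card_orbit_mul_card_stabilizer_eq_card_group (P : Subgroup G) Q
        simpa only [← Nat.card_eq_fintype_card] using h2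
      have h3 : Nat.card (MulAction.stabilizer (P : Subgroup G) Q) = Nat.card ((P : Subgroup G) ⊓ (Q : Subgroup G) : Subgroup G) := by
        have h4 : (MulAction.stabilizer (P : Subgroup G) Q) = ((P : Subgroup G) ⊓ (Q : Subgroup G)).subgroupOf (P : Subgroup G) := by
          ext x
          rw [MulAction.mem_stabilizer_iff, Subgroup.mem_subgroupOf, Subgroup.mem_inf]
          have h5 := hsmul Q x ⟨P, x.2⟩
          constructor
          · intro h; exact ⟨x.2, h5.1 h⟩
          · intro h; exact h5.2 h.2
        rw [h4]
        exact Nat.card_congr (Subgroup.subgroupOfEquivOfLe inf_le_left).toEquiv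
      rw [h3] at h1
      have h4 : Nat.card ((P : Subgroup G) ⊓ (Q : Subgroup G) : Subgroup G) ∣ 7 ^ 2 := by
        rw [show (7 : ℕ) ^ 2 = 49 by norm_num, ← hP49]; exact Subgroup.card_dvd_of_le inf_le_left
      obtain ⟨k, hk, hk2⟩ := (Nat.dvd_prime_pow (by norm_num)).1 h4
      interval_cases k
      · exfalso
        rw [hk2] at h1
        have h5 : Nat.card (MulAction.orbit (P : Subgroup G) Q) ≤ 15 := by
          rw [← h15]; exact Nat.card_le_card_of_injective _ Subtype.val_injective
        omega
      · rw [hk2]; norm_num
      · exfalso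
        apply hPQ
        have h5 : (P : Subgroup G) ⊓ (Q : Subgroup G) = P := by
          apply Subgroup.eq_of_le_of_card_ge inf_le_left
          rw [hk2, hP49]; norm_num
        have h6 : (P : Subgroup G) ≤ Q := inf_eq_left.1 h5
        exact (Sylow.ext (P.is_maximal' Q.isPGroup' h6)).symm
    -- sum over P of f
    have hsum : ∀ P : Sylow 7 G, ∑ x ∈ Finset.univ.filter (fun x => x ∈ (P : Subgroup G)), f x = 147 := by
      intro P
      have hP49 : Nat.card (P : Subgroup G) = 49 := by rw [hcardeq, hP]
      have h1 : ∑ x ∈ Finset.univ.filter (fun x => x ∈ (P : Subgroup G)), f x =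
          ∑ Q : Sylow 7 G, Nat.card ((P : Subgroup G) ⊓ (Q : Subgroup G) : Subgroup G) := by
        show ∑ x ∈ Finset.univ.filter (fun x => x ∈ (P : Subgroup G)), (Finset.univ.filter (fun Q : Sylow 7 G => x ∈ (Q : Subgroup G))).card = _
        simp only [Finset.card_filter]
        rw [Finset.sum_comm]
        apply Finset.sum_congr rfl
        intro Q _
        rw [← Finset.sum_filter, Finset.sum_const, smul_eq_mul, mul_one, Finset.filter_filter, Nat.card_eq_fintype_card,
          Fintype.card_subtype]
        congr 1
        ext x; simp [Subgroup.mem_inf]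
      rw [h1, ← Finset.add_sum_erase _ _ (Finset.mem_univ P), inf_idem, hP49]
      rw [Finset.sum_congr rfl (fun Q hQ => hinter P Q (Finset.ne_of_mem_erase hQ).symm), Finset.sum_const,
        Finset.card_erase_of_mem (Finset.mem_univ P), Finset.card_univ, hX15]
      norm_num
    have hc12 : ∀ P : Sylow 7 G, (Finset.univ.filter (fun x => x ∈ (P : Subgroup G) ∧ f x = 8)).card = 12 := by
      intro P
      have hP49 : Nat.card (P : Subgroup G) = 49 := by rw [hcardeq, hP]
      have h1 : (Finset.univ.filter (fun x => x ∈ (P : Subgroup G))).card = 49 := by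
        rw [← hP49, Nat.card_eq_fintype_card, Fintype.card_subtype]
      have h2 := hsum P
      have hf1 : f 1 = 15 := by
        show (Finset.univ.filter (fun Q : Sylow 7 G => (1 : G) ∈ (Q : Subgroup G))).card = 15
        have h9 : Finset.univ.filter (fun Q : Sylow 7 G => (1 : G) ∈ (Q : Subgroup G)) = Finset.univ :=
          Finset.filter_true_of_mem (fun Q _ => (Q : Subgroup G).one_mem)
        rw [h9, Finset.card_univ, hX15]
      have h3 : ∀ x ∈ Finset.univ.filter (fun x => x ∈ (P : Subgroup G)), f x = 1 + (if f x = 8 then 7 else 0) + (if x = 1 then 14 else 0) := by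
        intro x hx
        have hxP := (Finset.mem_filter.1 hx).2
        by_cases hx1 : x = 1
        · subst hx1; rw [hf1]; norm_num
        · rw [if_neg hx1]
          rcases hf x ⟨P, hxP⟩ hx1 with h | h <;> rw [h] <;> norm_num
      rw [Finset.sum_congr rfl h3, Finset.sum_add_distrib, Finset.sum_add_distrib, Finset.sum_const, h1,
        ← Finset.sum_filter, Finset.sum_const, Finset.filter_filter, Finset.sum_ite_eq',
        if_pos (by simp [(P : Subgroup G).one_mem])] at h2
      simp only [smul_eq_mul] at h2
      omega
    have hT : ∑ x ∈ Finset.univ.filter (fun x => f x = 8), f x = 180 := by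
      have h1 : ∑ x ∈ Finset.univ.filter (fun x => f x = 8), f x = ∑ Q : Sylow 7 G, (Finset.univ.filter (fun x => x ∈ (Q : Subgroup G) ∧ f x = 8)).card := by
        have h2 : ∀ x ∈ Finset.univ.filter (fun x => f x = 8), f x = ∑ Q : Sylow 7 G, if x ∈ (Q : Subgroup G) then 1 else 0 := by
          intro x _
          show (Finset.univ.filter (fun Q : Sylow 7 G => x ∈ (Q : Subgroup G))).card = _
          rw [Finset.card_filter]
        rw [Finset.sum_congr rfl h2, Finset.sum_comm]
        apply Finset.sum_congr rfl
        intro Q _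
        rw [← Finset.sum_filter, Finset.sum_const, smul_eq_mul, mul_one, Finset.filter_filter]
        congr 1
        ext x; simp only [Finset.mem_filter, Finset.mem_univ, true_and]; exact and_comm
      rw [h1, Finset.sum_congr rfl (fun Q _ => hc12 Q), Finset.sum_const, Finset.card_univ, hX15]
      norm_num
    have hT2 : ∑ x ∈ Finset.univ.filter (fun x => f x = 8), f x = 8 * (Finset.univ.filter (fun x => f x = 8)).card := by
      rw [Finset.sum_congr rfl (fun x hx => (Finset.mem_filter.1 hx).2), Finset.sum_const, smul_eq_mul, mul_comm]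
    rw [hT2] at hT
    omega

/-- No finite group has exactly 15 Sylow 7-subgroups. -/
theorem result {G : Type*} [Group G] [Finite G] : Nat.card (Sylow 7 G) ≠ 15 := by
  exact main (Nat.card G) G rfl

end Cfsg.Agent.S4304
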