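import Cfsg.Statements.S4309
import Cfsg.Agent.H3.Basic

set_option autoImplicit false
open Cfsg

namespace Cfsg.Agent.S4309

/-- Let `π` be a set of primes, `G` a finite group with a Hall `π`-subgroup `H` (every prime divisor of the order of `H` lies in `π` and no prime of `π` divides its index), and `A` a normal subgroup of `G`. Then `H ∩ A` is a Hall `π`-subgroup of `A` and the image of `H` in `G/A` is a Hall `π`-subgroup of `G/A`. -/
theorem result {G : Type*} [Group G] [Finite G] (π : Set ℕ)
    (H A : Subgroup G) [A.Normal] (hH : Cfsg.IsPiHall π H) :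
    Cfsg.IsPiHall π ((H ⊓ A).subgroupOf A) ∧ Cfsg.IsPiHall π (H.map (QuotientGroup.mk' A)) := by
  obtain ⟨h1, h2⟩ := hH
  refine ⟨⟨?_, ?_⟩, ⟨?_, ?_⟩⟩
  · intro p hp hd
    apply h1 p hp
    refine hd.trans ?_
    have e : Nat.card ((H ⊓ A).subgroupOf A) = Nat.card (H ⊓ A : Subgroup G) :=
      Nat.card_congr (Subgroup.subgroupOfEquivOfLe inf_le_right).toEquiv
    rw [e]
    exact Subgroup.card_dvd_of_le inf_le_left
  · intro p hp hpi hd
    apply h2 p hp hpi
    refine hd.trans ?_
    have e : ((H ⊓ A).subgroupOf A).index = H.relIndex A := Subgroup.inf_relIndex_right _ _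
    rw [e]
    exact Cfsg.Agent.H3.relIndex_dvd_index_of_normal_right H A
  · intro p hp hd
    exact h1 p hp (hd.trans (Subgroup.card_map_dvd _ _))
  · intro p hp hpi hd
    apply h2 p hp hpi
    refine hd.trans ?_
    exact Subgroup.index_map_dvd _ (QuotientGroup.mk'_surjective A)

end Cfsg.Agent.S4309
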