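import Cfsg.Statements.S4421
import Mathlib

set_option autoImplicit false
open Cfsg

namespace Cfsg.Agent.S4421

theorem mem_norm {G : Type*} [Group G] (A : Subgroup G) (x : G) :
    x ∈ Subgroup.normalizer (A : Set G) ↔ A.map (MulAut.conj x).toMonoidHom = A := by
  rw [Subgroup.mem_normalizer_iff]
  constructor
  · intro h
    ext y
    rw [Subgroup.mem_map]
    constructor
    · rintro ⟨z, hz, rfl⟩
      exact (h z).mp hz
    · intro hy
      refine ⟨x⁻¹ * y * x, ?_, ?_⟩
      · apply (h _).mpr
        have : x * (x⁻¹ * y * x) * x⁻¹ = y := by group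
        rw [this]; exact hy
      · show x * (x⁻¹ * y * x) * x⁻¹ = y
        group
  · intro h y
    constructor
    · intro hy
      have : (MulAut.conj x).toMonoidHom y ∈ A.map (MulAut.conj x).toMonoidHom := Subgroup.mem_map_of_mem _ hy
      rw [h] at this
      exact this
    · intro hy
      have hy' : x * y * x⁻¹ ∈ A.map (MulAut.conj x).toMonoidHom := by rw [h]; exact hy
      obtain ⟨z, hz, hzy⟩ := hy'
      have : x * z * x⁻¹ = x * y * x⁻¹ := hzy
      have h2 : z = y := mul_left_cancel (mul_right_cancel this)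
      rw [← h2]; exact hz

theorem map_conj_mul {G : Type*} [Group G] (A : Subgroup G) (x y : G) :
    A.map (MulAut.conj (x * y)).toMonoidHom = (A.map (MulAut.conj y).toMonoidHom).map (MulAut.conj x).toMonoidHom := by
  rw [Subgroup.map_map]
  congr 1
  ext z
  simp

/-- A factorization of a normalizer from two-step control of fusion. Let `G` be a finite group and `A ≤ S ≤ H` subgroups of `G` such that: (i) `S` controls the `G`-fusion of `A` in the sense that every `G`-conjugate of `A` lying in `S` is an `S`-conjugate of `A`; (ii) `H` controls the `G`-fusion of `S` in the same sense; (iii) every conjugate of `S` by an element of the normalizer of `A` lies in `H`. Then `N_G(A) = N_H(A) · (N_G(S) ∩ N_G(A))`: every element of the normalizer of `A` is a product of an element of `H` normalizing `A` and an element normalizing both `S` and `A`. -/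
theorem result {G : Type*} [Group G] [Finite G] (A S H : Subgroup G)
    (hAS : A ≤ S) (hSH : S ≤ H)
    (h1 : ∀ g : G, A.map (MulAut.conj g).toMonoidHom ≤ S → ∃ s ∈ S, A.map (MulAut.conj g).toMonoidHom = A.map (MulAut.conj s).toMonoidHom)
    (h2 : ∀ g : G, S.map (MulAut.conj g).toMonoidHom ≤ H → ∃ y ∈ H, S.map (MulAut.conj g).toMonoidHom = S.map (MulAut.conj y).toMonoidHom)
    (h3 : ∀ x ∈ Subgroup.normalizer (A : Set G), S.map (MulAut.conj x).toMonoidHom ≤ H) :
    ∀ x ∈ Subgroup.normalizer (A : Set G), ∃ y ∈ H ⊓ Subgroup.normalizer (A : Set G),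
      ∃ z ∈ Subgroup.normalizer (S : Set G) ⊓ Subgroup.normalizer (A : Set G), x = y * z := by
  intro x hx
  obtain ⟨y, hy, hxy⟩ := h2 x (h3 x hx)
  have hyx : y⁻¹ * x ∈ Subgroup.normalizer (S : Set G) := by
    rw [mem_norm, map_conj_mul, hxy, ← map_conj_mul, inv_mul_cancel]
    rw [map_one]
    exact Subgroup.map_id S
  have hA1 : A.map (MulAut.conj (y⁻¹ * x)).toMonoidHom ≤ S := by
    have := Subgroup.map_mono (f := (MulAut.conj (y⁻¹ * x)).toMonoidHom) hAS
    rw [(mem_norm S _).mp hyx] at this
    exact this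
  rw [map_conj_mul, (mem_norm A x).mp hx] at hA1
  obtain ⟨s, hs, hs'⟩ := h1 _ hA1
  have hys : y * s ∈ Subgroup.normalizer (A : Set G) := by
    rw [mem_norm, map_conj_mul, ← hs', ← map_conj_mul, mul_inv_cancel, map_one]
    exact Subgroup.map_id A
  refine ⟨y * s, ⟨H.mul_mem hy (hSH hs), hys⟩, (y * s)⁻¹ * x, ⟨?_, ?_⟩, by group⟩
  · have : (y * s)⁻¹ * x = s⁻¹ * (y⁻¹ * x) := by group
    rw [this]
    exact Subgroup.mul_mem _ (Subgroup.inv_mem _ (Subgroup.le_normalizer hs)) hyx
  · exact Subgroup.mul_mem _ (Subgroup.inv_mem _ hys) hx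

end Cfsg.Agent.S4421
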