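import Cfsg.Statements.S4422


set_option autoImplicit false
open Cfsg

namespace Cfsg.Agent.S4422

/-- Primitive divisors of `q^e - 1` are congruent to 1 modulo `e`. Let `q ≥ 2` and `e ≥ 1` be natural numbers and let `m` be a divisor of `q^e - 1` that is coprime to `q^i - 1` for every `1 ≤ i < e` (so `m` divides the primitive part of `q^e - 1`, the largest such divisor). Then `m ≡ 1 (mod e)`. -/
theorem result (q e m : ℕ) (hq : 2 ≤ q) (he : 1 ≤ e)
    (hm : m ∣ q ^ e - 1) (hcop : ∀ i : ℕ, 1 ≤ i → i < e → Nat.Coprime m (q ^ i - 1)) :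
    m % e = 1 % e := by
  have key : ∀ n : ℕ, n ≠ 0 → (∀ r : ℕ, r.Prime → r ∣ n → r ≡ 1 [MOD e]) → n ≡ 1 [MOD e] := by
    intro n
    induction n using Nat.recOnMul with
    | zero => intro h; exact absurd rfl h
    | one => intro _ _; rfl
    | prime p hp => intro _ h; exact h p hp dvd_rfl
    | mul a b iha ihb =>
      intro h0 h
      have ha : a ≠ 0 := by rintro rfl; simp at h0
      have hb : b ≠ 0 := by rintro rfl; simp at h0
      have h1 := iha ha (fun r hr hd => h r hr (hd.mul_right b))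
      have h2 := ihb hb (fun r hr hd => h r hr (hd.mul_left a))
      simpa using h1.mul h2
  have hpos : 1 < q ^ e := Nat.one_lt_pow (by omega) (by omega)
  have hm0 : m ≠ 0 := by
    rintro rfl
    have := Nat.eq_zero_of_zero_dvd hm
    omega
  apply key m hm0
  intro r hr hrm
  haveI := Fact.mk hr
  have hrq : ((q : ZMod r)) ^ e = 1 := by
    have h1 : r ∣ q ^ e - 1 := hrm.trans hm
    have h2 : ((q ^ e - 1 : ℕ) : ZMod r) = 0 := (ZMod.natCast_eq_zero_iff _ _).mpr h1
    rw [Nat.cast_sub hpos.le] at h2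
    push_cast at h2
    exact sub_eq_zero.mp h2
  have hord : orderOf (q : ZMod r) = e := by
    apply (orderOf_eq_iff (by omega)).mpr
    refine ⟨hrq, ?_⟩
    intro i hi hi0 hcon
    have h3 := hcop i hi0 hi
    have h4 : 1 ≤ q ^ i := Nat.one_le_pow _ _ (by omega)
    have h5 : r ∣ q ^ i - 1 := by
      rw [← ZMod.natCast_eq_zero_iff, Nat.cast_sub h4]
      push_cast
      rw [hcon]; simp
    have := Nat.dvd_gcd hrm h5
    rw [h3] at this
    exact hr.one_lt.ne' (Nat.dvd_one.mp this)
  have hne : (q : ZMod r) ≠ 0 := by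
    intro h
    rw [h, zero_pow (by omega)] at hrq
    exact zero_ne_one hrq
  have := ZMod.orderOf_dvd_card_sub_one hne
  rw [hord] at this
  exact ((Nat.modEq_iff_dvd' hr.one_lt.le).mpr this).symm

end Cfsg.Agent.S4422
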