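import Cfsg.Statements.S4424
import Cfsg.Agent.H5.Block15

set_option autoImplicit false
open Cfsg

namespace Cfsg.Agent.S4424

/-- Let χ be an irreducible character of the finite group G lying in the p-block B (relative to a maximal ideal M of the algebraic integers containing p), and let p^a be the p-part of the order of G. Then the class function that equals p^a · χ on the p-regular elements and vanishes on the p-singular elements is an integer combination of the irreducible characters in B: there are integers a_ψ, zero for ψ outside B, with that function equal to Σ a_ψ ψ. -/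
theorem result {G : Type*} [Group G] [Finite G] (p : ℕ) [Fact p.Prime] (M : Ideal Cfsg.AlgInt) (hM : Cfsg.IsPModular p M) (B : Set (Cfsg.IrrCharacter G)) (hB : Cfsg.IsPBlock M B) (χ : Cfsg.IrrCharacter G) (hχ : χ ∈ B) : ∃ a : Cfsg.IrrCharacter G → ℤ, (∀ ψ, ψ ∉ B → a ψ = 0) ∧ (fun x : G => if p ∣ orderOf x then (0 : ℂ) else ((p ^ (Nat.card G).factorization p : ℕ) : ℂ) * (χ : G → ℂ) x) = fun x => ∑ᶠ ψ : Cfsg.IrrCharacter G, (a ψ : ℂ) * (ψ : G → ℂ) x := by
  have := Fintype.ofFinite G
  have hprime := Cfsg.Agent.H5.isPrime_of_isPModular hM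
  classical
  refine ⟨fun ψ => if ψ ∈ B then (p : ℤ) ^ Cfsg.Agent.H5.minExp p B * Cfsg.Agent.H5.cm p B χ ψ else 0,
    fun ψ hψ => if_neg hψ, ?_⟩
  funext x
  have h1 := congrFun (Cfsg.Agent.H5.pRegularPart_expand (p := p) χ) x
  have h2 : (if p ∣ orderOf x then (0 : ℂ) else ((p ^ (Nat.card G).factorization p : ℕ) : ℂ) * (χ : G → ℂ) x) =
      ((p ^ (Nat.card G).factorization p : ℕ) : ℂ) * Cfsg.pRegularPart p (χ : G → ℂ) x := by
    split_ifs with h
    · rw [Cfsg.Agent.H5.pRegularPart_sing h, mul_zero]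
    · rw [Cfsg.Agent.H5.pRegularPart_reg h]
  rw [h2, h1, finsum_eq_sum_of_fintype, Finset.sum_apply, Finset.mul_sum]
  refine Finset.sum_congr rfl fun ψ _ => ?_
  rw [Pi.smul_apply, smul_eq_mul]
  beta_reduce
  split_ifs with hψ
  · push_cast
    rw [Cfsg.Agent.H5.cm_spec hM hχ, ← Cfsg.Agent.H5.blockDefect_add (p := p) B ⟨χ, hχ⟩]
    push_cast
    ring
  · rw [Cfsg.Agent.H5.rin_ne hM (fun h => hψ (Cfsg.Agent.H5.IsPBlock.mem_of_sameBlock hB hχ h))]
    simp

end Cfsg.Agent.S4424
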