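import Cfsg.Statements.S4426
import Cfsg.Agent.H5.Block15

set_option autoImplicit false
open Cfsg

namespace Cfsg.Agent.S4426

/-- Let χ be an irreducible character in the p-block B of the finite group G (relative to a maximal ideal M of the algebraic integers containing p), let p^a be the p-part of the order of G, and let χ̃ be the class function equal to p^a · χ on p-regular elements and zero elsewhere. For ξ ∈ B the inner product [χ̃, ξ] is an integer. The following are equivalent: (a) χ has height zero in B; (b) for some ξ ∈ B the integer [χ̃, ξ] is nonzero and the exact power of p dividing it equals the exact power of p dividing ξ(1); (c) the same holds for every ξ ∈ B. -/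
theorem result {G : Type*} [Group G] [Fintype G] (p : ℕ) [Fact p.Prime] (M : Ideal Cfsg.AlgInt) (hM : Cfsg.IsPModular p M) (B : Set (Cfsg.IrrCharacter G)) (hB : Cfsg.IsPBlock M B) (χ : Cfsg.IrrCharacter G) (hχ : χ ∈ B) : (Cfsg.blockHeight p B (χ : G → ℂ) = 0 ↔ ∃ ξ ∈ B, ∃ n : ℤ, Cfsg.classInner (fun x : G => if p ∣ orderOf x then (0 : ℂ) else ((p ^ (Nat.card G).factorization p : ℕ) : ℂ) * (χ : G → ℂ) x) (ξ : G → ℂ) = (n : ℂ) ∧ n ≠ 0 ∧ padicValInt p n = (Cfsg.charDegree (ξ : G → ℂ)).factorization p) ∧ (Cfsg.blockHeight p B (χ : G → ℂ) = 0 ↔ ∀ ξ ∈ B, ∃ n : ℤ, Cfsg.classInner (fun x : G => if p ∣ orderOf x then (0 : ℂ) else ((p ^ (Nat.card G).factorization p : ℕ) : ℂ) * (χ : G → ℂ) x) (ξ : G → ℂ) = (n : ℂ) ∧ n ≠ 0 ∧ padicValInt p n = (Cfsg.charDegree (ξ : G → ℂ)).factorization p) := by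
  have hprime := Cfsg.Agent.H5.isPrime_of_isPModular hM
  classical
  have hin : ∀ ξ ∈ B, Cfsg.classInner (fun x : G => if p ∣ orderOf x then (0 : ℂ) else ((p ^ (Nat.card G).factorization p : ℕ) : ℂ) * (χ : G → ℂ) x) (ξ : G → ℂ) = (((p : ℤ) ^ Cfsg.Agent.H5.minExp p B * Cfsg.Agent.H5.cm p B χ ξ : ℤ) : ℂ) := by
    intro ξ hξ
    have h2 : (fun x : G => if p ∣ orderOf x then (0 : ℂ) else ((p ^ (Nat.card G).factorization p : ℕ) : ℂ) * (χ : G → ℂ) x) =
        ((p ^ (Nat.card G).factorization p : ℕ) : ℂ) • Cfsg.pRegularPart p (χ : G → ℂ) := by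
      funext x
      rw [Pi.smul_apply, smul_eq_mul]
      split_ifs with h
      · rw [Cfsg.Agent.H5.pRegularPart_sing h, mul_zero]
      · rw [Cfsg.Agent.H5.pRegularPart_reg h]
    rw [h2, Cfsg.Agent.H5.classInner_smul_left]
    push_cast
    rw [Cfsg.Agent.H5.cm_spec hM hχ, ← Cfsg.Agent.H5.blockDefect_add (p := p) B ⟨χ, hχ⟩]
    unfold Cfsg.Agent.H5.rin
    push_cast
    ring
  have hp0 : (p : ℤ) ≠ 0 := by exact_mod_cast hM.1.ne_zero
  have val : ∀ ξ ∈ B, ∀ n : ℤ, Cfsg.classInner (fun x : G => if p ∣ orderOf x then (0 : ℂ) else ((p ^ (Nat.card G).factorization p : ℕ) : ℂ) * (χ : G → ℂ) x) (ξ : G → ℂ) = (n : ℂ) → n = (p : ℤ) ^ Cfsg.Agent.H5.minExp p B * Cfsg.Agent.H5.cm p B χ ξ := by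
    intro ξ hξ n hn
    rw [hin ξ hξ] at hn
    exact_mod_cast hn.symm
  have fwd : Cfsg.blockHeight p B (χ : G → ℂ) = 0 → ∀ ξ ∈ B, ∃ n : ℤ, Cfsg.classInner (fun x : G => if p ∣ orderOf x then (0 : ℂ) else ((p ^ (Nat.card G).factorization p : ℕ) : ℂ) * (χ : G → ℂ) x) (ξ : G → ℂ) = (n : ℂ) ∧ n ≠ 0 ∧ padicValInt p n = (Cfsg.charDegree (ξ : G → ℂ)).factorization p := by
    intro h0 ξ hξ
    have hc0 : Cfsg.Agent.H5.cm p B χ ξ ≠ 0 := by
      rw [Cfsg.Agent.H5.cm_symm hM hχ hξ]; exact Cfsg.Agent.H5.cm_ne_zero hM hB hξ hχ h0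
    refine ⟨_, hin ξ hξ, mul_ne_zero (pow_ne_zero _ hp0) hc0, ?_⟩
    rw [padicValInt.mul (pow_ne_zero _ hp0) hc0, ← Cfsg.Agent.H5.blockHeight_add (p := p) hξ]
    have e1 : padicValInt p ((p : ℤ) ^ Cfsg.Agent.H5.minExp p B) = Cfsg.Agent.H5.minExp p B := by
      rw [padicValInt, Int.natAbs_pow, Int.natAbs_natCast, padicValNat.prime_pow]
    rw [e1, add_comm]
    congr 1
    apply le_antisymm
    · by_contra hlt
      push Not at hlt
      apply Cfsg.Agent.H5.cm_not_dvd hM hB hξ hχ h0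
      rw [← Cfsg.Agent.H5.cm_symm hM hχ hξ]
      exact (pow_dvd_pow _ hlt).trans (padicValInt_dvd _)
    · have hd := Cfsg.Agent.H5.cm_dvd hM hξ hχ
      rw [← Cfsg.Agent.H5.cm_symm hM hχ hξ] at hd
      exact ((padicValInt_dvd_iff _ _).mp hd).resolve_left hc0
  have bwd : ∀ ξ ∈ B, (∃ n : ℤ, Cfsg.classInner (fun x : G => if p ∣ orderOf x then (0 : ℂ) else ((p ^ (Nat.card G).factorization p : ℕ) : ℂ) * (χ : G → ℂ) x) (ξ : G → ℂ) = (n : ℂ) ∧ n ≠ 0 ∧ padicValInt p n = (Cfsg.charDegree (ξ : G → ℂ)).factorization p) → Cfsg.blockHeight p B (χ : G → ℂ) = 0 := by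
    rintro ξ hξ ⟨n, hn, hn0, hv⟩
    rw [val ξ hξ n hn] at hn0 hv
    have hc0 : Cfsg.Agent.H5.cm p B χ ξ ≠ 0 := right_ne_zero_of_mul hn0
    by_contra h0
    have h1 := Cfsg.Agent.H5.cm_dvd_succ hM hB hξ hχ h0
    rw [← Cfsg.Agent.H5.cm_symm hM hχ hξ] at h1
    replace h1 := ((padicValInt_dvd_iff _ _).mp h1).resolve_left hc0
    rw [padicValInt.mul (pow_ne_zero _ hp0) hc0, ← Cfsg.Agent.H5.blockHeight_add (p := p) hξ] at hv
    have e1 : padicValInt p ((p : ℤ) ^ Cfsg.Agent.H5.minExp p B) = Cfsg.Agent.H5.minExp p B := by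
      rw [padicValInt, Int.natAbs_pow, Int.natAbs_natCast, padicValNat.prime_pow]
    rw [e1] at hv
    omega
  refine ⟨⟨fun h => ⟨χ, hχ, fwd h χ hχ⟩, fun ⟨ξ, hξ, h⟩ => bwd ξ hξ h⟩, ⟨fun h => fwd h, fun h => bwd χ hχ (h χ hχ)⟩⟩

end Cfsg.Agent.S4426
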