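import Cfsg.Statements.S4430
import Cfsg.Agent.H5.W8

set_option autoImplicit false
open Cfsg

namespace Cfsg.Agent.S4430

/-- Let H be a subgroup of the finite group G, b a block of H whose induced block B₀ in G is defined (relative to a maximal ideal M of the algebraic integers containing p), and ξ ∈ b. For a block B of G let n_B be the value at 1 of the B-part of the induced character ξ^G (a natural number: the sum over χ ∈ B of the multiplicity of χ in ξ^G times χ(1)). Then for B = B₀ the exact power of p dividing n_B equals the exact power of p dividing ξ^G(1), while for every other block B either n_B = 0 or n_B is divisible by a strictly higher power of p than ξ^G(1). -/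
theorem result {G : Type*} [Group G] [Fintype G] (p : ℕ) [Fact p.Prime] (M : Ideal Cfsg.AlgInt) (hM : Cfsg.IsPModular p M) (H : Subgroup G) [Fintype H] (b : Set (Cfsg.IrrCharacter H)) (B₀ : Set (Cfsg.IrrCharacter G)) (hind : Cfsg.IsInducedBlock M H b B₀) (ξ : Cfsg.IrrCharacter H) (hξ : ξ ∈ b) : (∃ n : ℕ, Cfsg.blockPart B₀ (Cfsg.indFun H (ξ : H → ℂ)) 1 = (n : ℂ) ∧ n ≠ 0 ∧ n.factorization p = (Cfsg.charDegree (Cfsg.indFun H (ξ : H → ℂ))).factorization p) ∧ ∀ B : Set (Cfsg.IrrCharacter G), Cfsg.IsPBlock M B → B ≠ B₀ → ∃ n : ℕ, Cfsg.blockPart B (Cfsg.indFun H (ξ : H → ℂ)) 1 = (n : ℂ) ∧ (n = 0 ∨ (Cfsg.charDegree (Cfsg.indFun H (ξ : H → ℂ))).factorization p < n.factorization p) := by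
  have hprime := Cfsg.Agent.H5.isPrime_of_isPModular hM
  have hchar := Cfsg.Agent.H5.isCharacter_indFun H (Cfsg.Agent.H5.irr_isCharacter ξ)
  have hdeg := Cfsg.Agent.H5.IsCharacter.one_eq_charDegree hchar
  have hne0 : indFun H (ξ : H → ℂ) 1 ≠ 0 := by
    rw [Cfsg.Agent.H5.indFun_one]
    apply mul_ne_zero _ (Cfsg.Agent.H5.IsIrr.one_ne_zero ξ.2)
    exact_mod_cast Subgroup.index_ne_zero_of_finite
  have hm0 : charDegree (indFun H (ξ : H → ℂ)) ≠ 0 := by
    intro h
    apply hne0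
    rw [hdeg, h, Nat.cast_zero]
  have hnat : ∀ B : Set (IrrCharacter G), ∃ n : ℕ, blockPart B (indFun H (ξ : H → ℂ)) 1 = (n : ℂ) := by
    intro B
    classical
    choose n hn using fun ψ : IrrCharacter G => Cfsg.Agent.H5.IsCharacter.inner_nat hchar ψ
    choose d hd using fun ψ : IrrCharacter G => Cfsg.Agent.H5.IsCharacter.one_eq (Cfsg.Agent.H5.irr_isCharacter ψ)
    refine ⟨∑ ψ : IrrCharacter G, n ψ * (if ψ ∈ B then d ψ else 0), ?_⟩
    rw [Cfsg.Agent.H5.blockPart_apply, Nat.cast_sum]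
    apply Finset.sum_congr rfl
    intro ψ _
    rw [hn ψ, hd ψ]
    by_cases h : ψ ∈ B
    · rw [Cfsg.Agent.H5.ind1_mem h, if_pos h]; push_cast; ring
    · rw [Cfsg.Agent.H5.ind1_not_mem h, if_neg h]; push_cast; ring
  obtain ⟨χ₀, hχ₀⟩ := Cfsg.Agent.H5.IsPBlock.nonempty' hind.2.1
  constructor
  · obtain ⟨n, hn⟩ := hnat B₀
    have h1 := Cfsg.Agent.H5.blockPart_ind_congr hind hind.2.1 hξ hχ₀
    rw [hn, hdeg, Cfsg.Agent.H5.ind1_mem hχ₀] at h1
    obtain ⟨h2, h3⟩ := Cfsg.Agent.H5.div_sub_one hM hm0 h1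
    exact ⟨n, hn, h2, h3⟩
  · intro B hB hne
    obtain ⟨n, hn⟩ := hnat B
    have h1 := Cfsg.Agent.H5.blockPart_ind_congr hind hB hξ hχ₀
    have h4 : χ₀ ∉ B := fun h => hne (Cfsg.Agent.H5.IsPBlock.eq_of_mem hB hind.2.1 h hχ₀)
    rw [hn, hdeg, Cfsg.Agent.H5.ind1_not_mem h4, sub_zero] at h1
    exact ⟨n, hn, Cfsg.Agent.H5.div_memLocI hM hm0 h1⟩

end Cfsg.Agent.S4430
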