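import Cfsg.Statements.S4431
import Cfsg.Agent.H5.W8

set_option autoImplicit false
open Cfsg

namespace Cfsg.Agent.S4431

/-- Let H be a subgroup of the finite group G and b a block of H whose induced block B₀ in G is defined (relative to a maximal ideal M of the algebraic integers containing p). Let χ be an irreducible character of G, ψ ∈ b, and let η be the class function on H equal to p^a · χ on the p-regular elements of H and zero elsewhere, p^a being the p-part of the order of H. Then (a) if χ ∉ B₀, the number [η, ψ]/ψ(1) lies in the local ideal at M; (b) if χ ∈ B₀ has height zero, it does not. -/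
theorem result {G : Type*} [Group G] [Fintype G] (p : ℕ) [Fact p.Prime] (M : Ideal Cfsg.AlgInt) (hM : Cfsg.IsPModular p M) (H : Subgroup G) [Fintype H] (b : Set (Cfsg.IrrCharacter H)) (B₀ : Set (Cfsg.IrrCharacter G)) (hind : Cfsg.IsInducedBlock M H b B₀) (χ : Cfsg.IrrCharacter G) (ψ : Cfsg.IrrCharacter H) (hψ : ψ ∈ b) : (χ ∉ B₀ → Cfsg.MemLocalIdeal M (Cfsg.classInner (fun h : H => if p ∣ orderOf h then (0 : ℂ) else ((p ^ (Nat.card H).factorization p : ℕ) : ℂ) * (χ : G → ℂ) h) (ψ : H → ℂ) / (ψ : H → ℂ) 1)) ∧ (χ ∈ B₀ → Cfsg.blockHeight p B₀ (χ : G → ℂ) = 0 → ¬ Cfsg.MemLocalIdeal M (Cfsg.classInner (fun h : H => if p ∣ orderOf h then (0 : ℂ) else ((p ^ (Nat.card H).factorization p : ℕ) : ℂ) * (χ : G → ℂ) h) (ψ : H → ℂ) / (ψ : H → ℂ) 1)) := by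
  have hprime := Cfsg.Agent.H5.isPrime_of_isPModular hM
  classical
  obtain ⟨χ', hχ'⟩ := Cfsg.Agent.H5.IsPBlock.nonempty' hind.2.1
  have hcl := Cfsg.Agent.H5.areg_classFun (p := p) (Cfsg.Agent.H5.irr_classFun χ)
  have h1 := Cfsg.Agent.H5.IsInducedBlock.congr hind hψ hχ'
    (f := fun η : IrrCharacter G => Cfsg.Agent.H5.omega (η : G → ℂ) (Cfsg.Agent.H5.areg p (χ : G → ℂ))) (by
      intro g
      rw [Cfsg.Agent.H5.cen_omega hcl]
      exact Cfsg.Agent.H5.areg_memLocR (Cfsg.Agent.H5.irr_isCharacter χ) g)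
  rw [Cfsg.Agent.H5.cen_omega hcl] at h1
  have hH0 : Nat.card H ≠ 0 := Nat.card_pos.ne'
  obtain ⟨m', hm1, hm2, hm3⟩ := Cfsg.Agent.H5.fac_split hM.1 hH0
  have hψ0 := Cfsg.Agent.H5.IsIrr.one_ne_zero ψ.2
  have hp0 : (p : ℂ) ≠ 0 := by exact_mod_cast hM.1.ne_zero
  have hm'c : (m' : ℂ) ≠ 0 := by exact_mod_cast hm3
  have hkey : classInner (fun h : H => if p ∣ orderOf h then (0 : ℂ) else ((p ^ (Nat.card H).factorization p : ℕ) : ℂ) * (χ : G → ℂ) h)
      (ψ : H → ℂ) / (ψ : H → ℂ) 1 =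
      (m' : ℂ)⁻¹ * Cfsg.Agent.H5.omega (ψ : H → ℂ) (Cfsg.Agent.H5.msk H Set.univ (Cfsg.Agent.H5.areg p (χ : G → ℂ))) := by
    unfold classInner Cfsg.Agent.H5.omega
    have h2 : ∑ h : H, (if p ∣ orderOf h then (0 : ℂ) else ((p ^ (Nat.card H).factorization p : ℕ) : ℂ) * (χ : G → ℂ) h) *
        (starRingEnd ℂ) ((ψ : H → ℂ) h) = ((p ^ (Nat.card H).factorization p : ℕ) : ℂ) *
        ∑ h : H, Cfsg.Agent.H5.msk H Set.univ (Cfsg.Agent.H5.areg p (χ : G → ℂ)) h * (ψ : H → ℂ) h := by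
      rw [Finset.mul_sum]
      apply Fintype.sum_equiv (Equiv.inv H)
      intro h
      rw [Cfsg.Agent.H5.msk_mem (Set.mem_univ _)]
      show _ = _ * ((if p ∣ orderOf (((h⁻¹ : H) : G)) then 0 else (χ : G → ℂ) (((h⁻¹ : H) : G))⁻¹) * (ψ : H → ℂ) h⁻¹)
      rw [← Cfsg.Agent.H5.IsCharacter.inv_eq_conj (Cfsg.Agent.H5.irr_isCharacter ψ)]
      have h3 : orderOf (((h⁻¹ : H) : G)) = orderOf h := by
        rw [Subgroup.orderOf_coe, orderOf_inv]
      rw [h3]
      by_cases h4 : p ∣ orderOf h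
      · rw [if_pos h4, if_pos h4, zero_mul, mul_zero]
      · rw [if_neg h4, if_neg h4]
        rw [show (((h⁻¹ : H) : G))⁻¹ = (h : G) by simp]
        ring
    rw [h2]
    have h5 : (Nat.card H : ℂ) = ((p ^ (Nat.card H).factorization p : ℕ) : ℂ) * (m' : ℂ) := by
      rw [← Nat.cast_mul, ← hm1]
    have h6 : ((p ^ (Nat.card H).factorization p : ℕ) : ℂ) ≠ 0 := by
      push_cast
      exact pow_ne_zero _ hp0
    rw [h5]
    field_simp
  constructor
  · intro hχ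
    rw [hkey]
    apply Cfsg.Agent.H5.memLocI_mul_left (Cfsg.Agent.H5.memLocR_inv_natCast hM hm2)
    have h7 : ¬ SameBlock M (χ' : G → ℂ) (χ : G → ℂ) := by
      intro h
      apply hχ
      have h8 := Cfsg.Agent.H5.IsPBlock.eq_of_mem (Cfsg.Agent.H5.isPBlock_blockOf (M := M) χ') hind.2.1
        (Cfsg.Agent.H5.mem_blockOf_self χ') hχ'
      rw [← h8]
      exact h
    have h9 := Cfsg.Agent.H5.omega_areg_ne hM h7
    simp only [h9, sub_zero] at h1
    exact h1
  · intro hχ hh hcon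
    rw [hkey] at hcon
    have h10 := (Cfsg.Agent.H5.omega_areg_not_memLocI_iff hM hind.2.1 hχ' hχ).mpr hh
    apply h10
    have h11 := Cfsg.Agent.H5.memLocI_mul_left (Cfsg.Agent.H5.memLocR_natCast (M := M) m') hcon
    rw [← mul_assoc, mul_inv_cancel₀ hm'c, one_mul] at h11
    have h12 := Cfsg.Agent.H5.memLocI_sub h11 h1
    rwa [sub_sub_cancel] at h12

end Cfsg.Agent.S4431
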