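import Cfsg.Statements.S4434
import Cfsg.Agent.H5.W11

set_option autoImplicit false
open Cfsg

namespace Cfsg.Agent.S4434

/-- Let N be a normal p-subgroup of the finite group G and write Ḡ = G/N; fix a maximal ideal M of the algebraic integers containing p. Then every block B of G contains a block B̄ of Ḡ (the inflation of every member of B̄ lies in B) whose defect groups are exactly the images in Ḡ of the defect groups of B. -/
theorem result {G : Type*} [Group G] [Finite G] (p : ℕ) [Fact p.Prime] (M : Ideal Cfsg.AlgInt) (hM : Cfsg.IsPModular p M) (N : Subgroup G) [N.Normal] (hN : IsPGroup p N) (B : Set (Cfsg.IrrCharacter G)) (hB : Cfsg.IsPBlock M B) : ∃ Bbar : Set (Cfsg.IrrCharacter (G ⧸ N)), Cfsg.IsPBlock M Bbar ∧ (∀ χ ∈ Bbar, ∀ ψ : Cfsg.IrrCharacter G, (ψ : G → ℂ) = (χ : G ⧸ N → ℂ) ∘ QuotientGroup.mk → ψ ∈ B) ∧ ∀ Dbar : Subgroup (G ⧸ N), Cfsg.IsDefectGroup p M Bbar Dbar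 ↔ ∃ P : Subgroup G, Cfsg.IsDefectGroup p M B P ∧ Dbar = P.map (QuotientGroup.mk' N) := by
  have hprime := Cfsg.Agent.H5.isPrime_of_isPModular hM
  have hfG : Fintype G := Fintype.ofFinite G
  have hfQ : Fintype (G ⧸ N) := Fintype.ofFinite _
  classical
  have hbl := Cfsg.Agent.H5.isBl_top (M := M) hB
  obtain ⟨P, hP⟩ := Cfsg.Agent.H5.exists_df hM hbl
  have hNP : N ≤ P := hP.normal_le hM hbl hN le_top (Cfsg.Agent.H5.normalizer_normal N)
  have hne := Cfsg.Agent.H5.quot_p_ne hM N hN hbl hP.1 hNP hP.2.2.1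
  set Pb := P.map (QuotientGroup.mk' N) with hPb
  have hkfix := Cfsg.Agent.H5.kq_fix N hbl.fix
  have hkid : Cfsg.Agent.H5.kq M N (Cfsg.Agent.H5.blk M B) * Cfsg.Agent.H5.kq M N (Cfsg.Agent.H5.blk M B) =
      Cfsg.Agent.H5.kq M N (Cfsg.Agent.H5.blk M B) := by rw [← map_mul, hbl.idem]
  -- some block of the quotient
  have hex : ∃ c, Cfsg.Agent.H5.IsBl M (⊤ : Subgroup (G ⧸ N)) c ∧ Cfsg.Agent.H5.kq M N (Cfsg.Agent.H5.blk M B) * c = c ∧
      Cfsg.Agent.H5.ktr (Subgroup.centralizer (Pb : Set (G ⧸ N))) c ≠ 0 := by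
    by_contra hcon
    push Not at hcon
    apply hne
    have h1 : Cfsg.Agent.H5.kq M N (Cfsg.Agent.H5.blk M B) =
        ∑ c ∈ Cfsg.Agent.H5.Bls M (⊤ : Subgroup (G ⧸ N)), Cfsg.Agent.H5.kq M N (Cfsg.Agent.H5.blk M B) * c := by
      rw [← Finset.mul_sum, Cfsg.Agent.H5.sum_Bls, mul_one]
    rw [h1, Cfsg.Agent.H5.ktr_sum]
    apply Finset.sum_eq_zero
    intro c hc
    have hc' := Cfsg.Agent.H5.mem_Bls.mp hc
    rcases hc'.prim _ (Cfsg.Agent.H5.KSup_top _) hkfix hkid with h2 | h2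
    · rw [h2]; exact hcon c hc' h2
    · rw [h2, Cfsg.Agent.H5.ktr_zero]
  obtain ⟨c, hc, hkc, hcP⟩ := hex
  obtain ⟨Bb, hBb, rfl⟩ := Cfsg.Agent.H5.exists_top hc
  have hPbp : IsPGroup p Pb := hP.1.map _
  obtain ⟨D, hD, hPD⟩ : ∃ D, Cfsg.Agent.H5.Df p M (⊤ : Subgroup (G ⧸ N)) (Cfsg.Agent.H5.blk M Bb) D ∧ Pb ≤ D := by
    obtain ⟨D₀, hD₀⟩ := Cfsg.Agent.H5.exists_df hM hc
    exact hD₀.exists_ge hc.fix hPbp le_top hcP
  have hmapc : ∀ x : G, (Cfsg.Agent.H5.cj x P).map (QuotientGroup.mk' N) = Cfsg.Agent.H5.cj (QuotientGroup.mk x : G ⧸ N) Pb := by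
    intro x
    ext y
    constructor
    · rintro ⟨_, ⟨g, hg, rfl⟩, rfl⟩
      exact ⟨QuotientGroup.mk g, ⟨g, hg, rfl⟩, rfl⟩
    · rintro ⟨_, ⟨g, hg, rfl⟩, rfl⟩
      exact ⟨x * g * x⁻¹, ⟨g, hg, rfl⟩, rfl⟩
  have hDP : D = Pb := by
    obtain ⟨x, hx⟩ := Cfsg.Agent.H5.quot_df hM N hbl hc hkc hP hD.1 hD.2.2.1
    rw [hmapc] at hx
    have h1 : Nat.card D ≤ Nat.card Pb := by
      rw [← Cfsg.Agent.H5.card_cj (QuotientGroup.mk x : G ⧸ N) Pb]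
      exact Nat.card_le_card_of_injective _ (Subgroup.inclusion_injective hx)
    exact (Cfsg.Agent.H5.isPGroup_le_of_card hPD h1).symm
  subst hDP
  refine ⟨Bb, hBb, ?_, ?_⟩
  · intro χ hχ ψ hψ
    exact (Cfsg.Agent.H5.kq_blk_iff N hB hBb hχ hψ).mpr hkc
  · intro E
    rw [Cfsg.Agent.H5.isDefectGroup_iff_df hM hBb]
    constructor
    · intro hE
      obtain ⟨q, -, hq⟩ := hD.conj_eq hE
      obtain ⟨x, rfl⟩ := QuotientGroup.mk_surjective q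
      refine ⟨Cfsg.Agent.H5.cj x P, ?_, ?_⟩
      · exact (Cfsg.Agent.H5.isDefectGroup_iff_df hM hB).mpr (hP.cj_mem hbl.fix (Subgroup.mem_top x))
      · rw [hq, hmapc]
    · rintro ⟨Q, hQ, rfl⟩
      rw [Cfsg.Agent.H5.isDefectGroup_iff_df hM hB] at hQ
      obtain ⟨x, -, hx⟩ := hP.conj_eq hQ
      rw [hx, hmapc]
      exact hD.cj_mem hc.fix (Subgroup.mem_top _)

end Cfsg.Agent.S4434
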