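import Cfsg.Statements.S4435
import Cfsg.Agent.H5.W5

set_option autoImplicit false
open Cfsg

namespace Cfsg.Agent.S4435

/-- Let N be a normal subgroup of the finite group G, b a block of N (relative to a maximal ideal M of the algebraic integers containing p), and T the stabilizer of b in G (the elements g such that conjugating any member of b by g gives a member of b); N ≤ T. Say that a block of T (or of G) covers b when some member has a constituent in b on restriction to N. Then: (i) every block B′ of T covering b induces a block B of G, B covers b, every ψ ∈ B′ induces to an irreducible character of G, and B consists exactly of the characters induced from members of B′; (ii) distinct blocks of T covering b induce distinct blocks of G; (iii) every block of G covering b is induced by some block of T covering b. -/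
theorem result {G : Type*} [Group G] [Fintype G] (p : ℕ) [Fact p.Prime] (M : Ideal Cfsg.AlgInt) (hM : Cfsg.IsPModular p M) (N : Subgroup G) [hN : N.Normal] [Fintype N] (b : Set (Cfsg.IrrCharacter N)) (hb : Cfsg.IsPBlock M b) (T : Subgroup G) [Fintype T] (hT : ∀ g : G, g ∈ T ↔ ∀ θ ∈ b, ∀ θ' : Cfsg.IrrCharacter N, (∀ n : N, (θ' : N → ℂ) n = (θ : N → ℂ) ⟨g * n * g⁻¹, hN.conj_mem n n.2 g⟩) → θ' ∈ b) (hNT : N ≤ T) : (∀ B' : Set (Cfsg.IrrCharacter T), Cfsg.IsPBlock M B' → (∃ ψ ∈ B', ∃ θ ∈ b, Cfsg.classInner (fun n : N => (ψ : T → ℂ) ⟨(n : G), hNT n.2⟩) (θ : N → ℂ) ≠ 0) → ∃ B : Set (Cfsg.IrrCharacter G), Cfsg.IsInducedBlock M T B' B ∧ (∃ χ ∈ B, ∃ θ ∈ b, Cfsg.classInner (fun n : N => (χ : G → ℂ) n) (θ : N → ℂ) ≠ 0) ∧ (∀ ψ ∈ B', Cfsg.IsIrrCharacter G (Cfsg.indFun T (ψ : T → ℂ))) ∧ ∀ χ : Cfsg.IrrCharacter G, χ ∈ B ↔ ∃ ψ ∈ B', (χ : G → ℂ) = Cfsg.indFun T (ψ :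 T → ℂ)) ∧ (∀ B'₁ B'₂ : Set (Cfsg.IrrCharacter T), Cfsg.IsPBlock M B'₁ → Cfsg.IsPBlock M B'₂ → (∃ ψ ∈ B'₁, ∃ θ ∈ b, Cfsg.classInner (fun n : N => (ψ : T → ℂ) ⟨(n : G), hNT n.2⟩) (θ : N → ℂ) ≠ 0) → (∃ ψ ∈ B'₂, ∃ θ ∈ b, Cfsg.classInner (fun n : N => (ψ : T → ℂ) ⟨(n : G), hNT n.2⟩) (θ : N → ℂ) ≠ 0) → ∀ B : Set (Cfsg.IrrCharacter G), Cfsg.IsInducedBlock M T B'₁ B → Cfsg.IsInducedBlock M T B'₂ B → B'₁ = B'₂) ∧ (∀ B : Set (Cfsg.IrrCharacter G), Cfsg.IsPBlock M B → (∃ χ ∈ B, ∃ θ ∈ b, Cfsg.classInner (fun n : N => (χ : G → ℂ) n) (θ : N → ℂ) ≠ 0) → ∃ B' : Set (Cfsg.IrrCharacter T), Cfsg.IsPBlock M B' ∧ (∃ ψ ∈ B', ∃ θ ∈ b, Cfsg.classInner (fun n : N => (ψ : T → ℂ) ⟨(n : G), hNT n.2⟩) (θ : N → ℂ) ≠ 0) ∧ Cfsg.IsInducedBlock M T B' B) := by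
  have hprime := Cfsg.Agent.H5.isPrime_of_isPModular hM
  have hTk : ∀ x : G, x ∈ T ↔ Cfsg.Agent.H5.kconj x (Cfsg.Agent.H5.be M N b) = Cfsg.Agent.H5.be M N b := fun x => by
    rw [hT, Cfsg.Agent.H5.stab_iff hb]
  have hTN : T ≤ Subgroup.normalizer (N : Set G) := le_trans le_top (Cfsg.Agent.H5.normalizer_normal N)
  have hbl := Cfsg.Agent.H5.isBl_be (M := M) hb
  have hcv : ∀ B' : Set (IrrCharacter T), IsPBlock M B' →
      ((∃ ψ ∈ B', ∃ θ ∈ b, classInner (fun n : N => (ψ : T → ℂ) ⟨(n : G), hNT n.2⟩) (θ : N → ℂ) ≠ 0) ↔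
        Cfsg.Agent.H5.be M N b * Cfsg.Agent.H5.be M T B' ≠ 0) := fun B' hB' =>
    Cfsg.Agent.H5.cov_rel hNT hTN hB' hb
  have hcG : ∀ B : Set (IrrCharacter G), IsPBlock M B →
      ((∃ χ ∈ B, ∃ θ ∈ b, classInner (fun n : N => (χ : G → ℂ) n) (θ : N → ℂ) ≠ 0) ↔
        Cfsg.Agent.H5.be M N b * Cfsg.Agent.H5.blk M B ≠ 0) := fun B hB => by
    rw [← Cfsg.Agent.H5.cov_iff' hB hb, Cfsg.Agent.H5.cov_def]
  refine ⟨?_, ?_, ?_⟩
  · intro B' hB' hcov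
    rw [hcv B' hB'] at hcov
    have hbl' := Cfsg.Agent.H5.isBl_be (M := M) hB'
    obtain ⟨B, hB, hBe⟩ := Cfsg.Agent.H5.exists_top (Cfsg.Agent.H5.isBl_gsum hbl hTk hbl' hcov)
    have hind : IsInducedBlock M T B' B := (Cfsg.Agent.H5.fr_induced hb hTk hB' hcov hB).mpr hBe
    refine ⟨B, hind, ?_, ?_, ?_⟩
    · rw [hcG B hB, hBe, Cfsg.Agent.H5.fr_c_gsum hbl hTk hbl' hcov]
      exact hbl'.ne
    · intro ψ hψ
      obtain ⟨χ, hχ⟩ := Cfsg.Agent.H5.fr_irr hb hTk hB' hcov hψ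
      rw [← hχ]
      exact χ.2
    · exact Cfsg.Agent.H5.fr_mem hM hb hTk hB' hcov hind
  · intro B₁ B₂ hB₁ hB₂ hc₁ hc₂ B h₁ h₂
    rw [hcv B₁ hB₁] at hc₁
    rw [hcv B₂ hB₂] at hc₂
    rw [Cfsg.Agent.H5.fr_induced hb hTk hB₁ hc₁ h₁.2.1] at h₁
    rw [Cfsg.Agent.H5.fr_induced hb hTk hB₂ hc₂ h₂.2.1] at h₂
    exact Cfsg.Agent.H5.be_injective hB₁ hB₂ (Cfsg.Agent.H5.gsum_inj hbl hTk (Cfsg.Agent.H5.isBl_be hB₁) hc₁
      (Cfsg.Agent.H5.isBl_be hB₂) hc₂ (by rw [← h₁, ← h₂]))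
  · intro B hB hcov
    rw [hcG B hB] at hcov
    obtain ⟨e, he, hce, hge⟩ := Cfsg.Agent.H5.exists_gsum hbl hTk (Cfsg.Agent.H5.isBl_top hB) hcov
    obtain ⟨B', hB', rfl⟩ := Cfsg.Agent.H5.exists_be he
    refine ⟨B', hB', (hcv B' hB').mpr hce, ?_⟩
    exact (Cfsg.Agent.H5.fr_induced hb hTk hB' hce hB).mpr hge.symm

end Cfsg.Agent.S4435
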