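import Cfsg.Statements.S4436
import Cfsg.Agent.H5.W5

set_option autoImplicit false
open Cfsg

namespace Cfsg.Agent.S4436

theorem sInf_add {a : ℕ} {S : Set ℕ} (hS : S.Nonempty) : sInf ((fun n => a + n) '' S) = a + sInf S := by
  apply le_antisymm
  · exact Nat.sInf_le ⟨_, Nat.sInf_mem hS, rfl⟩
  · obtain ⟨n, hn, hn'⟩ := Nat.sInf_mem (hS.image (fun n => a + n))
    rw [← hn']
    exact Nat.add_le_add_left (Nat.sInf_le hn) a


/-- Let N be a normal subgroup of the finite group G, b a block of N (relative to a maximal ideal M of the algebraic integers containing p), T the stabilizer of b in G, N ≤ T, and B′ a block of T covering b (some member of B′ has a constituent in b on restriction to N) that induces the block B of G. Then every defect group of B′ is a defect group of B, and for every ψ ∈ B′ the induced character ψ^G is an irreducible character of G lying in B with the same height as ψ. -/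
theorem result {G : Type*} [Group G] [Fintype G] (p : ℕ) [Fact p.Prime] (M : Ideal Cfsg.AlgInt) (hM : Cfsg.IsPModular p M) (N : Subgroup G) [hN : N.Normal] [Fintype N] (b : Set (Cfsg.IrrCharacter N)) (hb : Cfsg.IsPBlock M b) (T : Subgroup G) [Fintype T] (hT : ∀ g : G, g ∈ T ↔ ∀ θ ∈ b, ∀ θ' : Cfsg.IrrCharacter N, (∀ n : N, (θ' : N → ℂ) n = (θ : N → ℂ) ⟨g * n * g⁻¹, hN.conj_mem n n.2 g⟩) → θ' ∈ b) (hNT : N ≤ T) (B' : Set (Cfsg.IrrCharacter T)) (hB' : Cfsg.IsPBlock M B') (hcov : (∃ ψ ∈ B', ∃ θ ∈ b, Cfsg.classInner (fun n : N => (ψ : T → ℂ) ⟨(n : G), hNT n.2⟩) (θ : N → ℂ) ≠ 0)) (B : Set (Cfsg.IrrCharacter G)) (hind : Cfsg.IsInducedBlock M T B' B) : (∀ D : Subgroup T, Cfsg.IsDefectGroup p M B' D → Cfsg.IsDefectGroup p M B (D.map T.subtype)) ∧ ∀ ψ ∈ B', ∃ χ ∈ B, (χ : G → ℂ) = Cfsg.indFun T (ψ : T → ℂ) ∧ Cfsg.blockHeight p B (χ : G → ℂ) = Cfsg.blockHeight p B' (ψ : T → ℂ) := by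
  have hprime := Cfsg.Agent.H5.isPrime_of_isPModular hM
  have hTk : ∀ x : G, x ∈ T ↔ Cfsg.Agent.H5.kconj x (Cfsg.Agent.H5.be M N b) = Cfsg.Agent.H5.be M N b := fun x => by
    rw [hT, Cfsg.Agent.H5.stab_iff hb]
  have hTN : T ≤ Subgroup.normalizer (N : Set G) := le_trans le_top (Cfsg.Agent.H5.normalizer_normal N)
  have hbl := Cfsg.Agent.H5.isBl_be (M := M) hb
  have hbl' := Cfsg.Agent.H5.isBl_be (M := M) hB'
  have hcov' : Cfsg.Agent.H5.be M N b * Cfsg.Agent.H5.be M T B' ≠ 0 :=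
    (Cfsg.Agent.H5.cov_rel hNT hTN hB' hb).mp hcov
  have hB := hind.2.1
  have hBe := (Cfsg.Agent.H5.fr_induced hb hTk hB' hcov' hB).mp hind
  have hmem := Cfsg.Agent.H5.fr_mem hM hb hTk hB' hcov' hind
  constructor
  · intro D hD
    rw [Cfsg.Agent.H5.isDefectGroup_iff_df hM hB, hBe]
    rw [Cfsg.Agent.H5.isDefectGroup_sub_iff hM hB'] at hD
    exact Cfsg.Agent.H5.fr_df hM hbl hTk hbl' hcov' hD
  · intro ψ hψ
    obtain ⟨χ, hχ⟩ := Cfsg.Agent.H5.fr_irr hb hTk hB' hcov' hψ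
    refine ⟨χ, (hmem χ).mpr ⟨ψ, hψ, hχ⟩, hχ, ?_⟩
    have hdeg : ∀ (χ : IrrCharacter G) (ψ : IrrCharacter T), (χ : G → ℂ) = indFun T (ψ : T → ℂ) →
        (charDegree (χ : G → ℂ)).factorization p = T.index.factorization p + (charDegree (ψ : T → ℂ)).factorization p := by
      intro χ ψ h
      have h1 := Cfsg.Agent.H5.IsCharacter.one_eq_charDegree (Cfsg.Agent.H5.irr_isCharacter χ)
      have h2 := Cfsg.Agent.H5.IsCharacter.one_eq_charDegree (Cfsg.Agent.H5.irr_isCharacter ψ)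
      have h3 : charDegree (χ : G → ℂ) = T.index * charDegree (ψ : T → ℂ) := by
        have h4 : (charDegree (χ : G → ℂ) : ℂ) = ((T.index * charDegree (ψ : T → ℂ) : ℕ) : ℂ) := by
          rw [← h1, h, Cfsg.Agent.H5.indFun_one, h2, Nat.cast_mul]
        exact_mod_cast h4
      rw [h3, Nat.factorization_mul (Subgroup.index_ne_zero_of_finite) (Cfsg.Agent.H5.charDegree_pos ψ.2).ne']
      rfl
    have himg : (fun ψ : IrrCharacter G => (charDegree (ψ : G → ℂ)).factorization p) '' B =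
        (fun n => T.index.factorization p + n) '' ((fun ψ : IrrCharacter T => (charDegree (ψ : T → ℂ)).factorization p) '' B') := by
      ext n
      constructor
      · rintro ⟨χ', hχ', rfl⟩
        obtain ⟨ψ', hψ', h⟩ := (hmem χ').mp hχ'
        exact ⟨_, ⟨ψ', hψ', rfl⟩, (hdeg χ' ψ' h).symm⟩
      · rintro ⟨_, ⟨ψ', hψ', rfl⟩, rfl⟩
        obtain ⟨χ', hχ'⟩ := Cfsg.Agent.H5.fr_irr hb hTk hB' hcov' hψ'
        exact ⟨χ', (hmem χ').mpr ⟨ψ', hψ', hχ'⟩, hdeg χ' ψ' hχ'⟩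
    unfold blockHeight
    have hne : ((fun ψ : IrrCharacter T => (charDegree (ψ : T → ℂ)).factorization p) '' B').Nonempty := ⟨_, ⟨ψ, hψ, rfl⟩⟩
    rw [himg, sInf_add hne, hdeg χ ψ hχ, Nat.add_sub_add_left]

end Cfsg.Agent.S4436
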