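import Cfsg.Statements.S4443
import Cfsg.Agent.H5.W29

set_option autoImplicit false
open Cfsg

namespace Cfsg.Agent.S4443

/-- Let D be a normal p-subgroup of the finite group G, of order p^d, let p^a be the p-part of the order of G, and fix a Sylow p-subgroup S and a maximal ideal M of the algebraic integers containing p. Index by a finite type ι (via an injective map K) exactly the conjugacy classes of p-regular elements x of G for which D is a Sylow p-subgroup of C_G(x). For classes K_i, K_j let ω(i, j) be the number of pairs (y, z) ∈ K_i × K_j with z y⁻¹ ∈ S; this number is divisible by p^(a−d). Then the number of p-blocks of G having D as a defect group equals the rank over ℤ/pℤ of the matrix with (i, j) entry ω(i, j)/p^(a−d) reduced modulo p. -/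
theorem result {G : Type*} [Group G] [Finite G] (p : ℕ) [Fact p.Prime] (M : Ideal Cfsg.AlgInt) (hM : Cfsg.IsPModular p M) (D : Subgroup G) [D.Normal] (hD : IsPGroup p D) (S : Sylow p G) {ι : Type*} [Fintype ι] [DecidableEq ι] (K : ι → ConjClasses G) (hKinj : Function.Injective K) (hK : ∀ C : ConjClasses G, (∃ i, K i = C) ↔ ∃ x ∈ C.carrier, ¬ p ∣ orderOf x ∧ ∃ Q : Sylow p (Subgroup.centralizer ({x} : Set G)), (Q : Subgroup (Subgroup.centralizer ({x} : Set G))).map (Subgroup.centralizer ({x} : Set G)).subtype = D) : Nat.card {B : Set (Cfsg.IrrCharacter G) // Cfsg.IsPBlock M B ∧ Cfsg.IsDefectGroup p M B D} = (Matrix.of fun i j : ι => ((Nat.card {yz : G × G // yz.1 ∈ (K i).carrier ∧ yz.2 ∈ (K j).carrier ∧ yz.2 * yz.1⁻¹ ∈ (S : Subgroup G)} / p ^ ((Nat.card G).factorization p - (Nat.card D).factorization p) : ℕ) : ZMod p)).rank := by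
  open Cfsg.Agent.H5 in
  classical
  have hprime := isPrime_of_isPModular hM
  have hfG : Fintype G := Fintype.ofFinite G
  have hfact : Fact p.Prime := ⟨hM.1⟩
  obtain ⟨e, he⟩ : ∃ e, e = (Nat.card G).factorization p - (Nat.card D).factorization p := ⟨_, rfl⟩
  have hrep : ∀ i, ∃ x : G, x ∈ (K i).carrier ∧ ¬ p ∣ orderOf x ∧ SylC p x D := by
    intro i
    obtain ⟨x, h1, h2, Q, h3⟩ := (hK (K i)).mp ⟨i, rfl⟩
    exact ⟨x, h1, h2, Q, h3.symm⟩
  choose x hxK hxr hsyl using hrep
  have hKx : ∀ i, K i = ConjClasses.mk (x i) := by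
    intro i
    exact (ConjClasses.mem_carrier_iff_mk_eq.mp (hxK i)).symm
  have hmem : ∀ i (g : G), g ∈ (K i).carrier ↔ IsConj (x i) g := by
    intro i g
    rw [ConjClasses.mem_carrier_iff_mk_eq, hKx, ConjClasses.mk_eq_mk_iff_isConj]
    exact ⟨fun h => h.symm, fun h => h.symm⟩
  -- index
  have hidx : ∀ i, (Subgroup.centralizer ({x i} : Set G)).index.factorization p = e := by
    intro i
    have h1 := fac_index (p := p) (x i)
    have h2 := (hsyl i).card
    have h3 : (Nat.card D).factorization p = (Nat.card (Subgroup.centralizer ({x i} : Set G))).factorization p := by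
      rw [h2, Nat.Prime.factorization_pow hM.1]; simp
    rw [he, h3]; omega
  have hidx0 : ∀ i, (Subgroup.centralizer ({x i} : Set G)).index ≠ 0 := fun i => Subgroup.index_ne_zero_of_finite
  have hnd : ∀ i, ¬ p ∣ (Subgroup.centralizer ({x i} : Set G)).index / p ^ e := by
    intro i
    rw [← hidx i]
    exact Nat.not_dvd_ordCompl hM.1 (hidx0 i)
  have hcp : CharP (KK M) p := by
    refine ⟨fun n => ?_⟩
    rw [← red_natCast, red_eq_zero_iff (memLocR_natCast _), memLocI_natCast_iff hM]
  obtain ⟨A, hA⟩ : ∃ A : Matrix ι ι (ZMod p), A = (Matrix.of fun i j : ι => ((Nat.card {yz : G × G // yz.1 ∈ (K i).carrier ∧ yz.2 ∈ (K j).carrier ∧ yz.2 * yz.1⁻¹ ∈ (S : Subgroup G)} / p ^ ((Nat.card G).factorization p - (Nat.card D).factorization p) : ℕ) : ZMod p)) := ⟨_, rfl⟩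
  rw [← hA, ← rank_map_field (ZMod.castHom (dvd_refl p) (KK M)) A]
  obtain ⟨Om, hOm⟩ : ∃ Om : Matrix ι {B : Set (Cfsg.IrrCharacter G) // Cfsg.IsPBlock M B ∧ Cfsg.IsDefectGroup p M B D} (KK M),
    Om = Matrix.of (fun i B => wb M ⟨B.1, B.2.1⟩ (x i)) := ⟨_, rfl⟩
  obtain ⟨V, hV⟩ : ∃ V : Matrix {B : Set (Cfsg.IrrCharacter G) // Cfsg.IsPBlock M B ∧ Cfsg.IsDefectGroup p M B D} ι (KK M),
    V = Matrix.of (fun B j => red M (Cfsg.blockCoeff B.1 (x j))) := ⟨_, rfl⟩
  obtain ⟨U, hU⟩ : ∃ U : Matrix ι ι (KK M), U = Matrix.diagonal (fun j => (((Subgroup.centralizer ({x j} : Set G)).index / p ^ e : ℕ) : KK M)) := ⟨_, rfl⟩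
  have hprod : A.map (ZMod.castHom (dvd_refl p) (KK M)) = Om * V * U := by
    rw [hU]
    ext i j
    rw [Matrix.mul_diagonal, Matrix.mul_apply, hA, Matrix.map_apply, Matrix.of_apply, map_natCast]
    have h1 := cnt_mod' hM (hsyl i) (hsyl j) S (u := 1) (v := x j) (one_mul _) (Commute.one_left _) ⟨0, by rw [orderOf_one, pow_zero]⟩ (hxr j) he
    have h2 : Nat.card {yz : G × G // yz.1 ∈ (K i).carrier ∧ yz.2 ∈ (K j).carrier ∧ yz.2 * yz.1⁻¹ ∈ (S : Subgroup G)} =
        Nat.card {ab : G × G // IsConj (x i) ab.1 ∧ IsConj (x j) ab.2 ∧ ab.2 * ab.1⁻¹ ∈ (S : Subgroup G)} := by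
      apply Nat.card_congr
      exact Equiv.subtypeEquivRight (fun yz => by rw [hmem, hmem])
    rw [h2, ← he, h1, Finset.sum_mul]
    refine Finset.sum_congr rfl fun B _ => ?_
    rw [hOm, hV]
    simp only [Matrix.of_apply]
    ring
  have hUdet : IsUnit U.det := by
    rw [hU, Matrix.det_diagonal, isUnit_iff_ne_zero, Finset.prod_ne_zero_iff]
    intro i _
    exact card_ne_zero_KK hM (hnd i)
  -- V Om = 1
  have hVO : V * Om = 1 := by
    ext B' B
    rw [Matrix.mul_apply, Matrix.one_apply]
    obtain ⟨χ, hχ⟩ := IsPBlock.nonempty' B.2.1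
    have hcen : Cfsg.IsClassFunction G (cen (ind1 B'.1)) := cen_classFun _
    have h1 : omega (χ : G → ℂ) (cen (ind1 B'.1)) = ind1 B'.1 χ := omega_cen _ _
    rw [omega_eq_sum_classes (irr_classFun χ) hcen] at h1
    simp only [← blockCoeff_eq_cen] at h1
    have h2 := congrArg (red M) h1
    rw [red_sum Finset.univ (fun C : ConjClasses G => Cfsg.blockCoeff B'.1 (Quotient.out C) * Cfsg.centralChar (χ : G → ℂ) (Quotient.out C)) (fun C _ => memLocR_mul (blockCoeff_memLocR B'.2.1 _) (centralChar_memLocR χ _))] at h2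
    have h3 : red M (ind1 B'.1 χ) = if B' = B then 1 else 0 := by
      by_cases h : B' = B
      · rw [if_pos h, h, ind1_mem hχ, red_one]
      · rw [if_neg h, ind1_not_mem, red_zero]
        intro hχ'
        exact h (Subtype.ext (IsPBlock.eq_of_mem B'.2.1 B.2.1 hχ' hχ))
    rw [← h3, ← h2]
    have h4 : ∀ i, V B' i * Om i B = red M (Cfsg.blockCoeff B'.1 (Quotient.out (K i)) * Cfsg.centralChar (χ : G → ℂ) (Quotient.out (K i))) := by
      intro i
      rw [red_mul (blockCoeff_memLocR B'.2.1 _) (centralChar_memLocR χ _), hV, hOm]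
      simp only [Matrix.of_apply]
      have hconj : IsConj (x i) (Quotient.out (K i)) := by
        rw [← hmem, ConjClasses.mem_carrier_iff_mk_eq]
        exact Quotient.out_eq (K i)
      rw [wb_eq hM _ (χ := χ) hχ, centralChar_conj (p := p) (irr_classFun χ) hconj, IsClassFunction.eq_of_isConj (blockCoeff_classFun B'.1) hconj]
    rw [Finset.sum_congr rfl (fun i _ => h4 i)]
    obtain ⟨F, hF⟩ : ∃ F : ConjClasses G → KK M, F = fun C => red M (Cfsg.blockCoeff B'.1 (Quotient.out C) * Cfsg.centralChar (χ : G → ℂ) (Quotient.out C)) := ⟨_, rfl⟩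
    suffices hsuff : ∑ i : ι, F (K i) = ∑ C : ConjClasses G, F C by
      rw [hF] at hsuff
      exact hsuff
    rw [← Finset.sum_image (s := Finset.univ) (g := K) (f := F) (fun a _ b _ h => hKinj h)]
    refine Finset.sum_subset (Finset.subset_univ _) ?_
    intro C _ hC
    rw [hF]
    by_contra hne
    apply hC
    rw [Finset.mem_image]
    simp only at hne
    rw [red_mul (blockCoeff_memLocR B'.2.1 _) (centralChar_memLocR χ _)] at hne
    have h5 := left_ne_zero_of_mul hne
    have h6 := right_ne_zero_of_mul hne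
    rw [Ne, red_eq_zero_iff (blockCoeff_memLocR B'.2.1 _)] at h5
    rw [Ne, red_eq_zero_iff (centralChar_memLocR χ _)] at h6
    have h7 : ∃ i, K i = C := by
      rw [hK]
      refine ⟨Quotient.out C, ?_, ?_, ?_⟩
      · rw [ConjClasses.mem_carrier_iff_mk_eq]; exact Quotient.out_eq C
      · apply regular_of_blockCoeff hM (fun g => blockCoeff_memLocR B'.2.1 g)
        intro h0
        apply h5
        rw [h0]
        exact memLocI_zero
      · -- defect group
        obtain ⟨E, hE⟩ := exists_sylC (p := p) (Quotient.out C : G)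
        obtain ⟨g, hg, hgD⟩ := B'.2.2
        obtain ⟨χ', hχ'⟩ := IsPBlock.nonempty' B'.2.1
        obtain ⟨z, Q, hQ, hQD⟩ := minmax hM B'.2.1 hχ' (hg.2.2 χ' hχ') hgD h5
        obtain ⟨g2, hg2, hgD2⟩ := B.2.2
        obtain ⟨z', Q', hQ', hQD'⟩ := minmax hM B.2.1 hχ h6 hQ hg2.2.1
        have h8 : ∀ z, cj z D = D := by
          intro z
          ext w
          rw [mem_cj]
          constructor
          · intro hw
            have := (inferInstance : D.Normal).conj_mem _ hw z
            have e1 : z * (z⁻¹ * w * z) * z⁻¹ = w := by group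
            rwa [e1] at this
          · intro hw
            have := (inferInstance : D.Normal).conj_mem _ hw z⁻¹
            rwa [inv_inv] at this
        rw [h8] at hQD
        have h9 : Nat.card D ≤ Nat.card Q := by
          have e1 := Subgroup.card_le_of_le hQD'
          rw [card_cj] at e1
          have e2 : Nat.card Q' = Nat.card D := by rw [hQ'.card, SylC.card hgD2]
          rw [← e2]; exact e1
        have h10 : Q = D := Subgroup.eq_of_le_of_card_ge hQD h9
        rw [h10] at hQ
        obtain ⟨P, hP⟩ := hQ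
        exact ⟨P, hP.symm⟩
    obtain ⟨i, hi⟩ := h7
    exact ⟨i, Finset.mem_univ _, hi⟩
  -- conclusion
  rw [hprod, Matrix.rank_mul_eq_left_of_isUnit_det U (Om * V) hUdet, Nat.card_eq_fintype_card]
  apply le_antisymm
  · have h1 : (V * (Om * V) * Om).rank = Fintype.card {B : Set (Cfsg.IrrCharacter G) // Cfsg.IsPBlock M B ∧ Cfsg.IsDefectGroup p M B D} := by
      have : V * (Om * V) * Om = 1 := by
        rw [← Matrix.mul_assoc, hVO, Matrix.one_mul, hVO]
      rw [this, Matrix.rank_one]
    rw [← h1]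
    exact (Matrix.rank_mul_le_left _ _).trans (Matrix.rank_mul_le_right _ _)
  · exact (Matrix.rank_mul_le_left _ _).trans (Matrix.rank_le_card_width _)

end Cfsg.Agent.S4443
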