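import Cfsg.Statements.S4444
import Cfsg.Agent.H4.Glau8

set_option autoImplicit false
open Cfsg

namespace Cfsg.Agent.S4444

/-- The Glauberman correspondence for a p-group of operators. Inside a finite group Γ let S normalise G with the orders of G and S coprime, S a p-group, and let C = G ⊓ C(S) be the fixed points. Call an irreducible character χ of G S-invariant when χ(s g s⁻¹) = χ(g) for s ∈ S, g ∈ G. Then: (i) for every S-invariant χ there is exactly one irreducible character β of C whose multiplicity [χ_C, β] in the restriction of χ is not divisible by p; (ii) that multiplicity is ≡ 1 or ≡ −1 (mod p); (iii) distinct S-invariant χ give distinct β; (iv) every irreducible character of C arises in this way. So χ ↦ β is a bijection from the S-invariant irreducible characters of G onto the irreducible characters of C. -/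
theorem result {Γ : Type*} [Group Γ] [Fintype Γ] (G S : Subgroup Γ) [Fintype G] (hnorm : ∀ s ∈ S, ∀ g ∈ G, s * g * s⁻¹ ∈ G) (hcop : (Nat.card G).Coprime (Nat.card S)) (p : ℕ) (hp : p.Prime) (hS : IsPGroup p S) (C : Subgroup Γ) [Fintype C] (hC : C = G ⊓ Subgroup.centralizer (S : Set Γ)) (hCG : C ≤ G) : (∀ χ : Cfsg.IrrCharacter G, (∀ s ∈ S, ∀ g g' : G, (g' : Γ) = s * g * s⁻¹ → (χ : G → ℂ) g' = (χ : G → ℂ) g) → ∃! β : Cfsg.IrrCharacter C, ∃ m : ℕ, Cfsg.classInner (fun c : C => (χ : G → ℂ) ⟨c, hCG c.2⟩) (β : C → ℂ) = (m : ℂ) ∧ ¬ p ∣ m) ∧ (∀ χ : Cfsg.IrrCharacter G, (∀ s ∈ S, ∀ g g' : G, (g' : Γ) = s * g * s⁻¹ → (χ : G → ℂ) g' = (χ : G → ℂ) g) → ∀ β : Cfsg.IrrCharacter C, ∀ m : ℕ, Cfsg.classInner (fun c : C => (χ : G → ℂ) ⟨c, hCG c.2⟩) (β : C → ℂ) = (m : ℂ) → ¬ p ∣ m → ((m : ℤ) ≡ 1 [ZMOD p] ∨ (m : ℤ) ≡ -1 [ZMOD p])) ∧ (∀ χ χ' : Cfsg.IrrCharacter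 G, (∀ s ∈ S, ∀ g g' : G, (g' : Γ) = s * g * s⁻¹ → (χ : G → ℂ) g' = (χ : G → ℂ) g) → (∀ s ∈ S, ∀ g g' : G, (g' : Γ) = s * g * s⁻¹ → (χ' : G → ℂ) g' = (χ' : G → ℂ) g) → ∀ β : Cfsg.IrrCharacter C, ∀ m m' : ℕ, Cfsg.classInner (fun c : C => (χ : G → ℂ) ⟨c, hCG c.2⟩) (β : C → ℂ) = (m : ℂ) → ¬ p ∣ m → Cfsg.classInner (fun c : C => (χ' : G → ℂ) ⟨c, hCG c.2⟩) (β : C → ℂ) = (m' : ℂ) → ¬ p ∣ m' → χ = χ') ∧ (∀ β : Cfsg.IrrCharacter C, ∃ χ : Cfsg.IrrCharacter G, (∀ s ∈ S, ∀ g g' : G, (g' : Γ) = s * g * s⁻¹ → (χ : G → ℂ) g' = (χ : G → ℂ) g) ∧ ∃ m : ℕ, Cfsg.classInner (fun c : C => (χ : G → ℂ) ⟨c, hCG c.2⟩) (β : C → ℂ) = (m : ℂ) ∧ ¬ p ∣ m) := by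
  classical
  have hnorm' : ∀ s ∈ S, ∀ g ∈ G, s * g * s⁻¹ ∈ G := hnorm
  obtain ⟨g1, g2, g3⟩ := H4.gp_pgroup hp (G := G) (Nat.card S) S le_rfl hS hnorm hcop C hC hCG
  have hconv : ∀ (χ : IrrCharacter G) (β : IrrCharacter C) (m : ℕ) (β' : C → ℂ), H4.Corr p hCG (χ : G → ℂ) β' → classInner (fun c : C => (χ : G → ℂ) ⟨c, hCG c.2⟩) (β : C → ℂ) = (m : ℂ) → ¬ p ∣ m → (β : C → ℂ) = β' := by
    intro χ β m β' h1 h2 h3
    exact (H4.corr_irr_iff hp h1 β.2 h2).mp h3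
  refine ⟨?_, ?_, ?_, ?_⟩
  · intro χ hinv
    obtain ⟨β, hβ⟩ := g1 χ χ.2 hinv
    obtain ⟨m, hm, h1, h2⟩ := hβ.2 β hβ.1
    refine ⟨⟨β, hβ.1⟩, ⟨m, hm, H4.pm_not_dvd hp (h1 rfl)⟩, ?_⟩
    rintro β' ⟨m', hm', h'⟩
    exact Subtype.ext (hconv χ β' m' β hβ hm' h')
  · intro χ hinv β m hm hnd
    obtain ⟨β', hβ'⟩ := g1 χ χ.2 hinv
    have e := hconv χ β m β' hβ' hm hnd
    obtain ⟨m', hm', h1, h2⟩ := hβ'.2 β β.2
    have e2 : m = m' := by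
      have h3 : (m : ℂ) = m' := by rw [← hm, ← hm']; rfl
      exact_mod_cast h3
    rw [e2]
    exact h1 e
  · intro χ χ' hinv hinv' β m m' hm hnd hm' hnd'
    obtain ⟨β₁, hβ₁⟩ := g1 χ χ.2 hinv
    obtain ⟨β₂, hβ₂⟩ := g1 χ' χ'.2 hinv'
    have e1 := hconv χ β m β₁ hβ₁ hm hnd
    have e2 := hconv χ' β m' β₂ hβ₂ hm' hnd'
    rw [← e1] at hβ₁
    rw [← e2] at hβ₂
    exact Subtype.ext (g2 χ χ' χ.2 χ'.2 hinv hinv' β hβ₁ hβ₂)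
  · intro β
    obtain ⟨χ, hχ, hinv, hcorr⟩ := g3 β β.2
    obtain ⟨m, hm, h1, h2⟩ := hcorr.2 β β.2
    exact ⟨⟨χ, hχ⟩, hinv, m, hm, H4.pm_not_dvd hp (h1 rfl)⟩

end Cfsg.Agent.S4444
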