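import Cfsg.Statements.S4446
import Cfsg.Agent.H4.Glau5

set_option autoImplicit false
open Cfsg

namespace Cfsg.Agent.S4446

/-- Let the finite group Γ be generated by a normal subgroup G and a cyclic subgroup S of coprime orders, C = G ⊓ C(S), and let χ be an S-invariant irreducible character of G with canonical extension χ̂ to Γ (the extension whose determinantal order is coprime to the order of S). Then there are exactly one irreducible character β of C and one sign ε such that χ̂(c s) = ε β(c) for every c ∈ C and every generator s of S; this β is a constituent of the restriction of χ to C; distinct S-invariant χ give distinct β; and every irreducible character of C arises in this way. -/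
theorem result {Γ : Type*} [Group Γ] [Fintype Γ] (G S : Subgroup Γ) [Fintype G] (hnorm : ∀ s ∈ S, ∀ g ∈ G, s * g * s⁻¹ ∈ G) (hcop : (Nat.card G).Coprime (Nat.card S)) (htop : G ⊔ S = ⊤) (hcyc : IsCyclic S) (C : Subgroup Γ) [Fintype C] (hC : C = G ⊓ Subgroup.centralizer (S : Set Γ)) (hCG : C ≤ G) : (∀ (χ : Cfsg.IrrCharacter G) (χh : Cfsg.IrrCharacter Γ), (∀ s ∈ S, ∀ g g' : G, (g' : Γ) = s * g * s⁻¹ → (χ : G → ℂ) g' = (χ : G → ℂ) g) → (∀ g : G, (χh : Γ → ℂ) g = (χ : G → ℂ) g) → (Cfsg.detOrder (χh : Γ → ℂ)).Coprime (Nat.card S) → (∃! βε : Cfsg.IrrCharacter C × ℤ, (βε.2 = 1 ∨ βε.2 = -1) ∧ ∀ c : C, ∀ s : Γ, Subgroup.zpowers s = S → (χh : Γ → ℂ) ((c : Γ) * s) = (βε.2 : ℂ) * (βε.1 : C → ℂ) c) ∧ ∀ β : Cfsg.IrrCharacter C, ∀ ε : ℤ, (ε = 1 ∨ ε = -1) → (∀ c : C, ∀ s : Γ, Subgroup.zpowers s = S → (χh : Γ → ℂ) ((c : Γ) * s) = (ε : ℂ) * (β : C → ℂ) c) → Cfsg.classInner (fun c :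 C => (χ : G → ℂ) ⟨c, hCG c.2⟩) (β : C → ℂ) ≠ 0) ∧ (∀ (χ χ' : Cfsg.IrrCharacter G) (χh χh' : Cfsg.IrrCharacter Γ), (∀ s ∈ S, ∀ g g' : G, (g' : Γ) = s * g * s⁻¹ → (χ : G → ℂ) g' = (χ : G → ℂ) g) → (∀ s ∈ S, ∀ g g' : G, (g' : Γ) = s * g * s⁻¹ → (χ' : G → ℂ) g' = (χ' : G → ℂ) g) → (∀ g : G, (χh : Γ → ℂ) g = (χ : G → ℂ) g) → (∀ g : G, (χh' : Γ → ℂ) g = (χ' : G → ℂ) g) → (Cfsg.detOrder (χh : Γ → ℂ)).Coprime (Nat.card S) → (Cfsg.detOrder (χh' : Γ → ℂ)).Coprime (Nat.card S) → ∀ β : Cfsg.IrrCharacter C, ∀ ε ε' : ℤ, (ε = 1 ∨ ε = -1) → (ε' = 1 ∨ ε' = -1) → (∀ c : C, ∀ s : Γ, Subgroup.zpowers s = S → (χh : Γ → ℂ) ((c : Γ) * s) = (ε : ℂ) * (β : C → ℂ) c) → (∀ c : C, ∀ s : Γ, Subgroup.zpowers s = S → (χh' : Γ → ℂ) ((c : Γ) * s) = (ε' : ℂ) * (β : C → ℂ) c) → χ = χ') ∧ (∀ β : Cfsg.IrrCharacter C, ∃ (χ : Cfsg.IrrCharacter G) (χh : Cfsg.IrrCharacter Γ) (ε : ℤ), (∀ s ∈ S, ∀ g g' : G,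 (g' : Γ) = s * g * s⁻¹ → (χ : G → ℂ) g' = (χ : G → ℂ) g) ∧ (∀ g : G, (χh : Γ → ℂ) g = (χ : G → ℂ) g) ∧ (Cfsg.detOrder (χh : Γ → ℂ)).Coprime (Nat.card S) ∧ (ε = 1 ∨ ε = -1) ∧ ∀ c : C, ∀ s : Γ, Subgroup.zpowers s = S → (χh : Γ → ℂ) ((c : Γ) * s) = (ε : ℂ) * (β : C → ℂ) c) := by
  classical
  obtain ⟨s, hs⟩ := H4.exists_gen hcyc
  have hsS : s ∈ S := by rw [← hs]; exact Subgroup.mem_zpowers s
  have hmC : ∀ x, x ∈ C ↔ x ∈ G ∧ ∀ s ∈ S, s * x * s⁻¹ = x := fun x => by rw [hC, Subgroup.mem_inf, H4.mem_cent_iff']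
  have hCS : ∀ c ∈ C, ∀ t ∈ S, c * t = t * c := by
    intro c hc t ht
    have := ((hmC c).mp hc).2 t ht
    calc c * t = (t * c * t⁻¹) * t := by rw [this]
      _ = t * c := by group
  have hunit : ∀ ε : ℤ, (ε = 1 ∨ ε = -1) → (ε : ℂ) ≠ 0 := by
    intro ε h; rcases h with h | h <;> rw [h] <;> norm_num
  -- all generators
  have hall : ∀ (χ : IrrCharacter G) (χh : Γ → ℂ), IsIrrCharacter Γ χh → H4.Inv S G (χ : G → ℂ) → (∀ g : G, χh g = (χ : G → ℂ) g) →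
      (detOrder χh).Coprime (Nat.card S) → ∀ c : C, ∀ s' : Γ, Subgroup.zpowers s' = S → χh ((c : Γ) * s') = χh ((c : Γ) * s) := by
    intro χ χh hχh hinv hext hdet c s' hs'
    obtain ⟨j, hj, rfl⟩ := H4.gen_pow hs hs'
    exact H4.canon_gen hnorm hcop htop hcyc χ χ.2 hinv χh hχh hext hdet (hCG c.2) hsS (hCS c c.2 s hsS) j hj
  have hpos : ∀ β : IrrCharacter C, ∃ n : ℕ, 0 < n ∧ (β : C → ℂ) 1 = n := fun β => H4.IsIrr.exists_degree β.2
  have huniq : ∀ (β β' : IrrCharacter C) (ε ε' : ℤ), (ε = 1 ∨ ε = -1) → (ε' = 1 ∨ ε' = -1) → (∀ c : C, (ε : ℂ) * (β : C → ℂ) c = (ε' : ℂ) * (β' : C → ℂ) c) →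
      β = β' ∧ ε = ε' := by
    intro β β' ε ε' hε hε' h
    obtain ⟨n, hn, hn1⟩ := hpos β
    obtain ⟨n', hn', hn1'⟩ := hpos β'
    have h1 := h 1
    rw [hn1, hn1'] at h1
    have h2 : ε * n = ε' * n' := by exact_mod_cast h1
    have h3 : ε = ε' := by
      rcases hε with rfl | rfl <;> rcases hε' with rfl | rfl
      · rfl
      · exfalso; omega
      · exfalso; omega
      · rfl
    refine ⟨?_, h3⟩
    apply Subtype.ext
    funext c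
    have h4 := h c
    rw [h3] at h4
    exact mul_left_cancel₀ (hunit ε' hε') h4
  refine ⟨?_, ?_, ?_⟩
  · intro χ χh hinv hext hdet
    obtain ⟨β, ε, hε, h1, h2⟩ := H4.cyc_main hnorm hcop htop hcyc hC hCG hs χ χ.2 hinv χh χh.2 hext hdet
    refine ⟨⟨(β, ε), ⟨hε, fun c s' hs' => ?_⟩, ?_⟩, ?_⟩
    · rw [hall χ χh χh.2 hinv hext hdet c s' hs']; exact h1 c
    · rintro ⟨β', ε'⟩ ⟨hε', h'⟩
      obtain ⟨h3, h4⟩ := huniq β' β ε' ε hε' hε (fun c => by rw [← h' c s hs, h1 c])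
      rw [h3, h4]
    · intro β' ε' hε' h'
      obtain ⟨h3, h4⟩ := huniq β' β ε' ε hε' hε (fun c => by rw [← h' c s hs, h1 c])
      subst h3
      obtain ⟨a, ha1, ha2⟩ := h2 β'
      rw [ha1]
      intro h0
      haveI : Fintype (S →* ℂˣ) := Fintype.ofFinite _
      rw [finsum_eq_sum_of_fintype] at h0
      have h5 : ∀ lam : S →* ℂˣ, a lam = 0 := by
        have h6 : ((∑ lam : S →* ℂˣ, a lam : ℕ) : ℂ) = 0 := by push_cast; exact h0
        have h7 : ∑ lam : S →* ℂˣ, a lam = 0 := by exact_mod_cast h6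
        intro lam
        exact Finset.sum_eq_zero_iff.mp h7 lam (Finset.mem_univ _)
      rw [finsum_eq_sum_of_fintype, if_pos rfl, mul_one, Finset.sum_eq_zero (fun lam _ => by rw [h5 lam]; simp)] at ha2
      exact hunit ε hε ha2
  · intro χ χ' χh χh' hinv hinv' hext hext' hdet hdet' β ε ε' hε hε' h h'
    have := H4.cyc_inj hnorm hcop htop hcyc hC hs (χh : Γ → ℂ) χh' χh.2 χh'.2 β β.2 ε ε' (hunit ε hε) (hunit ε' hε') (fun c => h c s hs) (fun c => h' c s hs)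
    apply Subtype.ext
    funext g
    rw [← hext g, ← hext' g]
    exact this g g.2
  · intro β
    obtain ⟨χ, χh, ε, h1, h2, h3, h4, h5, h6⟩ := H4.cyc_surj hnorm hcop htop hcyc hC hCG hs β
    refine ⟨χ, ⟨χh, h2⟩, ε, h1, h3, h4, h5, fun c s' hs' => ?_⟩
    show χh ((c : Γ) * s') = _
    rw [hall χ χh h2 h1 h3 h4 c s' hs']; exact h6 c

end Cfsg.Agent.S4446
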