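import Cfsg.Statements.S4452
import Cfsg.Agent.H4.Glau12
import Cfsg.Agent.H5.K3

set_option autoImplicit false
open Cfsg

namespace Cfsg.Agent.S4452

/-- Let the finite group G be the product of a normal subgroup K and a solvable subgroup H of coprime orders, and let N = N_G(H). Then the number of irreducible characters of G of degree coprime to the order of H equals the number of irreducible characters of N of degree coprime to the order of H. (The two sets are in fact in a canonical bijection; only the equality of their sizes is stated here.) -/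
theorem result {G : Type*} [Group G] [Finite G] (K H : Subgroup G) [K.Normal] (hKH : K ⊔ H = ⊤) (hcop : (Nat.card K).Coprime (Nat.card H)) (hsolv : Group.IsSolvable H) : Nat.card {χ : Cfsg.IrrCharacter G // (Cfsg.charDegree (χ : G → ℂ)).Coprime (Nat.card H)} = Nat.card {η : Cfsg.IrrCharacter (Subgroup.normalizer (H : Set G)) // (Cfsg.charDegree (η : Subgroup.normalizer (H : Set G) → ℂ)).Coprime (Nat.card H)} := by
  classical
  haveI : Fintype G := Fintype.ofFinite G
  have hnorm : ∀ s ∈ H, ∀ g ∈ K, s * g * s⁻¹ ∈ K := fun s _ g hg => (inferInstance : K.Normal).conj_mem g hg s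
  rw [H4.card_coprime_deg hnorm hcop hKH]
  set C : Subgroup G := K ⊓ Subgroup.centralizer (H : Set G) with hC
  rw [H4.card_inv_irr hsolv (Nat.card K) K le_rfl hnorm hcop C hC]
  have hHN : H ≤ Subgroup.normalizer (H : Set G) := Subgroup.le_normalizer
  have hCN : C ≤ Subgroup.normalizer (H : Set G) := inf_le_right.trans (Subgroup.centralizer_le_normalizer _)
  have hmC : ∀ x, x ∈ C ↔ x ∈ K ∧ ∀ s ∈ H, s * x * s⁻¹ = x := fun x => by rw [hC, Subgroup.mem_inf, H4.mem_cent_iff']
  generalize hN : Subgroup.normalizer (H : Set G) = N at *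
  haveI : Fintype N := Fintype.ofFinite N
  have hinf : K ⊓ H = ⊥ := H4.glau_inf (G := K) (S := H) hcop
  have h1 : ∀ s ∈ H.subgroupOf N, ∀ g ∈ C.subgroupOf N, s * g * s⁻¹ = g := by
    intro s hs g hg
    rw [Subgroup.mem_subgroupOf] at hs hg
    exact Subtype.ext (((hmC g).mp hg).2 s hs)
  have hcH : Nat.card (H.subgroupOf N) = Nat.card H := Nat.card_congr (Subgroup.subgroupOfEquivOfLe hHN).toEquiv
  have hcC : Nat.card (C.subgroupOf N) = Nat.card C := Nat.card_congr (Subgroup.subgroupOfEquivOfLe hCN).toEquiv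
  have hcop' : (Nat.card (C.subgroupOf N)).Coprime (Nat.card (H.subgroupOf N)) := by
    rw [hcH, hcC]
    exact hcop.coprime_dvd_left (Subgroup.card_dvd_of_le (by rw [hC]; exact inf_le_left))
  have htop : C.subgroupOf N ⊔ H.subgroupOf N = ⊤ := by
    rw [Subgroup.eq_top_iff']
    intro x
    obtain ⟨k, hk, h, hh, hkh⟩ := H4.glau_decomp hnorm hKH (x : G)
    have hkN : k ∈ N := by
      have : k = (x : G) * h⁻¹ := by rw [← hkh]; group
      rw [this]
      exact N.mul_mem x.2 (N.inv_mem (hHN hh))
    have hkC : k ∈ C := by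
      rw [hmC]
      refine ⟨hk, fun s hs => ?_⟩
      have a1 : k * s * k⁻¹ ∈ H := by
        rw [← hN] at hkN
        exact (Subgroup.mem_normalizer_iff.mp hkN s).mp hs
      have a2 : k * s * k⁻¹ * s⁻¹ ∈ K ⊓ H := by
        refine ⟨?_, H.mul_mem a1 (H.inv_mem hs)⟩
        have : k * s * k⁻¹ * s⁻¹ = k * (s * k⁻¹ * s⁻¹) := by group
        rw [this]
        exact K.mul_mem hk (hnorm s hs _ (K.inv_mem hk))
      rw [hinf, Subgroup.mem_bot] at a2
      have a3 : k * s = s * k := by
        calc k * s = (k * s * k⁻¹ * s⁻¹) * (s * k) := by group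
          _ = s * k := by rw [a2, one_mul]
      calc s * k * s⁻¹ = (k * s) * s⁻¹ := by rw [a3]
        _ = k := by group
    have a4 : x = ⟨k, hkN⟩ * ⟨h, hHN hh⟩ := Subtype.ext hkh.symm
    rw [a4]
    exact Subgroup.mul_mem _ ((le_sup_left : C.subgroupOf N ≤ _) (Subgroup.mem_subgroupOf.mpr hkC)) ((le_sup_right : H.subgroupOf N ≤ C.subgroupOf N ⊔ H.subgroupOf N) (Subgroup.mem_subgroupOf.mpr hh))
  have hmain := H4.card_coprime_deg (Γ := N) (G := C.subgroupOf N) (S := H.subgroupOf N) (fun s hs g hg => by rw [h1 s hs g hg]; exact hg) hcop' htop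
  rw [hcH] at hmain
  rw [hmain]
  congr 1
  · rw [← Nat.card_congr (H5.irrE (Subgroup.subgroupOfEquivOfLe hCN))]
    symm
    apply Nat.card_congr
    apply Equiv.subtypeUnivEquiv
    intro χ s hs g g' hg
    refine congrArg (χ : (C.subgroupOf N) → ℂ) (Subtype.ext ?_)
    rw [hg]
    exact h1 s hs g g.2
  · let e := Subgroup.subgroupOfEquivOfLe hHN
    exact Nat.card_congr
      { toFun := fun lam => lam.comp e.toMonoidHom
        invFun := fun mu => mu.comp e.symm.toMonoidHom
        left_inv := fun lam => by apply MonoidHom.ext; intro x; show lam (e (e.symm x)) = lam x; rw [MulEquiv.apply_symm_apply]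
        right_inv := fun mu => by apply MonoidHom.ext; intro x; show mu (e.symm (e x)) = mu x; rw [MulEquiv.symm_apply_apply] }

end Cfsg.Agent.S4452
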