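import Cfsg.Statements.S4470
import Cfsg.Agent.H2.Frob12
import Mathlib

set_option autoImplicit false
open Cfsg

namespace Cfsg.Agent.S4470

/-- Let the finite group G have a faithful character of degree n. Then G has an abelian normal subgroup A such that every abelian subgroup H of G satisfies [H : H ⊓ A] ≤ 12^n. -/
theorem result {G : Type*} [Group G] [Finite G] (χ : G → ℂ) (hχ : Cfsg.IsCharacter G χ) (hfaith : ∀ g : G, χ g = χ 1 → g = 1) (n : ℕ) (hn : Cfsg.charDegree χ = n) : ∃ A : Subgroup G, A.Normal ∧ (∀ x ∈ A, ∀ y ∈ A, x * y = y * x) ∧ ∀ H : Subgroup G, (∀ x ∈ H, ∀ y ∈ H, x * y = y * x) → (A.subgroupOf H).index ≤ 12 ^ n := by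
  classical
  have := Fintype.ofFinite G
  obtain ⟨m, ρ, rfl⟩ := hχ
  have hm : charDegree ρ.character = m := by
    have h1 : ρ.character 1 = (m : ℂ) := by
      rw [Representation.char_one]; simp
    unfold charDegree
    rw [h1]; simp
  have hf : ∀ g : G, (∀ v, ρ g v = v) → g = 1 := by
    intro g hg
    apply hfaith
    have : ρ g = ρ 1 := by
      rw [map_one]; exact LinearMap.ext hg
    rw [Representation.character, Representation.character, this]
  have h := Cfsg.Agent.H2.frobenius_twelve' ρ hf
  rw [hm] at hn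
  rw [← hn]
  simpa using h

end Cfsg.Agent.S4470
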