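import Cfsg.Statements.S4479
import Cfsg.Agent.H5.Klein4

set_option autoImplicit false
open Cfsg

namespace Cfsg.Agent.S4479

/-- An order formula from the principal 2-block. Let G be a finite group of order 4·g₀ with g₀ odd having no normal 2-complement (no normal subgroup of order g₀); let P be a Sylow 2-subgroup, J an involution of P, and fix a maximal ideal M of the algebraic integers containing 2. Suppose the principal 2-block consists of the principal character and three further distinct characters χ₁, χ₂, χ₃ of degrees x₁, x₂, x₃, with χ_i(J) = ε_i = ±1. Then, writing c(J) and c(P) for the orders of the centralizers of J and of P, the order of G equals 8·α·c(J)³/c(P)² with α = x₁x₂x₃ / ((x₁ + ε₁)(x₂ + ε₂)(x₃ + ε₃)). -/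
theorem result {G : Type*} [Group G] [Finite G] (M : Ideal Cfsg.AlgInt) (hM : Cfsg.IsPModular 2 M) (g₀ : ℕ) (hg₀ : Odd g₀) (hG : Nat.card G = 4 * g₀) (hnc : ¬ ∃ N : Subgroup G, N.Normal ∧ Nat.card N = g₀) (P : Sylow 2 G) (J : G) (hJ : J ∈ (P : Subgroup G)) (hJ2 : orderOf J = 2) (χ₁ χ₂ χ₃ : Cfsg.IrrCharacter G) (ε₁ ε₂ ε₃ : ℤ) (hB : Cfsg.principalBlock M G = {χ : Cfsg.IrrCharacter G | (χ : G → ℂ) = (fun _ => 1) ∨ χ = χ₁ ∨ χ = χ₂ ∨ χ = χ₃}) (hdist : (χ₁ : G → ℂ) ≠ (fun _ => 1) ∧ (χ₂ : G → ℂ) ≠ (fun _ => 1) ∧ (χ₃ : G → ℂ) ≠ (fun _ => 1) ∧ χ₁ ≠ χ₂ ∧ χ₁ ≠ χ₃ ∧ χ₂ ≠ χ₃) (hε : (ε₁ = 1 ∨ ε₁ = -1) ∧ (ε₂ = 1 ∨ ε₂ = -1) ∧ (ε₃ = 1 ∨ ε₃ = -1)) (hval : (χ₁ : G → ℂ) J = ε₁ ∧ (χ₂ : G → ℂ) J = ε₂ ∧ (χ₃ : G → ℂ) J = ε₃) : (Nat.card G : ℚ) = 8 * (((Cfsg.charDegree (χ₁ : G → ℂ) : ℚ) * Cfsg.charDegree (χ₂ : G → ℂ) * Cfsg.charDegree (χ₃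 : G → ℂ)) / ((Cfsg.charDegree (χ₁ : G → ℂ) + ε₁) * (Cfsg.charDegree (χ₂ : G → ℂ) + ε₂) * (Cfsg.charDegree (χ₃ : G → ℂ) + ε₃))) * (Nat.card (Subgroup.centralizer ({J} : Set G)) : ℚ) ^ 3 / (Nat.card (Subgroup.centralizer ((P : Subgroup G) : Set G)) : ℚ) ^ 2 := by
  have := Fintype.ofFinite G
  obtain ⟨h1, ⟨hd1, hd2, hd3⟩, n, hn, hg⟩ := Cfsg.Agent.H5.order4 hM hg₀ hG hnc P J hJ hJ2 χ₁ χ₂ χ₃ ε₁ ε₂ ε₃ hB hdist hε hval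
  have hp1 := Cfsg.Agent.H5.charDegree_pos χ₁.2
  have hp2 := Cfsg.Agent.H5.charDegree_pos χ₂.2
  have hp3 := Cfsg.Agent.H5.charDegree_pos χ₃.2
  have hne : ∀ (f : ℕ) (ε : ℤ), 0 < f → (ε = 1 ∨ ε = -1) → (4 : ℤ) ∣ (f : ℤ) - ε → (f : ℚ) + ε ≠ 0 := by
    intro f ε hf hε h h0
    have h2 : (f : ℤ) + ε = 0 := by exact_mod_cast h0
    rcases hε with rfl | rfl <;> omega
  have hq : ∀ ε : ℤ, (ε = 1 ∨ ε = -1) → ((ε : ℚ) = 1 ∨ (ε : ℚ) = -1) := by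
    rintro ε (rfl | rfl)
    · left; norm_num
    · right; norm_num
  have hz : ∀ f : ℕ, 0 < f → (f : ℚ) ≠ 0 := fun f hf => by positivity
  exact Cfsg.Agent.H5.order4_alg (n := (n : ℚ)) (by exact_mod_cast h1) (hq _ hε.1) (hq _ hε.2.1) (hq _ hε.2.2) (hz _ hp1) (hz _ hp2) (hz _ hp3)
    (hne _ _ hp1 hε.1 hd1) (hne _ _ hp2 hε.2.1 hd2) (hne _ _ hp3 hε.2.2 hd3)
    (Nat.cast_ne_zero.mpr Nat.card_pos.ne') (by exact_mod_cast hn) hg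

end Cfsg.Agent.S4479
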