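import Cfsg.Statements.S4480
import Cfsg.Agent.H5.Klein4

set_option autoImplicit false
open Cfsg

namespace Cfsg.Agent.S4480

/-- Same setting as the Klein-four order formula: G of order 4·g₀ (g₀ odd) with no normal 2-complement, P a Sylow 2-subgroup, J an involution of P, M over 2, principal 2-block {1, χ₁, χ₂, χ₃} with χ_i(J) = ε_i = ±1. Suppose ε₁ε₂ε₃ = −1 and ε₃ = −1, and put q = x₃ = χ₃(1). Then there is a natural number m with 4·c(J) = m·c(P)·(q + 1), and the order of G equals (m³·c(P)/4)·(q³ − q)/2, that is 8·#G = m³·c(P)·(q³ − q). -/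
theorem result {G : Type*} [Group G] [Finite G] (M : Ideal Cfsg.AlgInt) (hM : Cfsg.IsPModular 2 M) (g₀ : ℕ) (hg₀ : Odd g₀) (hG : Nat.card G = 4 * g₀) (hnc : ¬ ∃ N : Subgroup G, N.Normal ∧ Nat.card N = g₀) (P : Sylow 2 G) (J : G) (hJ : J ∈ (P : Subgroup G)) (hJ2 : orderOf J = 2) (χ₁ χ₂ χ₃ : Cfsg.IrrCharacter G) (ε₁ ε₂ ε₃ : ℤ) (hB : Cfsg.principalBlock M G = {χ : Cfsg.IrrCharacter G | (χ : G → ℂ) = (fun _ => 1) ∨ χ = χ₁ ∨ χ = χ₂ ∨ χ = χ₃}) (hdist : (χ₁ : G → ℂ) ≠ (fun _ => 1) ∧ (χ₂ : G → ℂ) ≠ (fun _ => 1) ∧ (χ₃ : G → ℂ) ≠ (fun _ => 1) ∧ χ₁ ≠ χ₂ ∧ χ₁ ≠ χ₃ ∧ χ₂ ≠ χ₃) (hε : (ε₁ = 1 ∨ ε₁ = -1) ∧ (ε₂ = 1 ∨ ε₂ = -1) ∧ (ε₃ = 1 ∨ ε₃ = -1)) (hval : (χ₁ : G → ℂ) J = ε₁ ∧ (χ₂ : G → ℂ) J = ε₂ ∧ (χ₃ : G → ℂ) J = ε₃) (hprod : ε₁ * ε₂ * ε₃ = -1) (hε₃ : ε₃ = -1) : ∃ m : ℕ, 4 * Nat.card (Subgroup.centralizer ({J} : Set G)) = m * Nat.card (Subgroup.centralizer ((P : Subgroup G) : Set G)) * (Cfsg.charDegree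 (χ₃ : G → ℂ) + 1) ∧ 8 * Nat.card G = m ^ 3 * Nat.card (Subgroup.centralizer ((P : Subgroup G) : Set G)) * (Cfsg.charDegree (χ₃ : G → ℂ) ^ 3 - Cfsg.charDegree (χ₃ : G → ℂ)) := by
  have := Fintype.ofFinite G
  have hprime := Cfsg.Agent.H5.isPrime_of_isPModular hM
  obtain ⟨h1, ⟨hd1, hd2, hd3⟩, n, hn, hg⟩ := Cfsg.Agent.H5.order4 hM hg₀ hG hnc P J hJ hJ2 χ₁ χ₂ χ₃ ε₁ ε₂ ε₃ hB hdist hε hval
  have hp1 := Cfsg.Agent.H5.charDegree_pos χ₁.2
  have hp2 := Cfsg.Agent.H5.charDegree_pos χ₂.2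
  have hp3 := Cfsg.Agent.H5.charDegree_pos χ₃.2
  obtain ⟨hP, hexp, hone⟩ := Cfsg.Agent.H5.klein_of_no_compl hg₀ hG hnc P
  subst hε₃
  have he1 : ε₁ = 1 := by
    rcases hε.1 with h | h
    · exact h
    · exfalso
      rcases hε.2.1 with h' | h'
      · rw [h, h'] at hprod; norm_num at hprod
      · rw [h, h'] at h1; omega
  have he2 : ε₂ = 1 := by rw [he1] at hprod; linarith
  subst he1 he2
  obtain ⟨h11, h21, h31, h12, h13, h23⟩ := hdist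
  have n1 : χ₁ ≠ (⟨_, Cfsg.Agent.H5.isIrrCharacter_trivial⟩ : IrrCharacter G) := fun h => h11 (by rw [h])
  have n2 : χ₂ ≠ (⟨_, Cfsg.Agent.H5.isIrrCharacter_trivial⟩ : IrrCharacter G) := fun h => h21 (by rw [h])
  have n3 : χ₃ ≠ (⟨_, Cfsg.Agent.H5.isIrrCharacter_trivial⟩ : IrrCharacter G) := fun h => h31 (by rw [h])
  have hmem : ∀ χ : IrrCharacter G, χ ∈ principalBlock M G ↔ (χ = ⟨_, Cfsg.Agent.H5.isIrrCharacter_trivial⟩ ∨ χ = χ₁ ∨ χ = χ₂ ∨ χ = χ₃) := by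
    intro χ
    rw [hB]
    simp only [Set.mem_ofPred_eq]
    constructor
    · rintro (h | h)
      · left; exact Subtype.ext h
      · right; exact h
    · rintro (h | h)
      · left; rw [h]
      · right; exact h
  classical
  have hBF : ∀ F : IrrCharacter G → ℂ, ∑ χ ∈ Cfsg.Agent.H5.bF (principalBlock M G), F χ =
      F ⟨_, Cfsg.Agent.H5.isIrrCharacter_trivial⟩ + (F χ₁ + (F χ₂ + F χ₃)) := by
    intro F
    have : Cfsg.Agent.H5.bF (principalBlock M G) = {⟨_, Cfsg.Agent.H5.isIrrCharacter_trivial⟩, χ₁, χ₂, χ₃} := by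
      ext χ
      rw [Cfsg.Agent.H5.mem_bF, hmem]
      simp only [Finset.mem_insert, Finset.mem_singleton]
    rw [this, Finset.sum_insert, Finset.sum_insert, Finset.sum_insert, Finset.sum_singleton]
    · simp [h23]
    · simp [h12, h13]
    · simp [Ne.symm n1, Ne.symm n2, Ne.symm n3]
  have hf := Cfsg.Agent.H5.degrees_eq hM hexp hJ2 hBF hmem n1 n2 n3 h12 (by rw [hval.1]; simp) (by rw [hval.2.1]; simp)
    (by rw [hval.2.2]; simp) (Cfsg.Agent.H5.odd_of_mod4 (Or.inl rfl) hd1) (Cfsg.Agent.H5.odd_of_mod4 (Or.inl rfl) hd2)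
    (Cfsg.Agent.H5.odd_of_mod4 (Or.inr rfl) hd3)
  obtain ⟨c, hc⟩ : ∃ c, c = Nat.card (Subgroup.centralizer ((P : Subgroup G) : Set G)) := ⟨_, rfl⟩
  obtain ⟨C, hC⟩ : ∃ C, C = Nat.card (Subgroup.centralizer ({J} : Set G)) := ⟨_, rfl⟩
  obtain ⟨g, hgg⟩ : ∃ g, g = Nat.card G := ⟨_, rfl⟩
  have hCg : ∃ k, g = C * k := by
    rw [hgg, hC]
    exact Subgroup.card_subgroup_dvd_card _
  have hcpos : 0 < c := by rw [hc]; exact Nat.card_pos
  have hCpos : 0 < C := by rw [hC]; exact Nat.card_pos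
  rw [← hc, ← hC] at hn
  rw [← hC, ← hgg] at hg
  rw [← hc, ← hC, ← hgg]
  rw [← hf] at hd2 hg h1
  obtain ⟨f, hff⟩ : ∃ f, f = charDegree (χ₁ : G → ℂ) := ⟨_, rfl⟩
  obtain ⟨f3, hf3⟩ : ∃ f3, f3 = charDegree (χ₃ : G → ℂ) := ⟨_, rfl⟩
  rw [← hff, ← hf3] at h1 hg
  rw [← hff] at hd1 hp1
  rw [← hf3] at hp3 ⊢
  have hf3' : f3 = 2 * f + 1 := by omega
  obtain ⟨w, hw⟩ : ∃ w, f + 1 = 2 * w := by
    exact ⟨(f + 1) / 2, by omega⟩
  have hwpos : 0 < w := by omega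
  have hf' : f = 2 * w - 1 := by omega
  have hf3'' : f3 = 4 * w - 1 := by omega
  obtain ⟨k, hk⟩ := hCg
  -- main numerical relation
  have hrel : k * w ^ 2 = n ^ 2 * (f * f3) := by
    have hfq : (f : ℚ) = 2 * w - 1 := by
      rw [eq_sub_iff_add_eq]; exact_mod_cast hw
    have hf3q : (f3 : ℚ) = 4 * w - 1 := by
      rw [hf3']; push_cast; rw [hfq]; ring
    have hf0 : (f : ℚ) ≠ 0 := by positivity
    have hf30 : (f3 : ℚ) ≠ 0 := by positivity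
    have hCq : (C : ℚ) ≠ 0 := by positivity
    rw [hk] at hg
    push_cast at hg
    have h5 : (C : ℚ) * ((k : ℚ) * w ^ 2) = (C : ℚ) * ((n : ℚ) ^ 2 * (f * f3)) := by
      field_simp at hg
      rw [hfq, hf3q] at hg ⊢
      linear_combination (C : ℚ) * hg / 8
    have h6 := mul_left_cancel₀ hCq h5
    exact_mod_cast h6
  have hcop : Nat.Coprime (w ^ 2) (f * f3) := by
    apply Nat.Coprime.pow_left
    apply Nat.Coprime.mul_right
    · have : Nat.Coprime w (2 * w - 1) := by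
        have h7 : 2 * w = (2 * w - 1) + 1 := by omega
        rw [Nat.coprime_iff_gcd_eq_one]
        have h8 : Nat.gcd w (2 * w - 1) ∣ 1 := by
          have ha := Nat.gcd_dvd_left w (2 * w - 1)
          have hb := Nat.gcd_dvd_right w (2 * w - 1)
          have hc : Nat.gcd w (2 * w - 1) ∣ (2 * w - 1) + 1 := by rw [← h7]; exact ha.mul_left 2
          exact (Nat.dvd_add_right hb).mp hc
        exact Nat.dvd_one.mp h8
      rw [hf']; exact this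
    · have : Nat.Coprime w (4 * w - 1) := by
        have h7 : 4 * w = (4 * w - 1) + 1 := by omega
        have h8 : Nat.gcd w (4 * w - 1) ∣ 1 := by
          have ha := Nat.gcd_dvd_left w (4 * w - 1)
          have hb := Nat.gcd_dvd_right w (4 * w - 1)
          have hc : Nat.gcd w (4 * w - 1) ∣ (4 * w - 1) + 1 := by rw [← h7]; exact ha.mul_left 4
          exact (Nat.dvd_add_right hb).mp hc
        exact Nat.dvd_one.mp h8
      rw [hf3'']; exact this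
  have hwn : w ∣ n := by
    have h7 : w ^ 2 ∣ n ^ 2 * (f * f3) := ⟨k, by rw [← hrel]; ring⟩
    have h8 := hcop.dvd_of_dvd_mul_right h7
    exact (Nat.pow_dvd_pow_iff (by norm_num)).mp h8
  obtain ⟨m, hm⟩ := hwn
  have hk2 : k = m ^ 2 * (f * f3) := by
    have : k * w ^ 2 = (m ^ 2 * (f * f3)) * w ^ 2 := by rw [hrel, hm]; ring
    exact Nat.eq_of_mul_eq_mul_right (by positivity) this
  refine ⟨m, ?_, ?_⟩
  · have h9 : f3 + 1 = 4 * w := by omega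
    rw [h9, ← hn, hm]; ring
  · have h10 : f3 ^ 3 - f3 = 8 * w * f * f3 := by
      have h11 : f3 ^ 3 = 8 * w * f * f3 + f3 := by
        have hfz : (f : ℤ) = 2 * w - 1 := by omega
        have hf3z : (f3 : ℤ) = 4 * w - 1 := by omega
        have : ((f3 ^ 3 : ℕ) : ℤ) = ((8 * w * f * f3 + f3 : ℕ) : ℤ) := by
          push_cast; rw [hfz, hf3z]; ring
        exact_mod_cast this
      omega
    rw [h10, hk, hk2, ← hn, hm]; ring

end Cfsg.Agent.S4480
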