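import Cfsg.Statements.S4483
import Cfsg.Agent.H5.Block17

set_option autoImplicit false
open Cfsg

namespace Cfsg.Agent.S4483

/-- Let G be a finite group of order 2^n·g₀ with g₀ odd, and M a maximal ideal of the algebraic integers containing 2. Every real-valued irreducible character of G of odd degree lies in the principal 2-block; consequently G has at most 2^(2n) real-valued irreducible characters of odd degree. -/
theorem result {G : Type*} [Group G] [Finite G] (M : Ideal Cfsg.AlgInt) (hM : Cfsg.IsPModular 2 M) : (∀ χ : Cfsg.IrrCharacter G, (∀ g : G, ((χ : G → ℂ) g).im = 0) → Odd (Cfsg.charDegree (χ : G → ℂ)) → χ ∈ Cfsg.principalBlock M G) ∧ Nat.card {χ : Cfsg.IrrCharacter G // (∀ g : G, ((χ : G → ℂ) g).im = 0) ∧ Odd (Cfsg.charDegree (χ : G → ℂ))} ≤ 2 ^ (2 * (Nat.card G).factorization 2) := by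
  have := Fintype.ofFinite G
  have hprime := Cfsg.Agent.H5.isPrime_of_isPModular hM
  have key : ∀ χ : Cfsg.IrrCharacter G, (∀ g : G, ((χ : G → ℂ) g).im = 0) → Odd (Cfsg.charDegree (χ : G → ℂ)) → χ ∈ Cfsg.principalBlock M G := by
    intro χ h1 h2
    apply Cfsg.Agent.H5.gow hM
    · intro g; exact Complex.conj_eq_iff_im.mpr (h1 g)
    · obtain ⟨m, hm⟩ := h2; omega
  refine ⟨key, ?_⟩
  have h1 : Nat.card {χ : Cfsg.IrrCharacter G // (∀ g : G, ((χ : G → ℂ) g).im = 0) ∧ Odd (Cfsg.charDegree (χ : G → ℂ))} ≤ Nat.card (Cfsg.principalBlock M G) := by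
    refine Nat.card_le_card_of_injective (fun χ => ⟨χ.1, key χ.1 χ.2.1 χ.2.2⟩) ?_
    intro a b h
    exact Subtype.ext (congrArg (fun x => x.1) h)
  refine h1.trans ((Cfsg.Agent.H5.card_block_le hM Cfsg.Agent.H5.principal_isPBlock).trans ?_)
  have h2 : 2 ^ Cfsg.blockDefect 2 (Cfsg.principalBlock M G) ≤ 2 ^ (Nat.card G).factorization 2 := by
    apply Nat.pow_le_pow_right (by norm_num)
    rw [Cfsg.Agent.H5.blockDefect_eq]; exact Nat.sub_le _ _
  rw [mul_comm 2, pow_mul]
  generalize 2 ^ Cfsg.blockDefect 2 (Cfsg.principalBlock M G) = a at h2 ⊢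
  have h3 : 1 ≤ 2 ^ (Nat.card G).factorization 2 := Nat.one_le_two_pow
  have h4 : a ^ 2 ≤ (2 ^ (Nat.card G).factorization 2) ^ 2 := Nat.pow_le_pow_left h2 2
  generalize hb : (2 ^ (Nat.card G).factorization 2) = b at h2 h3 h4 ⊢
  rcases Nat.lt_or_ge b 2 with hb2 | hb2
  · have : b = 1 := by omega
    subst this
    have : a ≤ 1 := h2
    have h5 : a ^ 2 ≤ 1 := by simpa using h4
    omega
  · have : 4 ≤ b ^ 2 := by nlinarith
    omega

end Cfsg.Agent.S4483
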