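import Cfsg.Statements.S4490
import Cfsg.Agent.H5.Block17

set_option autoImplicit false
open Cfsg

namespace Cfsg.Agent.S4490

/-- Let G be a finite group and M a maximal ideal of the algebraic integers containing 2. Every 2-block B of G whose defect groups are the Sylow 2-subgroups of G (a block of full defect) and which is not the principal block is different from its complex-conjugate block, the block formed by the complex conjugates of the members of B. -/
theorem result {G : Type*} [Group G] [Finite G] (M : Ideal Cfsg.AlgInt) (hM : Cfsg.IsPModular 2 M) (B : Set (Cfsg.IrrCharacter G)) (hB : Cfsg.IsPBlock M B) (P : Sylow 2 G) (hfull : Cfsg.IsDefectGroup 2 M B (P : Subgroup G)) (hnp : B ≠ Cfsg.principalBlock M G) : {ψ : Cfsg.IrrCharacter G | ∃ χ ∈ B, (ψ : G → ℂ) = fun g => (starRingEnd ℂ) ((χ : G → ℂ) g)} ≠ B := by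
  have := Fintype.ofFinite G
  have hprime := Cfsg.Agent.H5.isPrime_of_isPModular hM
  intro heq
  apply hnp
  have hcl : ∀ χ ∈ B, ∃ ψ ∈ B, (ψ : G → ℂ) = fun g => (starRingEnd ℂ) ((χ : G → ℂ) g) := by
    intro χ hχ
    refine ⟨⟨_, Cfsg.Agent.H5.isIrr_conjFun χ.2⟩, ?_, rfl⟩
    rw [← heq]
    exact ⟨χ, hχ, rfl⟩
  obtain ⟨χ, hχ, h0⟩ := Cfsg.Agent.H5.exists_height_zero hM hB
  have hd : Cfsg.blockDefect 2 B = (Nat.card G).factorization 2 := by
    have h1 := Cfsg.Agent.H5.card_defectGroup hM hB hfull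
    have h2 : Nat.card (P : Subgroup G) = 2 ^ (Nat.card G).factorization 2 := P.card_eq_multiplicity
    rw [h2] at h1
    exact (Nat.pow_right_injective le_rfl h1).symm
  have hodd : ¬ 2 ∣ Cfsg.charDegree (χ : G → ℂ) := by
    have h1 := Cfsg.Agent.H5.blockHeight_add (p := 2) hχ
    have h2 := Cfsg.Agent.H5.blockDefect_add (p := 2) B ⟨χ, hχ⟩
    intro hdv
    have h3 := (Nat.prime_two.dvd_iff_one_le_factorization (Cfsg.Agent.H5.charDegree_pos χ.2).ne').mp hdv
    omega
  refine Cfsg.Agent.H5.eq_principal_of_sym hM hB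
    (fun x _ => Cfsg.Agent.H5.blockCoeff_symm_of_conj hcl x) hχ hodd (fun x _ => ?_)
  obtain ⟨ψ, hψ, hψ'⟩ := hcl χ hχ
  rw [← Cfsg.Agent.H5.centralChar_conjFun (Cfsg.Agent.H5.irr_isCharacter χ), ← hψ']
  exact Cfsg.Agent.H5.sameBlock_symm (Cfsg.Agent.H5.IsPBlock.sameBlock hB hχ hψ) x

end Cfsg.Agent.S4490
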