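import Cfsg.Statements.S4492
import Cfsg.Agent.H5.W6

set_option autoImplicit false
open Cfsg

namespace Cfsg.Agent.S4492

/-- Let G be a finite p-solvable group, N = O_{p'}(G) its largest normal subgroup of order prime to p, and θ an irreducible character of N invariant under conjugation by G; fix a maximal ideal M of the algebraic integers containing p. Then the irreducible characters of G lying over θ (those whose restriction to N contains θ) form a single p-block of G, and the defect groups of that block are exactly the Sylow p-subgroups of G. -/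
theorem result {G : Type*} [Group G] [Fintype G] (p : ℕ) [Fact p.Prime] (M : Ideal Cfsg.AlgInt) (hM : Cfsg.IsPModular p M) (hsolv : Cfsg.IsPSolvable p G) (N : Subgroup G) [hN : N.Normal] [Fintype N] (hNdef : N = Cfsg.pPrimeCore p G) (θ : Cfsg.IrrCharacter N) (hinv : ∀ (g : G) (n : N), (θ : N → ℂ) ⟨g * n * g⁻¹, hN.conj_mem n n.2 g⟩ = (θ : N → ℂ) n) : ∃ B : Set (Cfsg.IrrCharacter G), Cfsg.IsPBlock M B ∧ (∀ χ : Cfsg.IrrCharacter G, χ ∈ B ↔ Cfsg.classInner (fun n : N => (χ : G → ℂ) n) (θ : N → ℂ) ≠ 0) ∧ (∀ P : Sylow p G, Cfsg.IsDefectGroup p M B (P : Subgroup G)) ∧ ∀ D : Subgroup G, Cfsg.IsDefectGroup p M B D → ∃ P : Sylow p G, D = (P : Subgroup G) := by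
  have hprime := Cfsg.Agent.H5.isPrime_of_isPModular hM
  have hNp : ¬ p ∣ Nat.card N := by
    rw [hNdef]
    exact (Nat.Prime.coprime_iff_not_dvd hM.1).mp (Cfsg.Agent.L0.pPrimeCore_coprime p G).symm
  have hb : IsPBlock M ({θ} : Set (IrrCharacter N)) := by
    have h1 := Cfsg.Agent.H5.isPBlock_blockOf (M := M) θ
    rwa [Cfsg.Agent.H5.blockOf_eq_singleton hM hNp θ] at h1
  have hbl := Cfsg.Agent.H5.isBl_be (M := M) hb
  have hst : Cfsg.Agent.H5.be M N ({θ} : Set (IrrCharacter N)) ∈ Cfsg.Agent.H5.KFix (Cfsg.Agent.H5.KK M) (⊤ : Subgroup G) := by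
    rw [Cfsg.Agent.H5.mem_KFix]
    intro g _
    rw [← Cfsg.Agent.H5.stab_iff hb g]
    intro θ₁ hθ₁ θ' h
    rw [Set.mem_singleton_iff] at hθ₁ ⊢
    subst hθ₁
    apply Subtype.ext
    funext n
    rw [h n, hinv]
  have hs : IsPSolvable p (G ⧸ N) := Cfsg.Agent.H2.psolvable_surj hsolv (QuotientGroup.mk' N) (QuotientGroup.mk'_surjective N)
  have hcore : pPrimeCore p (G ⧸ N) = ⊥ := by
    subst hNdef
    exact Cfsg.Agent.L0.pPrimeCore_quotient_pPrimeCore p G
  have htop := Cfsg.Agent.H5.fong_block hM hs hcore hbl hst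
  obtain ⟨V, hV, hV2, hV3⟩ := Cfsg.Agent.H5.exact_transfer_top (Cfsg.Agent.H5.IsPBlock.isBU hb) hst
  obtain ⟨B, hB, hBe⟩ := Cfsg.Agent.H5.exists_top htop
  have h3 : B = V := Cfsg.Agent.H5.blk_injective (Cfsg.Agent.H5.IsPBlock.isBU hB) hV (by rw [hBe, hV2])
  subst h3
  have hdf : ∀ D : Subgroup G, IsDefectGroup p M B D ↔
      Cfsg.Agent.H5.Df p M (⊤ : Subgroup G) (Cfsg.Agent.H5.be M N ({θ} : Set (IrrCharacter N))) D := fun D => by
    rw [Cfsg.Agent.H5.isDefectGroup_iff_df hM hB, hBe]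
  have hsyl : ∀ D : Subgroup G, IsDefectGroup p M B D → ∃ P : Sylow p G, D = (P : Subgroup G) := by
    intro D hD
    have hD' := (hdf D).mp hD
    have h4 := Cfsg.Agent.H5.sylow_of_df_stable hM hNp hbl hst hD'
    exact ⟨IsPGroup.toSylow hD'.1 h4, rfl⟩
  refine ⟨B, hB, ?_, ?_, hsyl⟩
  · intro χ
    constructor
    · intro hχ
      obtain ⟨θ', hθ'⟩ := Cfsg.Agent.H5.exists_under (N := N) χ
      have h4 := (Cfsg.Agent.H5.cover_mem hV3 hθ').mp hχ
      rw [Set.mem_singleton_iff] at h4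
      rwa [h4] at hθ'
    · intro h
      exact (Cfsg.Agent.H5.cover_mem hV3 h).mpr rfl
  · intro P
    obtain ⟨D, hD⟩ := Cfsg.Agent.H5.exists_df hM htop
    obtain ⟨Q, hQ⟩ := hsyl D ((hdf D).mpr hD)
    obtain ⟨g, hg⟩ := MulAction.exists_smul_eq G Q P
    have h4 : (P : Subgroup G) = Cfsg.Agent.H5.cj g D := by
      rw [← hg, hQ]
      rfl
    rw [hdf, h4]
    exact hD.cj_mem htop.fix (Subgroup.mem_top g)

end Cfsg.Agent.S4492
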