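import Cfsg.Statements.S4493
import Cfsg.Agent.H5.W23

set_option autoImplicit false
open Cfsg

namespace Cfsg.Agent.S4493

/-- Let G be a finite solvable group and p a prime. Then G has a normal abelian Sylow p-subgroup if and only if no irreducible character degree of G is divisible by p. -/
theorem result {G : Type*} [Group G] [Finite G] (hsolv : Group.IsSolvable G) (p : ℕ) (hp : p.Prime) : (∃ P : Subgroup G, P.Normal ∧ (∀ x ∈ P, ∀ y ∈ P, x * y = y * x) ∧ IsPGroup p P ∧ ¬ p ∣ P.index) ↔ ∀ χ : Cfsg.IrrCharacter G, ¬ p ∣ Cfsg.charDegree (χ : G → ℂ) := by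
  have hfG : Fintype G := Fintype.ofFinite G
  have hfp : Fact p.Prime := ⟨hp⟩
  constructor
  · rintro ⟨P, hn, hab, hP, hidx⟩ χ
    exact Cfsg.Agent.H5.deg_of_abelian hn hidx hab χ
  · intro hdeg
    obtain ⟨P, hP⟩ := Cfsg.Agent.H5.ito_solv p _ G rfl hsolv hdeg
    refine ⟨P, hP, ?_, P.2, P.not_dvd_index⟩
    intro x hx y hy
    have := Cfsg.Agent.H5.comm_of_deg P.2 (fun χ => Cfsg.Agent.H5.deg_sub hdeg hP χ) ⟨x, hx⟩ ⟨y, hy⟩
    exact congrArg Subtype.val this

end Cfsg.Agent.S4493
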