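import Cfsg.Statements.S4498
import Cfsg.Agent.H5.Prin3

set_option autoImplicit false
open Cfsg

namespace Cfsg.Agent.S4498

/-- Let p and q be distinct primes dividing the order of the finite group G, and suppose G has no element of order p·q. Fix maximal ideals M_p over p and M_q over q of the algebraic integers. Then the principal p-block and the principal q-block of G have a non-principal irreducible character in common. -/
theorem result {G : Type*} [Group G] [Finite G] (p q : ℕ) [Fact p.Prime] [Fact q.Prime] (hpq : p ≠ q) (hp : p ∣ Nat.card G) (hq : q ∣ Nat.card G) (hno : ∀ g : G, orderOf g ≠ p * q) (Mp Mq : Ideal Cfsg.AlgInt) (hMp : Cfsg.IsPModular p Mp) (hMq : Cfsg.IsPModular q Mq) : ∃ χ : Cfsg.IrrCharacter G, (χ : G → ℂ) ≠ (fun _ => 1) ∧ χ ∈ Cfsg.principalBlock Mp G ∧ χ ∈ Cfsg.principalBlock Mq G := by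
  have := Fintype.ofFinite G
  have hprimep := Cfsg.Agent.H5.isPrime_of_isPModular hMp
  have hprimeq := Cfsg.Agent.H5.isPrime_of_isPModular hMq
  obtain ⟨x, hx⟩ := exists_prime_orderOf_dvd_card' p hp
  obtain ⟨y, hy⟩ := exists_prime_orderOf_dvd_card' q hq
  have hBp := Cfsg.Agent.H5.blockCoeff_memLocR (M := Mp) (G := G) Cfsg.Agent.H5.principal_isPBlock
  have hBq := Cfsg.Agent.H5.blockCoeff_memLocR (M := Mq) (G := G) Cfsg.Agent.H5.principal_isPBlock
  have hself : ∀ (r : ℕ) (z : G), r.Prime → orderOf z = r → IsPPart r z z := by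
    intro r z hr hz
    refine ⟨1, mul_one z, Commute.one_right z, ⟨1, by rw [hz, pow_one]⟩, ?_⟩
    rw [orderOf_one]
    exact hr.one_lt.not_ge ∘ Nat.le_of_dvd one_pos
  have hordconj : ∀ a b : G, IsConj a b → orderOf a = orderOf b := by
    intro a b h
    obtain ⟨c, hc⟩ := isConj_iff.mp h
    rw [← hc, ← MulAut.conj_apply, orderOf_injective (MulAut.conj c).toMonoidHom (MulAut.conj c).injective a |>.symm]
    rfl
  by_contra hcon
  have hcon' : ∀ χ : IrrCharacter G, χ ∈ principalBlock Mp G → χ ∈ principalBlock Mq G →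
      χ = ⟨_, Cfsg.Agent.H5.isIrrCharacter_trivial⟩ := by
    intro χ h1 h2
    by_contra h3
    exact hcon ⟨χ, fun h4 => h3 (Subtype.ext h4), h1, h2⟩
  have key : ∑ g : G, Cfsg.Agent.H5.blkK (principalBlock Mp G) x g * Cfsg.Agent.H5.blkK (principalBlock Mq G) g y = 0 := by
    apply Finset.sum_eq_zero
    intro g _
    obtain ⟨a, ha⟩ := Cfsg.Agent.H5.exists_pPart hMp.1 g
    obtain ⟨b, hb⟩ := Cfsg.Agent.H5.exists_pPart hMq.1 g
    by_cases h1 : IsConj x a
    · by_cases h2 : IsConj b y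
      · exfalso
        have ha1 : orderOf a = p := by rw [← hordconj _ _ h1, hx]
        have hb1 : orderOf b = q := by rw [hordconj _ _ h2, hy]
        have hcomm : Commute a b := by
          obtain ⟨i, hi⟩ := Subgroup.mem_zpowers_iff.mp (Cfsg.Agent.H5.pPart_mem_zpowers hMp.1 ha)
          obtain ⟨j, hj⟩ := Subgroup.mem_zpowers_iff.mp (Cfsg.Agent.H5.pPart_mem_zpowers hMq.1 hb)
          rw [← hi, ← hj]
          exact Commute.zpow_zpow_self g i j
        apply hno (a * b)
        rw [hcomm.orderOf_mul_eq_mul_orderOf_of_coprime, ha1, hb1]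
        rw [ha1, hb1]
        exact (Nat.coprime_primes hMp.1 hMq.1).mpr hpq
      · rw [Cfsg.Agent.H5.blkK_section hMq hBq hb (hself q y hMq.1 hy) h2, mul_zero]
    · rw [Cfsg.Agent.H5.blkK_section hMp hBp (hself p x hMp.1 hx) ha h1, zero_mul]
  have key2 : ∑ g : G, Cfsg.Agent.H5.blkK (principalBlock Mp G) x g * Cfsg.Agent.H5.blkK (principalBlock Mq G) g y =
      (Nat.card G : ℂ) := by
    classical
    have h1 : ∀ g : G, Cfsg.Agent.H5.blkK (principalBlock Mp G) x g * Cfsg.Agent.H5.blkK (principalBlock Mq G) g y =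
        ∑ χ : IrrCharacter G, ∑ ψ : IrrCharacter G, (Cfsg.Agent.H5.ind1 (principalBlock Mp G) χ * Cfsg.Agent.H5.ind1 (principalBlock Mq G) ψ *
          ((χ : G → ℂ) x * (ψ : G → ℂ) y⁻¹)) * ((ψ : G → ℂ) g * (χ : G → ℂ) g⁻¹) := by
      intro g
      unfold Cfsg.Agent.H5.blkK
      rw [Finset.sum_mul_sum]
      refine Finset.sum_congr rfl fun χ _ => Finset.sum_congr rfl fun ψ _ => ?_
      ring
    rw [Finset.sum_congr rfl (fun g _ => h1 g), Finset.sum_comm]
    rw [Finset.sum_eq_single (⟨_, Cfsg.Agent.H5.isIrrCharacter_trivial⟩ : IrrCharacter G)]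
    · rw [Finset.sum_comm, Finset.sum_eq_single (⟨_, Cfsg.Agent.H5.isIrrCharacter_trivial⟩ : IrrCharacter G)]
      · rw [← Finset.mul_sum, Cfsg.Agent.H5.sum_irr_mul_inv, if_pos rfl, Cfsg.Agent.H5.ind1_mem, Cfsg.Agent.H5.ind1_mem]
        · simp
        · exact Cfsg.Agent.H5.one_mem_principal
        · exact Cfsg.Agent.H5.one_mem_principal
      · intro ψ _ hψ
        rw [← Finset.mul_sum, Cfsg.Agent.H5.sum_irr_mul_inv, if_neg hψ, mul_zero]
      · intro h; exact absurd (Finset.mem_univ _) h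
    · intro χ _ hχ
      rw [Finset.sum_comm]
      apply Finset.sum_eq_zero
      intro ψ _
      rw [← Finset.mul_sum, Cfsg.Agent.H5.sum_irr_mul_inv]
      by_cases h2 : ψ = χ
      · rw [h2, if_pos rfl]
        by_cases h3 : χ ∈ principalBlock Mp G
        · have h4 : χ ∉ principalBlock Mq G := fun h4 => hχ (hcon' χ h3 h4)
          rw [Cfsg.Agent.H5.ind1_not_mem h4]; ring
        · rw [Cfsg.Agent.H5.ind1_not_mem h3]; ring
      · rw [if_neg h2, mul_zero]
    · intro h; exact absurd (Finset.mem_univ _) h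
  rw [key] at key2
  exact Nat.card_pos.ne' (Nat.cast_eq_zero.mp key2.symm)

end Cfsg.Agent.S4498
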