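import Cfsg.Statements.S4512
import Cfsg.Agent.H5.Klein3

set_option autoImplicit false
open Cfsg

namespace Cfsg.Agent.S4512

/-- If G is a finite group with a Sylow 2-subgroup that is a Klein four-group and a single conjugacy class of involutions, then its principal 2-block (relative to a maximal ideal M of the algebraic integers containing 2) has 2-regular rank 3: the restrictions of its irreducible characters to the elements of odd order span a space of dimension 3 (it has three irreducible Brauer characters). -/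
theorem result {G : Type*} [Group G] [Finite G] (M : Ideal Cfsg.AlgInt) (hM : Cfsg.IsPModular 2 M) (P : Sylow 2 G)
    (hP : Nat.card P = 4) (hexp : ∀ x : P, x * x = 1)
    (hone : ∀ s t : G, orderOf s = 2 → orderOf t = 2 → IsConj s t) :
    Cfsg.blockRank 2 (Cfsg.principalBlock M G) = 3 := by
  have hprime := Cfsg.Agent.H5.isPrime_of_isPModular hM
  have := Fintype.ofFinite G
  have hexp' : ∀ q ∈ (P : Subgroup G), q * q = 1 := by
    intro q hq
    exact congrArg Subtype.val (hexp ⟨q, hq⟩)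
  obtain ⟨x, hxP, hx⟩ : ∃ x ∈ (P : Subgroup G), orderOf x = 2 := by
    have h3 := Cfsg.Agent.H5.card_invS_klein hP hexp'
    have hpos : 0 < Nat.card (Cfsg.Agent.H5.InvS (P : Subgroup G)) := by rw [h3]; norm_num
    obtain ⟨⟨a, ha⟩⟩ := (Nat.card_pos_iff.mp hpos).1
    exact ⟨a, ha.1, ha.2⟩
  have hone' : ∀ s : G, orderOf s = 2 → IsConj x s := fun s hs => hone x s hx hs
  have hsec := Cfsg.Agent.H5.hsec_of P hexp' hone'
  obtain ⟨C, hC⟩ : ∃ C, C = Subgroup.centralizer ({x} : Set G) := ⟨_, rfl⟩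
  have := Fintype.ofFinite C
  obtain ⟨N, Q, hNn, hN, hidx, hQ, hQe, hNQ, hsyl⟩ := Cfsg.Agent.H5.klein_setup P hP hexp' hxP hx hC
  obtain ⟨hcard, hvals⟩ := Cfsg.Agent.H5.klein_main hM hx hC hN hidx hsec
  have h1 := Cfsg.Agent.H5.blockRank_eq_sum hM (Cfsg.Agent.H5.principal_isPBlock (M := M) (G := G))
  have h2 : ∀ χ ∈ Cfsg.Agent.H5.bF (principalBlock M G), Cfsg.Agent.H5.rin 2 (χ : G → ℂ) (χ : G → ℂ) = 3 / 4 := by
    intro χ hχ
    exact Cfsg.Agent.H5.klein_rin hM hx hC hN hidx hsec (Cfsg.Agent.H5.mem_bF.mp hχ) (hvals χ hχ)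
  rw [Finset.sum_congr rfl h2, Finset.sum_const, hcard] at h1
  have h3 : (blockRank 2 (principalBlock M G) : ℂ) = 3 := by rw [h1]; norm_num
  exact_mod_cast h3

end Cfsg.Agent.S4512
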