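import Cfsg.Statements.S4513
import Cfsg.Agent.H5.W31
import Cfsg.Agent.H5.W22

set_option autoImplicit false
open Cfsg

namespace Cfsg.Agent.S4513

theorem sq_eq_one_iff_of_side {n : ℤ} (h : n ^ 2 = 1) : n = 1 ∨ n = -1 := by
  have h1 : (n - 1) * (n + 1) = 0 := by linear_combination h
  rcases mul_eq_zero.mp h1 with h2 | h2
  · left; omega
  · right; omega

open Cfsg.Agent.H5 ComplexConjugate in
theorem core {G : Type*} [Group G] [Fintype G] {M : Ideal Cfsg.AlgInt} (hM : Cfsg.IsPModular 2 M) {x : G} (hx : orderOf x = 2)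
    {B : Set (Cfsg.IrrCharacter G)} (hB : Cfsg.IsPBlock M B) (hBD : Cfsg.IsDefectGroup 2 M B (Subgroup.zpowers x))
    {C : Subgroup G} (hC : C = Subgroup.centralizer ({x} : Set G)) {b : Set (Cfsg.IrrCharacter C)} (hb : Cfsg.IsInducedBlock M C b B)
    {θ : Cfsg.IrrCharacter C} (hθ : θ ∈ b) (hθx : ∀ z : C, (z : G) = x → (θ : C → ℂ) z = (θ : C → ℂ) 1) :
    ∃ d : Cfsg.IrrCharacter G → ℤ, (∀ χ ∈ B, ∀ y : C, ¬ 2 ∣ orderOf y → (χ : G → ℂ) (x * y) = (d χ : ℂ) * (θ : C → ℂ) y) ∧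
      (∀ χ ∈ B, d χ ≠ 0) ∧ ∑ χ ∈ bF B, d χ ^ 2 = 2 := by
  classical
  have hprime := isPrime_of_isPModular hM
  have hfact : Fact (Nat.Prime 2) := ⟨Nat.prime_two⟩
  have hfC : Fintype C := Fintype.ofFinite C
  have hxk := ord_two_pow hx
  have hxx := mul_self_of_order_two hx
  have hxC : x ∈ C := by rw [hC, Subgroup.mem_centralizer_singleton_iff]
  have hCN : C = Subgroup.normalizer ((Subgroup.zpowers x : Subgroup G) : Set G) := by
    rw [hC]; exact normalizer_zpowers_two hx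
  obtain ⟨hbD, huniq⟩ := induced_normalizer hM hB hBD hCN hb
  have hloc := locA_eq hM hB hxk hC hb huniq
  have hCmem : ∀ w ∈ C, w * x = x * w := by
    intro w hw
    rw [hC, Subgroup.mem_centralizer_singleton_iff] at hw
    exact hw
  have hxcent : ∀ h : C, Commute (⟨x, hxC⟩ : C) h := by
    intro h
    exact Subtype.ext (hCmem h h.2).symm
  obtain ⟨P, hP⟩ : ∃ P : Subgroup C, P = (Subgroup.zpowers x).subgroupOf C := ⟨_, rfl⟩
  rw [← hP] at hbD
  have hPmem : ∀ z ∈ P, (z : G) = 1 ∨ (z : G) = x := by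
    intro z hz
    rw [hP, Subgroup.mem_subgroupOf] at hz
    obtain ⟨k, hk⟩ := hz
    simp only at hk
    have hxx2 : x ^ (2 : ℤ) = 1 := by rw [zpow_ofNat, pow_two, hxx]
    rcases Int.even_or_odd k with ⟨m, hm⟩ | ⟨m, hm⟩
    · left
      rw [← hk, hm, ← two_mul, zpow_mul, hxx2, one_zpow]
    · right
      rw [← hk, hm, zpow_add, zpow_mul, hxx2, one_zpow, one_mul, zpow_one]
  have hPc : P ≤ Subgroup.center C := by
    intro z hz
    rw [Subgroup.mem_center_iff]
    intro g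
    rcases hPmem z hz with h | h
    · have : z = 1 := Subtype.ext h
      rw [this, mul_one, one_mul]
    · have : z = ⟨x, hxC⟩ := Subtype.ext h
      rw [this]; exact (hxcent g).symm.eq
  have hPG : P ⊔ Subgroup.centralizer (P : Set C) = ⊤ := by
    rw [eq_top_iff]
    refine le_trans ?_ le_sup_right
    intro g _
    rw [Subgroup.mem_centralizer_iff]
    intro z hz
    exact (Subgroup.mem_center_iff.mp (hPc hz) g).symm
  have hPp : IsPGroup 2 P := isDefectGroup_isPGroup hbD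
  have hθP : ∀ y ∈ P, (θ : C → ℂ) y = (θ : C → ℂ) 1 := by
    intro y hy
    rcases hPmem y hy with h | h
    · have : y = 1 := Subtype.ext h
      rw [this]
    · exact hθx y h
  have hform : ∀ η ∈ b, ∀ y : C, ¬ 2 ∣ orderOf y → (η : C → ℂ) y = (1 : ℂ) * (θ : C → ℂ) y := by
    intro η hη y hy
    obtain ⟨ζ, hζ⟩ := pc_form hM hPp hPG hb.1 hbD hθ hθP hη
    have h1 := hζ 1 y hy
    rw [Subgroup.coe_one, one_mul] at h1
    rw [h1]
    congr 1
    obtain ⟨lam, hlam⟩ := irr_of_comm (G := P) (fun a c => Subtype.ext ((Subgroup.mem_center_iff.mp (hPc c.2)) a)) ζ.2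
    rw [hlam]; simp
  have hcb : Nat.card b = 2 := by
    rw [pc_card hM hPp hPG hb.1 hbD]
    have hcardP : Nat.card P = 2 := by
      rw [hP]
      have : Nat.card ((Subgroup.zpowers x).subgroupOf C) = Nat.card (Subgroup.zpowers x) := by
        apply Nat.card_congr
        exact (Subgroup.subgroupOfEquivOfLe (by rw [Subgroup.zpowers_le]; exact hxC)).toEquiv
      rw [this, Nat.card_zpowers, hx]
    rw [← hcardP]
    symm
    apply Nat.card_congr
    refine Equiv.ofBijective ConjClasses.mk ⟨?_, ConjClasses.mk_surjective⟩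
    intro a c h
    rw [ConjClasses.mk_eq_mk_iff_isConj, _root_.isConj_iff] at h
    obtain ⟨g, hg⟩ := h
    rw [← hg]
    have : g * a = a * g := Subtype.ext ((Subgroup.mem_center_iff.mp (hPc a.2)) g)
    rw [this, mul_inv_cancel_right]
  -- values
  have hval : ∀ χ ∈ B, ∀ y : C, ¬ 2 ∣ orderOf y → (χ : G → ℂ) (x * y) = (∑ η ∈ bF b, classInner (xr x (χ : G → ℂ) : C → ℂ) (η : C → ℂ) * 1) * (θ : C → ℂ) y := by
    intro χ hχ y hy
    exact sec_form hM hB hxk hC hloc (a := fun _ => 1) hform hχ hy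
  -- integrality
  have hint : ∀ χ : Cfsg.IrrCharacter G, ∃ n : ℤ, ∑ η ∈ bF b, classInner (xr x (χ : G → ℂ) : C → ℂ) (η : C → ℂ) * 1 = n := by
    intro χ
    have h1 : ∀ η : Cfsg.IrrCharacter C, ∃ n : ℤ, classInner (xr x (χ : G → ℂ) : C → ℂ) (η : C → ℂ) * 1 = n := by
      intro η
      rw [mul_one, xr_inner hxC hxcent]
      obtain ⟨m, hm⟩ := IsCharacter.inner_nat (isCharacter_restrict C (irr_isCharacter χ)) η
      have h2 : cv (⟨x, hxC⟩ : C) (η : C → ℂ) ^ 2 = 1 := cv_pow_eq_one hxcent η (by rw [pow_two]; exact Subtype.ext hxx)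
      have h3 : (cv (⟨x, hxC⟩ : C) (η : C → ℂ) - 1) * (cv (⟨x, hxC⟩ : C) (η : C → ℂ) + 1) = 0 := by
        linear_combination h2
      rcases mul_eq_zero.mp h3 with h4 | h4
      · refine ⟨m, ?_⟩
        rw [sub_eq_zero.mp h4, hm, one_mul]; push_cast; rfl
      · refine ⟨-m, ?_⟩
        rw [eq_neg_of_add_eq_zero_left h4, hm]; push_cast; ring
    choose n hn using h1
    exact ⟨∑ η ∈ bF b, n η, by rw [Finset.sum_congr rfl (fun η _ => hn η)]; push_cast; rfl⟩
  choose d hd using hint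
  have hθ1 : (θ : C → ℂ) 1 ≠ 0 := IsIrr.one_ne_zero θ.2
  have hv2 : ∀ χ ∈ B, ∀ y : C, ¬ 2 ∣ orderOf y → (χ : G → ℂ) (x * y) = (d χ : ℂ) * (θ : C → ℂ) y := by
    intro χ hχ y hy
    rw [hval χ hχ y hy, hd]
  have h21 : ¬ 2 ∣ orderOf (1 : C) := by rw [orderOf_one]; omega
  refine ⟨d, hv2, ?_, ?_⟩
  · intro χ hχ h0
    obtain ⟨y, hy, hyD⟩ := (isDefectGroup_iff B _).mp hBD
    have h1 := central_mul_not_memLocI hM hB hy hyD (Subgroup.mem_zpowers x) (fun w hw => by
      obtain ⟨k, rfl⟩ := hw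
      exact ((Commute.refl x).zpow_right k).eq) hχ
    apply h1
    have hyC : y ∈ C := by
      rw [hC, Subgroup.mem_centralizer_singleton_iff]
      exact (commute_of_mem_sylC hyD (Subgroup.mem_zpowers x)).symm.eq
    have h2 := hv2 χ hχ ⟨y, hyC⟩ (by
      rw [Subgroup.orderOf_mk]
      exact defectClass_regular hM hB hy)
    rw [h0, Int.cast_zero, zero_mul] at h2
    unfold Cfsg.centralChar
    simp only at h2
    rw [h2, mul_zero, zero_div]
    exact memLocI_zero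
  · have h1 := sec_kernel hM (fun g => blockCoeff_memLocR hB g) hxk hC h21 h21
    rw [hloc] at h1
    have h2 : ∀ χ : Cfsg.IrrCharacter G, ind1 B χ * ((χ : G → ℂ) (x * ((1 : C) : G)) * conj ((χ : G → ℂ) (x * ((1 : C) : G)))) =
        ind1 B χ * (((d χ ^ 2 : ℤ) : ℂ) * ((θ : C → ℂ) 1 * conj ((θ : C → ℂ) 1))) := by
      intro χ
      by_cases hχ : χ ∈ B
      · rw [hv2 χ hχ 1 h21, map_mul, map_intCast]; push_cast; ring
      · rw [ind1_not_mem hχ, zero_mul, zero_mul]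
    have h3 : ∀ ψ : Cfsg.IrrCharacter C, ind1 b ψ * ((ψ : C → ℂ) 1 * conj ((ψ : C → ℂ) 1)) = ind1 b ψ * ((θ : C → ℂ) 1 * conj ((θ : C → ℂ) 1)) := by
      intro ψ
      by_cases hψ : ψ ∈ b
      · rw [hform ψ hψ 1 h21, one_mul]
      · rw [ind1_not_mem hψ, zero_mul, zero_mul]
    rw [Finset.sum_congr rfl (fun χ _ => h2 χ), Finset.sum_congr rfl (fun ψ _ => h3 ψ), ← finsum_mem_ind1, ← finsum_mem_ind1, finsum_mem_bF, finsum_mem_bF,
      ← Finset.sum_mul, Finset.sum_const, nsmul_eq_mul, card_bF, hcb] at h1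
    have h4 : (θ : C → ℂ) 1 * conj ((θ : C → ℂ) 1) ≠ 0 := mul_ne_zero hθ1 ((map_ne_zero _).mpr hθ1)
    have h5 := mul_right_cancel₀ h4 h1
    rw [← Int.cast_sum] at h5
    exact_mod_cast h5

/-- Blocks of defect one for p = 2. Let M be a maximal ideal of the algebraic integers containing 2, B a 2-block of the finite group G whose defect group is the subgroup generated by an involution x, C = C_G(x), b a block of C inducing B and θ a member of b taking the same value at x as at 1 (there is exactly one). Then B consists of exactly two irreducible characters, which agree on every element of odd order, and they can be labelled χ₁, χ₂ with signs ε₁, ε₂ = ±1, ε₁ε₂ = −1, such that χᵢ(x y) = εᵢ θ(y) for every element y of C of odd order. -/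
theorem result {G : Type*} [Group G] [Finite G] (M : Ideal Cfsg.AlgInt) (hM : Cfsg.IsPModular 2 M) (x : G) (hx : orderOf x = 2)
    (B : Set (Cfsg.IrrCharacter G)) (hB : Cfsg.IsPBlock M B) (hBD : Cfsg.IsDefectGroup 2 M B (Subgroup.zpowers x))
    (b : Set (Cfsg.IrrCharacter ↥(Subgroup.centralizer ({x} : Set G)))) (hb : Cfsg.IsInducedBlock M (Subgroup.centralizer ({x} : Set G)) b B)
    (θ : Cfsg.IrrCharacter ↥(Subgroup.centralizer ({x} : Set G))) (hθ : θ ∈ b)
    (hθx : ∀ z : ↥(Subgroup.centralizer ({x} : Set G)), (z : G) = x → (θ : ↥(Subgroup.centralizer ({x} : Set G)) → ℂ) z = (θ : ↥(Subgroup.centralizer ({x} : Set G)) → ℂ) 1) :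
    Nat.card B = 2 ∧ (∀ χ ∈ B, ∀ ψ ∈ B, ∀ g : G, ¬ 2 ∣ orderOf g → (χ : G → ℂ) g = (ψ : G → ℂ) g) ∧
      ∃ χ₁ ∈ B, ∃ χ₂ ∈ B, χ₁ ≠ χ₂ ∧ ∃ ε₁ ε₂ : ℤ, (ε₁ = 1 ∨ ε₁ = -1) ∧ (ε₂ = 1 ∨ ε₂ = -1) ∧ ε₁ * ε₂ = -1 ∧
        ∀ y : ↥(Subgroup.centralizer ({x} : Set G)), ¬ 2 ∣ orderOf y →
          (χ₁ : G → ℂ) (x * y) = (ε₁ : ℂ) * (θ : ↥(Subgroup.centralizer ({x} : Set G)) → ℂ) y ∧ (χ₂ : G → ℂ) (x * y) = (ε₂ : ℂ) * (θ : ↥(Subgroup.centralizer ({x} : Set G)) → ℂ) y := by
  open Cfsg.Agent.H5 ComplexConjugate in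
  classical
  have hprime := isPrime_of_isPModular hM
  have hfG : Fintype G := Fintype.ofFinite G
  have hfact : Fact (Nat.Prime 2) := ⟨Nat.prime_two⟩
  obtain ⟨d, hd1, hd2, hd3⟩ := core hM hx hB hBD rfl hb hθ hθx
  have hθ1 : (θ : Subgroup.centralizer ({x} : Set G) → ℂ) 1 ≠ 0 := IsIrr.one_ne_zero θ.2
  have hge : ∀ χ ∈ bF B, 1 ≤ d χ ^ 2 := by
    intro χ hχ
    have := hd2 χ (mem_bF.mp hχ)
    have h1 : 0 < d χ ^ 2 := by positivity
    omega
  have hcle : (bF B).card ≤ 2 := by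
    have h1 : ∑ χ ∈ bF B, (1 : ℤ) ≤ ∑ χ ∈ bF B, d χ ^ 2 := Finset.sum_le_sum hge
    rw [hd3, Finset.sum_const, nsmul_eq_mul, mul_one] at h1
    exact_mod_cast h1
  have hcard : (bF B).card = 2 := by
    rcases Nat.lt_or_ge (bF B).card 2 with h | h
    · exfalso
      interval_cases hcc : (bF B).card
      · rw [Finset.card_eq_zero] at hcc
        obtain ⟨χ, hχ⟩ := IsPBlock.nonempty' hB
        have := mem_bF.mpr hχ
        rw [hcc] at this
        exact absurd this (Finset.notMem_empty χ)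
      · rw [Finset.card_eq_one] at hcc
        obtain ⟨χ, hχ⟩ := hcc
        rw [hχ, Finset.sum_singleton] at hd3
        have h1 : (d χ).natAbs ^ 2 = 2 := by
          have := Int.natAbs_pow (d χ) 2
          rw [hd3] at this
          exact this.symm
        have h2 : (d χ).natAbs < 2 := by nlinarith
        interval_cases (d χ).natAbs <;> omega
    · omega
  obtain ⟨χ₁, χ₂, hne, hBF⟩ := Finset.card_eq_two.mp hcard
  have hm1 : χ₁ ∈ B := mem_bF.mp (by rw [hBF]; simp)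
  have hm2 : χ₂ ∈ B := mem_bF.mp (by rw [hBF]; simp)
  have hall : ∀ χ ∈ B, χ = χ₁ ∨ χ = χ₂ := by
    intro χ hχ
    have := mem_bF.mpr hχ
    rw [hBF] at this
    simpa using this
  rw [hBF, Finset.sum_pair hne] at hd3
  have g1 := hge χ₁ (mem_bF.mpr hm1)
  have g2 := hge χ₂ (mem_bF.mpr hm2)
  have s1 : d χ₁ = 1 ∨ d χ₁ = -1 := sq_eq_one_iff_of_side (by omega)
  have s2 : d χ₂ = 1 ∨ d χ₂ = -1 := sq_eq_one_iff_of_side (by omega)
  -- orthogonality
  have horth : ∀ g : G, ¬ 2 ∣ orderOf g → (d χ₁ : ℂ) * (χ₁ : G → ℂ) g + (d χ₂ : ℂ) * (χ₂ : G → ℂ) g = 0 := by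
    intro g hg
    have h1 := weak_orth hM hB (x := g⁻¹) (y := x) (by rw [orderOf_inv]; exact hg) (by rw [hx])
    rw [inv_inv, ← finsum_mem_ind1, finsum_mem_bF, hBF, Finset.sum_pair hne] at h1
    have h21 : ¬ 2 ∣ orderOf (1 : Subgroup.centralizer ({x} : Set G)) := by rw [orderOf_one]; omega
    have e1 := hd1 χ₁ hm1 1 h21
    have e2 := hd1 χ₂ hm2 1 h21
    rw [Subgroup.coe_one, mul_one] at e1 e2
    rw [e1, e2] at h1
    apply mul_right_cancel₀ hθ1
    rw [zero_mul, ← h1]; ring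
  have hprod : d χ₁ * d χ₂ = -1 := by
    have h1 := horth 1 (by rw [orderOf_one]; omega)
    rw [IsCharacter.one_eq_charDegree (irr_isCharacter χ₁), IsCharacter.one_eq_charDegree (irr_isCharacter χ₂)] at h1
    have h2 : d χ₁ * (Cfsg.charDegree (χ₁ : G → ℂ) : ℤ) + d χ₂ * (Cfsg.charDegree (χ₂ : G → ℂ) : ℤ) = 0 := by exact_mod_cast h1
    have h3 : 0 < Cfsg.charDegree (χ₁ : G → ℂ) := by
      rcases Nat.eq_zero_or_pos (Cfsg.charDegree (χ₁ : G → ℂ)) with h | h
      · exfalso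
        have := IsCharacter.one_eq_charDegree (irr_isCharacter χ₁)
        rw [h, Nat.cast_zero] at this
        exact IsIrr.one_ne_zero χ₁.2 this
      · exact h
    have h4 : 0 < Cfsg.charDegree (χ₂ : G → ℂ) := by
      rcases Nat.eq_zero_or_pos (Cfsg.charDegree (χ₂ : G → ℂ)) with h | h
      · exfalso
        have := IsCharacter.one_eq_charDegree (irr_isCharacter χ₂)
        rw [h, Nat.cast_zero] at this
        exact IsIrr.one_ne_zero χ₂.2 this
      · exact h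
    rcases s1 with h5 | h5 <;> rcases s2 with h6 | h6 <;> rw [h5, h6] at h2 ⊢ <;> omega
  have heq : ∀ g : G, ¬ 2 ∣ orderOf g → (χ₁ : G → ℂ) g = (χ₂ : G → ℂ) g := by
    intro g hg
    have h1 := horth g hg
    rcases s1 with h5 | h5 <;> rcases s2 with h6 | h6 <;> rw [h5, h6] at hprod h1
    · omega
    · push_cast at h1; linear_combination h1
    · push_cast at h1; linear_combination -h1
    · omega
  refine ⟨by rw [← card_bF, hcard], ?_, χ₁, hm1, χ₂, hm2, hne, d χ₁, d χ₂, s1, s2, hprod, fun y hy => ⟨hd1 χ₁ hm1 y hy, hd1 χ₂ hm2 y hy⟩⟩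
  intro χ hχ ψ hψ g hg
  rcases hall χ hχ with h | h <;> rcases hall ψ hψ with h' | h' <;> rw [h, h']
  · exact heq g hg
  · exact (heq g hg).symm

end Cfsg.Agent.S4513
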