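import Cfsg.Statements.S4636

-- import your own Cfsg.Agent.* helpers here

set_option autoImplicit false
open scoped Pointwise
open Cfsg Pointwise

namespace Cfsg.Agent.S4636

/-- Let P be a nontrivial cyclic p-subgroup of the finite group G and Z its subgroup of order p. For every x outside N_G(Z), P meets its conjugate xPx⁻¹ trivially; consequently N_G(Q) ≤ N_G(Z) for every nontrivial subgroup Q of P. -/
theorem result {G : Type*} [Group G] [Finite G] (p : ℕ) [Fact p.Prime] (P : Subgroup G) (hP : IsPGroup p P) (hP1 : P ≠ ⊥) (hcyc : IsCyclic P) (Z : Subgroup G) (hZ : Z ≤ P) (hZcard : Nat.card Z = p) : (∀ x : G, x ∉ Subgroup.normalizer (Z : Set G) → P ⊓ MulAut.conj x • P = ⊥) ∧ ∀ Q : Subgroup G, Q ≤ P → Q ≠ ⊥ → Subgroup.normalizer (Q : Set G) ≤ Subgroup.normalizer (Z : Set G) := by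
  classical
  have hp := (Fact.out : p.Prime)
  haveI := hcyc
  -- elements of order dividing p in P lie in Z
  have hZall : ∀ y ∈ P, y ^ p = 1 → y ∈ Z := by
    have h1 : Nat.card {y : P // y ^ p = 1} ≤ p := by
      haveI : Fintype P := Fintype.ofFinite _
      have := IsCyclic.card_pow_eq_one_le (α := P) (n := p) hp.pos
      rw [Nat.card_eq_fintype_card, Fintype.card_subtype]
      exact this
    let f : Z → {y : P // y ^ p = 1} := fun z => ⟨⟨z, hZ z.2⟩, by
      apply Subtype.ext
      change (z : G) ^ p = 1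
      have := pow_card_eq_one' (x := z)
      rw [hZcard] at this
      exact congrArg Subtype.val this⟩
    have hf : Function.Injective f := by
      intro z z' h
      apply Subtype.ext
      exact congrArg (fun w : {y : P // y ^ p = 1} => ((w : P) : G)) h
    have hfb : Function.Bijective f := by
      rw [Nat.bijective_iff_injective_and_card]
      refine ⟨hf, le_antisymm (Nat.card_le_card_of_injective _ hf) ?_⟩
      rw [hZcard]; exact h1
    intro y hy hyp
    obtain ⟨z, hz⟩ := hfb.2 ⟨⟨y, hy⟩, Subtype.ext hyp⟩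
    have : (z : G) = y := congrArg (fun w : {y : P // y ^ p = 1} => ((w : P) : G)) hz
    rw [← this]; exact z.2
  have hgen : ∀ y ∈ Z, y ≠ 1 → Subgroup.zpowers y = Z := by
    intro y hy hy1
    apply Subgroup.eq_of_le_of_card_ge (by rw [Subgroup.zpowers_le]; exact hy)
    rw [hZcard, Nat.card_zpowers]
    have h1 := Subgroup.orderOf_dvd_natCard Z hy
    rw [hZcard] at h1
    rcases (Nat.dvd_prime hp).mp h1 with h2 | h2
    · exact absurd (orderOf_eq_one_iff.mp h2) hy1
    · exact h2.ge
  have hprime : ∀ y ∈ P, y ≠ 1 → ∃ k : ℕ, y ^ k ≠ 1 ∧ (y ^ k) ^ p = 1 := by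
    intro y hy hy1
    obtain ⟨k, hk⟩ := IsPGroup.iff_orderOf.1 hP ⟨y, hy⟩
    rw [Subgroup.orderOf_mk] at hk
    have hk0 : k ≠ 0 := by
      rintro rfl
      rw [pow_zero] at hk
      exact hy1 (orderOf_eq_one_iff.mp hk)
    obtain ⟨j, rfl⟩ := Nat.exists_eq_succ_of_ne_zero hk0
    refine ⟨p ^ j, ?_, ?_⟩
    · intro h
      have h1 := orderOf_dvd_of_pow_eq_one h
      rw [hk] at h1
      have := (Nat.pow_dvd_pow_iff_le_right hp.one_lt).mp h1
      omega
    · rw [← pow_mul, ← pow_succ, ← hk, pow_orderOf_eq_one]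
  have hnorm : ∀ g : G, ∀ y ∈ Z, y ≠ 1 → g * y * g⁻¹ ∈ P → g ∈ Subgroup.normalizer (Z : Set G) := by
    intro g y hy hy1 hg
    have hyp : y ^ p = 1 := by
      have := Subgroup.orderOf_dvd_natCard Z hy
      rw [hZcard] at this
      exact orderOf_dvd_iff_pow_eq_one.mp this
    have h1 : g * y * g⁻¹ ∈ Z := by
      apply hZall _ hg
      rw [conj_pow, hyp]; group
    have h2 : Z.map (MulAut.conj g).toMonoidHom = Z := by
      conv_lhs => rw [← hgen y hy hy1]
      rw [MonoidHom.map_zpowers]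
      apply hgen
      · exact h1
      · intro h3
        have h3' : g * y * g⁻¹ = 1 := h3
        apply hy1
        have : y = g⁻¹ * (g * y * g⁻¹) * g := by group
        rw [this, h3']; group
    rw [Subgroup.mem_set_normalizer_iff]
    intro w
    constructor
    · intro hw
      rw [← h2]; exact ⟨w, hw, rfl⟩
    · intro hw
      rw [SetLike.mem_coe, ← h2] at hw
      obtain ⟨v, hv, hvw⟩ := hw
      have h4 : g * v * g⁻¹ = g * w * g⁻¹ := hvw
      have h5 : v = w := mul_left_cancel (mul_right_cancel h4)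
      rwa [← h5]
  refine ⟨?_, ?_⟩
  · intro x hx
    rw [Subgroup.eq_bot_iff_forall]
    intro w hw
    obtain ⟨hw1, hw2⟩ := Subgroup.mem_inf.mp hw
    by_contra hwne
    apply hx
    rw [Subgroup.mem_pointwise_smul_iff_inv_smul_mem] at hw2
    have hw3 : x⁻¹ * w * x ∈ P := by
      have h1 : (MulAut.conj x)⁻¹ • w = x⁻¹ * w * x := by
        rw [← map_inv]
        change x⁻¹ * w * x⁻¹⁻¹ = _
        rw [inv_inv]
      rwa [h1] at hw2
    have hne : x⁻¹ * w * x ≠ 1 := by
      intro h
      apply hwne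
      have : w = x * (x⁻¹ * w * x) * x⁻¹ := by group
      rw [this, h]; group
    obtain ⟨k, hk1, hk2⟩ := hprime _ hw3 hne
    have hyZ := hZall _ (P.pow_mem hw3 k) hk2
    refine hnorm x _ hyZ hk1 ?_
    have : x * (x⁻¹ * w * x) ^ k * x⁻¹ = w ^ k := by
      have h1 : (x⁻¹ * w * x) ^ k = x⁻¹ * w ^ k * x := by
        have := conj_pow (i := k) (a := x⁻¹) (b := w)
        rwa [inv_inv] at this
      rw [h1]; group
    rw [this]
    exact P.pow_mem hw1 k
  · intro Q hQ hQ1 g hg
    obtain ⟨y, hy, hy1⟩ : ∃ y ∈ Q, y ≠ 1 := by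
      by_contra hcon
      push Not at hcon
      exact hQ1 ((Subgroup.eq_bot_iff_forall _).mpr hcon)
    obtain ⟨k, hk1, hk2⟩ := hprime y (hQ hy) hy1
    refine hnorm g _ (hZall _ (P.pow_mem (hQ hy) k) hk2) hk1 ?_
    exact hQ ((Subgroup.mem_set_normalizer_iff.mp hg _).mp (Q.pow_mem hy k))

end Cfsg.Agent.S4636
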