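import Cfsg.Statements.S4637
import Cfsg.Agent.H5.W33

set_option autoImplicit false
open Cfsg

namespace Cfsg.Agent.S4637

open Cfsg.Agent.H5 in
theorem inertial {G : Type*} [Group G] [Fintype G] {M : Ideal Cfsg.AlgInt} [hM' : M.IsPrime] (hM : Cfsg.IsPModular 2 M)
    {b : MonoidAlgebra (KK M) G} (hb : IsBl M (⊤ : Subgroup G) b) {P : Subgroup G} {e : MonoidAlgebra (KK M) G}
    (hmax : MaxP 2 M b (P, e)) (hc : Nat.card P = 4) (hexp : ∀ x ∈ P, x * x = 1) :
    (∀ t ∈ stb P e, ∀ u ∈ P, u ≠ 1 → t * u * t⁻¹ = u → t ∈ Subgroup.centralizer (P : Set G)) ∧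
    (((Subgroup.centralizer (P : Set G)).relIndex (stb P e) = 1 ∧ stb P e ≤ Subgroup.centralizer (P : Set G)) ∨
      ((Subgroup.centralizer (P : Set G)).relIndex (stb P e) = 3 ∧
        ∀ u ∈ P, u ≠ 1 → ∀ v ∈ P, v ≠ 1 → ∃ t ∈ stb P e, t * u * t⁻¹ = v)) := by
  classical
  have hab := klein_ab hexp
  have hP := hmax.1.1
  have he := hmax.1.2.1
  simp only at hP he
  obtain ⟨T, hT⟩ : ∃ T, T = stb P e := ⟨_, rfl⟩
  obtain ⟨C, hC⟩ : ∃ C, C = Subgroup.centralizer (P : Set G) := ⟨_, rfl⟩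
  have hodd : ¬ 2 ∣ C.relIndex T := by
    have h1 := fn_index hM he (hmax.df_stb hM hb)
    rw [sup_eq_right.mpr hab] at h1
    rw [hT, hC]; exact h1
  have hTN : ∀ t ∈ T, ∀ u ∈ P, t * u * t⁻¹ ∈ P := by
    intro t ht u hu
    rw [hT] at ht
    exact (Subgroup.mem_normalizer_iff.mp ht.1 u).mp hu
  have hCT : C ≤ T := by
    rw [hC, hT]
    intro c hc'
    exact ⟨centralizer_le_normalizer P hc', mem_KFix.mp he.fix c hc'⟩
  have hCn : (C.subgroupOf T).Normal := by
    refine ⟨fun n hn g => ?_⟩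
    rw [Subgroup.mem_subgroupOf] at hn ⊢
    rw [hC, Subgroup.mem_centralizer_iff] at hn ⊢
    intro w hw
    have h1 := hTN (g : G)⁻¹ (T.inv_mem g.2) w hw
    rw [inv_inv] at h1
    have h2 := hn _ h1
    push_cast
    calc w * ((g : G) * n * (g : G)⁻¹) = (g : G) * (((g : G)⁻¹ * w * g) * n) * (g : G)⁻¹ := by group
      _ = (g : G) * (n * ((g : G)⁻¹ * w * g)) * (g : G)⁻¹ := by rw [h2]
      _ = (g : G) * n * (g : G)⁻¹ * w := by group
  have hpow : ∀ t ∈ T, t ^ C.relIndex T ∈ C := by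
    intro t ht
    have h1 := Subgroup.pow_index_mem (C.subgroupOf T) (⟨t, ht⟩ : T)
    rw [Subgroup.mem_subgroupOf] at h1
    exact h1
  have hsq : ∀ t ∈ T, t ^ 2 ∈ C → t ∈ C := by
    intro t ht h2
    obtain ⟨k, hk⟩ : ∃ k, C.relIndex T = 2 * k + 1 := ⟨C.relIndex T / 2, by omega⟩
    have h1 := hpow t ht
    rw [hk, pow_add, pow_mul, pow_one] at h1
    exact (Subgroup.mul_mem_cancel_left C (C.pow_mem h2 k)).mp h1
  have hcard3 : Nat.card {u : G // u ∈ P ∧ u ≠ 1} = 3 := by
    have h1 : Nat.card {u : G // u ∈ P ∧ u ≠ 1} = Nat.card {u : P // u ≠ 1} := by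
      apply Nat.card_congr
      refine ⟨fun u => ⟨⟨u.1, u.2.1⟩, fun h => u.2.2 (congrArg Subtype.val h)⟩, fun u => ⟨u.1.1, u.1.2, fun h => u.2 (Subtype.ext h)⟩, fun _ => rfl, fun _ => rfl⟩
    rw [h1]
    have h2 : Nat.card {u : P // u ≠ 1} = Nat.card P - 1 := by
      have : Fintype P := Fintype.ofFinite P
      rw [Nat.card_eq_fintype_card, Nat.card_eq_fintype_card, Fintype.card_subtype_compl, Fintype.card_subtype_eq]
    rw [h2, hc]
  -- the elements of P
  have hthree : ∀ a ∈ P, ∀ b ∈ P, ∀ c ∈ P, ∀ d ∈ P, a ≠ 1 → b ≠ 1 → c ≠ 1 → d ≠ 1 → a ≠ b → a ≠ c → b ≠ c → d = a ∨ d = b ∨ d = c := by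
    intro a ha b hb c hc' d hd a1 b1 c1 d1 hab' hac hbc
    by_contra hcon
    push Not at hcon
    have h1 : ({⟨a, ha, a1⟩, ⟨b, hb, b1⟩, ⟨c, hc', c1⟩, ⟨d, hd, d1⟩} : Finset {u : G // u ∈ P ∧ u ≠ 1}).card = 4 := by
      rw [Finset.card_insert_of_notMem, Finset.card_insert_of_notMem, Finset.card_insert_of_notMem, Finset.card_singleton]
      · simp only [Finset.mem_singleton, Subtype.mk.injEq]
        exact fun h => hcon.2.2 h.symm
      · simp only [Finset.mem_insert, Finset.mem_singleton, Subtype.mk.injEq]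
        rintro (h | h)
        · exact hbc h
        · exact hcon.2.1 h.symm
      · simp only [Finset.mem_insert, Finset.mem_singleton, Subtype.mk.injEq]
        rintro (h | h | h)
        · exact hab' h
        · exact hac h
        · exact hcon.1 h.symm
    have h2 := Finset.card_le_univ ({⟨a, ha, a1⟩, ⟨b, hb, b1⟩, ⟨c, hc', c1⟩, ⟨d, hd, d1⟩} : Finset {u : G // u ∈ P ∧ u ≠ 1})
    rw [h1, ← Nat.card_eq_fintype_card, hcard3] at h2
    omega
  have hA : ∀ t ∈ T, ∀ u ∈ P, u ≠ 1 → t * u * t⁻¹ = u → t ∈ C := by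
    intro t ht u hu hu1 htu
    apply hsq t ht
    rw [hC, Subgroup.mem_centralizer_iff]
    intro w hw
    suffices h : t ^ 2 * w * (t ^ 2)⁻¹ = w by
      rw [mul_inv_eq_iff_eq_mul] at h
      exact h.symm
    have hexpand : t ^ 2 * w * (t ^ 2)⁻¹ = t * (t * w * t⁻¹) * t⁻¹ := by rw [pow_two]; group
    rw [hexpand]
    by_cases hw1 : w = 1
    · rw [hw1]; group
    by_cases hwu : w = u
    · rw [hwu, htu, htu]
    have huw : u * w ∈ P := P.mul_mem hu hw
    have huw1 : u * w ≠ 1 := by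
      intro h
      apply hwu
      have := hexp u hu
      have h3 : w = u⁻¹ := eq_inv_of_mul_eq_one_right h
      rw [h3]; exact inv_eq_of_mul_eq_one_left this
    have huwu : u ≠ u * w := by
      intro h
      exact hw1 (mul_left_cancel (h.symm.trans (mul_one u).symm))
    have hwuw : w ≠ u * w := by
      intro h
      apply hu1
      exact mul_right_cancel (h.symm.trans (one_mul w).symm)
    have htw := hTN t ht w hw
    have htw1 : t * w * t⁻¹ ≠ 1 := by
      intro h
      apply hw1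
      have : w = t⁻¹ * (t * w * t⁻¹) * t := by group
      rw [this, h]; group
    have htwu : t * w * t⁻¹ ≠ u := by
      intro h
      rw [← htu] at h
      exact hwu (mul_left_cancel (mul_right_cancel h))
    rcases hthree u hu w hw (u * w) huw (t * w * t⁻¹) htw hu1 hw1 huw1 htw1 (Ne.symm hwu) huwu hwuw with h | h | h
    · exact absurd h htwu
    · rw [h, h]
    · rw [h]
      calc t * (u * w) * t⁻¹ = (t * u * t⁻¹) * (t * w * t⁻¹) := by group
        _ = u * (u * w) := by rw [htu, h]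
        _ = w := by rw [← mul_assoc, hexp u hu, one_mul]
  rw [hT, hC] at hA
  refine ⟨hA, ?_⟩
  rw [← hT, ← hC] at hA ⊢
  -- orbit map
  obtain ⟨u₀, hu₀, hu₀1⟩ : ∃ u ∈ P, u ≠ 1 := by
    by_contra hcon
    push Not at hcon
    have : P = ⊥ := by
      rw [eq_bot_iff]; intro x hx; rw [Subgroup.mem_bot]; exact hcon x hx
    rw [this, Subgroup.card_bot] at hc
    omega
  let Φ : T ⧸ C.subgroupOf T → {u : G // u ∈ P ∧ u ≠ 1} := fun q =>
    ⟨(q.out : G) * u₀ * (q.out : G)⁻¹, hTN _ q.out.2 u₀ hu₀, by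
      intro h
      apply hu₀1
      have : u₀ = (q.out : G)⁻¹ * ((q.out : G) * u₀ * (q.out : G)⁻¹) * (q.out : G) := by group
      rw [this, h]; group⟩
  have hΦ : Function.Injective Φ := by
    intro q q' h
    have h1 : (q.out : G) * u₀ * (q.out : G)⁻¹ = (q'.out : G) * u₀ * (q'.out : G)⁻¹ := congrArg Subtype.val h
    have h2 : ((q.out : G)⁻¹ * (q'.out : G)) * u₀ * ((q.out : G)⁻¹ * (q'.out : G))⁻¹ = u₀ := by
      calc ((q.out : G)⁻¹ * (q'.out : G)) * u₀ * ((q.out : G)⁻¹ * (q'.out : G))⁻¹ = (q.out : G)⁻¹ * ((q'.out : G) * u₀ * (q'.out : G)⁻¹) * (q.out : G) := by group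
        _ = u₀ := by rw [← h1]; group
    have h3 := hA _ (T.mul_mem (T.inv_mem q.out.2) q'.out.2) u₀ hu₀ hu₀1 h2
    rw [← QuotientGroup.out_eq' q, ← QuotientGroup.out_eq' q', QuotientGroup.eq, Subgroup.mem_subgroupOf]
    exact h3
  have hle : C.relIndex T ≤ 3 := by
    have := Nat.card_le_card_of_injective Φ hΦ
    rw [hcard3] at this
    exact this
  have hne0 : C.relIndex T ≠ 0 := (Subgroup.index_ne_zero_of_finite : (C.subgroupOf T).index ≠ 0)
  have hcases : C.relIndex T = 1 ∨ C.relIndex T = 3 := by omega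
  rcases hcases with h1 | h3
  · left
    refine ⟨h1, ?_⟩
    rwa [Subgroup.relIndex_eq_one] at h1
  · right
    refine ⟨h3, ?_⟩
    have hsurj : Function.Surjective Φ := by
      have hfT : Fintype (T ⧸ C.subgroupOf T) := Fintype.ofFinite _
      have : Function.Bijective Φ := by
        rw [Fintype.bijective_iff_injective_and_card]
        refine ⟨hΦ, ?_⟩
        rw [← Nat.card_eq_fintype_card, ← Nat.card_eq_fintype_card, hcard3]
        exact h3
      exact this.2
    have htr : ∀ v ∈ P, v ≠ 1 → ∃ t ∈ T, t * u₀ * t⁻¹ = v := by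
      intro v hv hv1
      obtain ⟨q, hq⟩ := hsurj ⟨v, hv, hv1⟩
      exact ⟨q.out, q.out.2, congrArg Subtype.val hq⟩
    intro u hu hu1 v hv hv1
    obtain ⟨t, ht, htu⟩ := htr u hu hu1
    obtain ⟨s, hs, hsv⟩ := htr v hv hv1
    refine ⟨s * t⁻¹, T.mul_mem hs (T.inv_mem ht), ?_⟩
    rw [← htu, ← hsv]; group

/-- Let B be a block of the finite group G relative to a maximal ideal M of the algebraic integers containing 2, with a Klein four defect group P. Let c be a block of C_G(P) inducing B, T the stabilizer of c in N_G(P) and e the index of C_G(P) in T (the inertial index). Then e is 1 or 3, B contains exactly four irreducible characters, and the 2-regular rank of B (its number of irreducible Brauer characters) equals e. -/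
theorem result {G : Type*} [Group G] [Finite G] (M : Ideal Cfsg.AlgInt) (hM : Cfsg.IsPModular 2 M) (B : Set (Cfsg.IrrCharacter G)) (hB : Cfsg.IsPBlock M B) (P : Subgroup G) (hPD : Cfsg.IsDefectGroup 2 M B P) (hV : IsKleinFour P) (c : Set (Cfsg.IrrCharacter (Subgroup.centralizer (P : Set G)))) (hc : Cfsg.IsInducedBlock M (Subgroup.centralizer (P : Set G)) c B) (T : Subgroup G) (hT : ∀ g : G, g ∈ T ↔ (g ∈ Subgroup.normalizer (P : Set G) ∧ Cfsg.StabilizesBlock (Subgroup.centralizer (P : Set G)) c g)) (e : ℕ) (he : (Subgroup.centralizer (P : Set G)).relIndex T = e) : (e = 1 ∨ e = 3) ∧ Nat.card B = 4 ∧ Cfsg.blockRank 2 B = e := by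
  open Cfsg.Agent.H5 in
  classical
  have hprime := isPrime_of_isPModular hM
  have hfG : Fintype G := Fintype.ofFinite G
  have hfact : Fact (Nat.Prime 2) := ⟨Nat.prime_two⟩
  have hc4 : Nat.card P = 4 := hV.card_four
  have hexp : ∀ x ∈ P, x * x = 1 := by
    intro x hx
    have h1 := Monoid.pow_exponent_eq_one (⟨x, hx⟩ : P)
    rw [hV.exponent_two, pow_two] at h1
    exact congrArg Subtype.val h1
  have hab := klein_ab hexp
  have hb := isBl_top (M := M) hB
  have hP : IsPGroup 2 P := isDefectGroup_isPGroup hPD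
  have hbe := isBl_be (M := M) hc.1
  have hBP : BP 2 M (blk M B) (P, be M (Subgroup.centralizer (P : Set G)) c) :=
    ⟨hP, hbe, (isInduced_iff hM hP hab le_rfl (centralizer_le_normalizer P) hc.1 hB).mp hc⟩
  have hmax : MaxP 2 M (blk M B) (P, be M (Subgroup.centralizer (P : Set G)) c) := maxP_of_df hM hb hBP (df_of_isDefectGroup hM hB hPD)
  have hTs : T = stb P (be M (Subgroup.centralizer (P : Set G)) c) := by
    ext g
    rw [hT]
    constructor
    · rintro ⟨h1, h2⟩
      exact ⟨h1, (stabilizes_iff (normalizer_le_normalizer_centralizer P h1) hc.1).mp h2⟩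
    · rintro ⟨h1, h2⟩
      exact ⟨h1, (stabilizes_iff (normalizer_le_normalizer_centralizer P h1) hc.1).mpr h2⟩
  obtain ⟨h1, h2⟩ := inertial hM hb hmax hc4 hexp
  rw [← hTs, he] at h2
  refine ⟨?_, klein_card hM hB hPD hc4, ?_⟩
  · rcases h2 with h | h
    · left; exact h.1
    · right; exact h.1
  · rcases h2 with h | h
    · rw [h.1]
      exact klein_nil hM hB hmax hc4 hexp (hTs ▸ h.2)
    · rw [h.1]
      exact klein_trans hM hB hmax hc4 hexp h1 (hTs ▸ h.2)

end Cfsg.Agent.S4637
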