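import Cfsg.Statements.S4640
import Cfsg.Agent.H5.V3
import Cfsg.Agent.H5.V6
import Cfsg.Agent.H5.W5
import Cfsg.Agent.H5.W22
import Cfsg.Agent.H5.Block11
import Cfsg.Agent.H5.K16
import Cfsg.Agent.H5.K12
import Cfsg.Agent.H5.K14
import Cfsg.Agent.H4.Glau2

set_option autoImplicit false
open Cfsg

namespace Cfsg.Agent.S4640

open Cfsg.Agent.H5 ComplexConjugate in
theorem eq_of_norm {N : Type*} [Group N] [Fintype N] {f : N → ℂ} (hf : Cfsg.IsCharacter N f) (h1 : classInner f f = 1)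
    {θ : Cfsg.IrrCharacter N} (hθ : classInner f (θ : N → ℂ) ≠ 0) : f = (θ : N → ℂ) := by
  classical
  have hn : ∀ η : Cfsg.IrrCharacter N, ∃ n : ℕ, classInner f (η : N → ℂ) = n := fun η => IsCharacter.inner_nat hf η
  choose n hn using hn
  rw [classInner_eq_sum (IsCharacter.classFun hf)] at h1
  have h2 : ∑ η : Cfsg.IrrCharacter N, n η ^ 2 = 1 := by
    have h3 : ((∑ η : Cfsg.IrrCharacter N, n η ^ 2 : ℕ) : ℂ) = 1 := by
      rw [← h1]
      push_cast
      refine Finset.sum_congr rfl fun η _ => ?_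
      rw [hn, Complex.conj_natCast]; ring
    exact_mod_cast h3
  have hθn : n θ ≠ 0 := by
    intro h; rw [hn, h, Nat.cast_zero] at hθ; exact hθ rfl
  have hle : ∀ η : Cfsg.IrrCharacter N, η ≠ θ → n η = 0 := by
    intro η hne
    have h3 : ∑ ξ ∈ ({η, θ} : Finset (Cfsg.IrrCharacter N)), n ξ ^ 2 ≤ 1 := by
      rw [← h2]
      exact Finset.sum_le_sum_of_subset (Finset.subset_univ _)
    rw [Finset.sum_pair hne] at h3
    have h4 : 1 ≤ n θ ^ 2 := Nat.one_le_pow _ _ (Nat.pos_of_ne_zero hθn)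
    have h5 : n η ^ 2 = 0 := by omega
    exact pow_eq_zero_iff (two_ne_zero) |>.mp h5
  have h1θ : n θ = 1 := by
    rw [Finset.sum_eq_single θ (fun η _ hne => by rw [hle η hne]; rfl) (fun h => absurd (Finset.mem_univ _) h)] at h2
    rw [pow_two] at h2
    exact Nat.eq_one_of_mul_eq_one_left h2
  funext g
  rw [classFun_expansion_apply (IsCharacter.classFun hf) g, Finset.sum_eq_single θ]
  · rw [hn, h1θ, Nat.cast_one, one_mul]
  · intro η _ hne
    rw [hn, hle η hne, Nat.cast_zero, zero_mul]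
  · intro h; exact absurd (Finset.mem_univ _) h

open Cfsg.Agent.H5 ComplexConjugate in
theorem inner_restrict {G : Type*} [Group G] [Fintype G] {N : Subgroup G} [N.Normal] [Fintype N] [Fintype (G ⧸ N)]
    (hab : ∀ a c : G ⧸ N, a * c = c * a) (f h : G → ℂ) :
    classInner (fun n : N => f n) (fun n : N => h n) = ∑ l : Cfsg.IrrCharacter (G ⧸ N), classInner (fun g => f g * (l : G ⧸ N → ℂ) (QuotientGroup.mk g)) h := by
  classical
  have hl1 : ∀ l : Cfsg.IrrCharacter (G ⧸ N), (l : G ⧸ N → ℂ) 1 = 1 := by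
    intro l
    obtain ⟨lam, hlam⟩ := irr_of_comm (G := G ⧸ N) hab l.2
    rw [hlam]; simp
  have hsum : ∀ g : G, ∑ l : Cfsg.IrrCharacter (G ⧸ N), (l : G ⧸ N → ℂ) (QuotientGroup.mk g) = if g ∈ N then (N.index : ℂ) else 0 := by
    intro g
    have h1 := second_orthogonality (QuotientGroup.mk g : G ⧸ N) (1 : G ⧸ N)
    have h2 : ∀ l : Cfsg.IrrCharacter (G ⧸ N), (l : G ⧸ N → ℂ) (QuotientGroup.mk g) * conj ((l : G ⧸ N → ℂ) 1) = (l : G ⧸ N → ℂ) (QuotientGroup.mk g) := by
      intro l; rw [hl1, map_one, mul_one]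
    rw [Finset.sum_congr rfl (fun l _ => h2 l)] at h1
    rw [h1]
    have h3 : IsConj (QuotientGroup.mk g : G ⧸ N) (1 : G ⧸ N) ↔ g ∈ N := by
      rw [← QuotientGroup.eq_one_iff]
      constructor
      · intro h
        obtain ⟨c, hc⟩ := _root_.isConj_iff.mp h
        rw [← hc, hab c, mul_inv_cancel_right]
      · intro h; rw [h]
    by_cases hg : g ∈ N
    · rw [if_pos hg, if_pos (h3.mpr hg)]
      have h4 : Subgroup.centralizer ({(QuotientGroup.mk g : G ⧸ N)} : Set (G ⧸ N)) = ⊤ := by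
        rw [eq_top_iff]; intro a _
        rw [Subgroup.mem_centralizer_singleton_iff]
        exact hab _ _
      rw [h4, Subgroup.card_top]
      rfl
    · rw [if_neg hg, if_neg (fun h => hg (h3.mp h))]
  have hN0 : (Nat.card N : ℂ) ≠ 0 := Nat.cast_ne_zero.mpr Nat.card_pos.ne'
  have hI0 : (N.index : ℂ) ≠ 0 := Nat.cast_ne_zero.mpr Subgroup.index_ne_zero_of_finite
  have hG : (Nat.card G : ℂ) = (Nat.card N : ℂ) * (N.index : ℂ) := by
    rw [← N.card_mul_index]; push_cast; ring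
  have h5 : ∑ l : Cfsg.IrrCharacter (G ⧸ N), classInner (fun g => f g * (l : G ⧸ N → ℂ) (QuotientGroup.mk g)) h =
      (Nat.card G : ℂ)⁻¹ * ∑ g : G, (f g * conj (h g)) * (if g ∈ N then (N.index : ℂ) else 0) := by
    rw [← Finset.sum_congr rfl (fun g _ => by rw [hsum g] : ∀ g ∈ Finset.univ, (f g * conj (h g)) * ∑ l : Cfsg.IrrCharacter (G ⧸ N), (l : G ⧸ N → ℂ) (QuotientGroup.mk g) = (f g * conj (h g)) * (if g ∈ N then (N.index : ℂ) else 0))]
    simp only [Finset.mul_sum]
    rw [Finset.sum_comm]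
    refine Finset.sum_congr rfl fun l _ => ?_
    rw [classInner, Finset.mul_sum]
    refine Finset.sum_congr rfl fun g _ => ?_
    ring
  rw [h5, classInner, hG]
  have h6 : ∑ g : G, (f g * conj (h g)) * (if g ∈ N then (N.index : ℂ) else 0) = (N.index : ℂ) * ∑ n : N, f n * conj (h n) := by
    have h7 : ∑ n : N, f n * conj (h n) = ∑ g : G, if g ∈ N then f g * conj (h g) else 0 := by
      rw [← Finset.sum_filter]
      exact (Finset.sum_subtype (Finset.univ.filter (fun s : G => s ∈ N)) (fun s => by simp) (fun s => f s * conj (h s))).symm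
    rw [h7, Finset.mul_sum]
    refine Finset.sum_congr rfl fun g _ => ?_
    split_ifs <;> ring
  rw [h6]
  field_simp

/-- Let N be a normal subgroup of the finite group G of index a power of the prime p, M a maximal ideal of the algebraic integers containing p, b a block of N stabilized by every element of G, and B a block of G covering b (some member of B has a member of b as a constituent of its restriction to N). Suppose that B has a commutative defect group P. Then G = NP and P ∩ N is a defect group of b; every member of B restricts to a member of b; every member of b is the restriction of exactly [G : N] members of B; B contains exactly [G : N] times as many irreducible characters as b; and B and b have the same p-regular rank. -/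
theorem result {G : Type*} [Group G] [Fintype G] (p : ℕ) [Fact p.Prime] (M : Ideal Cfsg.AlgInt) (hM : Cfsg.IsPModular p M) (N : Subgroup G) [N.Normal] [Fintype N] (hNi : ∃ k : ℕ, N.index = p ^ k) (b : Set (Cfsg.IrrCharacter N)) (hb : Cfsg.IsPBlock M b) (hstab : ∀ g : G, Cfsg.StabilizesBlock N b g) (B : Set (Cfsg.IrrCharacter G)) (hB : Cfsg.IsPBlock M B) (hcov : ∃ χ ∈ B, ∃ θ ∈ b, Cfsg.classInner (fun n : N => (χ : G → ℂ) n) (θ : N → ℂ) ≠ 0) (P : Subgroup G) (hPD : Cfsg.IsDefectGroup p M B P) (hPab : ∀ x ∈ P, ∀ y ∈ P, x * y = y * x) : N ⊔ P = ⊤ ∧ Cfsg.IsDefectGroup p M b ((P ⊓ N).subgroupOf N) ∧ (∀ χ ∈ B, ∃ θ ∈ b, ∀ n : N, (χ : G → ℂ) n = (θ : N → ℂ) n) ∧ (∀ θ ∈ b, Nat.card {χ : Cfsg.IrrCharacter G // χ ∈ B ∧ ∀ n : N, (χ : G → ℂ) n = (θ : N → ℂ) n} = N.index) ∧ Nat.card B = N.index * Nat.card b ∧ Cfsg.blockRank p B = Cfsg.blockRank p b := by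
  open Cfsg.Agent.H5 ComplexConjugate in
  classical
  have hprime := isPrime_of_isPModular hM
  have hfact : Fact p.Prime := ⟨hM.1⟩
  have hNn : N.Normal := inferInstance
  have hfQ : Fintype (G ⧸ N) := Fintype.ofFinite _
  -- the block idempotent
  have hst : be M N b ∈ KFix (KK M) (⊤ : Subgroup G) := by
    rw [mem_KFix]
    intro x _
    have hx : x ∈ Subgroup.normalizer (N : Set G) := (hstab x).1
    exact (stabilizes_iff hx hb).mp (hstab x)
  have hbb := isBl_be (M := M) hb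
  obtain ⟨hos, -⟩ := osum_of_stable hbb hst
  have h1 : IsBl M ((⊤ : Subgroup G) ⊓ N) (be M N b) := by rw [top_inf_eq]; exact hbb
  have h2 := isBl_osum_index hM hNi h1
  rw [top_inf_eq, hos] at h2
  have hcv : Cov N B b := cov_def.mpr hcov
  have hblk : blk M B = be M N b := by
    rw [cov_iff hB hb, hos] at hcv
    rcases (isBl_top (M := M) hB).eq_or h2 with h3 | h3
    · exact h3
    · exfalso
      apply (isBl_top (M := M) hB).ne
      rw [← hcv, ← commute_of_fix_sup (isBl_top (M := M) hB).fix (KSup_top (be M N b))]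
      exact h3
  obtain ⟨V, hV, hV2, hV3⟩ := exists_over (M := M) hb
  have hVB : V = B := blk_injective hV (IsPBlock.isBU hB) (by rw [hV2, hos, hblk])
  rw [hVB] at hV3
  have hmem : ∀ (χ : Cfsg.IrrCharacter G) (θ : Cfsg.IrrCharacter N), classInner (fun n : N => (χ : G → ℂ) n) (θ : N → ℂ) ≠ 0 → (χ ∈ B ↔ θ ∈ b) := by
    intro χ θ hne
    rw [cover_mem hV3 hne]
    constructor
    · intro h
      obtain ⟨g, θ0, hθ0, hg⟩ := (mem_ocl_iff b θ).mp h
      obtain ⟨θ1, hθ1, hc1⟩ := (hstab g⁻¹).2 θ0 hθ0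
      have : θ = θ1 := by
        apply Subtype.ext
        funext n
        rw [hg, Cfsg.Agent.H4.conjBy_apply]
        have h3 := hc1 (⟨g * n * g⁻¹, hNn.conj_mem n n.2 g⟩ : N) n (by
          show (n : G) = g⁻¹ * (g * n * g⁻¹) * g⁻¹⁻¹
          group)
        exact h3.symm
      rw [this]; exact hθ1
    · exact fun h => self_mem_ocl h
  -- G = NP
  have hdf := df_of_isDefectGroup hM hB hPD
  have hNP : N ⊔ P = ⊤ := by
    have h3 := defect_covers hM (C := N) (T := ⊤) le_top (by rw [Subgroup.normalizer_eq_top]) hbb hst (D := P) le_top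
      (fun Q hQ hQT hne => by
        rw [← hblk] at hne
        exact hdf.2.2.2 Q hQ hQT hne) (R := N ⊔ P) le_sup_right le_sup_left le_top
    rw [Subgroup.relIndex_top_right] at h3
    obtain ⟨k, hk⟩ := hNi
    have h4 : (N ⊔ P).index ∣ p ^ k := by rw [← hk]; exact Subgroup.index_dvd_of_le le_sup_left
    obtain ⟨j, -, hj⟩ := (Nat.dvd_prime_pow hM.1).mp h4
    rcases Nat.eq_zero_or_pos j with h5 | h5
    · rw [h5, pow_zero, Subgroup.index_eq_one] at hj
      exact hj
    · exfalso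
      apply h3
      rw [hj]
      exact dvd_pow_self p h5.ne'
  have hdec : ∀ g : G, ∃ n ∈ N, ∃ u ∈ P, g = n * u := by
    intro g
    have : g ∈ N ⊔ P := by rw [hNP]; exact Subgroup.mem_top g
    rw [Subgroup.mem_sup_of_normal_left] at this
    obtain ⟨n, hn, u, hu, h⟩ := this
    exact ⟨n, hn, u, hu, h.symm⟩
  have hmk : ∀ q : G ⧸ N, ∃ u ∈ P, (QuotientGroup.mk u : G ⧸ N) = q := by
    intro q
    obtain ⟨g, rfl⟩ := QuotientGroup.mk_surjective q
    obtain ⟨n, hn, u, hu, rfl⟩ := hdec g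
    refine ⟨u, hu, ?_⟩
    rw [QuotientGroup.mk_mul, (QuotientGroup.eq_one_iff n).mpr hn, one_mul]
  have hab : ∀ a c : G ⧸ N, a * c = c * a := by
    intro a c
    obtain ⟨u, hu, rfl⟩ := hmk a
    obtain ⟨v, hv, rfl⟩ := hmk c
    rw [← QuotientGroup.mk_mul, ← QuotientGroup.mk_mul, hPab u hu v hv]
  have hl1 : ∀ l : Cfsg.IrrCharacter (G ⧸ N), ∃ lam : (G ⧸ N) →* ℂˣ, (l : G ⧸ N → ℂ) = fun q => (lam q : ℂ) := by
    intro l
    obtain ⟨lam, hlam⟩ := irr_of_comm (G := G ⧸ N) hab l.2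
    exact ⟨lam, hlam⟩
  -- twisting
  have htw : ∀ (χ : Cfsg.IrrCharacter G) (l : Cfsg.IrrCharacter (G ⧸ N)), ∃ χ' : Cfsg.IrrCharacter G, (χ' : G → ℂ) = fun g => (χ : G → ℂ) g * (l : G ⧸ N → ℂ) (QuotientGroup.mk g) := by
    intro χ l
    obtain ⟨lam, hlam⟩ := hl1 l
    refine ⟨⟨_, Cfsg.Agent.H4.irr_mul_hom χ.2 (lam.comp (QuotientGroup.mk' N))⟩, ?_⟩
    rw [hlam]; rfl
  choose tw htw using htw
  -- nonvanishing
  obtain ⟨y, hy, hyP⟩ := (isDefectGroup_iff B P).mp hPD
  have hyreg := defectClass_regular hM hB hy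
  have hyN : y ∈ N := mem_of_preg_of_index hM.1 hNi hyreg
  have hnv : ∀ χ ∈ B, ∀ u ∈ P, (χ : G → ℂ) (u * y) ≠ 0 := by
    intro χ hχ u hu h0
    apply central_mul_not_memLocI hM hB hy hyP hu (fun w hw => hPab u hu w hw) hχ
    unfold Cfsg.centralChar
    rw [h0, mul_zero, zero_div]
    exact memLocI_zero
  have hinj : ∀ χ ∈ B, ∀ l l' : Cfsg.IrrCharacter (G ⧸ N), tw χ l = tw χ l' → l = l' := by
    intro χ hχ l l' h
    apply Subtype.ext
    funext q
    obtain ⟨u, hu, rfl⟩ := hmk q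
    have h3 : (tw χ l : G → ℂ) (u * y) = (tw χ l' : G → ℂ) (u * y) := by rw [h]
    rw [htw, htw] at h3
    simp only at h3
    have h4 := mul_left_cancel₀ (hnv χ hχ u hu) h3
    rwa [QuotientGroup.mk_mul, (QuotientGroup.eq_one_iff y).mpr hyN, mul_one] at h4
  obtain ⟨l0, hl0⟩ : ∃ l0 : Cfsg.IrrCharacter (G ⧸ N), (l0 : G ⧸ N → ℂ) = fun _ => 1 := ⟨⟨_, isIrrCharacter_trivial⟩, rfl⟩
  have htw0 : ∀ χ : Cfsg.IrrCharacter G, tw χ l0 = χ := by
    intro χ
    apply Subtype.ext
    rw [htw, hl0]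
    funext g
    exact mul_one _
  have hinner : ∀ χ χ' : Cfsg.IrrCharacter G, classInner (fun n : N => (χ : G → ℂ) n) (fun n : N => (χ' : G → ℂ) n) =
      ∑ l : Cfsg.IrrCharacter (G ⧸ N), if tw χ l = χ' then (1 : ℂ) else 0 := by
    intro χ χ'
    rw [inner_restrict hab]
    refine Finset.sum_congr rfl fun l _ => ?_
    rw [← htw]
    by_cases h : tw χ l = χ'
    · rw [if_pos h, h, classInner_irr_self]
    · rw [if_neg h, classInner_irr_ne h]
  have hnorm : ∀ χ ∈ B, classInner (fun n : N => (χ : G → ℂ) n) (fun n : N => (χ : G → ℂ) n) = 1 := by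
    intro χ hχ
    rw [hinner, Finset.sum_eq_single l0, if_pos (htw0 χ)]
    · intro l _ hne
      rw [if_neg]
      intro h
      exact hne (hinj χ hχ l l0 (h.trans (htw0 χ).symm))
    · intro h; exact absurd (Finset.mem_univ _) h
  have hres : ∀ χ ∈ B, ∀ θ : Cfsg.IrrCharacter N, classInner (fun n : N => (χ : G → ℂ) n) (θ : N → ℂ) ≠ 0 → (fun n : N => (χ : G → ℂ) n) = (θ : N → ℂ) := by
    intro χ hχ θ hθ
    exact eq_of_norm (isCharacter_restrict N (irr_isCharacter χ)) (hnorm χ hχ) hθ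
  have hP3 : ∀ χ ∈ B, ∃ θ ∈ b, ∀ n : N, (χ : G → ℂ) n = (θ : N → ℂ) n := by
    intro χ hχ
    obtain ⟨θ, hθ⟩ := exists_under (N := N) χ
    exact ⟨θ, (hmem χ θ hθ).mp hχ, fun n => congrFun (hres χ hχ θ hθ) n⟩
  have hcQ : Nat.card (Cfsg.IrrCharacter (G ⧸ N)) = N.index := by
    rw [card_irr_eq_card_conjClasses]
    symm
    apply Nat.card_congr
    refine Equiv.ofBijective ConjClasses.mk ⟨?_, ConjClasses.mk_surjective⟩
    intro a c h
    rw [ConjClasses.mk_eq_mk_iff_isConj, _root_.isConj_iff] at h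
    obtain ⟨g, hg⟩ := h
    rw [← hg, hab g, mul_inv_cancel_right]
  have hP4 : ∀ θ ∈ b, Nat.card {χ : Cfsg.IrrCharacter G // χ ∈ B ∧ ∀ n : N, (χ : G → ℂ) n = (θ : N → ℂ) n} = N.index := by
    intro θ hθ
    obtain ⟨χ₀, hχ₀⟩ := exists_over_irr θ
    have hχ₀B := (hmem χ₀ θ hχ₀).mpr hθ
    have hχ₀N := hres χ₀ hχ₀B θ hχ₀
    rw [← hcQ]
    symm
    apply Nat.card_congr
    have htwN : ∀ l, ∀ n : N, (tw χ₀ l : G → ℂ) n = (θ : N → ℂ) n := by
      intro l n
      obtain ⟨lam, hlam⟩ := hl1 l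
      rw [htw, hlam]
      simp only
      rw [(QuotientGroup.eq_one_iff (n : G)).mpr n.2, map_one, Units.val_one, mul_one]
      exact congrFun hχ₀N n
    have htwB : ∀ l, tw χ₀ l ∈ B := by
      intro l
      rw [hmem (tw χ₀ l) θ]
      · exact hθ
      · have : (fun n : N => (tw χ₀ l : G → ℂ) n) = (θ : N → ℂ) := funext (htwN l)
        rw [this, classInner_irr_self]; exact one_ne_zero
    refine Equiv.ofBijective (fun l => ⟨tw χ₀ l, htwB l, htwN l⟩) ⟨?_, ?_⟩
    · intro l l' h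
      exact hinj χ₀ hχ₀B l l' (congrArg Subtype.val h)
    · rintro ⟨χ, hχ, hχN⟩
      have h3 := hinner χ₀ χ
      have h4 : (fun n : N => (χ : G → ℂ) n) = (θ : N → ℂ) := funext hχN
      rw [hχ₀N, h4, classInner_irr_self] at h3
      by_contra hcon
      push Not at hcon
      rw [Finset.sum_eq_zero (fun l _ => if_neg (fun h => hcon l (Subtype.ext h)))] at h3
      exact one_ne_zero h3
  -- restriction map
  have hr : ∀ χ : Cfsg.IrrCharacter G, ∃ θ : Cfsg.IrrCharacter N, χ ∈ B → (θ ∈ b ∧ ∀ n : N, (χ : G → ℂ) n = (θ : N → ℂ) n) := by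
    intro χ
    by_cases h : χ ∈ B
    · obtain ⟨θ, h1, h2⟩ := hP3 χ h
      exact ⟨θ, fun _ => ⟨h1, h2⟩⟩
    · exact ⟨⟨_, isIrrCharacter_trivial⟩, fun h' => absurd h' h⟩
  choose r hr using hr
  have hmaps : ∀ χ ∈ bF B, r χ ∈ bF b := fun χ hχ => mem_bF.mpr (hr χ (mem_bF.mp hχ)).1
  have hfib : ∀ θ ∈ bF b, ((bF B).filter (fun χ => r χ = θ)).card = N.index := by
    intro θ hθ
    rw [← hP4 θ (mem_bF.mp hθ), Nat.card_eq_fintype_card, Fintype.card_subtype]
    congr 1
    ext χ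
    simp only [Finset.mem_filter, Finset.mem_univ, true_and, mem_bF]
    constructor
    · rintro ⟨h1, h2⟩
      refine ⟨h1, fun n => ?_⟩
      rw [← h2]; exact (hr χ h1).2 n
    · rintro ⟨h1, h2⟩
      refine ⟨h1, Subtype.ext (funext fun n => ?_)⟩
      rw [← h2, (hr χ h1).2 n]
  have hP5 : Nat.card B = N.index * Nat.card b := by
    rw [← card_bF B, ← card_bF b, Finset.card_eq_sum_card_fiberwise hmaps, Finset.sum_congr rfl hfib, Finset.sum_const, smul_eq_mul, mul_comm]
  have hP6 : Cfsg.blockRank p B = Cfsg.blockRank p b := by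
    have e1 : (Cfsg.blockRank p B : ℂ) = (Cfsg.blockRank p b : ℂ) := by
      rw [blockRank_eq_sum hM hB, blockRank_eq_sum hM hb, ← Finset.sum_fiberwise_of_maps_to hmaps]
      refine Finset.sum_congr rfl fun θ hθ => ?_
      have hI0 : (N.index : ℂ) ≠ 0 := Nat.cast_ne_zero.mpr Subgroup.index_ne_zero_of_finite
      have hN0 : (Nat.card N : ℂ) ≠ 0 := Nat.cast_ne_zero.mpr Nat.card_pos.ne'
      have e2 : ∀ χ ∈ (bF B).filter (fun χ => r χ = θ), rin p (χ : G → ℂ) (χ : G → ℂ) = (N.index : ℂ)⁻¹ * rin p (θ : N → ℂ) (θ : N → ℂ) := by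
        intro χ hχ
        rw [Finset.mem_filter, mem_bF] at hχ
        obtain ⟨hχB, hχr⟩ := hχ
        have hχN := (hr χ hχB).2
        rw [hχr] at hχN
        rw [rin_def, rin_def]
        have e3 : ∑ g : G, Cfsg.pRegularPart p (χ : G → ℂ) g * conj ((χ : G → ℂ) g) = ∑ n : N, Cfsg.pRegularPart p (θ : N → ℂ) n * conj ((θ : N → ℂ) n) := by
          have e4 : ∀ n : N, Cfsg.pRegularPart p (θ : N → ℂ) n * conj ((θ : N → ℂ) n) = Cfsg.pRegularPart p (χ : G → ℂ) n * conj ((χ : G → ℂ) n) := by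
            intro n
            by_cases h : p ∣ orderOf n
            · rw [pRegularPart_sing h, pRegularPart_sing (by rwa [Subgroup.orderOf_coe]), zero_mul, zero_mul]
            · rw [pRegularPart_reg h, pRegularPart_reg (by rwa [Subgroup.orderOf_coe]), hχN]
          rw [Finset.sum_congr rfl (fun n _ => e4 n)]
          have e5 : ∑ g : G, Cfsg.pRegularPart p (χ : G → ℂ) g * conj ((χ : G → ℂ) g) = ∑ g : G, if g ∈ N then Cfsg.pRegularPart p (χ : G → ℂ) g * conj ((χ : G → ℂ) g) else 0 := by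
            refine Finset.sum_congr rfl fun g _ => ?_
            by_cases hg : g ∈ N
            · rw [if_pos hg]
            · rw [if_neg hg, pRegularPart_sing, zero_mul]
              by_contra h
              exact hg (mem_of_preg_of_index hM.1 hNi h)
          rw [e5, ← Finset.sum_filter]
          exact (Finset.sum_subtype (Finset.univ.filter (fun s : G => s ∈ N)) (fun s => by simp) (fun s => Cfsg.pRegularPart p (χ : G → ℂ) s * conj ((χ : G → ℂ) s)))
        rw [e3, ← N.card_mul_index]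
        push_cast
        field_simp
      rw [Finset.sum_congr rfl e2, Finset.sum_const, hfib θ hθ, nsmul_eq_mul]
      field_simp
    exact_mod_cast e1
  have hP2 : Cfsg.IsDefectGroup p M b ((P ⊓ N).subgroupOf N) := by
    rw [isDefectGroup_subgroupOf_iff hM hb inf_le_right, ← hblk]
    refine ⟨hdf.1.to_le inf_le_left, inf_le_right, ?_, ?_⟩
    · exact ktr_ne_mono (centralizer_anti inf_le_left) hdf.2.2.1
    · intro Q hQ hQN hne
      obtain ⟨x, -, hx⟩ := hdf.2.2.2 Q hQ le_top hne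
      obtain ⟨n, hn, u, hu, rfl⟩ := hdec x
      refine ⟨n, hn, ?_⟩
      have e1 : cj (n * u) P = cj n P := by
        rw [← cj_cj, cj_of_normalizer (Subgroup.le_normalizer hu)]
      rw [e1] at hx
      rw [cj_inf_normal]
      exact le_inf hx hQN
  exact ⟨hNP, hP2, hP3, hP4, hP5, hP6⟩

end Cfsg.Agent.S4640
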