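import Cfsg.Statements.S4691
import Cfsg.Agent.H5.K15
import Cfsg.Agent.H1.FrobPC

set_option autoImplicit false
open Cfsg

namespace Cfsg.Agent.S4691

/-- Fix a prime p and a maximal ideal M of the algebraic integers containing p. A finite group G has a normal p-complement if and only if its principal p-block is nilpotent. -/
theorem result {G : Type*} [Group G] [Fintype G] (p : ℕ) [Fact p.Prime] (M : Ideal Cfsg.AlgInt) (hM : Cfsg.IsPModular p M) : Cfsg.HasNormalPComplement p G ↔ Cfsg.IsNilpotentBlock p M (Cfsg.principalBlock M G) := by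
  have hprime := Cfsg.Agent.H5.isPrime_of_isPModular hM
  have hB0 := Cfsg.Agent.H5.principal_isPBlock (M := M) (G := G)
  have htop : Cfsg.Agent.H5.e0 M (⊤ : Subgroup G) = Cfsg.Agent.H5.blk M (Cfsg.principalBlock M G) := by
    symm
    rw [Cfsg.Agent.H5.eq_e0_iff (Cfsg.Agent.H5.isBl_top hB0), Cfsg.Agent.H5.kaug_principal]
    exact one_ne_zero
  rw [Cfsg.Agent.H5.isNilpotentBlock_iff hM hB0, ← htop]
  constructor
  · rintro ⟨P, N, hN, hcomp⟩ a ha x hx hreg
    have hxN : x ∈ N := by
      -- `G / N` is a `p`-group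
      have hq : IsPGroup p (G ⧸ N) := by
        apply IsPGroup.of_card (n := (Nat.card (P : Subgroup G)).factorization p)
        have h1 : Nat.card (G ⧸ N) = Nat.card (P : Subgroup G) := by
          have h2 := hcomp.card_mul
          have h3 := N.card_eq_card_quotient_mul_card_subgroup
          have h4 : 0 < Nat.card N := Nat.card_pos
          have h5 : Nat.card (G ⧸ N) * Nat.card N = Nat.card (P : Subgroup G) * Nat.card N := by
            rw [← h3, ← h2, mul_comm]
          exact Nat.eq_of_mul_eq_mul_right h4 h5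
        rw [h1]
        obtain ⟨n, hn⟩ := IsPGroup.iff_card.mp P.isPGroup'
        rw [hn, Nat.Prime.factorization_pow hM.1]
        simp
      obtain ⟨k, hk⟩ := hq (QuotientGroup.mk x)
      rw [← QuotientGroup.mk_pow, QuotientGroup.eq_one_iff] at hk
      have hcop : (orderOf x).Coprime (p ^ k) := Nat.Coprime.pow_right k ((Nat.Prime.coprime_iff_not_dvd hM.1).mpr hreg).symm
      obtain ⟨m, hm'⟩ := exists_pow_eq_self_of_coprime hcop.symm
      rw [← hm']
      exact Subgroup.pow_mem _ hk m
    have hNp : ∀ y ∈ N, (∃ k : ℕ, orderOf y = p ^ k) → y = 1 := by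
      intro y hy hk
      have hcN : ¬ p ∣ Nat.card N := by
        have h2 : N.index = Nat.card (P : Subgroup G) := hcomp.symm.index_eq_card
        have h1 : Nat.card N = (P : Subgroup G).index := by
          rw [hcomp.symm.symm.index_eq_card]
        rw [h1]
        exact P.not_dvd_index
      obtain ⟨k, hk⟩ := hk
      have h3 : orderOf y ∣ Nat.card N := by
        have := orderOf_dvd_natCard (⟨y, hy⟩ : N)
        rwa [← Subgroup.orderOf_coe] at this
      have h4 : k = 0 := by
        by_contra hk0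
        apply hcN
        exact (dvd_pow_self p hk0).trans (hk ▸ h3)
      rw [h4, pow_zero, orderOf_eq_one_iff] at hk
      exact hk
    rw [Subgroup.mem_centralizer_iff]
    intro q hq
    have hq1 : x * q * x⁻¹ * q⁻¹ ∈ a.1 := by
      exact Subgroup.mul_mem _ ((Subgroup.mem_normalizer_iff.mp hx.1 q).mp hq) (Subgroup.inv_mem _ hq)
    have hq2 : x * q * x⁻¹ * q⁻¹ ∈ N := by
      have h1 : x * (q * x⁻¹ * q⁻¹) ∈ N := N.mul_mem hxN (hN.conj_mem _ (N.inv_mem hxN) q)
      have h2 : x * (q * x⁻¹ * q⁻¹) = x * q * x⁻¹ * q⁻¹ := by group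
      rwa [h2] at h1
    have h3 : x * q * x⁻¹ * q⁻¹ = 1 := by
      apply hNp _ hq2
      obtain ⟨k, hk⟩ := ha.1 ⟨_, hq1⟩
      have hk' : (x * q * x⁻¹ * q⁻¹) ^ p ^ k = 1 := congrArg Subtype.val hk
      obtain ⟨j, -, hj⟩ := (Nat.dvd_prime_pow hM.1).mp (orderOf_dvd_of_pow_eq_one hk')
      exact ⟨j, hj⟩
    have h4 : x * q * x⁻¹ = q := by
      have := congrArg (· * q) h3
      simpa using this
    rw [mul_inv_eq_iff_eq_mul] at h4
    exact h4.symm
  · intro hnil
    apply Cfsg.Agent.H1.frobenius_criterion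
    intro Q hQ g hg hcop
    apply hnil (Q, Cfsg.Agent.H5.e0 M (Subgroup.centralizer (Q : Set G))) (Cfsg.Agent.H5.e0_bp hM hQ) g
    · exact ⟨hg, Cfsg.Agent.H5.e0_fix (Cfsg.Agent.H5.normalizer_le_normalizer_centralizer Q) g hg⟩
    · intro hdvd
      have h1 := Nat.Coprime.symm hcop
      rw [Nat.Prime.coprime_iff_not_dvd hM.1] at h1
      exact h1 hdvd

end Cfsg.Agent.S4691
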