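import Cfsg.Statements.S4652
import Cfsg.Agent.H5.K5
import Cfsg.Agent.H5.Block17
import Cfsg.Agent.H5.Prin3

set_option autoImplicit false
open Cfsg

namespace Cfsg.Agent.S4652

/-- Fix a prime p and a maximal ideal M of the algebraic integers containing p. The defect groups of the principal p-block of a finite group G are exactly the Sylow p-subgroups of G: a subgroup D is a defect group of the principal block if and only if D is a Sylow p-subgroup. -/
theorem result {G : Type*} [Group G] [Fintype G] (p : ℕ) [Fact p.Prime] (M : Ideal Cfsg.AlgInt) (hM : Cfsg.IsPModular p M) (D : Subgroup G) : Cfsg.IsDefectGroup p M (Cfsg.principalBlock M G) D ↔ ∃ S : Sylow p G, (S : Subgroup G) = D := by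
  have hprime := Cfsg.Agent.H5.isPrime_of_isPModular hM
  have hB := Cfsg.Agent.H5.principal_isPBlock (M := M) (G := G)
  have key : ∀ D : Subgroup G, Cfsg.IsDefectGroup p M (Cfsg.principalBlock M G) D →
      Nat.card D = p ^ (Nat.card G).factorization p := by
    intro D hD
    rw [Cfsg.Agent.H5.card_defectGroup hM hB hD, Cfsg.Agent.H5.blockDefect_eq]
    have h1 := Cfsg.Agent.H5.minExp_le (p := p) (Cfsg.Agent.H5.one_mem_principal (M := M) (G := G))
    have h2 : Cfsg.charDegree (fun _ : G => (1 : ℂ)) = 1 := by simp [Cfsg.charDegree]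
    rw [h2, Nat.factorization_one] at h1
    have h3 : Cfsg.Agent.H5.minExp p (Cfsg.principalBlock M G) = 0 := by simpa using h1
    rw [h3, Nat.sub_zero]
  constructor
  · intro hD
    exact ⟨Sylow.ofCard D (key D hD), rfl⟩
  · rintro ⟨S, rfl⟩
    obtain ⟨D, hD⟩ := Cfsg.Agent.H5.exists_defectGroup hM hB
    obtain ⟨x, hx⟩ := MulAction.exists_smul_eq G (Sylow.ofCard D (key D hD)) S
    have h1 := Cfsg.Agent.H5.isDefectGroup_conj hM hB hD x
    have h2 : (S : Subgroup G) = Cfsg.Agent.H5.cj x D := by
      rw [← hx]; rfl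
    rw [h2]; exact h1

end Cfsg.Agent.S4652
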