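import Cfsg.Statements.S4654
import Cfsg.Agent.H5.K10

set_option autoImplicit false
open Cfsg

namespace Cfsg.Agent.S4654

/-- Fix a prime p and a maximal ideal M of the algebraic integers containing p. Let P be a normal p-subgroup of the finite group G, B a p-block of G and e a p-block of C_G(P) such that (P, e) is a Brauer pair of B (as P is normal, this says that e occurs in the idempotent of B, which is supported on C_G(P)). Let T be the stabilizer of e in G under conjugation. Then the idempotent of e is a block idempotent of T: some block E of T has, at every element of T, the same idempotent coefficient as e (zero off C_G(P)); and the idempotent of B is the sum of the distinct G-conjugates of the idempotent of e: its coefficient at g is the sum over all x in G of the coefficient of e at x⁻¹ g x, divided by the order of T. -/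
theorem result {G : Type*} [Group G] [Fintype G] (p : ℕ) [Fact p.Prime] (M : Ideal Cfsg.AlgInt) (hM : Cfsg.IsPModular p M) (P : Subgroup G) [P.Normal] (hP : IsPGroup p P) (B : Set (Cfsg.IrrCharacter G)) (e : Set (Cfsg.IrrCharacter (Subgroup.centralizer (P : Set G)))) (hBe : Cfsg.IsBrauerPairOf p M B P e) (T : Subgroup G) (hT : ∀ x : G, x ∈ T ↔ Cfsg.StabilizesBlock (Subgroup.centralizer (P : Set G)) e x) : (∃ E : Set (Cfsg.IrrCharacter T), Cfsg.IsPBlock M E ∧ ∀ t : T, Cfsg.blockCoeff E t = Cfsg.subgroupBlockCoeff (Subgroup.centralizer (P : Set G)) e (t : G)) ∧ ∀ g : G, Cfsg.blockCoeff B g = (Nat.card T : ℂ)⁻¹ * ∑ x : G, Cfsg.subgroupBlockCoeff (Subgroup.centralizer (P : Set G)) e (x⁻¹ * g * x) := by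
  have hprime := Cfsg.Agent.H5.isPrime_of_isPModular hM
  have he := hBe.1.2
  have hB := hBe.2.1
  have hN : Subgroup.normalizer (P : Set G) = ⊤ := Subgroup.normalizer_eq_top_iff.mpr inferInstance
  have hCN : Subgroup.normalizer ((Subgroup.centralizer (P : Set G) : Subgroup G) : Set G) = ⊤ :=
    Subgroup.normalizer_eq_top_iff.mpr inferInstance
  have hT' : ∀ x : G, x ∈ T ↔ Cfsg.Agent.H5.kconj x (Cfsg.Agent.H5.be M (Subgroup.centralizer (P : Set G)) e) =
      Cfsg.Agent.H5.be M (Subgroup.centralizer (P : Set G)) e := by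
    intro x
    rw [hT x, Cfsg.Agent.H5.stabilizes_iff (by rw [hCN]; exact Subgroup.mem_top x) he]
  have hbl := Cfsg.Agent.H5.isBl_be (M := M) he
  constructor
  · have hT2 : T = Cfsg.Agent.H5.stb P (Cfsg.Agent.H5.be M (Subgroup.centralizer (P : Set G)) e) := by
      ext x
      rw [hT' x, Cfsg.Agent.H5.mem_stb, hN]
      exact ⟨fun h => ⟨Subgroup.mem_top x, h⟩, fun h => h.2⟩
    obtain ⟨F, hF, -, hFt⟩ := Cfsg.Agent.H5.exists_block_stb hM hP he hT2
    exact ⟨F, hF, hFt⟩
  · intro g
    obtain ⟨U, hU, hUe, hUg⟩ := Cfsg.Agent.H5.blockCoeff_eq_sub hM hP (Cfsg.Agent.H5.IsPBlock.isBU hB)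
    rw [hUg]
    apply Cfsg.Agent.H5.orbit_formula he hU _ hT'
    rw [hUe]
    have h1 := ((Cfsg.Agent.H5.isBrauerPairOf_iff' hM hB he).mp hBe).2.2
    simp only at h1
    rw [Cfsg.Agent.H5.idem_ktr_normal hM hP (Cfsg.Agent.H5.blk_mem_fix B)
      (Cfsg.Agent.H5.blk_mul_self (Cfsg.Agent.H5.IsPBlock.isBU hB))] at h1
    have h2 := Cfsg.Agent.H5.isBl_osum (N := ⊤) hM hP le_top le_top hN.ge hbl
    rcases (Cfsg.Agent.H5.isBl_top hB).eq_or h2 with h | h
    · exact h
    · exfalso
      have h3 := Cfsg.Agent.H5.osum_mul_mem (Cfsg.Agent.H5.self_mem_orb (N := ⊤) hbl)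
      rw [← h3, ← mul_assoc, h, zero_mul] at h1
      rw [h3] at h1
      exact hbl.ne h1.symm

end Cfsg.Agent.S4654
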