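import Cfsg.Statements.S4656
import Cfsg.Agent.H5.K5
import Cfsg.Agent.H5.Block17
import Cfsg.Agent.H5.Prin3

set_option autoImplicit false
open Cfsg

namespace Cfsg.Agent.S4656

/-- Fix a prime p and a maximal ideal M of the algebraic integers containing p. Let (P, e) be a Brauer pair of the finite group G and Q a normal subgroup of P. Then there is exactly one p-block f of C_G(Q) that is stable under conjugation by P and such that e occurs in the Brauer-map image at P of the idempotent of f; that is, exactly one f with (Q, f) normally below (P, e). -/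
theorem result {G : Type*} [Group G] [Fintype G] (p : ℕ) [Fact p.Prime] (M : Ideal Cfsg.AlgInt) (hM : Cfsg.IsPModular p M) (P Q : Subgroup G) (e : Set (Cfsg.IrrCharacter (Subgroup.centralizer (P : Set G)))) (hPe : Cfsg.IsBrauerPair p M P e) (hQP : Q ≤ P) (hPN : P ≤ Subgroup.normalizer (Q : Set G)) : ∃! f : Set (Cfsg.IrrCharacter (Subgroup.centralizer (Q : Set G))), Cfsg.IsNormalSubpair p M Q f P e := by
  have hprime := Cfsg.Agent.H5.isPrime_of_isPModular hM
  obtain ⟨f, hf, hu⟩ := Cfsg.Agent.H5.NPr.exists_unique hM hPe.1 hQP hPN (Cfsg.Agent.H5.isBl_be hPe.2)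
  obtain ⟨F, hF, hFf⟩ := Cfsg.Agent.H5.exists_be hf.2.1
  refine ⟨F, ?_, ?_⟩
  · show Cfsg.IsNormalSubpair p M Q F P e
    rw [Cfsg.Agent.H5.isNormalSubpair_iff' hM]
    refine ⟨hF, hPe.2, ?_⟩
    rw [hFf]; exact hf
  · intro F' hF'
    have h := (Cfsg.Agent.H5.isNormalSubpair_iff' hM).mp hF'
    apply Cfsg.Agent.H5.be_injective h.1 hF
    rw [hu _ h.2.2, hFf]

end Cfsg.Agent.S4656
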