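import Cfsg.Statements.S4657
import Cfsg.Agent.H5.K5
import Cfsg.Agent.H5.Block17
import Cfsg.Agent.H5.Prin3

set_option autoImplicit false
open Cfsg

namespace Cfsg.Agent.S4657

/-- Fix a prime p and a maximal ideal M of the algebraic integers containing p. Every Brauer pair (P, e) of the finite group G is a Brauer pair of exactly one p-block B of G. -/
theorem result {G : Type*} [Group G] [Fintype G] (p : ℕ) [Fact p.Prime] (M : Ideal Cfsg.AlgInt) (hM : Cfsg.IsPModular p M) (P : Subgroup G) (e : Set (Cfsg.IrrCharacter (Subgroup.centralizer (P : Set G)))) (hPe : Cfsg.IsBrauerPair p M P e) : ∃! B : Set (Cfsg.IrrCharacter G), Cfsg.IsBrauerPairOf p M B P e := by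
  have hprime := Cfsg.Agent.H5.isPrime_of_isPModular hM
  obtain ⟨b, ⟨hb, hbP⟩, hu⟩ := Cfsg.Agent.H5.exists_unique_bp (a := (P, Cfsg.Agent.H5.be M _ e)) hM hPe.1
    (Cfsg.Agent.H5.isBl_be hPe.2)
  obtain ⟨B, hB, rfl⟩ := Cfsg.Agent.H5.exists_top hb
  refine ⟨B, (Cfsg.Agent.H5.isBrauerPairOf_iff' hM hB hPe.2).mpr hbP, ?_⟩
  intro B' hB'
  apply Cfsg.Agent.H5.blk_inj hB'.2.1 hB
  exact hu _ ⟨Cfsg.Agent.H5.isBl_top hB'.2.1, (Cfsg.Agent.H5.isBrauerPairOf_iff' hM hB'.2.1 hPe.2).mp hB'⟩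

end Cfsg.Agent.S4657
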