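import Cfsg.Statements.S4660
import Cfsg.Agent.H5.K9

set_option autoImplicit false
open Cfsg

namespace Cfsg.Agent.S4660

/-- Fix a prime p and a maximal ideal M of the algebraic integers containing p. Let (P, e) be a maximal Brauer pair of the p-block B of the finite group G and (Q, f) any Brauer pair of B. Then some conjugate of (Q, f) lies below (P, e): there is x in G such that (x Q x⁻¹, conjugate of f by x) ≤ (P, e). -/
theorem result {G : Type*} [Group G] [Fintype G] (p : ℕ) [Fact p.Prime] (M : Ideal Cfsg.AlgInt) (hM : Cfsg.IsPModular p M) (B : Set (Cfsg.IrrCharacter G)) (P Q : Subgroup G) (e : Set (Cfsg.IrrCharacter (Subgroup.centralizer (P : Set G)))) (f : Set (Cfsg.IrrCharacter (Subgroup.centralizer (Q : Set G)))) (hmax : Cfsg.IsMaximalBrauerPair p M B P e) (hQf : Cfsg.IsBrauerPairOf p M B Q f) : ∃ x : G, Cfsg.SubpairLE p M (Q.map (MulAut.conj x).toMonoidHom) (Cfsg.conjBlock Q x f) P e := by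
  have hprime := Cfsg.Agent.H5.isPrime_of_isPModular hM
  have hB := hmax.1.2.1
  have he := hmax.1.1.2
  obtain ⟨x, hx⟩ := ((Cfsg.Agent.H5.isMaximal_iff hM hB he).mp hmax).exists_conj hM (Cfsg.Agent.H5.isBl_top hB)
    ((Cfsg.Agent.H5.isBrauerPairOf_iff' hM hB hQf.1.2).mp hQf)
  refine ⟨x, ?_⟩
  apply Cfsg.Agent.H5.subpairLE_of hM he (Cfsg.Agent.H5.isPBlock_conjBlock.mpr hQf.1.2)
  rw [Cfsg.Agent.H5.be_conjBlock]
  exact hx

end Cfsg.Agent.S4660
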