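import Cfsg.Statements.S4661
import Cfsg.Agent.H5.K9

set_option autoImplicit false
open Cfsg

namespace Cfsg.Agent.S4661

/-- Fix a prime p and a maximal ideal M of the algebraic integers containing p. Let (P, e) be a maximal Brauer pair of the p-block B of the finite group G, Q ≤ P, and f the p-block of C_G(Q) with (Q, f) ≤ (P, e). Then C_P(Q) is contained in a defect group of f (as a block of the group C_G(Q)); and for some x in G the conjugate pair (x Q x⁻¹, conjugate of f) again lies below (P, e) and C_P(x Q x⁻¹) is a defect group of the conjugate of f in C_G(x Q x⁻¹). -/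
theorem result {G : Type*} [Group G] [Fintype G] (p : ℕ) [Fact p.Prime] (M : Ideal Cfsg.AlgInt) (hM : Cfsg.IsPModular p M) (B : Set (Cfsg.IrrCharacter G)) (P Q : Subgroup G) (e : Set (Cfsg.IrrCharacter (Subgroup.centralizer (P : Set G)))) (f : Set (Cfsg.IrrCharacter (Subgroup.centralizer (Q : Set G)))) (hmax : Cfsg.IsMaximalBrauerPair p M B P e) (hQP : Q ≤ P) (hf : Cfsg.IsPBlock M f) (hle : Cfsg.SubpairLE p M Q f P e) : (∃ D : Subgroup (Subgroup.centralizer (Q : Set G)), Cfsg.IsDefectGroup p M f D ∧ (P ⊓ Subgroup.centralizer (Q : Set G)).subgroupOf (Subgroup.centralizer (Q : Set G)) ≤ D) ∧ ∃ x : G, Cfsg.SubpairLE p M (Q.map (MulAut.conj x).toMonoidHom) (Cfsg.conjBlock Q x f) P e ∧ Cfsg.IsDefectGroup p M (Cfsg.conjBlock Q x f) ((P ⊓ Subgroup.centralizer ((Q.map (MulAut.conj x).toMonoidHom) : Set G)).subgroupOf (Subgroup.centralizer ((Q.map (MulAut.conj x).toMonoidHom) : Set G))) := by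
  have hprime := Cfsg.Agent.H5.isPrime_of_isPModular hM
  have hB := hmax.1.2.1
  have he := hmax.1.1.2
  have hm := (Cfsg.Agent.H5.isMaximal_iff hM hB he).mp hmax
  have hb := Cfsg.Agent.H5.isBl_top (M := M) hB
  have hle' := Cfsg.Agent.H5.subpairLE_to hM hle
  have hbl := Cfsg.Agent.H5.isBl_be (M := M) hf
  constructor
  · have h1 := Cfsg.Agent.H5.pair_centralizer_ne hM hm.1.1 hm.1.2.1 hle'
    obtain ⟨D, hD⟩ := Cfsg.Agent.H5.exists_df hM hbl
    obtain ⟨R, hR, hle2⟩ := hD.exists_ge hbl.fix (hm.1.1.to_le inf_le_left) inf_le_right h1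
    refine ⟨R.subgroupOf (Subgroup.centralizer (Q : Set G)), ?_, ?_⟩
    · rw [Cfsg.Agent.H5.isDefectGroup_subgroupOf_iff hM hf hR.2.1]; exact hR
    · exact Subgroup.comap_mono hle2
  · obtain ⟨x, hx, hD⟩ := Cfsg.Agent.H5.pair_centralizer hM hb hm hle'
    refine ⟨x, ?_, ?_⟩
    · apply Cfsg.Agent.H5.subpairLE_of hM he (Cfsg.Agent.H5.isPBlock_conjBlock.mpr hf)
      rw [Cfsg.Agent.H5.be_conjBlock]
      exact hx
    · rw [Cfsg.Agent.H5.isDefectGroup_subgroupOf_iff hM (Cfsg.Agent.H5.isPBlock_conjBlock.mpr hf) inf_le_right,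
        Cfsg.Agent.H5.be_conjBlock]
      exact hD

end Cfsg.Agent.S4661
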