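import Cfsg.Statements.S4662
import Cfsg.Agent.H5.K9

set_option autoImplicit false
open Cfsg

namespace Cfsg.Agent.S4662

/-- Fix a prime p and a maximal ideal M of the algebraic integers containing p. Let (P, e) be a maximal Brauer pair of the p-block B of the finite group G, Q ≤ P, and f the p-block of C_G(Q) with (Q, f) ≤ (P, e). Let T be the stabilizer of f in N_G(Q). Then the idempotent of f is a block idempotent of T, and N_P(Q) is contained in a defect group of that block of T; moreover for some x in G the conjugate pair (x Q x⁻¹, conjugate of f) again lies below (P, e) and, with T' the stabilizer of the conjugate of f in N_G(x Q x⁻¹), N_P(x Q x⁻¹) is a defect group of the block of T' whose idempotent is that of the conjugate of f. -/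
theorem result {G : Type*} [Group G] [Fintype G] (p : ℕ) [Fact p.Prime] (M : Ideal Cfsg.AlgInt) (hM : Cfsg.IsPModular p M) (B : Set (Cfsg.IrrCharacter G)) (P Q : Subgroup G) (e : Set (Cfsg.IrrCharacter (Subgroup.centralizer (P : Set G)))) (f : Set (Cfsg.IrrCharacter (Subgroup.centralizer (Q : Set G)))) (hmax : Cfsg.IsMaximalBrauerPair p M B P e) (hQP : Q ≤ P) (hf : Cfsg.IsPBlock M f) (hle : Cfsg.SubpairLE p M Q f P e) (T : Subgroup G) (hT : ∀ y : G, y ∈ T ↔ y ∈ Subgroup.normalizer (Q : Set G) ∧ Cfsg.StabilizesBlock (Subgroup.centralizer (Q : Set G)) f y) : (∃ F : Set (Cfsg.IrrCharacter T), Cfsg.IsPBlock M F ∧ (∀ t : T, Cfsg.blockCoeff F t = Cfsg.subgroupBlockCoeff (Subgroup.centralizer (Q : Set G)) f (t : G)) ∧ ∃ D : Subgroup T, Cfsg.IsDefectGroup p M F D ∧ (P ⊓ Subgroup.normalizer (Q : Set G)).subgroupOf T ≤ D) ∧ ∃ x : G, Cfsg.SubpairLE p M (Q.map (MulAut.conj x).toMonoidHom) (Cfsg.conjBlock Q x f) P e ∧ ∀ (T' : Subgroup G), (∀ y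 : G, y ∈ T' ↔ y ∈ Subgroup.normalizer ((Q.map (MulAut.conj x).toMonoidHom) : Set G) ∧ Cfsg.StabilizesBlock (Subgroup.centralizer ((Q.map (MulAut.conj x).toMonoidHom) : Set G)) (Cfsg.conjBlock Q x f) y) → ∃ F' : Set (Cfsg.IrrCharacter T'), Cfsg.IsPBlock M F' ∧ (∀ t : T', Cfsg.blockCoeff F' t = Cfsg.subgroupBlockCoeff (Subgroup.centralizer ((Q.map (MulAut.conj x).toMonoidHom) : Set G)) (Cfsg.conjBlock Q x f) (t : G)) ∧ Cfsg.IsDefectGroup p M F' ((P ⊓ Subgroup.normalizer ((Q.map (MulAut.conj x).toMonoidHom) : Set G)).subgroupOf T') := by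
  have hprime := Cfsg.Agent.H5.isPrime_of_isPModular hM
  have hB := hmax.1.2.1
  have he := hmax.1.1.2
  have hm := (Cfsg.Agent.H5.isMaximal_iff hM hB he).mp hmax
  have hb := Cfsg.Agent.H5.isBl_top (M := M) hB
  have hle' := Cfsg.Agent.H5.subpairLE_to hM hle
  have hbl := Cfsg.Agent.H5.isBl_be (M := M) hf
  have hQ : IsPGroup p Q := hm.1.1.to_le hQP
  have hT' := Cfsg.Agent.H5.stabilizer_eq (M := M) hf hT
  constructor
  · obtain ⟨F, hF, hFe, hFt⟩ := Cfsg.Agent.H5.exists_block_stb hM hQ hf hT'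
    obtain ⟨h1, h2⟩ := Cfsg.Agent.H5.pair_normalizer_ne hM hm.1.1 hm.1.2.1 hle'
    rw [← hT'] at h1
    have hblT := Cfsg.Agent.H5.isBl_be (M := M) hF
    obtain ⟨D, hD⟩ := Cfsg.Agent.H5.exists_df hM hblT
    rw [← hFe] at h2
    obtain ⟨R, hR, hle2⟩ := hD.exists_ge hblT.fix (hm.1.1.to_le inf_le_left) h1 h2
    refine ⟨F, hF, hFt, R.subgroupOf T, ?_, ?_⟩
    · rw [Cfsg.Agent.H5.isDefectGroup_subgroupOf_iff hM hF hR.2.1]; exact hR
    · exact Subgroup.comap_mono hle2
  · obtain ⟨x, hx, hD⟩ := Cfsg.Agent.H5.pair_normalizer hM hb hm hle'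
    refine ⟨x, ?_, ?_⟩
    · apply Cfsg.Agent.H5.subpairLE_of hM he (Cfsg.Agent.H5.isPBlock_conjBlock.mpr hf)
      rw [Cfsg.Agent.H5.be_conjBlock]
      exact hx
    · intro T' hTT
      have hf' : Cfsg.IsPBlock M (Cfsg.conjBlock Q x f) := Cfsg.Agent.H5.isPBlock_conjBlock.mpr hf
      have hT2 := Cfsg.Agent.H5.stabilizer_eq (M := M) hf' hTT
      have hQx : IsPGroup p (Q.map (MulAut.conj x).toMonoidHom) := hQ.map _
      obtain ⟨F', hF', hFe', hFt'⟩ := Cfsg.Agent.H5.exists_block_stb hM hQx hf' hT2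
      refine ⟨F', hF', hFt', ?_⟩
      rw [Cfsg.Agent.H5.be_conjBlock] at hT2 hFe'
      have hle3 : P ⊓ Subgroup.normalizer ((Q.map (MulAut.conj x).toMonoidHom : Subgroup G) : Set G) ≤ T' := by
        rw [hT2]; exact hD.2.1
      rw [Cfsg.Agent.H5.isDefectGroup_subgroupOf_iff hM hF' hle3, hFe', hT2]
      exact hD

end Cfsg.Agent.S4662
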