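import Cfsg.Statements.S4663
import Cfsg.Agent.H5.K9

set_option autoImplicit false
open Cfsg

namespace Cfsg.Agent.S4663

/-- Fix a prime p and a maximal ideal M of the algebraic integers containing p. Brauer's Third Main Theorem in the language of Brauer pairs: for the principal p-block B₀ of the finite group G and any p-subgroup Q, a p-block e of C_G(Q) makes (Q, e) a Brauer pair of B₀ if and only if e is the principal p-block of C_G(Q). Equivalently, modulo M the truncation to C_G(Q) of the idempotent of B₀ is the idempotent of the principal block of C_G(Q). -/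
theorem result {G : Type*} [Group G] [Fintype G] (p : ℕ) [Fact p.Prime] (M : Ideal Cfsg.AlgInt) (hM : Cfsg.IsPModular p M) (Q : Subgroup G) (hQ : IsPGroup p Q) (e : Set (Cfsg.IrrCharacter (Subgroup.centralizer (Q : Set G)))) (he : Cfsg.IsPBlock M e) : Cfsg.IsBrauerPairOf p M (Cfsg.principalBlock M G) Q e ↔ e = Cfsg.principalBlock M (Subgroup.centralizer (Q : Set G)) := by
  have hprime := Cfsg.Agent.H5.isPrime_of_isPModular hM
  have hC : Fintype (Subgroup.centralizer (Q : Set G)) := Fintype.ofFinite _
  have hB0 := Cfsg.Agent.H5.principal_isPBlock (M := M) (G := G)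
  have htop : Cfsg.Agent.H5.e0 M (⊤ : Subgroup G) = Cfsg.Agent.H5.blk M (Cfsg.principalBlock M G) := by
    symm
    rw [Cfsg.Agent.H5.eq_e0_iff (Cfsg.Agent.H5.isBl_top hB0), Cfsg.Agent.H5.kaug_principal]
    exact one_ne_zero
  rw [Cfsg.Agent.H5.isBrauerPairOf_iff' hM hB0 he, ← htop]
  constructor
  · intro h
    exact Cfsg.Agent.H5.be_injective he Cfsg.Agent.H5.principal_isPBlock (Cfsg.Agent.H5.bp_e0_iff hM h)
  · intro h
    rw [h]
    exact Cfsg.Agent.H5.e0_bp hM hQ

end Cfsg.Agent.S4663
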