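import Cfsg.Statements.S4665
import Cfsg.Agent.H5.Block16

set_option autoImplicit false
open Cfsg

namespace Cfsg.Agent.S4665

/-- Fix a prime p, a maximal ideal M of the algebraic integers containing p, and a p-block B of the finite group G, and let p^a be the p-part of the order of G. Let χ be an integer combination of the irreducible characters in B. If the function that agrees with χ on p-regular elements and vanishes on p-singular elements is again an integer combination of the irreducible characters in B, then p^a divides χ(1). -/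
theorem result {G : Type*} [Group G] [Fintype G] (p : ℕ) [Fact p.Prime] (M : Ideal Cfsg.AlgInt) (hM : Cfsg.IsPModular p M) (B : Set (Cfsg.IrrCharacter G)) (hB : Cfsg.IsPBlock M B) (χ : G → ℂ) (hχ : (∃ n : Cfsg.IrrCharacter G → ℤ, ∀ g : G, χ g = ∑ᶠ ψ ∈ B, (n ψ : ℂ) * (ψ : G → ℂ) g)) (h0 : (∃ n : Cfsg.IrrCharacter G → ℤ, ∀ g : G, Cfsg.pRegularPart p χ g = ∑ᶠ ψ ∈ B, (n ψ : ℂ) * (ψ : G → ℂ) g)) : ∃ k : ℤ, χ 1 = (p ^ (Nat.card G).factorization p : ℂ) * k := by
  classical
  obtain ⟨n, hn⟩ := h0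
  haveI := Fact.mk hM.1
  obtain ⟨P⟩ : Nonempty (Sylow p G) := inferInstance
  haveI : Fintype (P : Subgroup G) := Fintype.ofFinite _
  have hP : Nat.card (P : Subgroup G) = p ^ (Nat.card G).factorization p := P.card_eq_multiplicity
  have hgen : Cfsg.IsGeneralizedCharacter G (Cfsg.pRegularPart p χ) := by
    rw [Cfsg.Agent.H5.isGeneralizedCharacter_iff_inner]
    have he : Cfsg.pRegularPart p χ = ∑ ψ ∈ Cfsg.Agent.H5.bF B, (n ψ : ℂ) • (ψ : G → ℂ) := by
      funext g
      rw [hn g, Cfsg.Agent.H5.finsum_mem_bF, Finset.sum_apply]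
      rfl
    constructor
    · rw [he]
      exact Cfsg.Agent.H5.IsClassFunction.sum' _ (fun ψ _ => Cfsg.Agent.H5.IsClassFunction.smul' _ (Cfsg.Agent.H5.irr_classFun ψ))
    · intro ψ
      refine ⟨if ψ ∈ Cfsg.Agent.H5.bF B then n ψ else 0, ?_⟩
      rw [he, Cfsg.Agent.H5.classInner_sum_left]
      simp only [Cfsg.Agent.H5.classInner_smul_left, Cfsg.Agent.H5.classInner_irr, mul_ite, mul_one, mul_zero]
      rw [Finset.sum_ite_eq']
      split_ifs <;> simp
  have h1 := Cfsg.Agent.H5.isGeneralized_restrict (P : Subgroup G).subtype hgen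
  rw [Cfsg.Agent.H5.isGeneralizedCharacter_iff_inner] at h1
  obtain ⟨k, hk⟩ := h1.2 ⟨_, Cfsg.Agent.H5.isIrrCharacter_trivial⟩
  refine ⟨k, ?_⟩
  rw [← hk, Cfsg.Agent.H5.classInner_def, hP]
  have hp0 : ((p ^ (Nat.card G).factorization p : ℕ) : ℂ) ≠ 0 := by
    exact_mod_cast pow_ne_zero _ hM.1.ne_zero
  push_cast at hp0 ⊢
  rw [mul_inv_cancel_left₀ hp0, Finset.sum_eq_single (1 : (P : Subgroup G))]
  · simp only [Function.comp_apply, Subgroup.coe_subtype, Subgroup.coe_one, map_one, mul_one]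
    rw [Cfsg.Agent.H5.pRegularPart_reg]
    rw [orderOf_one]; exact fun h => hM.1.one_lt.ne' (Nat.dvd_one.mp h)
  · intro x _ hx
    simp only [Function.comp_apply, Subgroup.coe_subtype, map_one, mul_one]
    apply Cfsg.Agent.H5.pRegularPart_sing
    exact Cfsg.Agent.H5.dvd_orderOf_of_mem hM.1 P.isPGroup' x.2 (fun h => hx (Subtype.ext h))
  · intro h; exact absurd (Finset.mem_univ _) h

end Cfsg.Agent.S4665
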