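import Cfsg.Statements.S4666
import Cfsg.Agent.H5.Block16

set_option autoImplicit false
open Cfsg

namespace Cfsg.Agent.S4666

/-- Fix a prime p and a maximal ideal M of the algebraic integers containing p, and a p-block B of the finite group G of defect d. For every integer combination χ of the irreducible characters in B, p^d times the function that agrees with χ on p-regular elements and vanishes elsewhere is again an integer combination of the irreducible characters in B. -/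
theorem result {G : Type*} [Group G] [Fintype G] (p : ℕ) [Fact p.Prime] (M : Ideal Cfsg.AlgInt) (hM : Cfsg.IsPModular p M) (B : Set (Cfsg.IrrCharacter G)) (hB : Cfsg.IsPBlock M B) (χ : G → ℂ) (hχ : (∃ n : Cfsg.IrrCharacter G → ℤ, ∀ g : G, χ g = ∑ᶠ ψ ∈ B, (n ψ : ℂ) * (ψ : G → ℂ) g)) : (∃ n : Cfsg.IrrCharacter G → ℤ, ∀ g : G, (p ^ Cfsg.blockDefect p B : ℂ) * Cfsg.pRegularPart p χ g = ∑ᶠ ψ ∈ B, (n ψ : ℂ) * (ψ : G → ℂ) g) := by
  have hprime := Cfsg.Agent.H5.isPrime_of_isPModular hM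
  classical
  obtain ⟨n, hn⟩ := hχ
  refine ⟨fun ψ => ∑ ξ ∈ Cfsg.Agent.H5.bF B, n ξ * Cfsg.Agent.H5.cm p B ξ ψ, fun g => ?_⟩
  have hχe : χ = ∑ ψ ∈ Cfsg.Agent.H5.bF B, (n ψ : ℂ) • (ψ : G → ℂ) := by
    funext g
    rw [hn g, Cfsg.Agent.H5.finsum_mem_bF, Finset.sum_apply]
    rfl
  have h1 : Cfsg.pRegularPart p χ = ∑ ψ ∈ Cfsg.Agent.H5.bF B, (n ψ : ℂ) • Cfsg.pRegularPart p (ψ : G → ℂ) := by
    have := congrArg (Cfsg.Agent.H5.pregL G p) hχe
    rw [map_sum] at this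
    simp only [map_smul, Cfsg.Agent.H5.pregL_apply] at this
    exact this
  rw [h1, Cfsg.Agent.H5.finsum_mem_bF, Finset.sum_apply, Finset.mul_sum]
  push_cast
  simp only [Finset.sum_mul]
  rw [Finset.sum_comm]
  refine Finset.sum_congr rfl fun ξ hξ => ?_
  rw [Cfsg.Agent.H5.mem_bF] at hξ
  rw [Pi.smul_apply, smul_eq_mul, Cfsg.Agent.H5.pRegularPart_expand, Finset.sum_apply,
    Cfsg.Agent.H5.sum_eq_bF B, Finset.mul_sum, Finset.mul_sum]
  · refine Finset.sum_congr rfl fun ψ _ => ?_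
    rw [Cfsg.Agent.H5.cm_spec hM hξ, Pi.smul_apply, smul_eq_mul]
    push_cast
    ring
  · intro ψ hψ
    rw [Cfsg.Agent.H5.rin_ne hM (fun h => hψ (Cfsg.Agent.H5.IsPBlock.mem_of_sameBlock hB hξ h))]
    simp

end Cfsg.Agent.S4666
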