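import Cfsg.Statements.S4668
import Cfsg.Agent.H5.K9
import Cfsg.Agent.L0.Coprime2

set_option autoImplicit false
open Cfsg

namespace Cfsg.Agent.S4668

theorem dvd_card_aux {G : Type*} [Group G] [Finite G] {p : ℕ} (hp : p.Prime) (n : G) (h : ¬ p ∣ orderOf n) :
    (Nat.card (Subgroup.zpowers n)).Coprime p := by
  rw [Nat.card_zpowers]
  exact (Nat.Prime.coprime_iff_not_dvd hp).mpr h |>.symm


/-- Fix a prime p and a maximal ideal M of the algebraic integers containing p. Let Q₀ < Q₁ < ⋯ < Q_m be a strictly increasing chain of p-subgroups of the finite group G and N the intersection of their normalizers. Then every block idempotent of N is supported on C_G(Q_m): for every p-block E of N, the idempotent coefficient of E vanishes at every element of N outside C_G(Q_m). -/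
theorem result {G : Type*} [Group G] [Fintype G] (p : ℕ) [Fact p.Prime] (M : Ideal Cfsg.AlgInt) (hM : Cfsg.IsPModular p M) (m : ℕ) (Q : Fin (m + 1) → Subgroup G) (hQ : StrictMono Q) (hQp : ∀ i, IsPGroup p (Q i)) (N : Subgroup G) (hN : ∀ g : G, g ∈ N ↔ ∀ i, g ∈ Subgroup.normalizer (Q i : Set G)) (E : Set (Cfsg.IrrCharacter N)) (hE : Cfsg.IsPBlock M E) (n : N) (hn : (n : G) ∉ Subgroup.centralizer (Q (Fin.last m) : Set G)) : Cfsg.blockCoeff E n = 0 := by
  have hprime := Cfsg.Agent.H5.isPrime_of_isPModular hM
  have hfin : Fintype N := Fintype.ofFinite N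
  by_contra hne
  -- the normal `p`-subgroup `N ∩ Q m`
  obtain ⟨L, hL⟩ : ∃ L : Subgroup G, L = Q (Fin.last m) ⊓ N := ⟨_, rfl⟩
  have hLN : L ≤ N := by rw [hL]; exact inf_le_right
  have hLp : IsPGroup p L := (hQp (Fin.last m)).to_le (by rw [hL]; exact inf_le_left)
  have hLp' : IsPGroup p (L.subgroupOf N) := hLp.comap_of_injective N.subtype N.subtype_injective
  have hnorm : (L.subgroupOf N).Normal := by
    rw [Subgroup.normal_subgroupOf_iff_le_normalizer hLN]
    intro g hg
    rw [Subgroup.mem_normalizer_iff]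
    intro x
    rw [hL, Subgroup.mem_inf, Subgroup.mem_inf]
    have h1 := Subgroup.mem_normalizer_iff.mp ((hN g).mp hg (Fin.last m)) x
    have h2 := Subgroup.mem_normalizer_iff.mp (Subgroup.le_normalizer (H := N) hg) x
    exact and_congr h1 h2
  have hn1 : n ∈ Subgroup.centralizer ((L.subgroupOf N : Subgroup N) : Set N) := by
    by_contra hc
    obtain ⟨U, -, -, hU⟩ := Cfsg.Agent.H5.blockCoeff_eq_sub hM hLp' (Cfsg.Agent.H5.IsPBlock.isBU hE)
    rw [hU, Cfsg.Agent.H5.subgroupBlockCoeff_not_mem U hc] at hne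
    exact hne rfl
  have hreg : ¬ p ∣ orderOf n :=
    Cfsg.Agent.H5.regular_of_blockCoeff hM (Cfsg.Agent.H5.IsPBlock.isBU hE).int hne
  have hreg' : ¬ p ∣ orderOf (n : G) := by rwa [Subgroup.orderOf_coe]
  have hnL : ∀ x ∈ L, x * (n : G) = (n : G) * x := by
    intro x hx
    have := Subgroup.mem_centralizer_iff.mp hn1 ⟨x, hLN hx⟩ (by rw [SetLike.mem_coe, Subgroup.mem_subgroupOf]; exact hx)
    exact congrArg Subtype.val this
  have hcop := dvd_card_aux hM.1 (n : G) hreg'
  -- the chain
  have key : ∀ (j : ℕ) (hj : j < m + 1), ∀ x ∈ Q ⟨j, hj⟩, x * (n : G) = (n : G) * x := by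
    intro j
    induction j with
    | zero =>
      intro hj x hx
      apply hnL
      rw [hL]
      refine Subgroup.mem_inf.mpr ⟨hQ.monotone (Fin.zero_le _) hx, ?_⟩
      rw [hN]
      intro i
      exact Subgroup.le_normalizer (hQ.monotone (Fin.zero_le i) hx)
    | succ j ih =>
      intro hj x hx
      have hj' : j < m + 1 := by omega
      have ih' := ih hj'
      have hle : Q ⟨j, hj'⟩ ≤ Q ⟨j + 1, hj⟩ := hQ.monotone (by
        rw [Fin.le_def]; exact Nat.le_succ j)
      have hA : Subgroup.zpowers (n : G) ≤ Subgroup.normalizer (Q ⟨j + 1, hj⟩ : Set G) := by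
        rw [Subgroup.zpowers_le]
        exact (hN n).mp n.2 _
      have h0 := Cfsg.Agent.L0.axb_lemma (A := Subgroup.zpowers (n : G)) (B := Q ⟨j, hj'⟩) (P := Q ⟨j + 1, hj⟩) hA
        (le_trans hle Subgroup.le_normalizer) (hQp _) (hQp _) hcop (by
          intro a ha b hb
          obtain ⟨k, rfl⟩ := Subgroup.mem_zpowers_iff.mp ha
          have hc : Commute b (n : G) := ih' b hb
          exact (hc.zpow_right k).symm) (by
          intro y hy
          have hyn : y * (n : G) = (n : G) * y := by
            apply hnL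
            rw [hL]
            refine Subgroup.mem_inf.mpr ⟨hQ.monotone (Fin.le_last _) (Subgroup.mem_inf.mp hy).1, ?_⟩
            rw [hN]
            intro i
            by_cases hi : (i : ℕ) ≤ j
            · have h1 : Q i ≤ Q ⟨j, hj'⟩ := hQ.monotone (by rw [Fin.le_def]; exact hi)
              apply Cfsg.Agent.H5.centralizer_le_normalizer
              exact Subgroup.centralizer_le (show (Q i : Set G) ⊆ Q ⟨j, hj'⟩ from h1) (Subgroup.mem_inf.mp hy).2
            · have h1 : Q ⟨j + 1, hj⟩ ≤ Q i := hQ.monotone (by rw [Fin.le_def]; simp only; omega)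
              exact Subgroup.le_normalizer (h1 (Subgroup.mem_inf.mp hy).1)
          rw [Subgroup.mem_centralizer_iff]
          intro a ha
          obtain ⟨k, rfl⟩ := Subgroup.mem_zpowers_iff.mp ha
          have hc : Commute y (n : G) := hyn
          exact (hc.zpow_right k).symm.eq)
      rw [Subgroup.commutator_eq_bot_iff_le_centralizer] at h0
      have := Subgroup.mem_centralizer_iff.mp (h0 hx) (n : G) (Subgroup.mem_zpowers _)
      exact this.symm
  apply hn
  rw [Subgroup.mem_centralizer_iff]
  intro x hx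
  exact key m (by omega) x hx

end Cfsg.Agent.S4668
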