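import Cfsg.Statements.S4670
import Cfsg.Agent.H5.K11

set_option autoImplicit false
open Cfsg

namespace Cfsg.Agent.S4670

/-- Fix a prime p and a maximal ideal M of the algebraic integers containing p. Let P be a p-subgroup of the finite group G and H a subgroup containing N_G(P). For every p-block B of G with defect group P there is exactly one p-block c of H with defect group P whose idempotent agrees with that of B, modulo the local ideal at M, at every element of C_G(P) (their Brauer-map images at P coincide); and every p-block c of H with defect group P arises in this way from exactly one such B. This is the Brauer correspondence over H. -/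
theorem result {G : Type*} [Group G] [Fintype G] (p : ℕ) [Fact p.Prime] (M : Ideal Cfsg.AlgInt) (hM : Cfsg.IsPModular p M) (P H : Subgroup G) (hP : IsPGroup p P) (hH : Subgroup.normalizer (P : Set G) ≤ H) : (∀ B : Set (Cfsg.IrrCharacter G), Cfsg.IsPBlock M B → Cfsg.IsDefectGroup p M B P → ∃! c : Set (Cfsg.IrrCharacter H), Cfsg.IsPBlock M c ∧ Cfsg.IsDefectGroup p M c (P.subgroupOf H) ∧ ∀ x : G, x ∈ Subgroup.centralizer (P : Set G) → Cfsg.MemLocalIdeal M (Cfsg.blockCoeff B x - Cfsg.subgroupBlockCoeff H c x)) ∧ (∀ c : Set (Cfsg.IrrCharacter H), Cfsg.IsPBlock M c → Cfsg.IsDefectGroup p M c (P.subgroupOf H) → ∃! B : Set (Cfsg.IrrCharacter G), Cfsg.IsPBlock M B ∧ Cfsg.IsDefectGroup p M B P ∧ ∀ x : G, x ∈ Subgroup.centralizer (P : Set G) → Cfsg.MemLocalIdeal M (Cfsg.blockCoeff B x - Cfsg.subgroupBlockCoeff H c x)) := by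
  have hprime := Cfsg.Agent.H5.isPrime_of_isPModular hM
  have hPH : P ≤ H := le_trans Subgroup.le_normalizer hH
  have hN : Subgroup.normalizer (P : Set G) ⊓ H = Subgroup.normalizer (P : Set G) := inf_of_le_left hH
  have hcond : ∀ (B : Set (Cfsg.IrrCharacter G)) (c : Set (Cfsg.IrrCharacter H)), Cfsg.IsPBlock M B → Cfsg.IsPBlock M c →
      ((∀ x : G, x ∈ Subgroup.centralizer (P : Set G) →
        Cfsg.MemLocalIdeal M (Cfsg.blockCoeff B x - Cfsg.subgroupBlockCoeff H c x)) ↔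
      Cfsg.Agent.H5.ktr (Subgroup.centralizer (P : Set G)) (Cfsg.Agent.H5.blk M B) =
        Cfsg.Agent.H5.ktr (Subgroup.centralizer (P : Set G)) (Cfsg.Agent.H5.be M H c)) := by
    intro B c hB hc
    have hfin : Fintype H := Fintype.ofFinite H
    have h0 : ∀ x : G, (Cfsg.Agent.H5.blk M B).coeff x = Cfsg.Agent.H5.red M (Cfsg.blockCoeff B x) :=
      fun x => Cfsg.Agent.H5.rG_coeff _ x
    have h1 : ∀ x : G, Cfsg.MemLocalIdeal M (Cfsg.blockCoeff B x - Cfsg.subgroupBlockCoeff H c x) ↔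
        (Cfsg.Agent.H5.blk M B).coeff x = (Cfsg.Agent.H5.be M H c).coeff x := by
      intro x
      rw [h0, Cfsg.Agent.H5.be_coeff, Cfsg.Agent.H5.red_eq_iff ((Cfsg.Agent.H5.IsPBlock.isBU hB).int x)
        (Cfsg.Agent.H5.subgroupBlockCoeff_int (Cfsg.Agent.H5.IsPBlock.isBU hc) x)]
    constructor
    · intro h
      apply Cfsg.Agent.H5.kext
      intro g
      by_cases hg : g ∈ Subgroup.centralizer (P : Set G)
      · rw [Cfsg.Agent.H5.ktr_mem hg, Cfsg.Agent.H5.ktr_mem hg]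
        exact (h1 g).mp (h g hg)
      · rw [Cfsg.Agent.H5.ktr_not_mem hg, Cfsg.Agent.H5.ktr_not_mem hg]
    · intro h x hx
      rw [h1 x, ← Cfsg.Agent.H5.ktr_mem hx, h, Cfsg.Agent.H5.ktr_mem hx]
  constructor
  · intro B hB hBP
    have hdf := (Cfsg.Agent.H5.isDefectGroup_iff_df hM hB).mp hBP
    obtain ⟨h1, h2⟩ := Cfsg.Agent.H5.fm1 hM (Cfsg.Agent.H5.isBl_top hB) hdf
    rw [← hN] at h1 h2
    obtain ⟨b, hb1, hb2, hb3⟩ := Cfsg.Agent.H5.fm2_rel hM hPH h1 h2
    obtain ⟨c, hc, rfl⟩ := Cfsg.Agent.H5.exists_be hb1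
    refine ⟨c, ⟨hc, ?_, ?_⟩, ?_⟩
    · rw [Cfsg.Agent.H5.isDefectGroup_subgroupOf_iff hM hc hPH]; exact hb2
    · exact (hcond B c hB hc).mpr hb3.symm
    · rintro c' ⟨h3, h4, h5⟩
      apply Cfsg.Agent.H5.be_injective h3 hc
      have h6 := (hcond B c' hB h3).mp h5
      rw [Cfsg.Agent.H5.isDefectGroup_subgroupOf_iff hM h3 hPH] at h4
      exact Cfsg.Agent.H5.fm_inj hM hP hPH (Cfsg.Agent.H5.isBl_be h3) hb1 h4.2.2.1 (h6.symm.trans hb3.symm)
  · intro c hc hcP
    rw [Cfsg.Agent.H5.isDefectGroup_subgroupOf_iff hM hc hPH] at hcP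
    obtain ⟨h1, h2⟩ := Cfsg.Agent.H5.fm1_rel hM (Cfsg.Agent.H5.isBl_be hc) hcP
    rw [hN] at h1 h2
    obtain ⟨b, hb1, hb2, hb3⟩ := Cfsg.Agent.H5.fm2 hM h1 h2
    obtain ⟨B, hB, rfl⟩ := Cfsg.Agent.H5.exists_top hb1
    refine ⟨B, ⟨hB, (Cfsg.Agent.H5.isDefectGroup_iff_df hM hB).mpr hb2, (hcond B c hB hc).mpr hb3⟩, ?_⟩
    rintro B' ⟨h3, h4, h5⟩
    apply Cfsg.Agent.H5.blk_inj h3 hB
    have h6 := (hcond B' c h3 hc).mp h5
    exact Cfsg.Agent.H5.fm_inj (H := ⊤) hM hP le_top (Cfsg.Agent.H5.isBl_top h3) hb1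
      ((Cfsg.Agent.H5.isDefectGroup_iff_df hM h3).mp h4).2.2.1 (h6.trans hb3.symm)

end Cfsg.Agent.S4670
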