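import Cfsg.Statements.S4671
import Cfsg.Agent.H5.V7

set_option autoImplicit false
open Cfsg

namespace Cfsg.Agent.S4671

/-- Fix a prime p and a maximal ideal M of the algebraic integers containing p. Let N be a normal subgroup of the finite group G, B a p-block of G and P a defect group of B. Then there is a p-block c of N, stable under conjugation by P and covered by B (some member of B has a constituent in c on restriction to N), such that P ∩ N is a defect group of c. -/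
theorem result {G : Type*} [Group G] [Fintype G] (p : ℕ) [Fact p.Prime] (M : Ideal Cfsg.AlgInt) (hM : Cfsg.IsPModular p M) (N : Subgroup G) [N.Normal] [Fintype N] (B : Set (Cfsg.IrrCharacter G)) (hB : Cfsg.IsPBlock M B) (P : Subgroup G) (hP : Cfsg.IsDefectGroup p M B P) : ∃ c : Set (Cfsg.IrrCharacter N), Cfsg.IsPBlock M c ∧ (∀ x ∈ P, Cfsg.StabilizesBlock N c x) ∧ (∃ χ ∈ B, ∃ θ ∈ c, Cfsg.classInner (fun n : N => (χ : G → ℂ) n) (θ : N → ℂ) ≠ 0) ∧ Cfsg.IsDefectGroup p M c ((P ⊓ N).subgroupOf N) := by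
  have hprime := Cfsg.Agent.H5.isPrime_of_isPModular hM
  rw [Cfsg.Agent.H5.isDefectGroup_iff_df hM hB] at hP
  obtain ⟨χ, hχ⟩ := Cfsg.Agent.H5.IsPBlock.nonempty' hB
  obtain ⟨θ, hθ⟩ := Cfsg.Agent.H5.exists_under (N := N) χ
  have hb := Cfsg.Agent.H5.isPBlock_blockOf (M := M) θ
  have hcov := Cfsg.Agent.H5.cov_of (N := N) hχ (Cfsg.Agent.H5.mem_blockOf_self (M := M) θ) hθ
  rw [Cfsg.Agent.H5.cov_iff' hB hb] at hcov
  obtain ⟨f, hf, hfP, hfD⟩ := Cfsg.Agent.H5.knorr hM (Cfsg.Agent.H5.isBl_top hB) (Cfsg.Agent.H5.isBl_be hb) hcov hP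
  have hfbl := (Cfsg.Agent.H5.mem_orb.mp hf).1
  obtain ⟨c, hc, hce⟩ := Cfsg.Agent.H5.exists_be hfbl
  refine ⟨c, hc, ?_, ?_, ?_⟩
  · intro x hx
    rw [Cfsg.Agent.H5.stabilizesBlock_iff hc, hce]
    exact Cfsg.Agent.H5.mem_KFix.mp hfP x hx
  · rw [← Cfsg.Agent.H5.cov_def, Cfsg.Agent.H5.cov_iff' hB hc, hce]
    exact Cfsg.Agent.H5.mul_ne_of_orb (Cfsg.Agent.H5.isBl_top hB) hcov hf
  · rw [Cfsg.Agent.H5.isDefectGroup_subgroupOf_iff hM hc inf_le_right, hce]
    exact hfD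

end Cfsg.Agent.S4671
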