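import Cfsg.Statements.S4672
import Cfsg.Agent.H5.V7

set_option autoImplicit false
open Cfsg

namespace Cfsg.Agent.S4672

/-- Fix a prime p and a maximal ideal M of the algebraic integers containing p. Let N be a normal subgroup of the finite group G of p-power index and c a p-block of N stable under conjugation by G. Then the idempotent of c is a block idempotent of G: there is a p-block B of G whose idempotent coefficients agree with those of c on N and vanish off N; and for every defect group P of such a block B, G = NP and P ∩ N is a defect group of c. -/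
theorem result {G : Type*} [Group G] [Fintype G] (p : ℕ) [Fact p.Prime] (M : Ideal Cfsg.AlgInt) (hM : Cfsg.IsPModular p M) (N : Subgroup G) [N.Normal] (hN : ∃ k : ℕ, N.index = p ^ k) (c : Set (Cfsg.IrrCharacter N)) (hc : Cfsg.IsPBlock M c) (hst : ∀ x : G, Cfsg.StabilizesBlock N c x) : (∃ B : Set (Cfsg.IrrCharacter G), Cfsg.IsPBlock M B ∧ ∀ g : G, Cfsg.blockCoeff B g = Cfsg.subgroupBlockCoeff N c g) ∧ ∀ B : Set (Cfsg.IrrCharacter G), Cfsg.IsPBlock M B → (∀ g : G, Cfsg.blockCoeff B g = Cfsg.subgroupBlockCoeff N c g) → ∀ P : Subgroup G, Cfsg.IsDefectGroup p M B P → N ⊔ P = ⊤ ∧ Cfsg.IsDefectGroup p M c ((P ⊓ N).subgroupOf N) := by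
  have hprime := Cfsg.Agent.H5.isPrime_of_isPModular hM
  have hfN : Fintype N := Fintype.ofFinite N
  have hbl := Cfsg.Agent.H5.isBl_be (M := M) hc
  have hst' : Cfsg.Agent.H5.be M N c ∈ Cfsg.Agent.H5.KFix (Cfsg.Agent.H5.KK M) (⊤ : Subgroup G) := by
    rw [Cfsg.Agent.H5.mem_KFix]
    intro g _
    exact (Cfsg.Agent.H5.stabilizesBlock_iff hc g).mp (hst g)
  have htop : Cfsg.Agent.H5.IsBl M (⊤ : Subgroup G) (Cfsg.Agent.H5.be M N c) := by
    have h1 : Cfsg.Agent.H5.IsBl M ((⊤ : Subgroup G) ⊓ N) (Cfsg.Agent.H5.be M N c) := by rw [top_inf_eq]; exact hbl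
    have h2 := Cfsg.Agent.H5.isBl_osum_index hM hN h1
    rw [top_inf_eq, (Cfsg.Agent.H5.osum_of_stable hbl hst').1] at h2
    exact h2
  constructor
  · obtain ⟨V, hV, hV2, hV3⟩ := Cfsg.Agent.H5.exact_transfer_top (Cfsg.Agent.H5.IsPBlock.isBU hc) hst'
    obtain ⟨B, hB, hBe⟩ := Cfsg.Agent.H5.exists_top htop
    have h3 : B = V := Cfsg.Agent.H5.blk_injective (Cfsg.Agent.H5.IsPBlock.isBU hB) hV (by rw [hBe, hV2])
    exact ⟨B, hB, by rw [h3]; exact hV3⟩
  · intro B hB hBc P hP
    rw [Cfsg.Agent.H5.isDefectGroup_iff_df hM hB] at hP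
    have hbc : Cfsg.Agent.H5.blk M B = Cfsg.Agent.H5.be M N c := by
      apply Cfsg.Agent.H5.kext
      intro g
      rw [Cfsg.Agent.H5.be_coeff, ← hBc]
      exact Cfsg.Agent.H5.rG_coeff _ g
    rw [hbc] at hP
    have hce : Cfsg.Agent.H5.be M N c * Cfsg.Agent.H5.be M N c ≠ 0 := by rw [hbl.idem]; exact hbl.ne
    have h3 := Cfsg.Agent.H5.defect_covers hM le_top (Cfsg.Agent.H5.normalizer_normal N) hbl hst' le_top hP.2.2.2
      (R := P ⊔ N) le_sup_left le_sup_right le_top
    rw [Subgroup.relIndex_top_right] at h3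
    constructor
    · rw [sup_comm, ← Subgroup.index_eq_one]
      obtain ⟨k, hk⟩ := hN
      have h4 : (P ⊔ N).index ∣ p ^ k := by rw [← hk]; exact Subgroup.index_dvd_of_le le_sup_right
      obtain ⟨j, -, hj⟩ := (Nat.dvd_prime_pow hM.1).mp h4
      rcases Nat.eq_zero_or_pos j with rfl | hj0
      · simpa using hj
      · exact absurd (hj ▸ dvd_pow_self p hj0.ne') h3
    · obtain ⟨f, hf, -, hfP⟩ := Cfsg.Agent.H5.knorr hM htop hbl hce hP
      rw [(Cfsg.Agent.H5.osum_of_stable hbl hst').2 f hf] at hfP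
      rw [Cfsg.Agent.H5.isDefectGroup_subgroupOf_iff hM hc inf_le_right]
      exact hfP

end Cfsg.Agent.S4672
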