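import Cfsg.Statements.S4673
import Cfsg.Agent.H5.V7

set_option autoImplicit false
open Cfsg

namespace Cfsg.Agent.S4673

/-- Fix a prime p and a maximal ideal M of the algebraic integers containing p. Let N ≤ L be normal subgroups of the finite group G with L/N a p-group, let B be a p-block of G covering the p-block c of N (some member of B has a constituent in c on restriction to N), and suppose that N contains a defect group of B. Then the stabilizer T of c in G satisfies T ∩ L = N. -/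
theorem result {G : Type*} [Group G] [Fintype G] (p : ℕ) [Fact p.Prime] (M : Ideal Cfsg.AlgInt) (hM : Cfsg.IsPModular p M) (N L : Subgroup G) [N.Normal] [L.Normal] [Fintype N] (hNL : N ≤ L) (hLN : ∃ k : ℕ, (N.subgroupOf L).index = p ^ k) (B : Set (Cfsg.IrrCharacter G)) (hB : Cfsg.IsPBlock M B) (c : Set (Cfsg.IrrCharacter N)) (hc : Cfsg.IsPBlock M c) (hcov : (∃ χ ∈ B, ∃ θ ∈ c, Cfsg.classInner (fun n : N => (χ : G → ℂ) n) (θ : N → ℂ) ≠ 0)) (hD : ∃ D : Subgroup G, Cfsg.IsDefectGroup p M B D ∧ D ≤ N) (T : Subgroup G) (hT : ∀ x : G, x ∈ T ↔ Cfsg.StabilizesBlock N c x) : T ⊓ L = N := by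
  have hprime := Cfsg.Agent.H5.isPrime_of_isPModular hM
  have hfL : Fintype L := Fintype.ofFinite L
  obtain ⟨D, hD, hDN⟩ := hD
  rw [Cfsg.Agent.H5.isDefectGroup_iff_df hM hB] at hD
  have hbl := Cfsg.Agent.H5.isBl_be (M := M) hc
  have hce : Cfsg.Agent.H5.be M N c * Cfsg.Agent.H5.blk M B ≠ 0 :=
    (Cfsg.Agent.H5.cov_iff' hB hc).mp (Cfsg.Agent.H5.cov_def.mpr hcov)
  have hreg : ∀ g ∈ L, ¬ p ∣ orderOf g → g ∈ N := by
    intro g hg ho
    have h1 : (⟨g, hg⟩ : L) ∈ N.subgroupOf L :=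
      Cfsg.Agent.H5.mem_of_preg_of_index hM.1 hLN (by rwa [Subgroup.orderOf_mk])
    exact h1
  have hLnN : L ≤ Subgroup.normalizer (N : Set G) := le_trans le_top (Cfsg.Agent.H5.normalizer_normal N)
  have hcL := Cfsg.Agent.H5.isBl_osum_reg hM hNL hLnN hreg hbl
  set cL := Cfsg.Agent.H5.osum N L (Cfsg.Agent.H5.be M N c) with hcLdef
  have hmul : cL * Cfsg.Agent.H5.be M N c = Cfsg.Agent.H5.be M N c :=
    Cfsg.Agent.H5.osum_mul_mem (Cfsg.Agent.H5.self_mem_orb hbl)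
  have hmul' : Cfsg.Agent.H5.be M N c * cL = Cfsg.Agent.H5.be M N c := by
    rw [← Cfsg.Agent.H5.commute_of_fix_sup hcL.fix (Cfsg.Agent.H5.KSup_mono hNL hbl.sup)]
    exact hmul
  have hcLe : cL * Cfsg.Agent.H5.blk M B ≠ 0 := by
    intro h
    apply hce
    rw [← hmul', mul_assoc, h, mul_zero]
  obtain ⟨f, hf, -, hfD⟩ := Cfsg.Agent.H5.knorr hM (Cfsg.Agent.H5.isBl_top hB) hcL hcLe hD
  obtain ⟨-, x, -, rfl⟩ := Cfsg.Agent.H5.mem_orb.mp hf
  have hDL : D ⊓ L = D := inf_eq_left.mpr (le_trans hDN hNL)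
  rw [hDL] at hfD
  -- the defect groups of cL lie in N
  have hkey : ∀ Q : Subgroup G, IsPGroup p Q → Q ≤ L →
      Cfsg.Agent.H5.ktr (Subgroup.centralizer (Q : Set G)) cL ≠ 0 → Q ≤ N := by
    intro Q h1 h2 h3
    have h4 : Cfsg.Agent.H5.ktr (Subgroup.centralizer ((Cfsg.Agent.H5.cj x Q : Subgroup G) : Set G))
        (Cfsg.Agent.H5.kconj x cL) ≠ 0 := by
      have h5 := Cfsg.Agent.H5.kconj_ktr (Subgroup.centralizer (Q : Set G)) x cL
      rw [Cfsg.Agent.H5.map_conj_centralizer] at h5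
      rw [show Cfsg.Agent.H5.cj x Q = Q.map (MulAut.conj x).toMonoidHom from rfl, ← h5]
      intro h6
      apply h3
      apply Cfsg.Agent.H5.kconj_injective x
      rw [h6, Cfsg.Agent.H5.kconj_zero]
    obtain ⟨y, hy, hle⟩ := hfD.2.2.2 (Cfsg.Agent.H5.cj x Q) (h1.map _) (by
      intro g hg
      obtain ⟨q, hq, rfl⟩ := hg
      exact (inferInstance : L.Normal).conj_mem _ (h2 hq) x) h4
    intro q hq
    have h6 : x * q * x⁻¹ ∈ Cfsg.Agent.H5.cj y D := hle ⟨q, hq, rfl⟩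
    obtain ⟨d, hd, hde⟩ := h6
    have h7 : y * d * y⁻¹ ∈ N := (inferInstance : N.Normal).conj_mem _ (hDN hd) y
    have h8 : x * q * x⁻¹ ∈ N := by
      have h9 : y * d * y⁻¹ = x * q * x⁻¹ := hde
      rw [← h9]; exact h7
    have h10 := (inferInstance : N.Normal).conj_mem _ h8 x⁻¹
    have h11 : x⁻¹ * (x * q * x⁻¹) * x⁻¹⁻¹ = q := by group
    rwa [h11] at h10
  -- the stabilizer in L
  set S := T ⊓ L with hS
  have hTk : ∀ x : G, x ∈ T ↔ Cfsg.Agent.H5.kconj x (Cfsg.Agent.H5.be M N c) = Cfsg.Agent.H5.be M N c := fun x => by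
    rw [hT, Cfsg.Agent.H5.stabilizesBlock_iff hc]
  have hNS : N ≤ S := by
    refine le_inf ?_ hNL
    intro n hn
    rw [hTk]
    exact Cfsg.Agent.H5.mem_KFix.mp hbl.fix n hn
  have hSN : S ≤ Subgroup.normalizer (N : Set G) := le_trans le_top (Cfsg.Agent.H5.normalizer_normal N)
  have hst : Cfsg.Agent.H5.be M N c ∈ Cfsg.Agent.H5.KFix (Cfsg.Agent.H5.KK M) S := by
    rw [Cfsg.Agent.H5.mem_KFix]
    intro y hy
    exact (hTk y).mp hy.1
  have hcS := Cfsg.Agent.H5.isBl_osum_reg hM hNS hSN (fun g hg ho => hreg g hg.2 ho) hbl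
  rw [(Cfsg.Agent.H5.osum_of_stable hbl hst).1] at hcS
  obtain ⟨E, hE⟩ := Cfsg.Agent.H5.exists_df hM hcS
  have : Fact p.Prime := ⟨hM.1⟩
  have := Cfsg.Agent.H5.charP_KK hM
  have hEN : E ≤ N := by
    apply hkey E hE.1 (le_trans hE.2.1 inf_le_right)
    intro h0
    apply hE.2.2.1
    have h1 : Cfsg.Agent.H5.be M N c ∈ Cfsg.Agent.H5.KFix (Cfsg.Agent.H5.KK M) E := Cfsg.Agent.H5.KFix_mono hE.2.1 hst
    have h2 : cL ∈ Cfsg.Agent.H5.KFix (Cfsg.Agent.H5.KK M) E :=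
      Cfsg.Agent.H5.KFix_mono (le_trans hE.2.1 inf_le_right) hcL.fix
    have h3 := Cfsg.Agent.H5.ktr_mul hE.1 h2 h1
    rw [hmul, h0, zero_mul] at h3
    exact h3
  have hnd := Cfsg.Agent.H5.defect_covers hM hNS hSN hbl hst hE.2.1 hE.2.2.2 (R := N) hEN le_rfl hNS
  apply le_antisymm _ hNS
  rw [← Subgroup.relIndex_eq_one]
  obtain ⟨k, hk⟩ := hLN
  have h4 : N.relIndex S ∣ p ^ k := by
    rw [← hk]
    have h5 := Subgroup.relIndex_mul_relIndex N S L hNS inf_le_right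
    rw [show (N.subgroupOf L).index = N.relIndex L from rfl, ← h5]
    exact dvd_mul_right _ _
  obtain ⟨j, -, hj⟩ := (Nat.dvd_prime_pow hM.1).mp h4
  rcases Nat.eq_zero_or_pos j with rfl | hj0
  · simpa using hj
  · exact absurd (hj ▸ dvd_pow_self p hj0.ne') hnd

end Cfsg.Agent.S4673
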