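import Cfsg.Statements.S4674
import Cfsg.Agent.H5.W2

set_option autoImplicit false
open Cfsg

namespace Cfsg.Agent.S4674

/-- Fix a prime p and a maximal ideal M of the algebraic integers containing p. Let N be a normal subgroup of the finite group G, Q a p-subgroup of N, H = N_G(Q) and L = H ∩ N = N_N(Q). Let d be a p-block of N with defect group Q and e the p-block of L with defect group Q that induces d inside N (its Brauer correspondent). Then block induction from H to G is a bijection from the p-blocks of H covering e onto the p-blocks of G covering d: every block of H covering e induces exactly one block of G, and that block covers d; and every block of G covering d is induced by exactly one block of H covering e. -/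
theorem result {G : Type*} [Group G] [Fintype G] (p : ℕ) [Fact p.Prime] (M : Ideal Cfsg.AlgInt) (hM : Cfsg.IsPModular p M) (N : Subgroup G) [N.Normal] [Fintype N] (Q : Subgroup G) (hQ : IsPGroup p Q) (hQN : Q ≤ N) [Fintype ↥(Subgroup.normalizer (Q : Set G) ⊓ N)] (d : Set (Cfsg.IrrCharacter N)) (hd : Cfsg.IsPBlock M d) (hdQ : Cfsg.IsDefectGroup p M d (Q.subgroupOf N)) (e : Set (Cfsg.IrrCharacter ↥(Subgroup.normalizer (Q : Set G) ⊓ N))) (he : Cfsg.IsPBlock M e) (heQ : Cfsg.IsDefectGroup p M e (Q.subgroupOf (Subgroup.normalizer (Q : Set G) ⊓ N))) (hed : Cfsg.IsInducedBlockIn M N (Subgroup.normalizer (Q : Set G) ⊓ N) e d) : (∀ c : Set (Cfsg.IrrCharacter ↥(Subgroup.normalizer (Q : Set G))), Cfsg.IsPBlock M c → (∃ ψ ∈ c, ∃ ξ ∈ e, Cfsg.classInner (fun l : ↥(Subgroup.normalizer (Q : Set G) ⊓ N) => (ψ : ↥(Subgroup.normalizer (Q : Set G)) → ℂ) (Subgroup.inclusion inf_le_left l)) (ξ : ↥(Subgroup.normalizer (Q : Set G)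 ⊓ N) → ℂ) ≠ 0) → ∃! B : Set (Cfsg.IrrCharacter G), Cfsg.IsInducedBlock M (Subgroup.normalizer (Q : Set G)) c B ∧ (∃ χ ∈ B, ∃ θ ∈ d, Cfsg.classInner (fun n : N => (χ : G → ℂ) n) (θ : N → ℂ) ≠ 0)) ∧ (∀ B : Set (Cfsg.IrrCharacter G), Cfsg.IsPBlock M B → (∃ χ ∈ B, ∃ θ ∈ d, Cfsg.classInner (fun n : N => (χ : G → ℂ) n) (θ : N → ℂ) ≠ 0) → ∃! c : Set (Cfsg.IrrCharacter ↥(Subgroup.normalizer (Q : Set G))), (Cfsg.IsPBlock M c ∧ ∃ ψ ∈ c, ∃ ξ ∈ e, Cfsg.classInner (fun l : ↥(Subgroup.normalizer (Q : Set G) ⊓ N) => (ψ : ↥(Subgroup.normalizer (Q : Set G)) → ℂ) (Subgroup.inclusion inf_le_left l)) (ξ : ↥(Subgroup.normalizer (Q : Set G) ⊓ N) → ℂ) ≠ 0) ∧ Cfsg.IsInducedBlock M (Subgroup.normalizer (Q : Set G)) c B) := by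
  have hprime := Cfsg.Agent.H5.isPrime_of_isPModular hM
  have hfH : Fintype ↥(Subgroup.normalizer (Q : Set G)) := Fintype.ofFinite _
  have hL0 : Subgroup.normalizer (Q : Set G) ⊓ N ≤ Subgroup.normalizer (Q : Set G) := inf_le_left
  have hL0N : Subgroup.normalizer (Q : Set G) ⊓ N ≤ N := inf_le_right
  have hHL : Subgroup.normalizer (Q : Set G) ≤
      Subgroup.normalizer ((Subgroup.normalizer (Q : Set G) ⊓ N : Subgroup G) : Set G) := by
    intro x hx
    rw [Cfsg.Agent.H5.mem_normalizer_iff_cj, Cfsg.Agent.H5.cj_inf_normal]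
    congr 1
    rw [← Cfsg.Agent.H5.mem_normalizer_iff_cj]
    exact Subgroup.le_normalizer hx
  have hQL : Q ≤ Subgroup.normalizer (Q : Set G) ⊓ N := le_inf Subgroup.le_normalizer hQN
  have hdD := (Cfsg.Agent.H5.isDefectGroup_subgroupOf_iff hM hd hQN).mp hdQ
  have hdbl := Cfsg.Agent.H5.isBl_be (M := M) hd
  have hebl := Cfsg.Agent.H5.isBl_be (M := M) he
  obtain ⟨hfm, -⟩ := Cfsg.Agent.H5.fm1_rel hM hdbl hdD
  have hind := (Cfsg.Agent.H5.isInducedIn_iff hM hQ hQL hL0N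
    (inf_le_inf_right N (Cfsg.Agent.H5.centralizer_le_normalizer Q)) inf_le_left he hd).mp hed
  have hee : Cfsg.Agent.H5.ktr (Subgroup.centralizer (Q : Set G)) (Cfsg.Agent.H5.be M N d) =
      Cfsg.Agent.H5.be M (Subgroup.normalizer (Q : Set G) ⊓ N) e := by
    rcases Cfsg.Agent.H5.IsBl.eq_or hfm hebl with h | h
    · exact h
    · rw [hind] at h
      exact absurd h hebl.ne
  have hcovL : ∀ c : Set (IrrCharacter ↥(Subgroup.normalizer (Q : Set G))), IsPBlock M c →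
      ((∃ ψ ∈ c, ∃ ξ ∈ e, classInner (fun l : ↥(Subgroup.normalizer (Q : Set G) ⊓ N) =>
        (ψ : ↥(Subgroup.normalizer (Q : Set G)) → ℂ) (Subgroup.inclusion inf_le_left l))
          (ξ : ↥(Subgroup.normalizer (Q : Set G) ⊓ N) → ℂ) ≠ 0) ↔
        Cfsg.Agent.H5.ktr (Subgroup.centralizer (Q : Set G)) (Cfsg.Agent.H5.be M N d) *
          Cfsg.Agent.H5.be M (Subgroup.normalizer (Q : Set G)) c ≠ 0) := by
    intro c hc
    rw [hee]
    exact Cfsg.Agent.H5.cov_rel hL0 hHL hc he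
  have hcovN : ∀ B : Set (IrrCharacter G), IsPBlock M B →
      ((∃ χ ∈ B, ∃ θ ∈ d, classInner (fun n : N => (χ : G → ℂ) n) (θ : N → ℂ) ≠ 0) ↔
        Cfsg.Agent.H5.be M N d * Cfsg.Agent.H5.blk M B ≠ 0) := by
    intro B hB
    rw [← Cfsg.Agent.H5.cov_iff' hB hd, Cfsg.Agent.H5.cov_def]
  have hindH : ∀ (c : Set (IrrCharacter ↥(Subgroup.normalizer (Q : Set G)))) (B : Set (IrrCharacter G)),
      IsPBlock M c → IsPBlock M B → (IsInducedBlock M (Subgroup.normalizer (Q : Set G)) c B ↔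
        Cfsg.Agent.H5.ktr (Subgroup.centralizer (Q : Set G)) (Cfsg.Agent.H5.blk M B) *
          Cfsg.Agent.H5.be M (Subgroup.normalizer (Q : Set G)) c =
            Cfsg.Agent.H5.be M (Subgroup.normalizer (Q : Set G)) c) := by
    intro c B hc hB
    exact Cfsg.Agent.H5.isInduced_iff hM hQ Subgroup.le_normalizer (Cfsg.Agent.H5.centralizer_le_normalizer Q) le_rfl hc hB
  constructor
  · intro c hc hcov
    rw [hcovL c hc] at hcov
    have hcbl := Cfsg.Agent.H5.isBl_be (M := M) hc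
    obtain ⟨b, hb, hbc⟩ := Cfsg.Agent.H5.exists_ind hM hQ (Cfsg.Agent.H5.centralizer_le_normalizer Q) le_rfl hcbl
    obtain ⟨B, hB, rfl⟩ := Cfsg.Agent.H5.exists_top hb
    refine ⟨B, ⟨(hindH c B hc hB).mpr hbc, ?_⟩, ?_⟩
    · rw [hcovN B hB]
      exact Cfsg.Agent.H5.hk1 hM hQ hQN hdbl hb hcov hbc
    · rintro B' ⟨hB', -⟩
      have hB'2 := hB'.2.1
      rw [hindH c B' hc hB'2] at hB'
      exact Cfsg.Agent.H5.blk_inj hB'2 hB
        (Cfsg.Agent.H5.ind_unique hM hQ hcbl.ne (Cfsg.Agent.H5.isBl_top hB'2) hb hB' hbc)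
  · intro B hB hcov
    rw [hcovN B hB] at hcov
    have hb := Cfsg.Agent.H5.isBl_top (M := M) hB
    obtain ⟨c', hc', h1, h2⟩ := Cfsg.Agent.H5.hk2 hM hQ hQN hdbl hb hdD.2.2.1 hcov
    obtain ⟨c, hc, rfl⟩ := Cfsg.Agent.H5.exists_be hc'
    refine ⟨c, ⟨⟨hc, (hcovL c hc).mpr h2⟩, (hindH c B hc hB).mpr h1⟩, ?_⟩
    rintro c2 ⟨⟨hc2, hcov2⟩, hind2⟩
    rw [hindH c2 B hc2 hB] at hind2
    have hcov3 := (hcovL c2 hc2).mp hcov2
    exact Cfsg.Agent.H5.be_injective hc2 hc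
      (Cfsg.Agent.H5.hk3 hM hdbl hdD hb (Cfsg.Agent.H5.isBl_be hc2) hc' hind2 h1 hcov3 h2)

end Cfsg.Agent.S4674
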