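import Cfsg.Statements.S4677
import Cfsg.Agent.H5.K17

set_option autoImplicit false
open Cfsg

namespace Cfsg.Agent.S4677

/-- Fix a prime p and a maximal ideal M of the algebraic integers containing p, a p-block B of the finite group G and a maximal Brauer pair (P, e) of B. Then the fusion system of B on (P, e) exists and is saturated: there is a saturated fusion system over P, with ambient group G, whose maps with source a subgroup Q of P are exactly the conjugation maps by elements g of G that carry the Brauer pair (Q, e_Q) below (P, e) to a Brauer pair again below (P, e). -/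
theorem result {G : Type*} [Group G] [Fintype G] (p : ℕ) [Fact p.Prime] (M : Ideal Cfsg.AlgInt) (hM : Cfsg.IsPModular p M) (B : Set (Cfsg.IrrCharacter G)) (P : Subgroup G) (e : Set (Cfsg.IrrCharacter (Subgroup.centralizer (P : Set G)))) (hmax : Cfsg.IsMaximalBrauerPair p M B P e) : ∃ F : Cfsg.FusionSystem P, Cfsg.IsBlockFusionSystemOn p M B P e F ∧ F.IsSaturated p := by
  have hprime := Cfsg.Agent.H5.isPrime_of_isPModular hM
  have hB := hmax.1.2.1
  have he := hmax.1.1.2
  have hm := (Cfsg.Agent.H5.isMaximal_iff hM hB he).mp hmax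
  have hb := Cfsg.Agent.H5.isBl_top (M := M) hB
  refine ⟨Cfsg.Agent.H5.kFS p M hM hm.1.1 hm.1.2.1, ⟨hmax, ?_⟩, Cfsg.Agent.H5.kFS_saturated hM hb hm⟩
  intro Q φ
  rw [Cfsg.Agent.H5.kFS_hom]
  constructor
  · rintro ⟨g, h2, h3⟩
    exact ⟨h3.le, g, h2, h3.le', (Cfsg.Agent.H5.fusK_iff hM he).mpr h3⟩
  · rintro ⟨h1, g, h2, h3, h4⟩
    exact ⟨g, h2, (Cfsg.Agent.H5.fusK_iff hM he).mp h4⟩

end Cfsg.Agent.S4677
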