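import Cfsg.Statements.S4679
import Cfsg.Agent.H5.K13

set_option autoImplicit false
open Cfsg

namespace Cfsg.Agent.S4679

/-- Fix a prime p and a maximal ideal M of the algebraic integers containing p, a p-block B of the finite group G with maximal Brauer pair (P, e), its fusion system F on P, a Brauer pair (Q, f) ≤ (P, e), and let T be the stabilizer of f in N_G(Q). Then Q is fully normalized in F if and only if N_P(Q) is a defect group of the block of T whose idempotent is that of f. -/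
theorem result {G : Type*} [Group G] [Fintype G] (p : ℕ) [Fact p.Prime] (M : Ideal Cfsg.AlgInt) (hM : Cfsg.IsPModular p M) (B : Set (Cfsg.IrrCharacter G)) (P : Subgroup G) (e : Set (Cfsg.IrrCharacter (Subgroup.centralizer (P : Set G)))) (hmax : Cfsg.IsMaximalBrauerPair p M B P e) (F : Cfsg.FusionSystem P) (hF : Cfsg.IsBlockFusionSystemOn p M B P e F) (Q : Subgroup G) (f : Set (Cfsg.IrrCharacter (Subgroup.centralizer (Q : Set G)))) (hQP : Q ≤ P) (hf : Cfsg.IsPBlock M f) (hle : Cfsg.SubpairLE p M Q f P e) (T : Subgroup G) (hT : ∀ y : G, y ∈ T ↔ y ∈ Subgroup.normalizer (Q : Set G) ∧ Cfsg.StabilizesBlock (Subgroup.centralizer (Q : Set G)) f y) : F.IsFullyNormalized Q ↔ ∃ F' : Set (Cfsg.IrrCharacter T), Cfsg.IsPBlock M F' ∧ (∀ t : T, Cfsg.blockCoeff F' t = Cfsg.subgroupBlockCoeff (Subgroup.centralizer (Q : Set G)) f (t : G)) ∧ Cfsg.IsDefectGroup p M F' ((P ⊓ Subgroup.normalizer (Q : Set G)).subgroupOf T) := by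
  have hprime := Cfsg.Agent.H5.isPrime_of_isPModular hM
  have hB := hmax.1.2.1
  have he := hmax.1.1.2
  have hm := (Cfsg.Agent.H5.isMaximal_iff hM hB he).mp hmax
  have hb := Cfsg.Agent.H5.isBl_top (M := M) hB
  have hle' := Cfsg.Agent.H5.subpairLE_to hM hle
  have hQ : IsPGroup p Q := hm.1.1.to_le hQP
  have hT' := Cfsg.Agent.H5.stabilizer_eq (M := M) hf hT
  have hNT : P ⊓ Subgroup.normalizer (Q : Set G) ≤ T := by
    rw [hT']; exact (Cfsg.Agent.H5.pair_normalizer_ne hM hm.1.1 hm.1.2.1 hle').1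
  have key : (∃ F' : Set (Cfsg.IrrCharacter T), Cfsg.IsPBlock M F' ∧ (∀ t : T, Cfsg.blockCoeff F' t = Cfsg.subgroupBlockCoeff (Subgroup.centralizer (Q : Set G)) f (t : G)) ∧ Cfsg.IsDefectGroup p M F' ((P ⊓ Subgroup.normalizer (Q : Set G)).subgroupOf T)) ↔
      Cfsg.Agent.H5.Df p M (Cfsg.Agent.H5.stb Q (Cfsg.Agent.H5.be M (Subgroup.centralizer (Q : Set G)) f))
        (Cfsg.Agent.H5.be M (Subgroup.centralizer (Q : Set G)) f) (P ⊓ Subgroup.normalizer (Q : Set G)) := by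
    constructor
    · rintro ⟨F', h1, h2, h3⟩
      obtain ⟨F2, hF2, hFe2, hFt2⟩ := Cfsg.Agent.H5.exists_block_stb hM hQ hf hT'
      have hfin : Fintype T := Fintype.ofFinite T
      have h4 : Cfsg.Agent.H5.blk M F' = Cfsg.Agent.H5.blk M F2 := by
        apply Cfsg.Agent.H5.kext
        intro t
        show (Cfsg.Agent.H5.rG M _).coeff t = (Cfsg.Agent.H5.rG M _).coeff t
        rw [Cfsg.Agent.H5.rG_coeff, Cfsg.Agent.H5.rG_coeff, h2, hFt2]
      have h5 : F' = F2 := Cfsg.Agent.H5.blk_inj h1 hF2 h4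
      rw [h5, Cfsg.Agent.H5.isDefectGroup_subgroupOf_iff hM hF2 hNT, hFe2, hT'] at h3
      exact h3
    · intro h
      obtain ⟨F2, hF2, hFe2, hFt2⟩ := Cfsg.Agent.H5.exists_block_stb hM hQ hf hT'
      refine ⟨F2, hF2, hFt2, ?_⟩
      rw [Cfsg.Agent.H5.isDefectGroup_subgroupOf_iff hM hF2 hNT, hFe2, hT']
      exact h
  rw [key, ← Cfsg.Agent.H5.fn_iff hM hb hm hle']
  unfold Cfsg.FusionSystem.IsFullyNormalized Cfsg.FusionSystem.normalizerIn
  constructor
  · rintro ⟨-, h⟩ x hx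
    apply h
    rw [Cfsg.Agent.H5.isConj_iff hM hF]
    exact ⟨x, rfl, _, hle', hx⟩
  · intro h
    refine ⟨hQP, ?_⟩
    intro Q' hQ'
    rw [Cfsg.Agent.H5.isConj_iff hM hF] at hQ'
    obtain ⟨g, rfl, hg⟩ := hQ'
    rw [Cfsg.Agent.H5.FusK.iff_of hM hm.1.1 hm.1.2.1 hle'] at hg
    exact h g hg

end Cfsg.Agent.S4679
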