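import Cfsg.Statements.S4681
import Cfsg.Agent.H5.K13

set_option autoImplicit false
open Cfsg

namespace Cfsg.Agent.S4681

/-- Fix a prime p and a maximal ideal M of the algebraic integers containing p. Let B₀ be the principal p-block of the finite group G, P a Sylow p-subgroup and e₀ the principal p-block of C_G(P). Then (P, e₀) is a maximal Brauer pair of B₀, and the fusion system of B₀ on (P, e₀) is the fusion system of G on P: its maps from each subgroup of P are exactly the conjugation maps into P by elements of G. -/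
theorem result {G : Type*} [Group G] [Fintype G] (p : ℕ) [Fact p.Prime] (M : Ideal Cfsg.AlgInt) (hM : Cfsg.IsPModular p M) (S : Sylow p G) : Cfsg.IsMaximalBrauerPair p M (Cfsg.principalBlock M G) (S : Subgroup G) (Cfsg.principalBlock M (Subgroup.centralizer ((S : Subgroup G) : Set G))) ∧ ∀ F : Cfsg.FusionSystem (S : Subgroup G), Cfsg.IsBlockFusionSystemOn p M (Cfsg.principalBlock M G) (S : Subgroup G) (Cfsg.principalBlock M (Subgroup.centralizer ((S : Subgroup G) : Set G))) F → ∀ Q : Subgroup G, F.Hom Q = (Cfsg.groupFusionSystem (S : Subgroup G)).Hom Q := by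
  have hprime := Cfsg.Agent.H5.isPrime_of_isPModular hM
  have hC : Fintype (Subgroup.centralizer ((S : Subgroup G) : Set G)) := Fintype.ofFinite _
  have hB0 := Cfsg.Agent.H5.principal_isPBlock (M := M) (G := G)
  have he0 := Cfsg.Agent.H5.principal_isPBlock (M := M) (G := Subgroup.centralizer ((S : Subgroup G) : Set G))
  have htop : Cfsg.Agent.H5.e0 M (⊤ : Subgroup G) = Cfsg.Agent.H5.blk M (Cfsg.principalBlock M G) := by
    symm
    rw [Cfsg.Agent.H5.eq_e0_iff (Cfsg.Agent.H5.isBl_top hB0), Cfsg.Agent.H5.kaug_principal]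
    exact one_ne_zero
  have hS : Cfsg.Agent.H5.BP p M (Cfsg.Agent.H5.e0 M (⊤ : Subgroup G))
      ((S : Subgroup G), Cfsg.Agent.H5.e0 M (Subgroup.centralizer ((S : Subgroup G) : Set G))) :=
    Cfsg.Agent.H5.e0_bp hM S.isPGroup'
  have hm : Cfsg.Agent.H5.MaxP p M (Cfsg.Agent.H5.e0 M (⊤ : Subgroup G))
      ((S : Subgroup G), Cfsg.Agent.H5.e0 M (Subgroup.centralizer ((S : Subgroup G) : Set G))) := by
    refine ⟨hS, ?_⟩
    intro c hc hle
    exact S.is_maximal' hc.1 (Cfsg.Agent.H5.LEr.le hle)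
  have hmax : Cfsg.IsMaximalBrauerPair p M (Cfsg.principalBlock M G) (S : Subgroup G)
      (Cfsg.principalBlock M (Subgroup.centralizer ((S : Subgroup G) : Set G))) := by
    rw [Cfsg.Agent.H5.isMaximal_iff hM hB0 he0, ← htop]
    exact hm
  refine ⟨hmax, ?_⟩
  intro F hF Q
  ext φ
  rw [Cfsg.Agent.H5.hom_iff hM hF]
  constructor
  · rintro ⟨g, h1, h2⟩
    refine ⟨h2.le, ?_, g, h1⟩
    intro x
    rw [h1 x]
    exact h2.le' ⟨x, x.2, rfl⟩
  · rintro ⟨h1, h2, g, h3⟩
    refine ⟨g, h3, ?_⟩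
    have hle : Cfsg.Agent.H5.cj g Q ≤ (S : Subgroup G) := by
      rintro _ ⟨x, hx, rfl⟩
      have := h2 ⟨x, hx⟩
      rw [h3] at this
      exact this
    refine ⟨Cfsg.Agent.H5.e0 M (Subgroup.centralizer (Q : Set G)), Cfsg.Agent.H5.e0_lt_le hM S.isPGroup' h1, ?_⟩
    have h4 := Cfsg.Agent.H5.e0_lt_le (M := M) hM S.isPGroup' hle
    have h5 : Cfsg.Agent.H5.cjp g (Q, Cfsg.Agent.H5.e0 M (Subgroup.centralizer (Q : Set G))) =
        (Cfsg.Agent.H5.cj g Q, Cfsg.Agent.H5.e0 M (Subgroup.centralizer ((Cfsg.Agent.H5.cj g Q : Subgroup G) : Set G))) := by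
      unfold Cfsg.Agent.H5.cjp
      rw [Cfsg.Agent.H5.kconj_e0, Cfsg.Agent.H5.cj_centralizer']
    rw [h5]
    exact h4

end Cfsg.Agent.S4681
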