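import Cfsg.Statements.S4682
import Cfsg.Agent.H5.K15

set_option autoImplicit false
open Cfsg

namespace Cfsg.Agent.S4682

/-- Fix a prime p and a maximal ideal M of the algebraic integers containing p, a p-block B of the finite group G with maximal Brauer pair (P, e), P abelian, and a Brauer pair (Q, f) ≤ (P, e). Let T_Q be the stabilizer of f in N_G(Q) and T_P the stabilizer of e in N_G(P). Then every element of T_Q is a product of an element of T_P and an element of C_G(Q); and the index of C_G(Q) in T_Q equals the index of T_P ∩ C_G(Q) in T_P ∩ N_G(Q). -/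
theorem result {G : Type*} [Group G] [Fintype G] (p : ℕ) [Fact p.Prime] (M : Ideal Cfsg.AlgInt) (hM : Cfsg.IsPModular p M) (B : Set (Cfsg.IrrCharacter G)) (P : Subgroup G) (e : Set (Cfsg.IrrCharacter (Subgroup.centralizer (P : Set G)))) (hmax : Cfsg.IsMaximalBrauerPair p M B P e) (hab : ∀ x ∈ P, ∀ y ∈ P, x * y = y * x) (Q : Subgroup G) (f : Set (Cfsg.IrrCharacter (Subgroup.centralizer (Q : Set G)))) (hQP : Q ≤ P) (hf : Cfsg.IsPBlock M f) (hle : Cfsg.SubpairLE p M Q f P e) (TQ : Subgroup G) (hTQ : ∀ y : G, y ∈ TQ ↔ y ∈ Subgroup.normalizer (Q : Set G) ∧ Cfsg.StabilizesBlock (Subgroup.centralizer (Q : Set G)) f y) (TP : Subgroup G) (hTP : ∀ y : G, y ∈ TP ↔ y ∈ Subgroup.normalizer (P : Set G) ∧ Cfsg.StabilizesBlock (Subgroup.centralizer (P : Set G)) e y) : (∀ x ∈ TQ, ∃ y ∈ TP, ∃ c ∈ Subgroup.centralizer (Q : Set G), x = y * c) ∧ ((Subgroup.centralizer (Q : Set G)).subgroupOf TQ).index = ((TP ⊓ Subgroup.centralizer (Q : Set G)).subgroupOf (TP ⊓ Subgroup.normalizer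 (Q : Set G))).index := by
  have hprime := Cfsg.Agent.H5.isPrime_of_isPModular hM
  have hB := hmax.1.2.1
  have he := hmax.1.1.2
  have hm := (Cfsg.Agent.H5.isMaximal_iff hM hB he).mp hmax
  have hb := Cfsg.Agent.H5.isBl_top (M := M) hB
  have hle' := Cfsg.Agent.H5.subpairLE_to hM hle
  have hTQ' := Cfsg.Agent.H5.stabilizer_eq (M := M) hf hTQ
  have hTP' := Cfsg.Agent.H5.stabilizer_eq (M := M) he hTP
  have hab' : P ≤ Subgroup.centralizer (P : Set G) := by
    intro x hx
    rw [Subgroup.mem_centralizer_iff]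
    intro y hy
    exact hab y hy x hx
  have hfbl := Cfsg.Agent.H5.isBl_be (M := M) hf
  have hctl : ∀ x ∈ TQ, ∃ y ∈ TP, y ∈ Subgroup.normalizer (Q : Set G) ∧ ∃ c ∈ Subgroup.centralizer (Q : Set G), x = y * c := by
    intro x hx
    rw [hTQ'] at hx
    rw [hTP']
    exact Cfsg.Agent.H5.abelian_control hM hb hm hab' hle' hx
  refine ⟨?_, ?_⟩
  · intro x hx
    obtain ⟨y, hy, -, c, hc, hxc⟩ := hctl x hx
    exact ⟨y, hy, c, hc, hxc⟩
  · have hK : TP ⊓ Subgroup.normalizer (Q : Set G) ≤ TQ := by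
      intro y hy
      rw [hTQ', Cfsg.Agent.H5.mem_stb_iff_cjp]
      have hyN := (Subgroup.mem_inf.mp hy).2
      have hyP := (Subgroup.mem_inf.mp hy).1
      rw [hTP', Cfsg.Agent.H5.mem_stb_iff_cjp] at hyP
      have h1 := hle'.cj y
      rw [hyP] at h1
      have h2 : Cfsg.Agent.H5.cjp y (Q, Cfsg.Agent.H5.be M (Subgroup.centralizer (Q : Set G)) f) =
          (Q, Cfsg.Agent.H5.kconj y (Cfsg.Agent.H5.be M (Subgroup.centralizer (Q : Set G)) f)) := by
        unfold Cfsg.Agent.H5.cjp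
        rw [Cfsg.Agent.H5.cj_of_normalizer hyN]
      rw [h2] at h1 ⊢
      rw [Cfsg.Agent.H5.LEr.uniq hM hm.1.2.1 hm.1.1 h1 hle']
    have hC : Subgroup.centralizer (Q : Set G) ≤ TQ := by
      rw [hTQ']; exact Cfsg.Agent.H5.centralizer_le_stb hfbl
    have h1 := Cfsg.Agent.H5.relIndex_eq_of_mul hK hC (by
      intro t ht
      obtain ⟨y, hy, hyN, c, hc, hxc⟩ := hctl t ht
      exact ⟨y, Subgroup.mem_inf.mpr ⟨hy, hyN⟩, c, hc, hxc⟩)
    have h2 : (TP ⊓ Subgroup.centralizer (Q : Set G)).relIndex (TP ⊓ Subgroup.normalizer (Q : Set G)) =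
        (Subgroup.centralizer (Q : Set G)).relIndex (TP ⊓ Subgroup.normalizer (Q : Set G)) := by
      rw [← Subgroup.inf_relIndex_right (Subgroup.centralizer (Q : Set G))]
      congr 1
      apply le_antisymm
      · exact le_inf inf_le_right (le_inf inf_le_left (le_trans inf_le_right (Cfsg.Agent.H5.centralizer_le_normalizer Q)))
      · exact le_inf (le_trans inf_le_right inf_le_left) inf_le_left
    show (Subgroup.centralizer (Q : Set G)).relIndex TQ = (TP ⊓ Subgroup.centralizer (Q : Set G)).relIndex (TP ⊓ Subgroup.normalizer (Q : Set G))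
    rw [h1, h2]

end Cfsg.Agent.S4682
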