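import Cfsg.Statements.S4683
import Cfsg.Agent.H5.W13
import Cfsg.Agent.H5.Sect4
import Cfsg.Agent.H5.K9

set_option autoImplicit false
open Cfsg

namespace Cfsg.Agent.S4683

/-- Fix a prime p and a maximal ideal M of the algebraic integers containing p, a p-block B of the finite group G, a p-element u and a p-block e of C = C_G(u) such that (⟨u⟩, e) is a Brauer pair of B (a Brauer element of B). For χ ∈ B let χ_u be the e-part of the class function c ↦ χ(u c) on C and χ_u' the e-part of c ↦ χ(u⁻¹ c). Then the sum over χ ∈ B and over the p-regular elements s of C of χ_u(s)·χ_u'(s⁻¹) equals the order of C times the p-regular rank of e (the number of irreducible Brauer characters of e). -/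
theorem result {G : Type*} [Group G] [Fintype G] (p : ℕ) [Fact p.Prime] (M : Ideal Cfsg.AlgInt) (hM : Cfsg.IsPModular p M) (B : Set (Cfsg.IrrCharacter G)) (u : G) (hu : ∃ k : ℕ, orderOf u = p ^ k) (e : Set (Cfsg.IrrCharacter (Subgroup.centralizer (Subgroup.zpowers u : Set G)))) (hBe : Cfsg.IsBrauerPairOf p M B (Subgroup.zpowers u) e) : ∑ᶠ χ ∈ B, ∑ᶠ s : Subgroup.centralizer (Subgroup.zpowers u : Set G), Cfsg.pRegularPart p (Cfsg.blockPart e (fun c : Subgroup.centralizer (Subgroup.zpowers u : Set G) => (χ : G → ℂ) (u * c))) s * Cfsg.blockPart e (fun c : Subgroup.centralizer (Subgroup.zpowers u : Set G) => (χ : G → ℂ) (u⁻¹ * c)) s⁻¹ = (Nat.card (Subgroup.centralizer (Subgroup.zpowers u : Set G)) : ℂ) * (Cfsg.blockRank p e : ℂ) := by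
  have hprime := Cfsg.Agent.H5.isPrime_of_isPModular hM
  have hfC : Fintype (Subgroup.centralizer (Subgroup.zpowers u : Set G)) := Fintype.ofFinite _
  have h0 := (Cfsg.Agent.H5.isBrauerPairOf_iff hM).mp hBe
  have hcz := Cfsg.Agent.H5.centralizer_zpowers u
  have hP := Cfsg.Agent.H5.isPGroup_zpowers hu
  have hb : IsInducedBlock M (Subgroup.centralizer (Subgroup.zpowers u : Set G)) e B :=
    (Cfsg.Agent.H5.isInduced_iff hM hP (by
      rw [hcz]
      exact Subgroup.zpowers_le.mpr (Subgroup.mem_centralizer_singleton_iff.mpr rfl)) le_rfl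
      (Subgroup.centralizer_le_normalizer _) h0.2.1 h0.2.2.1).mpr h0.2.2.2
  have hcomm := Cfsg.Agent.H5.hcomm_of_eq hcz
  rw [Cfsg.Agent.H5.finsum_mem_bF, ← Cfsg.Agent.H5.con_trace hM h0.2.2.1 hu hcz hb, Finset.mul_sum]
  refine Finset.sum_congr rfl fun χ _ => ?_
  exact Cfsg.Agent.H5.subsection_norm hM hcomm χ h0.2.1

end Cfsg.Agent.S4683
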