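import Cfsg.Statements.S4686
import Cfsg.Agent.H5.K15

set_option autoImplicit false
open Cfsg

namespace Cfsg.Agent.S4686

/-- Fix a prime p and a maximal ideal M of the algebraic integers containing p, a p-block B of the finite group G with maximal Brauer pair (P, e) and fusion system F on P. Then B is nilpotent (for every Brauer pair (Q, f) of B the stabilizer of f in N_G(Q) is C_G(Q) extended by a p-group) if and only if F is the inner fusion system of P: its maps from each subgroup of P are exactly the conjugations by elements of P. -/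
theorem result {G : Type*} [Group G] [Fintype G] (p : ℕ) [Fact p.Prime] (M : Ideal Cfsg.AlgInt) (hM : Cfsg.IsPModular p M) (B : Set (Cfsg.IrrCharacter G)) (P : Subgroup G) (e : Set (Cfsg.IrrCharacter (Subgroup.centralizer (P : Set G)))) (hmax : Cfsg.IsMaximalBrauerPair p M B P e) (F : Cfsg.FusionSystem P) (hF : Cfsg.IsBlockFusionSystemOn p M B P e F) : Cfsg.IsNilpotentBlock p M B ↔ ∀ Q : Subgroup G, F.Hom Q = (Cfsg.innerFusionSystem P).Hom Q := by
  have hprime := Cfsg.Agent.H5.isPrime_of_isPModular hM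
  have hB := hmax.1.2.1
  have he := hmax.1.1.2
  have hm := (Cfsg.Agent.H5.isMaximal_iff hM hB he).mp hmax
  have hb := Cfsg.Agent.H5.isBl_top (M := M) hB
  rw [Cfsg.Agent.H5.isNilpotentBlock_iff hM hB]
  constructor
  · intro hnil Q
    ext φ
    rw [Cfsg.Agent.H5.hom_iff hM hF]
    constructor
    · rintro ⟨g, h1, f, h2, h3⟩
      obtain ⟨u, hu, c, hc, rfl⟩ := Cfsg.Agent.H5.nil_fusion hM hb hm hnil h2 h3
      refine ⟨Cfsg.Agent.H5.LEr.le h2, u, hu, ?_⟩
      intro x
      rw [h1 x]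
      have := Subgroup.mem_centralizer_iff.mp hc x x.2
      calc u * c * (x : G) * (u * c)⁻¹ = u * (c * (x : G)) * c⁻¹ * u⁻¹ := by group
        _ = u * ((x : G) * c) * c⁻¹ * u⁻¹ := by rw [this]
        _ = u * (x : G) * u⁻¹ := by group
    · rintro ⟨h1, g, hg, h2⟩
      exact ⟨g, h2, Cfsg.Agent.H5.fusK_of_mem hM hm.1.1 hm.1.2.1 h1 hg⟩
  · intro hinn a ha x hx hreg
    -- move below the maximal pair
    obtain ⟨y, hy⟩ := hm.exists_conj hM hb ha
    obtain ⟨Q, f⟩ := a
    simp only at hx ⊢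
    have hx' : y * x * y⁻¹ ∈ Cfsg.Agent.H5.stb (Cfsg.Agent.H5.cj y Q) (Cfsg.Agent.H5.kconj y f) := by
      rw [← Cfsg.Agent.H5.cj_stb]
      exact ⟨x, hx, rfl⟩
    rw [Cfsg.Agent.H5.mem_stb_iff_cjp] at hx'
    have hfus : Cfsg.Agent.H5.FusK p M (P, Cfsg.Agent.H5.be M (Subgroup.centralizer (P : Set G)) e) (Cfsg.Agent.H5.cj y Q) (y * x * y⁻¹) := by
      refine ⟨Cfsg.Agent.H5.kconj y f, hy, ?_⟩
      rw [hx']; exact hy
    have hmem : Cfsg.conjHom (Cfsg.Agent.H5.cj y Q) (y * x * y⁻¹) ∈ F.Hom (Cfsg.Agent.H5.cj y Q) :=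
      (Cfsg.Agent.H5.hom_iff hM hF).mpr ⟨y * x * y⁻¹, fun _ => rfl, hfus⟩
    rw [hinn] at hmem
    obtain ⟨-, u, hu, h2⟩ := hmem
    -- `y x y⁻¹` acts on `Q' = y Q y⁻¹` as `u`
    obtain ⟨w, hw⟩ : ∃ w : G, w = y * x * y⁻¹ := ⟨_, rfl⟩
    rw [← hw] at hx' h2
    have hwN : w ∈ Subgroup.normalizer ((Cfsg.Agent.H5.cj y Q : Subgroup G) : Set G) := by
      rw [← Cfsg.Agent.H5.mem_stb_iff_cjp] at hx'
      exact hx'.1
    have hcw : u⁻¹ * w ∈ Subgroup.centralizer ((Cfsg.Agent.H5.cj y Q : Subgroup G) : Set G) := by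
      rw [Subgroup.mem_centralizer_iff]
      intro q hq
      have h3 : w * q * w⁻¹ = u * q * u⁻¹ := h2 ⟨q, hq⟩
      calc q * (u⁻¹ * w) = u⁻¹ * (u * q * u⁻¹) * w := by group
        _ = u⁻¹ * (w * q * w⁻¹) * w := by rw [h3]
        _ = u⁻¹ * w * q := by group
    have huN : u ∈ Subgroup.normalizer ((Cfsg.Agent.H5.cj y Q : Subgroup G) : Set G) := by
      have h3 := Cfsg.Agent.H5.centralizer_le_normalizer _ hcw
      have h4 := Subgroup.mul_mem _ hwN (Subgroup.inv_mem _ h3)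
      have h5 : w * (u⁻¹ * w)⁻¹ = u := by group
      rwa [h5] at h4
    have hPp : IsPGroup p P := hm.1.1
    obtain ⟨k, hk⟩ := hPp ⟨u, hu⟩
    have hk' : u ^ p ^ k = 1 := congrArg Subtype.val hk
    -- powers
    have hpow : ∀ n : ℕ, (u ^ n)⁻¹ * w ^ n ∈ Subgroup.centralizer ((Cfsg.Agent.H5.cj y Q : Subgroup G) : Set G) := by
      intro n
      induction n with
      | zero => simp only [pow_zero, inv_one, mul_one]; exact Subgroup.one_mem _
      | succ n ih =>
        have h3 : (u ^ (n + 1))⁻¹ * w ^ (n + 1) = (u⁻¹ * ((u ^ n)⁻¹ * w ^ n) * u) * (u⁻¹ * w) := by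
          rw [pow_succ u, pow_succ w]; group
        rw [h3]
        refine Subgroup.mul_mem _ ?_ hcw
        exact Cfsg.Agent.H5.centr_move (Cfsg.Agent.H5.cj_of_normalizer huN) ih
    have h6 := hpow (p ^ k)
    rw [hk', inv_one, one_mul] at h6
    have hwreg : ¬ p ∣ orderOf w := by
      have : orderOf w = orderOf x := by
        rw [hw]
        have := orderOf_injective (MulAut.conj y).toMonoidHom (MulAut.conj y).injective x
        exact this
      rwa [this]
    have hcop : (orderOf w).Coprime (p ^ k) := Nat.Coprime.pow_right k ((Nat.Prime.coprime_iff_not_dvd hM.1).mpr hwreg).symm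
    have hwC : w ∈ Subgroup.centralizer ((Cfsg.Agent.H5.cj y Q : Subgroup G) : Set G) := by
      obtain ⟨m, hm'⟩ := exists_pow_eq_self_of_coprime hcop.symm
      rw [← hm']
      exact Subgroup.pow_mem _ h6 m
    rw [hw] at hwC
    have h7 := Cfsg.Agent.H5.centr_move (Q := Q) (v := y) rfl hwC
    have h8 : y⁻¹ * (y * x * y⁻¹) * y = x := by group
    rwa [h8] at h7

end Cfsg.Agent.S4686
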