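import Cfsg.Statements.S4687
import Cfsg.Agent.H5.K15

set_option autoImplicit false
open Cfsg

namespace Cfsg.Agent.S4687

/-- Fix a prime p and a maximal ideal M of the algebraic integers containing p, and a p-block B of the finite group G with maximal Brauer pair (P, e), P abelian. Then B is nilpotent if and only if its inertial quotient is trivial: every element of N_G(P) stabilizing e centralizes P. -/
theorem result {G : Type*} [Group G] [Fintype G] (p : ℕ) [Fact p.Prime] (M : Ideal Cfsg.AlgInt) (hM : Cfsg.IsPModular p M) (B : Set (Cfsg.IrrCharacter G)) (P : Subgroup G) (e : Set (Cfsg.IrrCharacter (Subgroup.centralizer (P : Set G)))) (hmax : Cfsg.IsMaximalBrauerPair p M B P e) (hab : ∀ x ∈ P, ∀ y ∈ P, x * y = y * x) : Cfsg.IsNilpotentBlock p M B ↔ ∀ x : G, x ∈ Subgroup.normalizer (P : Set G) → Cfsg.StabilizesBlock (Subgroup.centralizer (P : Set G)) e x → x ∈ Subgroup.centralizer (P : Set G) := by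
  have hprime := Cfsg.Agent.H5.isPrime_of_isPModular hM
  have hB := hmax.1.2.1
  have he := hmax.1.1.2
  have hm := (Cfsg.Agent.H5.isMaximal_iff hM hB he).mp hmax
  have hb := Cfsg.Agent.H5.isBl_top (M := M) hB
  have hab' : P ≤ Subgroup.centralizer (P : Set G) := by
    intro x hx
    rw [Subgroup.mem_centralizer_iff]
    intro y hy
    exact hab y hy x hx
  rw [Cfsg.Agent.H5.isNilpotentBlock_iff hM hB]
  constructor
  · intro hnil x hx hst
    have h1 := hnil.stb_le hM hm.1 (hm.df_stb hM hb)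
    have h2 : x ∈ Cfsg.Agent.H5.stb P (Cfsg.Agent.H5.be M (Subgroup.centralizer (P : Set G)) e) :=
      ⟨hx, (Cfsg.Agent.H5.stabilizes_iff (Cfsg.Agent.H5.normalizer_le_normalizer_centralizer P hx) he).mp hst⟩
    have h3 := h1 h2
    rwa [sup_eq_right.mpr hab'] at h3
  · intro h a ha x hx hreg
    obtain ⟨y, hy⟩ := hm.exists_conj hM hb ha
    obtain ⟨Q, f⟩ := a
    simp only at hx ⊢
    have hx' : y * x * y⁻¹ ∈ Cfsg.Agent.H5.stb (Cfsg.Agent.H5.cj y Q) (Cfsg.Agent.H5.kconj y f) := by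
      rw [← Cfsg.Agent.H5.cj_stb]
      exact ⟨x, hx, rfl⟩
    obtain ⟨z, hz, -, c, hc, hzc⟩ := Cfsg.Agent.H5.abelian_control hM hb hm hab' hy hx'
    have hzC : z ∈ Subgroup.centralizer (P : Set G) :=
      h z hz.1 ((Cfsg.Agent.H5.stabilizes_iff (Cfsg.Agent.H5.normalizer_le_normalizer_centralizer P hz.1) he).mpr hz.2)
    have hQP : Cfsg.Agent.H5.cj y Q ≤ P := Cfsg.Agent.H5.LEr.le hy
    have h1 : y * x * y⁻¹ ∈ Subgroup.centralizer ((Cfsg.Agent.H5.cj y Q : Subgroup G) : Set G) := by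
      rw [hzc]
      exact Subgroup.mul_mem _ (Cfsg.Agent.H5.centralizer_anti hQP hzC) hc
    have h7 := Cfsg.Agent.H5.centr_move (Q := Q) (v := y) rfl h1
    have h8 : y⁻¹ * (y * x * y⁻¹) * y = x := by group
    rwa [h8] at h7

end Cfsg.Agent.S4687
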