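import Cfsg.Statements.S4688
import Cfsg.Agent.H5.K15

set_option autoImplicit false
open Cfsg

namespace Cfsg.Agent.S4688

/-- Fix a prime p and a maximal ideal M of the algebraic integers containing p, and a nilpotent p-block B of the finite group G with maximal Brauer pair (P, e). Then for every Brauer pair (Q, f) of B, f is a nilpotent block of C_G(Q); and if moreover (Q, f) ≤ (P, e), then C_P(Q) is a defect group of f as a block of C_G(Q). -/
theorem result {G : Type*} [Group G] [Fintype G] (p : ℕ) [Fact p.Prime] (M : Ideal Cfsg.AlgInt) (hM : Cfsg.IsPModular p M) (B : Set (Cfsg.IrrCharacter G)) (P : Subgroup G) (e : Set (Cfsg.IrrCharacter (Subgroup.centralizer (P : Set G)))) (hmax : Cfsg.IsMaximalBrauerPair p M B P e) (hnil : Cfsg.IsNilpotentBlock p M B) (Q : Subgroup G) (f : Set (Cfsg.IrrCharacter (Subgroup.centralizer (Q : Set G)))) (hQf : Cfsg.IsBrauerPairOf p M B Q f) : Cfsg.IsNilpotentBlock p M f ∧ (Cfsg.SubpairLE p M Q f P e → Cfsg.IsDefectGroup p M f ((P ⊓ Subgroup.centralizer (Q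 : Set G)).subgroupOf (Subgroup.centralizer (Q : Set G)))) := by
  have hprime := Cfsg.Agent.H5.isPrime_of_isPModular hM
  have hB := hmax.1.2.1
  have he := hmax.1.1.2
  have hm := (Cfsg.Agent.H5.isMaximal_iff hM hB he).mp hmax
  have hb := Cfsg.Agent.H5.isBl_top (M := M) hB
  have hnil' := (Cfsg.Agent.H5.isNilpotentBlock_iff hM hB).mp hnil
  have hf := hQf.1.2
  have hfin : Fintype (Subgroup.centralizer (Q : Set G)) := Fintype.ofFinite _
  constructor
  · rw [Cfsg.Agent.H5.isNilpotentBlock_iff hM hf]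
    exact hnil'.centralizer hM hb hf ((Cfsg.Agent.H5.isBrauerPairOf_iff' hM hB hf).mp hQf)
  · intro hle
    have hle' := Cfsg.Agent.H5.subpairLE_to hM hle
    rw [Cfsg.Agent.H5.isDefectGroup_subgroupOf_iff hM hf inf_le_right]
    exact Cfsg.Agent.H5.nil_df hM hb hm hnil' hle'

end Cfsg.Agent.S4688
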