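import Cfsg.Statements.S4692
import Cfsg.Agent.H5.K16

set_option autoImplicit false
open Cfsg

namespace Cfsg.Agent.S4692

/-- Fix a prime p and a maximal ideal M of the algebraic integers containing p. Let N be a normal subgroup of p-power index in the finite group G and c a p-block of N stable under conjugation by G, and let B be the p-block of G whose idempotent is that of c (it exists and is unique). Then c is nilpotent as a block of N if and only if B is nilpotent as a block of G. -/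
theorem result {G : Type*} [Group G] [Fintype G] (p : ℕ) [Fact p.Prime] (M : Ideal Cfsg.AlgInt) (hM : Cfsg.IsPModular p M) (N : Subgroup G) [N.Normal] (hN : ∃ k : ℕ, N.index = p ^ k) (c : Set (Cfsg.IrrCharacter N)) (hc : Cfsg.IsPBlock M c) (hst : ∀ x : G, Cfsg.StabilizesBlock N c x) (B : Set (Cfsg.IrrCharacter G)) (hB : Cfsg.IsPBlock M B) (hBc : ∀ g : G, Cfsg.blockCoeff B g = Cfsg.subgroupBlockCoeff N c g) : Cfsg.IsNilpotentBlock p M c ↔ Cfsg.IsNilpotentBlock p M B := by
  have hprime := Cfsg.Agent.H5.isPrime_of_isPModular hM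
  have hfN : Fintype N := Fintype.ofFinite N
  have hbc : Cfsg.Agent.H5.blk M B = Cfsg.Agent.H5.emk (Cfsg.Agent.H5.KK M) N (Cfsg.Agent.H5.blk M c) := by
    rw [← Cfsg.Agent.H5.be_def]
    apply Cfsg.Agent.H5.kext
    intro g
    rw [Cfsg.Agent.H5.be_coeff, ← hBc]
    exact Cfsg.Agent.H5.rG_coeff _ g
  have hfix : Cfsg.Agent.H5.emk (Cfsg.Agent.H5.KK M) N (Cfsg.Agent.H5.blk M c) ∈
      Cfsg.Agent.H5.KFix (Cfsg.Agent.H5.KK M) (⊤ : Subgroup G) := by
    rw [← hbc]; exact Cfsg.Agent.H5.blk_mem_fix B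
  rw [Cfsg.Agent.H5.isNilpotentBlock_iff hM hB, Cfsg.Agent.H5.isNilpotentBlock_iff hM hc, hbc]
  constructor
  · exact Cfsg.Agent.H5.nil_of_subgroup hM hN (Cfsg.Agent.H5.blk_mul_self (Cfsg.Agent.H5.IsPBlock.isBU hc)) hfix
  · exact Cfsg.Agent.H5.nil_of_overgroup hM hN hfix

end Cfsg.Agent.S4692
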