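import Cfsg.Statements.S4693
import Cfsg.Agent.H5.K15

set_option autoImplicit false
open Cfsg

namespace Cfsg.Agent.S4693

/-- Fix a prime p and a maximal ideal M of the algebraic integers containing p, a p-block B of the finite group G with maximal Brauer pair (P, e) and fusion system F on P, and a Brauer pair (Q, f) ≤ (P, e) with Q centric in F. Suppose every element of G normalizes Q and stabilizes f. Then the idempotent of B agrees with that of f modulo M at every element of G, and f is the idempotent of a nilpotent block of Q·C_G(Q): some p-block of Q·C_G(Q) has the idempotent coefficients of f and is nilpotent. -/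
theorem result {G : Type*} [Group G] [Fintype G] (p : ℕ) [Fact p.Prime] (M : Ideal Cfsg.AlgInt) (hM : Cfsg.IsPModular p M) (B : Set (Cfsg.IrrCharacter G)) (P : Subgroup G) (e : Set (Cfsg.IrrCharacter (Subgroup.centralizer (P : Set G)))) (hmax : Cfsg.IsMaximalBrauerPair p M B P e) (F : Cfsg.FusionSystem P) (hF : Cfsg.IsBlockFusionSystemOn p M B P e F) (Q : Subgroup G) (f : Set (Cfsg.IrrCharacter (Subgroup.centralizer (Q : Set G)))) (hQP : Q ≤ P) (hf : Cfsg.IsPBlock M f) (hle : Cfsg.SubpairLE p M Q f P e) (hcen : F.IsCentric Q) (hG : ∀ x : G, x ∈ Subgroup.normalizer (Q : Set G) ∧ Cfsg.StabilizesBlock (Subgroup.centralizer (Q : Set G)) f x) : (∀ g : G, Cfsg.MemLocalIdeal M (Cfsg.blockCoeff B g - Cfsg.subgroupBlockCoeff (Subgroup.centralizer (Q : Set G)) f g)) ∧ ∃ F' : Set (Cfsg.IrrCharacter ↥(Q ⊔ Subgroup.centralizer (Q : Set G))), Cfsg.IsPBlock M F' ∧ (∀ t : ↥(Q ⊔ Subgroup.centralizer (Q : Set G)), Cfsg.blockCoeff F' t = Cfsg.subgroupBlockCoeff (Subgroup.centralizer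 (Q : Set G)) f (t : G)) ∧ Cfsg.IsNilpotentBlock p M F' := by
  have hprime := Cfsg.Agent.H5.isPrime_of_isPModular hM
  have hB := hmax.1.2.1
  have he := hmax.1.1.2
  have hm := (Cfsg.Agent.H5.isMaximal_iff hM hB he).mp hmax
  have hb := Cfsg.Agent.H5.isBl_top (M := M) hB
  have hle' := Cfsg.Agent.H5.subpairLE_to hM hle
  have hQ : IsPGroup p Q := hm.1.1.to_le hQP
  have hfC : Fintype (Subgroup.centralizer (Q : Set G)) := Fintype.ofFinite _
  have hfbl := Cfsg.Agent.H5.isBl_be (M := M) hf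
  have hQN : (⊤ : Subgroup G) ≤ Subgroup.normalizer (Q : Set G) := fun x _ => (hG x).1
  have hQnorm : Q.Normal := Subgroup.normalizer_eq_top_iff.mp (top_le_iff.mp hQN)
  have hfix : Cfsg.Agent.H5.be M (Subgroup.centralizer (Q : Set G)) f ∈ Cfsg.Agent.H5.KFix (Cfsg.Agent.H5.KK M) (⊤ : Subgroup G) := by
    intro x _
    exact (Cfsg.Agent.H5.stabilizes_iff (Cfsg.Agent.H5.normalizer_le_normalizer_centralizer Q (hG x).1) hf).mp (hG x).2
  have hbQ := Cfsg.Agent.H5.BP.of_le hM hb hle' hm.1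
  have hBf : Cfsg.Agent.H5.blk M B = Cfsg.Agent.H5.be M (Subgroup.centralizer (Q : Set G)) f := by
    have h1 := hbQ.2.2
    simp only at h1
    rw [Cfsg.Agent.H5.idem_ktr_normal hM hQ hb.fix hb.idem] at h1
    have h2 := Cfsg.Agent.H5.isBl_of_stable (H := ⊤) hM hQ le_top le_top hQN hfbl hfix
    rcases hb.eq_or h2 with h | h
    · exact h
    · rw [h] at h1; exact absurd h1.symm hfbl.ne
  refine ⟨?_, ?_⟩
  · intro g
    rw [← Cfsg.Agent.H5.red_eq_iff ((Cfsg.Agent.H5.IsPBlock.isBU hB).int g)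
      (Cfsg.Agent.H5.subgroupBlockCoeff_int (Cfsg.Agent.H5.IsPBlock.isBU hf) g), ← Cfsg.Agent.H5.be_coeff, ← hBf]
    exact (Cfsg.Agent.H5.rG_coeff _ g).symm
  · obtain ⟨S, hS⟩ : ∃ S : Subgroup G, S = Q ⊔ Subgroup.centralizer (Q : Set G) := ⟨_, rfl⟩
    rw [← hS]
    have hQS : Q ≤ S := by rw [hS]; exact le_sup_left
    have hCS : Subgroup.centralizer (Q : Set G) ≤ S := by rw [hS]; exact le_sup_right
    have hSN : S ≤ Subgroup.normalizer (Q : Set G) := le_trans le_top hQN
    have hfS : Fintype S := Fintype.ofFinite _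
    obtain ⟨F', hF', hFe, hFt⟩ := Cfsg.Agent.H5.exists_block_of_stable hM hQ hf hQS hCS hSN
      (Cfsg.Agent.H5.KFix_mono le_top hfix)
    refine ⟨F', hF', hFt, ?_⟩
    -- defect group
    have hcd : Cfsg.Agent.H5.Df p M (Subgroup.centralizer (Q : Set G)) (Cfsg.Agent.H5.be M (Subgroup.centralizer (Q : Set G)) f)
        (Q ⊓ Subgroup.centralizer (Q : Set G)) := by
      rw [← Cfsg.Agent.H5.centric_iff hM hb hm hle']
      intro x hx
      apply hcen.2
      rw [Cfsg.Agent.H5.isConj_iff hM hF]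
      exact ⟨x, rfl, _, hle', hx⟩
    have hblS := Cfsg.Agent.H5.isBl_be (M := M) hF'
    obtain ⟨D, hD⟩ := Cfsg.Agent.H5.exists_df hM hblS
    have hQD : Q ≤ D := hD.normal_le hM hblS hQ hQS hSN
    have hDQ : D ≤ Q := by
      have h1 : Cfsg.Agent.H5.ktr (Subgroup.centralizer ((D ⊓ Subgroup.centralizer (Q : Set G) : Subgroup G) : Set G))
          (Cfsg.Agent.H5.be M (Subgroup.centralizer (Q : Set G)) f) ≠ 0 := by
        have h2 := hD.2.2.1
        rw [hFe] at h2
        exact Cfsg.Agent.H5.ktr_ne_mono (Cfsg.Agent.H5.centralizer_anti inf_le_left) h2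
      have h2 := hcd.card_le (hD.1.to_le inf_le_left) inf_le_right h1
      have h3 : Q ⊓ Subgroup.centralizer (Q : Set G) = D ⊓ Subgroup.centralizer (Q : Set G) :=
        Cfsg.Agent.H5.isPGroup_le_of_card (inf_le_inf_right _ hQD) h2
      intro x hx
      have hxS := hD.2.1 hx
      rw [hS] at hxS
      obtain ⟨q, hq, c, hc, hqc⟩ := Cfsg.Agent.H5.exists_mul_of_mem_sup (Cfsg.Agent.H5.le_normalizer_centralizer Q) hxS
      have h4 : c ∈ D := by
        have : c = q⁻¹ * x := by rw [hqc]; group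
        rw [this]; exact D.mul_mem (D.inv_mem (hQD hq)) hx
      have h5 : c ∈ Q ⊓ Subgroup.centralizer (Q : Set G) := by rw [h3]; exact Subgroup.mem_inf.mpr ⟨h4, hc⟩
      rw [hqc]; exact Q.mul_mem hq (Subgroup.mem_inf.mp h5).1
    have hDQ' : D = Q := le_antisymm hDQ hQD
    rw [hDQ'] at hD
    rw [Cfsg.Agent.H5.isNilpotentBlock_iff hM hF']
    intro a ha x hx hreg
    -- `a.1` is contained in `Q`
    have hR : a.1.map S.subtype ≤ Q := by
      have h1 : Cfsg.Agent.H5.ktr (Subgroup.centralizer ((a.1.map S.subtype : Subgroup G) : Set G)) (Cfsg.Agent.H5.be M S F') ≠ 0 := by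
        rw [Cfsg.Agent.H5.be_def, Cfsg.Agent.H5.map_subtype_centralizer_ktr]
        intro h0
        have h2 : Cfsg.Agent.H5.ktr (Subgroup.centralizer (a.1 : Set S)) (Cfsg.Agent.H5.blk M F') = 0 := by
          apply Cfsg.Agent.H5.emk_injective S
          rw [h0, map_zero]
        have h3 := ha.2.2
        rw [h2, zero_mul] at h3
        exact ha.2.1.ne h3.symm
      obtain ⟨s, hs, hle2⟩ := hD.2.2.2 _ (ha.1.map _) (Subgroup.map_subtype_le _) h1
      rwa [Cfsg.Agent.H5.cj_of_normalizer (hSN hs)] at hle2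
    have hxC : (x : G) ∈ Subgroup.centralizer (Q : Set G) := by
      have hxS := x.2
      have hle3 : S ≤ Q ⊔ Subgroup.centralizer (Q : Set G) := hS.le
      obtain ⟨q, hq, c, hc, hqc⟩ := Cfsg.Agent.H5.exists_mul_of_mem_sup (Cfsg.Agent.H5.le_normalizer_centralizer Q) (hle3 hxS)
      obtain ⟨k, hk⟩ := hQ ⟨q, hq⟩
      have hk' : q ^ p ^ k = 1 := congrArg Subtype.val hk
      have hcomm : Commute q c := Subgroup.mem_centralizer_iff.mp hc q hq
      have h4 : (x : G) ^ p ^ k = c ^ p ^ k := by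
        rw [hqc, hcomm.mul_pow, hk', one_mul]
      have h5 : (x : G) ^ p ^ k ∈ Subgroup.centralizer (Q : Set G) := by rw [h4]; exact Subgroup.pow_mem _ hc _
      have hreg' : ¬ p ∣ orderOf (x : G) := by rwa [Subgroup.orderOf_coe]
      have hcop : (orderOf (x : G)).Coprime (p ^ k) := Nat.Coprime.pow_right k ((Nat.Prime.coprime_iff_not_dvd hM.1).mpr hreg').symm
      obtain ⟨m, hm'⟩ := exists_pow_eq_self_of_coprime hcop.symm
      rw [← hm']
      exact Subgroup.pow_mem _ h5 m
    rw [Subgroup.mem_centralizer_iff]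
    intro y hy
    apply Subtype.ext
    exact Subgroup.mem_centralizer_iff.mp hxC (y : G) (hR ⟨y, hy, rfl⟩)

end Cfsg.Agent.S4693
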