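import Cfsg.Statements.S4708
import Cfsg.Agent.H5.W9
import Cfsg.Agent.H5.Block15

set_option autoImplicit false
open Cfsg

namespace Cfsg.Agent.S4708

theorem sum_sq_le {ι : Type*} (s : Finset ι) (a : ι → ℕ) : ∑ i ∈ s, a i ^ 2 ≤ (∑ i ∈ s, a i) ^ 2 := by
  rw [sq, Finset.sum_mul]
  apply Finset.sum_le_sum
  intro i hi
  rw [sq]
  exact Nat.mul_le_mul_left _ (Finset.single_le_sum (f := a) (fun _ _ => Nat.zero_le _) hi)


/-- Let p be a prime, M a maximal ideal of the algebraic integers containing p, G a finite group and H a normal subgroup. Write λ(X) for the sum of the squares of the degrees of the irreducible characters in the principal p-block of a group X. Then λ(H) ≤ λ(G) ≤ [G : H]·λ(H). -/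
theorem result {G : Type*} [Group G] [Finite G] (p : ℕ) [Fact p.Prime] (M : Ideal Cfsg.AlgInt) (hM : Cfsg.IsPModular p M) (H : Subgroup G) [H.Normal] : (∑ᶠ θ ∈ Cfsg.principalBlock M H, Cfsg.charDegree (θ : H → ℂ) ^ 2) ≤ (∑ᶠ χ ∈ Cfsg.principalBlock M G, Cfsg.charDegree (χ : G → ℂ) ^ 2) ∧ (∑ᶠ χ ∈ Cfsg.principalBlock M G, Cfsg.charDegree (χ : G → ℂ) ^ 2) ≤ H.index * ∑ᶠ θ ∈ Cfsg.principalBlock M H, Cfsg.charDegree (θ : H → ℂ) ^ 2 := by
  have hprime := Cfsg.Agent.H5.isPrime_of_isPModular hM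
  have hfG : Fintype G := Fintype.ofFinite G
  have hfH : Fintype H := Fintype.ofFinite H
  classical
  have hB : IsPBlock M (principalBlock M G) := Cfsg.Agent.H5.principal_isPBlock
  have hb : IsPBlock M (principalBlock M H) := Cfsg.Agent.H5.principal_isPBlock
  have htG : (⟨_, Cfsg.Agent.H5.isIrrCharacter_trivial⟩ : IrrCharacter G) ∈ principalBlock M G := Cfsg.Agent.H5.one_mem_principal
  have htH : (⟨_, Cfsg.Agent.H5.isIrrCharacter_trivial⟩ : IrrCharacter H) ∈ principalBlock M H := Cfsg.Agent.H5.one_mem_principal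
  have hcov : Cfsg.Agent.H5.Cov H (principalBlock M G) (principalBlock M H) := by
    apply Cfsg.Agent.H5.cov_of htG htH
    have h1 := Cfsg.Agent.H5.classInner_irr_self (⟨_, Cfsg.Agent.H5.isIrrCharacter_trivial⟩ : IrrCharacter H)
    have h2 : classInner (fun n : H => ((⟨_, Cfsg.Agent.H5.isIrrCharacter_trivial⟩ : IrrCharacter G) : G → ℂ) n)
        ((⟨_, Cfsg.Agent.H5.isIrrCharacter_trivial⟩ : IrrCharacter H) : H → ℂ) = 1 := h1
    rw [h2]
    exact one_ne_zero
  have hcov' := (Cfsg.Agent.H5.cov_iff' hB hb).mp hcov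
  have hstab : ∀ g : G, ∀ θ ∈ principalBlock M H, ∀ θ' : IrrCharacter H,
      (θ' : H → ℂ) = Cfsg.Agent.H4.conjBy (inferInstance : H.Normal) g (θ : H → ℂ) → θ' ∈ principalBlock M H := by
    intro g θ hθ θ' h
    have h1 : Cfsg.Agent.H5.kconj g (Cfsg.Agent.H5.be M H (principalBlock M H)) = Cfsg.Agent.H5.be M H (principalBlock M H) :=
      Cfsg.Agent.H5.mem_KFix.mp (Cfsg.Agent.H5.e0_fix (M := M) (Cfsg.Agent.H5.normalizer_normal H)) g (Subgroup.mem_top g)
    exact (Cfsg.Agent.H5.stab_iff hb g).mpr h1 θ hθ θ' (fun n => congrFun h n)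
  have hunder : ∀ χ ∈ principalBlock M G, ∀ θ : IrrCharacter H,
      classInner (fun n : H => ((χ : IrrCharacter G) : G → ℂ) n) (θ : H → ℂ) ≠ 0 → θ ∈ principalBlock M H := by
    intro χ hχ θ hne
    have h1 := Cfsg.Agent.H5.cov_under hB hb hcov hχ hne
    rw [Cfsg.Agent.H5.mem_ocl_iff] at h1
    obtain ⟨g, θ₁, hθ₁, h2⟩ := h1
    exact hstab g θ₁ hθ₁ θ h2
  have hres : ∀ χ : IrrCharacter G, IsCharacter H (fun h : H => (χ : G → ℂ) h) := fun χ =>
    Cfsg.Agent.H5.isCharacter_restrict H (Cfsg.Agent.H5.irr_isCharacter χ)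
  choose m hm using fun (χ : IrrCharacter G) (θ : IrrCharacter H) => Cfsg.Agent.H5.IsCharacter.inner_nat (hres χ) θ
  have hdG : ∀ ψ : IrrCharacter G, (ψ : G → ℂ) 1 = charDegree (ψ : G → ℂ) := fun ψ =>
    Cfsg.Agent.H5.IsCharacter.one_eq_charDegree (Cfsg.Agent.H5.irr_isCharacter ψ)
  have hdH : ∀ ψ : IrrCharacter H, (ψ : H → ℂ) 1 = charDegree (ψ : H → ℂ) := fun ψ =>
    Cfsg.Agent.H5.IsCharacter.one_eq_charDegree (Cfsg.Agent.H5.irr_isCharacter ψ)
  have hdeg : ∀ χ : IrrCharacter G, charDegree (χ : G → ℂ) = ∑ θ : IrrCharacter H, m χ θ * charDegree (θ : H → ℂ) := by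
    intro χ
    have h1 := Cfsg.Agent.H5.classFun_expansion_apply (Cfsg.Agent.H5.IsCharacter.classFun (hres χ)) 1
    have h2 : ((charDegree (χ : G → ℂ) : ℕ) : ℂ) = ((∑ θ : IrrCharacter H, m χ θ * charDegree (θ : H → ℂ) : ℕ) : ℂ) := by
      rw [← hdG, Nat.cast_sum]
      have h3 : (χ : G → ℂ) 1 = (χ : G → ℂ) ((1 : H) : G) := rfl
      rw [h3]
      refine h1.trans ?_
      apply Finset.sum_congr rfl
      intro θ _
      rw [hm χ θ, hdH θ, Nat.cast_mul]
    exact_mod_cast h2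
  have hind : ∀ θ : IrrCharacter H, ∑ χ : IrrCharacter G, m χ θ * charDegree (χ : G → ℂ) = H.index * charDegree (θ : H → ℂ) := by
    intro θ
    have hcl := Cfsg.Agent.H5.indFun_classFun H (θ : H → ℂ)
    have h1 := Cfsg.Agent.H5.classFun_expansion_apply hcl 1
    have h2 : ((∑ χ : IrrCharacter G, m χ θ * charDegree (χ : G → ℂ) : ℕ) : ℂ) = ((H.index * charDegree (θ : H → ℂ) : ℕ) : ℂ) := by
      rw [Nat.cast_mul, ← hdH, ← Cfsg.Agent.H5.indFun_one, h1, Nat.cast_sum]
      apply Finset.sum_congr rfl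
      intro χ _
      rw [Nat.cast_mul, ← hdG]
      congr 1
      rw [Cfsg.Agent.H5.frobenius_reciprocity H _ (Cfsg.Agent.H5.irr_classFun χ), ← Cfsg.Agent.H5.classInner_conj_symm, hm χ θ]
      simp
    exact_mod_cast h2
  rw [Cfsg.Agent.H5.finsum_mem_bF, Cfsg.Agent.H5.finsum_mem_bF]
  set bG := Cfsg.Agent.H5.bF (principalBlock M G) with hbG
  set bH := Cfsg.Agent.H5.bF (principalBlock M H) with hbH
  constructor
  · -- lower bound
    have h1 : ∀ θ ∈ bH, charDegree (θ : H → ℂ) ^ 2 ≤ ∑ χ ∈ bG, if m χ θ = 0 then 0 else charDegree (θ : H → ℂ) ^ 2 := by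
      intro θ hθ
      obtain ⟨χ, hχ, hne⟩ := Cfsg.Agent.H5.exists_cov_char hB hb hcov' (Cfsg.Agent.H5.mem_bF.mp hθ)
      have h2 : m χ θ ≠ 0 := by
        intro h; apply hne; rw [hm χ θ, h, Nat.cast_zero]
      calc charDegree (θ : H → ℂ) ^ 2 = if m χ θ = 0 then 0 else charDegree (θ : H → ℂ) ^ 2 := by rw [if_neg h2]
        _ ≤ _ := Finset.single_le_sum (f := fun χ => if m χ θ = 0 then 0 else charDegree (θ : H → ℂ) ^ 2)
          (fun _ _ => Nat.zero_le _) (Cfsg.Agent.H5.mem_bF.mpr hχ)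
    refine le_trans (Finset.sum_le_sum h1) ?_
    rw [Finset.sum_comm]
    apply Finset.sum_le_sum
    intro χ hχ
    calc ∑ θ ∈ bH, (if m χ θ = 0 then 0 else charDegree (θ : H → ℂ) ^ 2) ≤ ∑ θ ∈ bH, (m χ θ * charDegree (θ : H → ℂ)) ^ 2 := by
          apply Finset.sum_le_sum
          intro θ _
          split_ifs with h
          · exact Nat.zero_le _
          · apply Nat.pow_le_pow_left
            exact Nat.le_mul_of_pos_left _ (Nat.pos_of_ne_zero h)
      _ ≤ (∑ θ ∈ bH, m χ θ * charDegree (θ : H → ℂ)) ^ 2 := sum_sq_le _ _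
      _ ≤ (∑ θ : IrrCharacter H, m χ θ * charDegree (θ : H → ℂ)) ^ 2 := by
          apply Nat.pow_le_pow_left
          exact Finset.sum_le_sum_of_subset (Finset.subset_univ _)
      _ = charDegree (χ : G → ℂ) ^ 2 := by rw [← hdeg]
  · -- upper bound
    calc ∑ χ ∈ bG, charDegree (χ : G → ℂ) ^ 2 = ∑ χ ∈ bG, ∑ θ ∈ bH, charDegree (θ : H → ℂ) * (m χ θ * charDegree (χ : G → ℂ)) := by
          apply Finset.sum_congr rfl
          intro χ hχ
          have h1 : charDegree (χ : G → ℂ) = ∑ θ ∈ bH, m χ θ * charDegree (θ : H → ℂ) := by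
            rw [hdeg χ]
            symm
            apply Finset.sum_subset (Finset.subset_univ _)
            intro θ _ hθ
            have h2 : m χ θ = 0 := by
              by_contra h
              apply hθ
              apply Cfsg.Agent.H5.mem_bF.mpr
              apply hunder χ (Cfsg.Agent.H5.mem_bF.mp hχ) θ
              rw [hm χ θ]
              exact_mod_cast h
            rw [h2, zero_mul]
          have h3 : charDegree (χ : G → ℂ) ^ 2 = charDegree (χ : G → ℂ) * ∑ θ ∈ bH, m χ θ * charDegree (θ : H → ℂ) := by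
            rw [sq, ← h1]
          rw [h3, Finset.mul_sum]
          apply Finset.sum_congr rfl
          intro θ _
          ring
      _ = ∑ θ ∈ bH, charDegree (θ : H → ℂ) * ∑ χ ∈ bG, m χ θ * charDegree (χ : G → ℂ) := by
          rw [Finset.sum_comm]
          apply Finset.sum_congr rfl
          intro θ _
          rw [Finset.mul_sum]
      _ ≤ ∑ θ ∈ bH, charDegree (θ : H → ℂ) * (H.index * charDegree (θ : H → ℂ)) := by
          apply Finset.sum_le_sum
          intro θ _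
          apply Nat.mul_le_mul_left
          rw [← hind θ]
          exact Finset.sum_le_sum_of_subset (Finset.subset_univ _)
      _ = H.index * ∑ θ ∈ bH, charDegree (θ : H → ℂ) ^ 2 := by
          rw [Finset.mul_sum]
          apply Finset.sum_congr rfl
          intro θ _
          ring

end Cfsg.Agent.S4708
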