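import Cfsg.Statements.S4713
import Cfsg.Agent.H5.W23

set_option autoImplicit false
open Cfsg

namespace Cfsg.Agent.S4713

/-- Let p be a prime and G a finite p-solvable group. Then G has a normal abelian Sylow p-subgroup if and only if the degree of every irreducible character of G is prime to p. -/
theorem result {G : Type*} [Group G] [Finite G] (p : ℕ) [Fact p.Prime] (hsolv : Cfsg.IsPSolvable p G) (P : Sylow p G) : ((P : Subgroup G).Normal ∧ IsMulCommutative P) ↔ ∀ χ : Cfsg.IrrCharacter G, ¬ p ∣ Cfsg.charDegree (χ : G → ℂ) := by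
  have hfG : Fintype G := Fintype.ofFinite G
  constructor
  · rintro ⟨hn, hab⟩ χ
    exact Cfsg.Agent.H5.deg_of_abelian hn P.not_dvd_index (fun x hx y hy =>
      congrArg Subtype.val (hab.is_comm.comm ⟨x, hx⟩ ⟨y, hy⟩)) χ
  · intro hdeg
    obtain ⟨Q, hQn, hQ, hidx, hab⟩ := Cfsg.Agent.H5.ito_psolv hsolv hdeg
    have hQP : Q = (P : Subgroup G) := by
      have h1 : Q ≤ (P : Subgroup G) := Cfsg.Agent.L0.normal_le_sylow hQ P
      apply le_antisymm h1
      rw [← Subgroup.relIndex_eq_one]
      obtain ⟨k, hk⟩ := IsPGroup.iff_card.mp P.2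
      have h2 : Q.relIndex (P : Subgroup G) ∣ p ^ k := by rw [← hk]; exact Subgroup.relIndex_dvd_card _ _
      obtain ⟨j, -, hj⟩ := (Nat.dvd_prime_pow (Fact.out : p.Prime)).mp h2
      rcases Nat.eq_zero_or_pos j with h0 | h0
      · rw [hj, h0, pow_zero]
      · exfalso
        apply hidx
        rw [← Subgroup.relIndex_mul_index h1, hj]
        exact Dvd.dvd.mul_right (dvd_pow_self p h0.ne') _
    subst hQP
    exact ⟨hQn, ⟨⟨fun a b => Subtype.ext (hab a a.2 b b.2)⟩⟩⟩

end Cfsg.Agent.S4713
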