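import Cfsg.Statements.S4714
import Cfsg.Agent.H5.W12

set_option autoImplicit false
open Cfsg

namespace Cfsg.Agent.S4714

/-- Let p be a prime, M a maximal ideal of the algebraic integers containing p, D a p-subgroup of the finite group G with G = D·C_G(D), and B a p-block with defect group D. Let χ be a member of B having D in its kernel (there is exactly one, the canonical character of B). Then the irreducible characters in B are exactly the functions θ on G for which there is an irreducible character ζ of D such that θ(yx) = ζ(y)χ(x) whenever y ∈ D, x has order prime to p and x commutes with y, and θ(z) = 0 whenever the p-part of z does not lie in D. -/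
theorem result {G : Type*} [Group G] [Finite G] (p : ℕ) [Fact p.Prime] (M : Ideal Cfsg.AlgInt) (hM : Cfsg.IsPModular p M) (D : Subgroup G) (hD : IsPGroup p D) (hG : D ⊔ Subgroup.centralizer (D : Set G) = ⊤) (B : Set (Cfsg.IrrCharacter G)) (hB : Cfsg.IsPBlock M B) (hBD : Cfsg.IsDefectGroup p M B D) (χ : Cfsg.IrrCharacter G) (hχ : χ ∈ B) (hχD : ∀ y ∈ D, (χ : G → ℂ) y = (χ : G → ℂ) 1) : (∀ θ : Cfsg.IrrCharacter G, θ ∈ B ↔ ∃ ζ : Cfsg.IrrCharacter D, (∀ (y : D) (x : G), ¬ p ∣ orderOf x → Commute (y : G) x → (θ : G → ℂ) ((y : G) * x) = (ζ : D → ℂ) y * (χ : G → ℂ) x) ∧ (∀ z : G, (∀ y : G, Cfsg.IsPPart p z y → y ∉ D) → (θ : G → ℂ) z = 0)) ∧ ∀ ζ : Cfsg.IrrCharacter D, ∃ θ ∈ B, (∀ (y : D) (x : G), ¬ p ∣ orderOf x → Commute (y : G) x → (θ : G → ℂ) ((y : G) * x) = (ζ : D → ℂ) y * (χ : G → ℂ) x) ∧ (∀ z : G, (∀ y : G, Cfsg.IsPPart p z y → y ∉ D) → (θ : G → ℂ) z = 0) := by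
  have hprime := Cfsg.Agent.H5.isPrime_of_isPModular hM
  have hfG : Fintype G := Fintype.ofFinite G
  have hn := Cfsg.Agent.H5.pc_normal hG
  have key : ∀ (θ : Cfsg.IrrCharacter G) (ζ : Cfsg.IrrCharacter D),
      (∀ (y : D) (x : G), ¬ p ∣ orderOf x → (θ : G → ℂ) (y * x) = (ζ : D → ℂ) y * (χ : G → ℂ) x) →
      (∀ (y : D) (x : G), ¬ p ∣ orderOf x → Commute (y : G) x → (θ : G → ℂ) ((y : G) * x) = (ζ : D → ℂ) y * (χ : G → ℂ) x) :=
    fun θ ζ h y x hx _ => h y x hx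
  have key2 : ∀ (θ : Cfsg.IrrCharacter G) (ζ : Cfsg.IrrCharacter D),
      (∀ (y : D) (x : G), ¬ p ∣ orderOf x → Commute (y : G) x → (θ : G → ℂ) ((y : G) * x) = (ζ : D → ℂ) y * (χ : G → ℂ) x) →
      (∀ (y : D) (x : G), ¬ p ∣ orderOf x → (θ : G → ℂ) (y * x) = (ζ : D → ℂ) y * (χ : G → ℂ) x) := by
    intro θ ζ h y x hx
    exact h y x hx (Subgroup.mem_centralizer_iff.mp (Cfsg.Agent.H5.pc_reg hM.1 hD hG hx) y y.2)
  have hvan : ∀ θ ∈ B, ∀ z : G, (∀ y : G, Cfsg.IsPPart p z y → y ∉ D) → (θ : G → ℂ) z = 0 := by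
    intro θ hθ z hz
    apply Cfsg.Agent.H5.pc_vanish hM hB hBD hθ
    rintro ⟨y, hy, hyz⟩
    exact hz y hyz hy
  have hex : ∀ ζ : Cfsg.IrrCharacter D, ∃ θ ∈ B, (∀ (y : D) (x : G), ¬ p ∣ orderOf x → Commute (y : G) x →
      (θ : G → ℂ) ((y : G) * x) = (ζ : D → ℂ) y * (χ : G → ℂ) x) ∧
      (∀ z : G, (∀ y : G, Cfsg.IsPPart p z y → y ∉ D) → (θ : G → ℂ) z = 0) := by
    intro ζ
    obtain ⟨θ, hθ, h⟩ := Cfsg.Agent.H5.pc_all hM hD hG hB hBD hχ hχD ζ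
    exact ⟨θ, hθ, key θ ζ h, hvan θ hθ⟩
  refine ⟨fun θ => ⟨fun hθ => ?_, ?_⟩, hex⟩
  · obtain ⟨ζ, h⟩ := Cfsg.Agent.H5.pc_form hM hD hG hB hBD hχ hχD hθ
    exact ⟨ζ, key θ ζ h, hvan θ hθ⟩
  · rintro ⟨ζ, h1, h2⟩
    obtain ⟨θ', hθ', h3, h4⟩ := hex ζ
    have : θ = θ' := by
      apply Subtype.ext
      apply Cfsg.Agent.H5.pc_inj hM hD hG
      · intro g hg
        exact h2 g (fun y hy hyD => hg ⟨y, hyD, hy⟩)
      · intro g hg
        exact h4 g (fun y hy hyD => hg ⟨y, hyD, hy⟩)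
      · intro y x hx
        rw [key2 θ ζ h1 y x hx, key2 θ' ζ h3 y x hx]
    rw [this]; exact hθ'

end Cfsg.Agent.S4714
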