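import Cfsg.Statements.S4715
import Cfsg.Agent.H5.W40
import Cfsg.Agent.H5.W26
import Cfsg.Agent.H5.W3

set_option autoImplicit false
open Cfsg

namespace Cfsg.Agent.S4715

/-- Let p be a prime, M a maximal ideal of the algebraic integers containing p, B a p-block of the finite group G with defect group D of order p^d, H = D·C_G(D), b a block of H inducing B, T the stabilizer of b in N_G(D) and e = [T : H] the inertial index of B; let n be the integer with p^n ≤ e < p^(n+1) and p^c the order of the centre of D. Then every irreducible character in B has height h with h + c ≤ n + d. -/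
theorem result {G : Type*} [Group G] [Finite G] (p : ℕ) [Fact p.Prime] (M : Ideal Cfsg.AlgInt) (hM : Cfsg.IsPModular p M) (B : Set (Cfsg.IrrCharacter G)) (hB : Cfsg.IsPBlock M B) (D : Subgroup G) (hBD : Cfsg.IsDefectGroup p M B D) (d : ℕ) (hDd : Nat.card D = p ^ d) (H : Subgroup G) (hH : H = D ⊔ Subgroup.centralizer (D : Set G)) (b : Set (Cfsg.IrrCharacter H)) (hind : Cfsg.IsInducedBlock M H b B) (T : Subgroup G) (hT : ∀ g : G, g ∈ T ↔ (g ∈ Subgroup.normalizer (D : Set G) ∧ ∀ θ ∈ b, ∀ θ' : Cfsg.IrrCharacter H, (∀ h h' : H, (h' : G) = g * h * g⁻¹ → (θ' : H → ℂ) h' = (θ : H → ℂ) h) → θ' ∈ b)) (e : ℕ) (he : H.relIndex T = e) (n : ℕ) (hn : p ^ n ≤ e ∧ e < p ^ (n + 1)) (c : ℕ) (hc : Nat.card (Subgroup.center D) = p ^ c) : ∀ χ ∈ B, Cfsg.blockHeight p B (χ : G → ℂ) + c ≤ n + d := by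
  open Cfsg.Agent.H5 in
  classical
  have hprime := isPrime_of_isPModular hM
  have hfG : Fintype G := Fintype.ofFinite G
  have hdf := df_of_isDefectGroup hM hB hBD
  have hDp := hdf.1
  have hbl := isBl_top (M := M) hB
  have h1 : D ≤ H := by rw [hH]; exact le_sup_left
  have h2 : Subgroup.centralizer (D : Set G) ≤ H := by rw [hH]; exact le_sup_right
  have h3 : H ≤ Subgroup.normalizer (D : Set G) := by
    rw [hH]; exact sup_le Subgroup.le_normalizer (centralizer_le_normalizer D)
  have hC := isBl_centralizer_of_sup2 hM hDp hH (isBl_be (M := M) hind.1)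
  have hBP : BP p M (blk M B) (D, be M H b) := ⟨hDp, hC, (isInduced_iff hM hDp h1 h2 h3 hind.1 hB).mp hind⟩
  have hmax := maxP_of_df hM hbl hBP hdf
  have hstT : stb D (be M H b) ≤ T := by
    intro g hg
    rw [mem_stb] at hg
    rw [hT]
    refine ⟨hg.1, ?_⟩
    intro θ hθ θ' hθ'
    have h4 : g ∈ Subgroup.normalizer (H : Set G) := by rw [hH]; exact normalizer_sup_centralizer D hg.1
    have h5 := cjB_eq_of_fix (IsPBlock.isBU hind.1) h4 hg.2
    rw [← h5]
    exact ⟨θ, hθ, fun c c' hcc => hθ' c c' hcc⟩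
  have hne : (D ⊔ Subgroup.centralizer (D : Set G)).relIndex T ≠ 0 := by
    rw [Subgroup.relIndex]; exact Subgroup.index_ne_zero_of_finite
  have hE : (D ⊔ Subgroup.centralizer (D : Set G)).relIndex (stb D (be M H b)) ≤ e := by
    refine (Subgroup.relIndex_le_of_le_right hstT hne).trans (le_of_eq ?_)
    rw [← he]
    exact congrArg (fun K : Subgroup G => K.relIndex T) hH.symm
  have hcard := card_defectGroup hM hB hBD
  rw [hDd] at hcard
  have hd : d = Cfsg.blockDefect p B := Nat.pow_right_injective hM.1.two_le hcard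
  intro χ hχ
  have hb := center_bound hM hB hmax hχ hE
  rw [hc, ← hd, ← pow_add] at hb
  have hb2 : p ^ (c + Cfsg.blockHeight p B (χ : G → ℂ)) < p ^ (d + (n + 1)) := by
    calc p ^ (c + Cfsg.blockHeight p B (χ : G → ℂ)) ≤ p ^ d * e := hb
      _ < p ^ d * p ^ (n + 1) := Nat.mul_lt_mul_of_pos_left hn.2 (pow_pos hM.1.pos _)
      _ = p ^ (d + (n + 1)) := (pow_add _ _ _).symm
  have hb3 := (Nat.pow_lt_pow_iff_right hM.1.one_lt).mp hb2
  omega

end Cfsg.Agent.S4715
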