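import Cfsg.Statements.S4717
import Cfsg.Agent.H5.K17
import Cfsg.Agent.H5.Prin1
import Cfsg.Agent.H5.V7

set_option autoImplicit false
open Cfsg

namespace Cfsg.Agent.S4717

/-- A nontrivial `p`-subgroup has a central element of order `p`. -/
theorem exists_central {G : Type*} [Group G] [Finite G] {p : ℕ} [hp : Fact p.Prime] {D : Subgroup G} (hD : IsPGroup p D)
    (hne : D ≠ ⊥) : ∃ y ∈ D, orderOf y = p ∧ ∀ d ∈ D, d * y = y * d := by
  have : Nontrivial D := (Subgroup.nontrivial_iff_ne_bot D).mpr hne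
  have := hD.center_nontrivial
  have hZ : IsPGroup p (Subgroup.center D) := hD.to_subgroup _
  obtain ⟨n, hn⟩ := IsPGroup.iff_card.mp hZ
  have hn0 : n ≠ 0 := by
    rintro rfl
    rw [pow_zero] at hn
    exact (Finite.one_lt_card_iff_nontrivial.mpr this).ne' hn
  obtain ⟨z, hz⟩ := exists_prime_orderOf_dvd_card' (G := Subgroup.center D) p (by rw [hn]; exact dvd_pow_self p hn0)
  refine ⟨((z : D) : G), (z : D).2, ?_, ?_⟩
  · rw [Subgroup.orderOf_coe, Subgroup.orderOf_coe, hz]
  · intro d hd
    have := Subgroup.mem_center_iff.mp z.2 ⟨d, hd⟩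
    exact congrArg Subtype.val this

open Cfsg.Agent.H5 in
theorem part1 {G : Type*} [Group G] [Finite G] (p : ℕ) [Fact p.Prime] (M : Ideal Cfsg.AlgInt) (hM : Cfsg.IsPModular p M)
    {y : G} (hy : ∃ k : ℕ, orderOf y = p ^ k) {C : Subgroup G} (hC : C = Subgroup.centralizer ({y} : Set G))
    {B' : Set (Cfsg.IrrCharacter C)} (hB' : Cfsg.IsPBlock M B') (hne : B' ≠ Cfsg.principalBlock M C) :
    ∃ B : Set (Cfsg.IrrCharacter G), Cfsg.IsPBlock M B ∧ B ≠ Cfsg.principalBlock M G ∧
      Cfsg.blockDefect p B' ≤ Cfsg.blockDefect p B := by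
  have hprime := isPrime_of_isPModular hM
  have hfG : Fintype G := Fintype.ofFinite G
  have hfC : Fintype C := Fintype.ofFinite C
  have hP := isPGroup_zpowers hy
  have hCz := centralizer_zpowers y
  have hxC := mem_of_eq hC
  have hdef : Cfsg.InducedBlockDefined M C B' := by
    apply inducedBlockDefined hM hP (H := C) _ _ _ hB'
    · rw [Subgroup.zpowers_le]; exact hxC
    · rw [hCz, hC]
    · rw [hC]; exact centralizer_le_norm y
  obtain ⟨B, hind⟩ := id hdef
  refine ⟨B, hind.2.1, ?_, ?_⟩
  · rintro rfl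
    exact hne ((third_main hM hdef).mp hind)
  · obtain ⟨D, hD⟩ := exists_defectGroup hM hB'
    obtain ⟨E, hE, hDE⟩ := defect_le_of_induced hM hind hD
    have h1 := card_defectGroup hM hB' hD
    have h2 := card_defectGroup hM hind.2.1 hE
    have h3 : Nat.card (D.map C.subtype) = Nat.card D :=
      (Nat.card_congr (D.equivMapOfInjective C.subtype C.subtype_injective).toEquiv).symm
    have h4 := Subgroup.card_le_of_le hDE
    rw [h3, h1, h2] at h4
    exact (Nat.pow_le_pow_iff_right hM.1.one_lt).mp h4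

open Cfsg.Agent.H5 in
theorem part2 {G : Type*} [Group G] [Finite G] (p : ℕ) [Fact p.Prime] (M : Ideal Cfsg.AlgInt) (hM : Cfsg.IsPModular p M)
    {r : ℕ} (hr : 0 < r) (h : ∀ y : G, orderOf y = p → ∀ B' : Set (Cfsg.IrrCharacter (Subgroup.centralizer ({y} : Set G))),
      Cfsg.IsPBlock M B' → B' ≠ Cfsg.principalBlock M (Subgroup.centralizer ({y} : Set G)) → Cfsg.blockDefect p B' < r)
    {B : Set (Cfsg.IrrCharacter G)} (hB : Cfsg.IsPBlock M B) (hne : B ≠ Cfsg.principalBlock M G) :
    Cfsg.blockDefect p B < r := by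
  have hprime := isPrime_of_isPModular hM
  have hfG : Fintype G := Fintype.ofFinite G
  by_contra hlt
  push Not at hlt
  obtain ⟨D, hD⟩ := exists_defectGroup hM hB
  have hdf := df_of_isDefectGroup hM hB hD
  have hDp := hdf.1
  have hcard := card_defectGroup hM hB hD
  have hDne : D ≠ ⊥ := by
    rintro rfl
    rw [Subgroup.card_bot] at hcard
    have h1 : Cfsg.blockDefect p B = 0 := by
      by_contra h0
      have := Nat.one_lt_pow h0 hM.1.one_lt
      omega
    omega
  obtain ⟨y, hyD, hyo, hyc⟩ := exists_central hDp hDne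
  have hb := isBl_top (M := M) hB
  obtain ⟨hN1, hN2⟩ := fm1 hM hb hdf
  obtain ⟨e, he, hbe⟩ := exists_Bl_of_idem (H := Subgroup.centralizer (D : Set G))
    (ktr_mem_KSup (Subgroup.centralizer (D : Set G)) (blk M B)) (KFix_mono (centralizer_le_normalizer D) hN1.fix) hN1.idem hN1.ne
  have hbp : BP p M (blk M B) (D, e) := ⟨hDp, he, hbe⟩
  have hzD : Subgroup.zpowers y ≤ D := by rw [Subgroup.zpowers_le]; exact hyD
  obtain ⟨f, hf, hle⟩ := LEr.exists_below hM hDp he hzD
  have hbf : BP p M (blk M B) (Subgroup.zpowers y, f) := (LEr.bp_iff hM hb.idem hb.fix hle).mpr hbp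
  have hne' := pair_centralizer_ne hM hDp he hle
  have hDC : D ≤ Subgroup.centralizer ((Subgroup.zpowers y : Subgroup G) : Set G) := by
    rw [centralizer_zpowers]
    intro d hd
    rw [Subgroup.mem_centralizer_singleton_iff]
    exact hyc d hd
  rw [inf_eq_left.mpr hDC] at hne'
  obtain ⟨B', hB', hbe'⟩ := exists_be hf
  have hzp : IsPGroup p (Subgroup.zpowers y) := hDp.to_le hzD
  by_cases hpr : B' = Cfsg.principalBlock M (Subgroup.centralizer ((Subgroup.zpowers y : Subgroup G) : Set G))
  · have h1 : kaug f ≠ 0 := by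
      rw [← hbe', hpr, kaug_be_principal]
      exact one_ne_zero
    have h2 : f = e0 M (Subgroup.centralizer ((Subgroup.zpowers y : Subgroup G) : Set G)) := (eq_e0_iff hf).mpr h1
    have h3 := e0_bp (G := G) (M := M) hM hzp
    obtain ⟨b', -, huniq⟩ := exists_unique_bp (a := (Subgroup.zpowers y, f)) hM hzp hf
    have h4 := huniq _ ⟨hb, hbf⟩
    have h5 := huniq _ ⟨isBl_e0 (M := M) (⊤ : Subgroup G), by rw [h2]; exact h3⟩
    apply hne
    apply eq_principal_of_kaug (M := M) hB
    rw [h4, ← h5, kaug_e0]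
    exact one_ne_zero
  · have h5 : Cfsg.blockDefect p B' < r := by
      have key : ∀ (C : Subgroup G), C = Subgroup.centralizer ({y} : Set G) → ∀ B' : Set (Cfsg.IrrCharacter C),
          Cfsg.IsPBlock M B' → B' ≠ Cfsg.principalBlock M C → Cfsg.blockDefect p B' < r := by
        rintro C rfl
        exact h y hyo
      exact key _ (centralizer_zpowers y) B' hB' hpr
    obtain ⟨R, hR⟩ := exists_df hM hf
    have h6 : Nat.card D ≤ Nat.card R := hR.card_le hDp hDC hne'
    rw [← hbe'] at hR
    have h7 := df_card_sub hM hB' hR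
    rw [hcard, h7] at h6
    have h8 := (Nat.pow_le_pow_iff_right hM.1.one_lt).mp h6
    omega

/-- Let p be a prime, M a maximal ideal of the algebraic integers containing p, and r a natural number; say that a finite group X has deficiency class r when X has no non-principal p-block of defect ≥ r. If G has deficiency class r then so does the centralizer of every p-element of G; conversely, if r > 0 and the centralizer of every element of order p has deficiency class r, then G has deficiency class r. -/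
theorem result {G : Type*} [Group G] [Finite G] (p : ℕ) [Fact p.Prime] (M : Ideal Cfsg.AlgInt) (hM : Cfsg.IsPModular p M) (r : ℕ) : ((∀ B' : Set (Cfsg.IrrCharacter G), Cfsg.IsPBlock M B' → B' ≠ Cfsg.principalBlock M G → Cfsg.blockDefect p B' < r) → ∀ y : G, (∃ k : ℕ, orderOf y = p ^ k) → (∀ B' : Set (Cfsg.IrrCharacter ↥(Subgroup.centralizer ({y} : Set G))), Cfsg.IsPBlock M B' → B' ≠ Cfsg.principalBlock M ↥(Subgroup.centralizer ({y} : Set G)) → Cfsg.blockDefect p B' < r)) ∧ (0 < r → (∀ y : G, orderOf y = p → (∀ B' : Set (Cfsg.IrrCharacter ↥(Subgroup.centralizer ({y} : Set G))), Cfsg.IsPBlock M B' → B' ≠ Cfsg.principalBlock M ↥(Subgroup.centralizer ({y} : Set G)) → Cfsg.blockDefect p B' < r)) → (∀ B' : Set (Cfsg.IrrCharacter G), Cfsg.IsPBlock M B' → B' ≠ Cfsg.principalBlock M G → Cfsg.blockDefect p B' < r)) := by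
  constructor
  · intro h y hy B' hB' hne
    obtain ⟨B, hB, hBne, hle⟩ := part1 p M hM hy rfl hB' hne
    exact lt_of_le_of_lt hle (h B hB hBne)
  · intro hr h B hB hne
    exact part2 p M hM hr h hB hne

end Cfsg.Agent.S4717
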