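import Cfsg.Statements.S4723
import Cfsg.Agent.H5.W10

set_option autoImplicit false
open Cfsg

namespace Cfsg.Agent.S4723

/-- Let p be a prime, M a maximal ideal of the algebraic integers containing p, H a normal subgroup of the finite group G and b a p-block of H. Let T be the stabilizer of b in G. Then b contains a character θ of height zero whose own stabilizer in G (the elements g with θ(g h g⁻¹) = θ(h) for all h ∈ H) has index prime to p in T, i.e. contains a Sylow p-subgroup of T. -/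
theorem result {G : Type*} [Group G] [Finite G] (p : ℕ) [Fact p.Prime] (M : Ideal Cfsg.AlgInt) (hM : Cfsg.IsPModular p M) (H : Subgroup G) [H.Normal] (b : Set (Cfsg.IrrCharacter ↥H)) (hb : Cfsg.IsPBlock M b) (T : Subgroup G) (hT : (∀ g : G, g ∈ T ↔ ∀ θ ∈ b, ∀ θ' : Cfsg.IrrCharacter ↥H, (∀ h h' : ↥H, (h' : G) = g * h * g⁻¹ → (θ' : ↥H → ℂ) h' = (θ : ↥H → ℂ) h) → θ' ∈ b)) : ∃ θ ∈ b, Cfsg.blockHeight p b (θ : ↥H → ℂ) = 0 ∧ ∃ S : Subgroup G, S ≤ T ∧ (∀ g : G, g ∈ S ↔ (g ∈ T ∧ ∀ h h' : ↥H, (h' : G) = g * h * g⁻¹ → (θ : ↥H → ℂ) h' = (θ : ↥H → ℂ) h)) ∧ ¬ p ∣ S.relIndex T := by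
  have hprime := Cfsg.Agent.H5.isPrime_of_isPModular hM
  have hfG : Fintype G := Fintype.ofFinite G
  have hfH : Fintype H := Fintype.ofFinite H
  have hfT : Fintype T := Fintype.ofFinite T
  have hTk : ∀ x : G, x ∈ T ↔ Cfsg.Agent.H5.kconj x (Cfsg.Agent.H5.be M H b) = Cfsg.Agent.H5.be M H b := fun x => by
    rw [hT]
    exact Cfsg.Agent.H5.cjB_sub_iff (Cfsg.Agent.H5.normalizer_normal H (Subgroup.mem_top x)) hb
  have hbl := Cfsg.Agent.H5.isBl_be (M := M) hb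
  have hHT : H ≤ T := Cfsg.Agent.H5.fr_le hbl hTk
  have hfH' : Fintype (H.subgroupOf T) := Fintype.ofFinite _
  have hn : (H.subgroupOf T).Normal := inferInstance
  have hb' : IsPBlock M (Cfsg.Agent.H5.irrE (Cfsg.Agent.H5.subE hHT) '' b) := (Cfsg.Agent.H5.isPBlock_equiv _ _).mpr hb
  have hst : Cfsg.Agent.H5.be M (H.subgroupOf T) (Cfsg.Agent.H5.irrE (Cfsg.Agent.H5.subE hHT) '' b) ∈
      Cfsg.Agent.H5.KFix (Cfsg.Agent.H5.KK M) (⊤ : Subgroup T) := by
    rw [← Cfsg.Agent.H5.emk_mem_KFix_iff, Cfsg.Agent.H5.be_subE hHT b]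
    exact Cfsg.Agent.H5.fr_fix hTk
  obtain ⟨θ', ⟨θ, hθ, rfl⟩, h0, hidx⟩ := Cfsg.Agent.H5.stable_height_zero hM hb' hst
  rw [Cfsg.Agent.H5.blockHeight_equiv] at h0
  refine ⟨θ, hθ, h0, ?_⟩
  set I := Cfsg.Agent.H4.inertia hn ((Cfsg.Agent.H5.irrE (Cfsg.Agent.H5.subE hHT) θ : IrrCharacter (H.subgroupOf T)) : H.subgroupOf T → ℂ) with hI
  refine ⟨I.map T.subtype, ?_, ?_, ?_⟩
  · rintro _ ⟨x, -, rfl⟩; exact x.2
  · intro g
    have key : ∀ t : T, t ∈ I ↔ ∀ h h' : H, (h' : G) = (t : G) * h * (t : G)⁻¹ → (θ : H → ℂ) h' = (θ : H → ℂ) h := by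
      intro t
      rw [hI, Cfsg.Agent.H4.mem_inertia]
      constructor
      · intro h x y hxy
        have h1 := congrFun h (Cfsg.Agent.H5.subE hHT x)
        rw [Cfsg.Agent.H5.irrE_apply'] at h1
        rw [← h1]
        have h2 : Cfsg.Agent.H4.conjAut hn t (Cfsg.Agent.H5.subE hHT x) = Cfsg.Agent.H5.subE hHT y := by
          apply Subtype.ext
          apply Subtype.ext
          show (t : G) * (x : G) * (t : G)⁻¹ = (y : G)
          exact hxy.symm
        rw [Cfsg.Agent.H4.conjBy_apply, h2, Cfsg.Agent.H5.irrE_apply']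
      · intro h
        funext x'
        obtain ⟨x, rfl⟩ := (Cfsg.Agent.H5.subE hHT).surjective x'
        rw [Cfsg.Agent.H4.conjBy_apply]
        obtain ⟨y, hy⟩ := (Cfsg.Agent.H5.subE hHT).surjective (Cfsg.Agent.H4.conjAut hn t (Cfsg.Agent.H5.subE hHT x))
        have h2 : (y : G) = (t : G) * (x : G) * (t : G)⁻¹ := congrArg (fun z : H.subgroupOf T => ((z : T) : G)) hy
        rw [← hy, Cfsg.Agent.H5.irrE_apply', Cfsg.Agent.H5.irrE_apply']
        exact h x y h2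
    constructor
    · rintro ⟨t, ht, rfl⟩
      exact ⟨t.2, (key t).mp ht⟩
    · rintro ⟨h1, h2⟩
      exact ⟨⟨g, h1⟩, (key ⟨g, h1⟩).mpr h2, rfl⟩
  · have h1 : (I.map T.subtype).relIndex T = I.index := by
      rw [Subgroup.relIndex]
      congr 1
      exact Subgroup.comap_map_eq_self_of_injective T.subtype_injective I
    rw [h1]
    exact hidx

end Cfsg.Agent.S4723
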