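import Cfsg.Statements.S4725
import Cfsg.Agent.H5.W8

set_option autoImplicit false
open Cfsg

namespace Cfsg.Agent.S4725

/-- Let p be a prime, M a maximal ideal of the algebraic integers containing p, H a subgroup of the finite group G, and b a p-block of H inducing the p-block B of G, with b and B of the same defect. Then for every height-zero ζ ∈ b there is a height-zero χ ∈ B whose multiplicity in the character induced from ζ is not divisible by p. -/
theorem result {G : Type*} [Group G] [Fintype G] (p : ℕ) [Fact p.Prime] (M : Ideal Cfsg.AlgInt) (hM : Cfsg.IsPModular p M) (H : Subgroup G) (b : Set (Cfsg.IrrCharacter ↥H)) (B : Set (Cfsg.IrrCharacter G)) (hind : Cfsg.IsInducedBlock M H b B) (hdef : Cfsg.blockDefect p b = Cfsg.blockDefect p B) (ζ : Cfsg.IrrCharacter ↥H) (hζ : ζ ∈ b) (hζ0 : Cfsg.blockHeight p b (ζ : ↥H → ℂ) = 0) : ∃ χ ∈ B, Cfsg.blockHeight p B (χ : G → ℂ) = 0 ∧ ∃ a : ℕ, Cfsg.classInner (Cfsg.indFun H (ζ : ↥H → ℂ)) (χ : G → ℂ) =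 (a : ℂ) ∧ ¬ p ∣ a := by
  have hprime := Cfsg.Agent.H5.isPrime_of_isPModular hM
  have hfH : Fintype H := Fintype.ofFinite H
  classical
  have hb := hind.1
  have hB := hind.2.1
  have hchar := Cfsg.Agent.H5.isCharacter_indFun H (Cfsg.Agent.H5.irr_isCharacter ζ)
  have hdeg := Cfsg.Agent.H5.IsCharacter.one_eq_charDegree hchar
  have hdegζ := Cfsg.Agent.H5.IsCharacter.one_eq_charDegree (Cfsg.Agent.H5.irr_isCharacter ζ)
  have hidx0 : H.index ≠ 0 := Subgroup.index_ne_zero_of_finite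
  have hζ1 := (Cfsg.Agent.H5.charDegree_pos ζ.2).ne'
  have hdd : charDegree (indFun H (ζ : H → ℂ)) = H.index * charDegree (ζ : H → ℂ) := by
    have h1 : ((charDegree (indFun H (ζ : H → ℂ)) : ℕ) : ℂ) = ((H.index * charDegree (ζ : H → ℂ) : ℕ) : ℂ) := by
      rw [← hdeg, Cfsg.Agent.H5.indFun_one, hdegζ, Nat.cast_mul]
    exact_mod_cast h1
  have hm0 : charDegree (indFun H (ζ : H → ℂ)) ≠ 0 := by
    rw [hdd]; exact Nat.mul_ne_zero hidx0 hζ1
  choose n hn using fun ψ : IrrCharacter G => Cfsg.Agent.H5.IsCharacter.inner_nat hchar ψ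
  have hd : ∀ ψ : IrrCharacter G, (ψ : G → ℂ) 1 = charDegree (ψ : G → ℂ) := fun ψ =>
    Cfsg.Agent.H5.IsCharacter.one_eq_charDegree (Cfsg.Agent.H5.irr_isCharacter ψ)
  have hval : blockPart B (indFun H (ζ : H → ℂ)) 1 =
      ((∑ ψ : IrrCharacter G, n ψ * (if ψ ∈ B then charDegree (ψ : G → ℂ) else 0) : ℕ) : ℂ) := by
    rw [Cfsg.Agent.H5.blockPart_apply, Nat.cast_sum]
    apply Finset.sum_congr rfl
    intro ψ _
    rw [hn ψ, hd ψ]
    by_cases h : ψ ∈ B
    · rw [Cfsg.Agent.H5.ind1_mem h, if_pos h]; push_cast; ring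
    · rw [Cfsg.Agent.H5.ind1_not_mem h, if_neg h]; push_cast; ring
  obtain ⟨χ₀, hχ₀⟩ := Cfsg.Agent.H5.IsPBlock.nonempty' hind.2.1
  have h1 := Cfsg.Agent.H5.blockPart_ind_congr hind hB hζ hχ₀
  rw [hval, hdeg, Cfsg.Agent.H5.ind1_mem hχ₀] at h1
  obtain ⟨h2, h3⟩ := Cfsg.Agent.H5.div_sub_one hM hm0 h1
  set S := ∑ ψ : IrrCharacter G, n ψ * (if ψ ∈ B then charDegree (ψ : G → ℂ) else 0) with hS
  have e1 := Cfsg.Agent.H5.blockDefect_add (p := p) b ⟨ζ, hζ⟩
  have e2 := Cfsg.Agent.H5.blockDefect_add (p := p) B ⟨χ₀, hχ₀⟩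
  have e3 := Cfsg.Agent.H5.blockHeight_add (p := p) hζ
  have e4 : (Nat.card G).factorization p = (Nat.card H).factorization p + H.index.factorization p := by
    rw [← Subgroup.card_mul_index H, Nat.factorization_mul Nat.card_pos.ne' hidx0]; rfl
  have e5 : (charDegree (indFun H (ζ : H → ℂ))).factorization p =
      H.index.factorization p + (charDegree (ζ : H → ℂ)).factorization p := by
    rw [hdd, Nat.factorization_mul hidx0 hζ1]; rfl
  have e6 : S.factorization p = Cfsg.Agent.H5.minExp p B := by omega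
  by_contra hcon
  push Not at hcon
  have hdvd : p ^ (Cfsg.Agent.H5.minExp p B + 1) ∣ S := by
    rw [hS]
    apply Finset.dvd_sum
    intro ψ _
    by_cases h : ψ ∈ B
    · rw [if_pos h]
      have hψ1 := (Cfsg.Agent.H5.charDegree_pos ψ.2).ne'
      have e7 := Cfsg.Agent.H5.blockHeight_add (p := p) h
      by_cases h0 : blockHeight p B (ψ : G → ℂ) = 0
      · have h5 := hcon ψ h h0 (n ψ) (hn ψ)
        rw [pow_succ, mul_comm]
        apply Nat.mul_dvd_mul h5
        rw [(Fact.out : p.Prime).pow_dvd_iff_le_factorization hψ1]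
        omega
      · apply Dvd.dvd.mul_left
        rw [(Fact.out : p.Prime).pow_dvd_iff_le_factorization hψ1]
        omega
    · rw [if_neg h, mul_zero]
      exact dvd_zero _
  rw [(Fact.out : p.Prime).pow_dvd_iff_le_factorization h2, e6] at hdvd
  omega

end Cfsg.Agent.S4725
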