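import Cfsg.Statements.S4726
import Cfsg.Agent.H5.W7

set_option autoImplicit false
open Cfsg

namespace Cfsg.Agent.S4726

/-- Let p be a prime, M a maximal ideal of the algebraic integers containing p, H a subgroup of the finite group G and b a p-block of H with defect group D₀ such that C_G(D₀) ≤ H. Then b induces a block of G, and for every block B of G induced by b there is a defect group D of B with Z(D) ≤ Z(D₀) ≤ D₀ ≤ D (as subgroups of G). In particular, if the defect groups of B are abelian then D₀ is a defect group of B. -/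
theorem result {G : Type*} [Group G] [Finite G] (p : ℕ) [Fact p.Prime] (M : Ideal Cfsg.AlgInt) (hM : Cfsg.IsPModular p M) (H : Subgroup G) (b : Set (Cfsg.IrrCharacter ↥H)) (hb : Cfsg.IsPBlock M b) (D₀ : Subgroup ↥H) (hD₀ : Cfsg.IsDefectGroup p M b D₀) (hC : Subgroup.centralizer ((D₀.map H.subtype : Subgroup G) : Set G) ≤ H) : Cfsg.InducedBlockDefined M H b ∧ ∀ B : Set (Cfsg.IrrCharacter G), Cfsg.IsInducedBlock M H b B → (∃ D : Subgroup G, Cfsg.IsDefectGroup p M B D ∧ (Subgroup.center ↥D).map D.subtype ≤ ((Subgroup.center ↥D₀).map D₀.subtype).map H.subtype ∧ ((Subgroup.center ↥D₀).map D₀.subtype).map H.subtype ≤ D₀.map H.subtype ∧ D₀.map H.subtype ≤ D) ∧ (∀ D : Subgroup G, Cfsg.IsDefectGroup p M B D → IsMulCommutative ↥D → Cfsg.IsDefectGroup p M B (D₀.map H.subtype)) := by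
  have hprime := Cfsg.Agent.H5.isPrime_of_isPModular hM
  have := Fintype.ofFinite G
  have hbl := Cfsg.Agent.H5.isBl_be (M := M) hb
  have hD := (Cfsg.Agent.H5.isDefectGroup_sub_iff hM hb).mp hD₀
  obtain ⟨β, hβ, hβf, hom⟩ := Cfsg.Agent.H5.ind_of_df hM hbl hD hC
  obtain ⟨B₁, hB₁, rfl⟩ := Cfsg.Agent.H5.exists_top hβ
  have hind : IsInducedBlock M H b B₁ := (Cfsg.Agent.H5.isInduced_iff_omb hb hB₁).mpr hom
  refine ⟨⟨B₁, hind⟩, ?_⟩
  intro B hB
  have hBB : B = B₁ := Cfsg.Agent.H5.induced_unique hB hind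
  subst hBB
  obtain ⟨P, hP, hDP, hZ⟩ := Cfsg.Agent.H5.df_of_ind hM hbl hD hC hβ hβf
  constructor
  · refine ⟨P, (Cfsg.Agent.H5.isDefectGroup_iff_df hM hB₁).mpr hP, ?_, ?_, hDP⟩
    · intro z hz
      have hzD := hZ hz
      obtain ⟨z', hz', rfl⟩ := hz
      obtain ⟨h₀, hh₀, hh₀'⟩ := hzD
      refine ⟨h₀, ⟨⟨h₀, hh₀⟩, ?_, rfl⟩, hh₀'⟩
      show (⟨h₀, hh₀⟩ : D₀) ∈ Subgroup.center D₀
      rw [Subgroup.mem_center_iff]
      intro d
      apply Subtype.ext
      apply Subtype.ext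
      have h1 := (Subgroup.mem_center_iff.mp hz') ⟨((d : H) : G), hDP ⟨d, d.2, rfl⟩⟩
      have h2 := congrArg Subtype.val h1
      show ((d : H) : G) * (h₀ : G) = (h₀ : G) * ((d : H) : G)
      have h3 : (h₀ : G) = (z' : G) := hh₀'
      rw [h3]
      exact h2
    · rintro _ ⟨x, ⟨y, -, rfl⟩, rfl⟩
      exact ⟨y, y.2, rfl⟩
  · intro D hDB hab
    have hD' := (Cfsg.Agent.H5.isDefectGroup_iff_df hM hB₁).mp hDB
    obtain ⟨x, -, hx⟩ := hD'.conj_eq hP
    have hPD : P ≤ D₀.map H.subtype := by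
      refine le_trans ?_ hZ
      intro y hy
      refine ⟨⟨y, hy⟩, ?_, rfl⟩
      show (⟨y, hy⟩ : P) ∈ Subgroup.center P
      rw [Subgroup.mem_center_iff]
      intro w
      apply Subtype.ext
      show (w : G) * y = y * (w : G)
      have hw : (w : G) ∈ Cfsg.Agent.H5.cj x D := by rw [← hx]; exact w.2
      have hy' : y ∈ Cfsg.Agent.H5.cj x D := by rw [← hx]; exact hy
      obtain ⟨w₁, hw₁, hw₂⟩ := hw
      obtain ⟨y₁, hy₁, hy₂⟩ := hy'
      have hw₂' : x * w₁ * x⁻¹ = (w : G) := hw₂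
      have hy₂' : x * y₁ * x⁻¹ = y := hy₂
      have hc : w₁ * y₁ = y₁ * w₁ := congrArg Subtype.val (hab.is_comm.comm ⟨w₁, hw₁⟩ ⟨y₁, hy₁⟩)
      rw [← hw₂', ← hy₂']
      calc x * w₁ * x⁻¹ * (x * y₁ * x⁻¹) = x * (w₁ * y₁) * x⁻¹ := by group
        _ = x * (y₁ * w₁) * x⁻¹ := by rw [hc]
        _ = x * y₁ * x⁻¹ * (x * w₁ * x⁻¹) := by group
    have h4 : P = D₀.map H.subtype := le_antisymm hPD hDP
    rw [← h4]
    exact (Cfsg.Agent.H5.isDefectGroup_iff_df hM hB₁).mpr hP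

end Cfsg.Agent.S4726
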