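import Cfsg.Statements.S4733
import Cfsg.Agent.H5.Block16

set_option autoImplicit false
open Cfsg

namespace Cfsg.Agent.S4733

/-- Let p be a prime, M a maximal ideal of the algebraic integers containing p, and B a p-block of the finite group G with k irreducible characters and p-regular rank l (the number of irreducible Brauer characters). Then l ≤ k, and the following are equivalent: B has defect 0; k = l = 1; k = l. -/
theorem result {G : Type*} [Group G] [Finite G] (p : ℕ) [Fact p.Prime] (M : Ideal Cfsg.AlgInt) (hM : Cfsg.IsPModular p M) (B : Set (Cfsg.IrrCharacter G)) (hB : Cfsg.IsPBlock M B) : Cfsg.blockRank p B ≤ Nat.card B ∧ (Cfsg.blockDefect p B = 0 ↔ (Nat.card B = 1 ∧ Cfsg.blockRank p B = 1)) ∧ (Cfsg.blockDefect p B = 0 ↔ Nat.card B = Cfsg.blockRank p B) := by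
  have := Fintype.ofFinite G
  have hprime := Cfsg.Agent.H5.isPrime_of_isPModular hM
  have h0 : Cfsg.blockDefect p B = 0 → Nat.card B = 1 := by
    intro h
    obtain ⟨χ, hχ⟩ := Cfsg.Agent.H5.IsPBlock.nonempty' hB
    rw [Cfsg.Agent.H5.block_of_defect_zero hM hB h hχ]
    simp
  have hle := Cfsg.Agent.H5.blockRank_le (p := p) B
  have hpos := Cfsg.Agent.H5.blockRank_pos hM hB
  have hlt : Nat.card B = Cfsg.blockRank p B → Cfsg.blockDefect p B = 0 := by
    intro h
    by_contra hd
    have := Cfsg.Agent.H5.blockRank_lt hM hB (Nat.pos_of_ne_zero hd)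
    omega
  refine ⟨hle, ⟨fun h => ⟨h0 h, ?_⟩, fun h => hlt ?_⟩, ⟨fun h => ?_, hlt⟩⟩
  · have := h0 h; omega
  · omega
  · have := h0 h; omega

end Cfsg.Agent.S4733
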