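import Cfsg.Statements.S4736
import Cfsg.Agent.H5.W23
import Cfsg.Agent.H5.V5
import Cfsg.Agent.H5.W20
import Cfsg.Agent.H5.V4
import Cfsg.Agent.H5.Infl

set_option autoImplicit false
open Cfsg

namespace Cfsg.Agent.S4736

/-- Let p be a prime, M a maximal ideal of the algebraic integers containing p, and G a finite p-solvable group with Sylow p-subgroup P. Then P is abelian if and only if every irreducible character in the principal p-block of G has height zero. -/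
theorem result {G : Type*} [Group G] [Finite G] (p : ℕ) [Fact p.Prime] (M : Ideal Cfsg.AlgInt) (hM : Cfsg.IsPModular p M) (hsolv : Cfsg.IsPSolvable p G) (P : Sylow p G) : IsMulCommutative P ↔ ∀ χ ∈ Cfsg.principalBlock M G, Cfsg.blockHeight p (Cfsg.principalBlock M G) (χ : G → ℂ) = 0 := by
  have hprime := Cfsg.Agent.H5.isPrime_of_isPModular hM
  have hfG : Fintype G := Fintype.ofFinite G
  have hone : Cfsg.charDegree ((Cfsg.Agent.H5.oneC G : Cfsg.IrrCharacter G) : G → ℂ) = 1 := by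
    have h7 := Cfsg.Agent.H5.IsCharacter.one_eq_charDegree (Cfsg.Agent.H5.irr_isCharacter (Cfsg.Agent.H5.oneC G))
    rw [Cfsg.Agent.H5.oneC_apply] at h7
    exact_mod_cast h7.symm
  have hmin : Cfsg.Agent.H5.minExp p (Cfsg.principalBlock M G) = 0 := by
    have h5 := Cfsg.Agent.H5.minExp_le (p := p) (Cfsg.Agent.H5.oneC_mem (G := G) hM)
    rw [hone] at h5
    simpa using h5
  have hht : ∀ χ ∈ Cfsg.principalBlock M G, (Cfsg.blockHeight p (Cfsg.principalBlock M G) (χ : G → ℂ) = 0 ↔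
      ¬ p ∣ Cfsg.charDegree (χ : G → ℂ)) := by
    intro χ hχ
    rw [Cfsg.Agent.H5.height_zero_iff hχ, hmin]
    constructor
    · intro h hd
      have := hM.1.factorization_pos_of_dvd (Cfsg.Agent.H5.charDegree_pos χ.2).ne' hd
      omega
    · intro h
      exact Nat.factorization_eq_zero_of_not_dvd h
  obtain ⟨N, hNdef⟩ : ∃ N : Subgroup G, N = Cfsg.pPrimeCore p G := ⟨_, rfl⟩
  have hN : N.Normal := by rw [hNdef]; exact Cfsg.Agent.H5.normal_pPrimeCore p G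
  have hNp : ¬ p ∣ Nat.card N := by rw [hNdef]; exact Cfsg.Agent.H5.not_dvd_pPrimeCore hM G
  have hfQ : Fintype (G ⧸ N) := Fintype.ofFinite _
  have hsolvQ : Cfsg.IsPSolvable p (G ⧸ N) := Cfsg.Agent.H2.psolvable_surj hsolv (QuotientGroup.mk' N) (QuotientGroup.mk'_surjective N)
  have hcore : Cfsg.pPrimeCore p (G ⧸ N) = ⊥ := by
    subst hNdef
    exact Cfsg.Agent.L0.pPrimeCore_quotient_pPrimeCore p G
  have hcent := Cfsg.Agent.H5.psolv_centralizer_le hM.1 hsolvQ hcore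
  have hPN : ∀ x ∈ (P : Subgroup G), x ∈ N → x = 1 := by
    intro x hx hxN
    obtain ⟨k, hk⟩ := P.2 ⟨x, hx⟩
    have hk' : x ^ p ^ k = 1 := congrArg Subtype.val hk
    have h1 : orderOf x ∣ Nat.card N := by
      have := orderOf_dvd_natCard (⟨x, hxN⟩ : N)
      rwa [← Subgroup.orderOf_coe] at this
    have h2 : (p ^ k).Coprime (Nat.card N) := Nat.Coprime.pow_left k ((Nat.Prime.coprime_iff_not_dvd hM.1).mpr hNp)
    exact orderOf_eq_one_iff.mp (Nat.eq_one_of_dvd_coprimes h2 (orderOf_dvd_of_pow_eq_one hk') h1)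
  obtain ⟨Pb, hPb⟩ : ∃ Pb : Sylow p (G ⧸ N), (Pb : Subgroup (G ⧸ N)) = (P : Subgroup G).map (QuotientGroup.mk' N) :=
    ⟨P.mapSurjective (QuotientGroup.mk'_surjective N), rfl⟩
  constructor
  · intro hab χ hχ
    rw [hht χ hχ]
    have hker : ∀ n ∈ N, (χ : G → ℂ) n = (χ : G → ℂ) 1 := by
      intro n hn
      have := Cfsg.Agent.H5.principal_ker hM hNp hχ n hn 1
      rwa [mul_one] at this
    obtain ⟨θ, hθ⟩ := Cfsg.Agent.H5.irr_deflate χ.2 hker
    have h3 : Cfsg.charDegree (χ : G → ℂ) = Cfsg.charDegree (θ : G ⧸ N → ℂ) := by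
      unfold Cfsg.charDegree; rw [hθ]; rfl
    rw [h3]
    have hPbab : ∀ x ∈ (Pb : Subgroup (G ⧸ N)), ∀ y ∈ (Pb : Subgroup (G ⧸ N)), x * y = y * x := by
      rw [hPb]
      rintro _ ⟨x, hx, rfl⟩ _ ⟨y, hy, rfl⟩
      have h4 : x * y = y * x := congrArg Subtype.val (hab.is_comm.comm ⟨x, hx⟩ ⟨y, hy⟩)
      rw [← map_mul, ← map_mul, h4]
    have hcoreP : Cfsg.pCore p (G ⧸ N) ≤ (Pb : Subgroup (G ⧸ N)) := Cfsg.Agent.L0.pCore_le_sylow Pb
    have hPbeq : (Pb : Subgroup (G ⧸ N)) ≤ Cfsg.pCore p (G ⧸ N) := by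
      refine le_trans ?_ hcent
      intro x hx
      rw [Subgroup.mem_centralizer_iff]
      intro y hy
      exact hPbab y (hcoreP hy) x hx
    have hPbn : (Pb : Subgroup (G ⧸ N)).Normal := by
      rw [le_antisymm hPbeq hcoreP]
      exact inferInstance
    exact Cfsg.Agent.H5.deg_of_abelian hPbn Pb.not_dvd_index hPbab θ
  · intro h
    have hcn : (Cfsg.pCore p (G ⧸ N)).Normal := inferInstance
    have hdeg : ∀ θ : Cfsg.IrrCharacter (G ⧸ N), ¬ p ∣ Cfsg.charDegree (θ : G ⧸ N → ℂ) := by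
      intro θ
      have h1 := Cfsg.Agent.H5.one_block hM (Cfsg.Agent.L0.pCore_isPGroup p (G ⧸ N)) hcent (Cfsg.Agent.H5.oneC (G ⧸ N)) θ
      have h2 := Cfsg.Agent.H5.sameBlock_inflate h1
      have hirr := Cfsg.Agent.H5.irr_inflate (N := N) θ
      obtain ⟨χ, hχ⟩ : ∃ χ : Cfsg.IrrCharacter G, (χ : G → ℂ) = (θ : G ⧸ N → ℂ) ∘ QuotientGroup.mk := ⟨⟨_, hirr⟩, rfl⟩
      have h3 : Cfsg.charDegree (χ : G → ℂ) = Cfsg.charDegree (θ : G ⧸ N → ℂ) := by
        unfold Cfsg.charDegree; rw [hχ]; rfl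
      rw [← h3]
      have hmem : χ ∈ Cfsg.principalBlock M G := by
        apply Cfsg.Agent.H5.IsPBlock.mem_of_sameBlock (Cfsg.Agent.H5.principal_isPBlock (M := M) (G := G)) (Cfsg.Agent.H5.oneC_mem hM)
        rw [hχ]
        exact h2
      exact (hht χ hmem).mp (h χ hmem)
    obtain ⟨Q, hQn, hQ, hidx, hab⟩ := Cfsg.Agent.H5.ito_psolv hsolvQ hdeg
    have hPbQ : (Pb : Subgroup (G ⧸ N)) ≤ Q := by
      have h1 : Q ≤ (Pb : Subgroup (G ⧸ N)) := Cfsg.Agent.L0.normal_le_sylow hQ Pb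
      rw [← Subgroup.relIndex_eq_one]
      obtain ⟨k, hk⟩ := IsPGroup.iff_card.mp Pb.2
      have h2 : Q.relIndex (Pb : Subgroup (G ⧸ N)) ∣ p ^ k := by rw [← hk]; exact Subgroup.relIndex_dvd_card _ _
      obtain ⟨j, -, hj⟩ := (Nat.dvd_prime_pow hM.1).mp h2
      rcases Nat.eq_zero_or_pos j with h0 | h0
      · rw [hj, h0, pow_zero]
      · exfalso
        apply hidx
        rw [← Subgroup.relIndex_mul_index h1, hj]
        exact Dvd.dvd.mul_right (dvd_pow_self p h0.ne') _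
    refine ⟨⟨fun a b => Subtype.ext ?_⟩⟩
    have ha : (QuotientGroup.mk' N) (a : G) ∈ Q := hPbQ (by rw [hPb]; exact ⟨a, a.2, rfl⟩)
    have hb : (QuotientGroup.mk' N) (b : G) ∈ Q := hPbQ (by rw [hPb]; exact ⟨b, b.2, rfl⟩)
    have h1 := hab _ ha _ hb
    rw [← map_mul, ← map_mul] at h1
    have h2 : ((a : G) * b)⁻¹ * (b * a) ∈ N := QuotientGroup.eq.mp h1
    have h3 : ((a : G) * b)⁻¹ * (b * a) = 1 :=
      hPN _ ((P : Subgroup G).mul_mem ((P : Subgroup G).inv_mem ((P : Subgroup G).mul_mem a.2 b.2)) ((P : Subgroup G).mul_mem b.2 a.2)) h2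
    show (a : G) * b = b * a
    rw [inv_mul_eq_one] at h3
    exact h3

end Cfsg.Agent.S4736
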