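import Cfsg.Statements.S4964
import Cfsg.Agent.H5.V5

set_option autoImplicit false
open Cfsg

namespace Cfsg.Agent.S4964

/-- Let D be a normal p-subgroup of the finite group G, let D′ be its commutator subgroup (normal in G), and fix a maximal ideal M of the algebraic integers containing p. Then (i) two irreducible characters of G ⧸ D′ lie in the same p-block if and only if their inflations to G do, and (ii) every p-block of G contains the inflation of some irreducible character of G ⧸ D′; so inflation induces a bijection between the p-blocks of G ⧸ D′ and the p-blocks of G. -/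
theorem result {G : Type*} [Group G] [Finite G] (p : ℕ) [Fact p.Prime] (M : Ideal Cfsg.AlgInt) (hM : Cfsg.IsPModular p M) (D : Subgroup G) [D.Normal] (hD : IsPGroup p D) : (∀ χ ψ : Cfsg.IrrCharacter (G ⧸ ⁅D, D⁆), Cfsg.SameBlock M (χ : G ⧸ ⁅D, D⁆ → ℂ) (ψ : G ⧸ ⁅D, D⁆ → ℂ) ↔ Cfsg.SameBlock M ((χ : G ⧸ ⁅D, D⁆ → ℂ) ∘ QuotientGroup.mk) ((ψ : G ⧸ ⁅D, D⁆ → ℂ) ∘ QuotientGroup.mk)) ∧ ∀ B : Set (Cfsg.IrrCharacter G), Cfsg.IsPBlock M B → ∃ χ : Cfsg.IrrCharacter (G ⧸ ⁅D, D⁆), ∃ θ ∈ B, (θ : G → ℂ) = (χ : G ⧸ ⁅D, D⁆ → ℂ) ∘ QuotientGroup.mk := by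
  have := Fintype.ofFinite G
  have hprime := Cfsg.Agent.H5.isPrime_of_isPModular hM
  have hD'p : IsPGroup p (⁅D, D⁆ : Subgroup G) := hD.to_le (Subgroup.commutator_le_right D D)
  refine ⟨fun χ ψ => ⟨fun h => Cfsg.Agent.H5.sameBlock_inflate h, fun h => ?_⟩, fun B hB => Cfsg.Agent.H5.exists_inflated hM hD'p hB⟩
  apply Cfsg.Agent.H5.sameBlock_deflate_p hM hD'p _ h
  intro β _ hβ x hβx hx y hy hxy
  obtain ⟨χ0, hχ0⟩ := hβ
  have := Fintype.ofFinite (G ⧸ ⁅D, D⁆)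
  have hDq : IsPGroup p (D.map (QuotientGroup.mk' ⁅D, D⁆)) := hD.map _
  have hDn : (D.map (QuotientGroup.mk' ⁅D, D⁆)).Normal := Subgroup.Normal.map inferInstance _ (QuotientGroup.mk'_surjective _)
  rw [hχ0] at hβx
  have h1 := Cfsg.Agent.H5.preg_centralizer hM hDq (Cfsg.Agent.H5.isPBlock_blockOf χ0) hβx
  have hxC : x ∈ Subgroup.centralizer (D : Set G) := by
    apply Cfsg.Agent.H5.centralizer_of_mod_commutator hM.1 hD hx
    intro d hd
    have h2 := Subgroup.mem_centralizer_iff.mp h1 _ ⟨d, hd, rfl⟩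
    rw [← QuotientGroup.eq_one_iff]
    change (QuotientGroup.mk' ⁅D, D⁆) d * (QuotientGroup.mk' ⁅D, D⁆) x * ((QuotientGroup.mk' ⁅D, D⁆) d)⁻¹ * ((QuotientGroup.mk' ⁅D, D⁆) x)⁻¹ = 1
    rw [mul_inv_eq_one, mul_inv_eq_iff_eq_mul]
    exact h2
  have hxy2 := QuotientGroup.eq.mp hxy.symm
  exact Cfsg.Agent.H5.eq_of_regular_coset hM.1 hD hx hxC hy (Subgroup.commutator_le_right D D hxy2)

end Cfsg.Agent.S4964
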