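import Cfsg.Statements.S5139
import Cfsg.Agent.L0.Fus.PIdx6
-- import your own Cfsg.Agent.* helpers here

set_option autoImplicit false
open Cfsg

namespace Cfsg.Agent.S5139

/-- Let G be a finite group with Sylow p-subgroup S and O^p(G) the subgroup generated by the elements of order prime to p. Then the p-residual subsystem of the fusion system of G on S — the saturated subsystem of p-power index over the hyperfocal subgroup — is the fusion system of O^p(G) on S ∩ O^p(G): its maps are exactly the conjugation maps by elements of O^p(G) between subgroups of S ∩ O^p(G). -/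
theorem result {G : Type*} [Group G] [Finite G] (p : ℕ) [Fact p.Prime] (S : Sylow p G) (E : Cfsg.FusionSystem ((Cfsg.groupFusionSystem (S : Subgroup G)).hyperfocalSubgroup p)) (hE : (Cfsg.groupFusionSystem (S : Subgroup G)).IsPResidual p E) : ∃ h : (S : Subgroup G) ⊓ Cfsg.pResidual p G ≤ Cfsg.pResidual p G, ∀ P : Subgroup G, E.Hom P = (Cfsg.fusionSystemOfSubgroup (Cfsg.pResidual p G) ((S : Subgroup G) ⊓ Cfsg.pResidual p G) h).Hom P := by
  have hh := Cfsg.Agent.L0.Fus.hyperfocal_group (p := p) S
  have hTK : (Cfsg.groupFusionSystem (S : Subgroup G)).hyperfocalSubgroup p ≤ Cfsg.pResidual p G := by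
    rw [hh]; exact inf_le_right
  obtain ⟨h1, h2⟩ := Cfsg.Agent.L0.Fus.fso_pPowerIndex S (Cfsg.pResidual p G) le_rfl _ hh hTK
  have h3 := Cfsg.Agent.L0.Fus.pPowerIndex_unique S.isPGroup' hE.1 h1 hE.2 h2
  refine ⟨inf_le_right, fun P => ?_⟩
  rw [h3]
  ext φ
  constructor
  · rintro ⟨k1, k2, k3⟩
    exact ⟨k1.trans hh.le, fun x => hh.le (k2 x), k3⟩
  · rintro ⟨k1, k2, k3⟩
    exact ⟨k1.trans hh.ge, fun x => hh.ge (k2 x), k3⟩

end Cfsg.Agent.S5139
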