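import Cfsg.Statements.S5167
import Cfsg.Agent.H9.SyM12

set_option autoImplicit false
open Cfsg

namespace Cfsg.Agent.S5167

/-- The 2-fusion system of the Mathieu group M₁₂ (as the explicit permutation group carved out of the automorphism group of the binary Golay code) on a Sylow 2-subgroup is simple: saturated, over a nontrivial 2-group, with no normal subsystem other than the trivial one and itself. -/
theorem result (S : Sylow 2 Cfsg.Spor.M12) : (Cfsg.groupFusionSystem (S : Subgroup Cfsg.Spor.M12)).IsSimple 2 := by
  have : ∀ G : Subgroup (Equiv.Perm GolayPt), G = H9.K12 → ∀ S : Sylow 2 G,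
      (Cfsg.groupFusionSystem (S : Subgroup G)).IsSimple 2 := by
    rintro G rfl S; exact (H9.SyM12.main S).1
  exact this _ H9.M12_eq S

end Cfsg.Agent.S5167
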