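import Cfsg.Statements.S5345


set_option autoImplicit false
open Cfsg

namespace Cfsg.Agent.S5345

/-- Let D be a conjugation-invariant generating set of 3-transpositions of a finite group G and T a Sylow 2-subgroup of G. Then the members of D lying in T generate an abelian subgroup, and their number is the width of D (the largest number of pairwise commuting members of D). -/
theorem result {G : Type*} [Group G] [Finite G] {D : Set G} (hD : Cfsg.IsThreeTranspositionGroup D) (T : Sylow 2 G) : IsMulCommutative (Subgroup.closure {d : G | d ∈ D ∧ d ∈ T}) ∧ {d : G | d ∈ D ∧ d ∈ T}.ncard = Cfsg.commutingWidth D := by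
  classical
  have _i : Fact (Nat.Prime 2) := ⟨Nat.prime_two⟩
  obtain ⟨⟨h2, h3⟩, hc, _⟩ := hD
  have hsq : ∀ a ∈ D, a * a = 1 := by
    intro a ha
    have := pow_orderOf_eq_one a
    rw [h2 a ha, pow_two] at this; exact this
  have comm_of : ∀ a ∈ D, ∀ b ∈ D, (a * b) ^ 2 = 1 → a * b = b * a := by
    intro a ha b hb h
    have hai : a⁻¹ = a := inv_eq_of_mul_eq_one_left (hsq a ha)
    have hbi : b⁻¹ = b := inv_eq_of_mul_eq_one_left (hsq b hb)
    rw [pow_two] at h
    have := eq_inv_of_mul_eq_one_left h
    rw [mul_inv_rev, hai, hbi] at this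
    exact this
  have hT : ∀ Q : Sylow 2 G, ∀ a ∈ D, ∀ b ∈ D, a ∈ Q → b ∈ Q → a * b = b * a := by
    intro Q a ha b hb haQ hbQ
    rcases h3 a ha b hb with h | h
    · exact comm_of a ha b hb h
    · apply comm_of a ha b hb
      obtain ⟨k, hk⟩ := Q.isPGroup' ⟨a * b, Q.mul_mem haQ hbQ⟩
      have hk' : (a * b) ^ 2 ^ k = 1 := by simpa using congrArg Subtype.val hk
      have h1 : a * b = 1 := by
        rw [← orderOf_eq_one_iff]
        exact Nat.eq_one_of_dvd_coprimes (Nat.Coprime.pow_left k (by norm_num)) (orderOf_dvd_of_pow_eq_one hk') (orderOf_dvd_of_pow_eq_one h)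
      rw [h1, one_pow]
  constructor
  · have hcl : ∀ x ∈ Subgroup.closure {d : G | d ∈ D ∧ d ∈ T}, ∀ y ∈ Subgroup.closure {d : G | d ∈ D ∧ d ∈ T}, x * y = y * x := by
      intro x hx y hy
      have h1 : Subgroup.closure {d : G | d ∈ D ∧ d ∈ T} ≤ Subgroup.centralizer (Subgroup.closure {d : G | d ∈ D ∧ d ∈ T} : Set G) := by
        rw [Subgroup.closure_le]
        intro a ha
        rw [SetLike.mem_coe, Subgroup.mem_centralizer_iff]
        intro z hz
        have h2' : Subgroup.closure {d : G | d ∈ D ∧ d ∈ T} ≤ Subgroup.centralizer ({a} : Set G) := by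
          rw [Subgroup.closure_le]
          intro b hb
          rw [SetLike.mem_coe, Subgroup.mem_centralizer_singleton_iff]
          exact hT T b hb.1 a ha.1 hb.2 ha.2
        exact Subgroup.mem_centralizer_singleton_iff.1 (h2' hz)
      exact (Subgroup.mem_centralizer_iff.1 (h1 hx) y hy).symm
    exact ⟨⟨fun x y => Subtype.ext (hcl x x.2 y y.2)⟩⟩
  · unfold Cfsg.commutingWidth
    have hmem : {d : G | d ∈ D ∧ d ∈ T}.ncard ∈ {n : ℕ | ∃ E : Set G, E ⊆ D ∧ E.Finite ∧ (∀ a ∈ E, ∀ b ∈ E, Commute a b) ∧ E.ncard = n} :=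
      ⟨_, fun x hx => hx.1, Set.toFinite _, fun a ha b hb => hT T a ha.1 b hb.1 ha.2 hb.2, rfl⟩
    have hle : ∀ n ∈ {n : ℕ | ∃ E : Set G, E ⊆ D ∧ E.Finite ∧ (∀ a ∈ E, ∀ b ∈ E, Commute a b) ∧ E.ncard = n}, n ≤ {d : G | d ∈ D ∧ d ∈ T}.ncard := by
      rintro n ⟨E, hED, _, hEc, rfl⟩
      have hE2 : ∀ x ∈ Subgroup.closure E, x ∈ Subgroup.centralizer E ∧ x * x = 1 := by
        intro x hx
        induction hx using Subgroup.closure_induction with
        | mem x hx =>
          refine ⟨?_, hsq x (hED hx)⟩
          rw [Subgroup.mem_centralizer_iff]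
          intro y hy
          exact hEc y hy x hx
        | one => exact ⟨Subgroup.one_mem _, one_mul 1⟩
        | mul x y hx hy ihx ihy =>
          refine ⟨Subgroup.mul_mem _ ihx.1 ihy.1, ?_⟩
          have hxy : Commute x y := by
            have h1 : Subgroup.closure E ≤ Subgroup.centralizer ({x} : Set G) := by
              rw [Subgroup.closure_le]
              intro e he
              rw [SetLike.mem_coe, Subgroup.mem_centralizer_singleton_iff]
              exact Subgroup.mem_centralizer_iff.1 ihx.1 e he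
            exact (Subgroup.mem_centralizer_singleton_iff.1 (h1 hy)).symm
          calc x * y * (x * y) = x * (y * x) * y := by group
            _ = x * (x * y) * y := by rw [hxy.eq]
            _ = (x * x) * (y * y) := by group
            _ = 1 := by rw [ihx.2, ihy.2, one_mul]
        | inv x hx ih =>
          refine ⟨Subgroup.inv_mem _ ih.1, ?_⟩
          rw [← mul_inv_rev, ih.2, inv_one]
      have hp : IsPGroup 2 (Subgroup.closure E) := by
        intro x
        refine ⟨1, ?_⟩
        apply Subtype.ext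
        have := (hE2 x x.2).2
        simpa [pow_two] using this
      obtain ⟨Q, hQ⟩ := hp.exists_le_sylow
      obtain ⟨g, hg⟩ := MulAction.exists_smul_eq G Q T
      have himg : (fun e => g * e * g⁻¹) '' E ⊆ {d : G | d ∈ D ∧ d ∈ T} := by
        rintro _ ⟨e, he, rfl⟩
        refine ⟨hc g e (hED he), ?_⟩
        rw [← hg]
        exact ⟨e, hQ (Subgroup.subset_closure he), rfl⟩
      have hinj : Function.Injective (fun e : G => g * e * g⁻¹) := fun a b h => by simpa using h
      rw [← Set.ncard_image_of_injective E hinj]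
      exact Set.ncard_le_ncard himg (Set.toFinite _)
    apply le_antisymm
    · exact le_csSup ⟨_, hle⟩ hmem
    · exact csSup_le ⟨_, hmem⟩ hle

end Cfsg.Agent.S5345
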