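import Cfsg.Statements.S5346
import Cfsg.Agent.H4.ThreeCore

set_option autoImplicit false
open Cfsg

namespace Cfsg.Agent.S5346

/-- Let D be a conjugation-invariant generating set of 3-transpositions of a finite group G and d a member of D. Then D has width 1 (no two different members of D commute) if and only if G is the product of the subgroup generated by d with the largest normal 3-subgroup of G. -/
theorem result {G : Type*} [Group G] [Finite G] {D : Set G} (hD : Cfsg.IsThreeTranspositionGroup D) {d : G} (hd : d ∈ D) : Cfsg.commutingWidth D = 1 ↔ Subgroup.zpowers d ⊔ Cfsg.pCore 3 G = ⊤ := by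
    classical
    haveI : Fact (Nat.Prime 3) := ⟨Nat.prime_three⟩
    obtain ⟨⟨h2, h3⟩, hconj, hgen⟩ := hD
    have hsq : ∀ a ∈ D, a * a = 1 := by
      intro a ha
      rw [← pow_two, ← h2 a ha, pow_orderOf_eq_one]
    have hinv : ∀ a ∈ D, a⁻¹ = a := fun a ha => inv_eq_of_mul_eq_one_left (hsq a ha)
    constructor
    · intro hw
      have hcomm : ∀ a ∈ D, ∀ b ∈ D, Commute a b → a = b := by
        intro a ha b hb hab
        by_contra hne
        have h4 : 2 ∈ {n : ℕ | ∃ E : Set G, E ⊆ D ∧ E.Finite ∧ (∀ a ∈ E, ∀ b ∈ E, Commute a b) ∧ E.ncard = n} := by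
          refine ⟨{a, b}, ?_, Set.toFinite _, ?_, Set.ncard_pair hne⟩
          · rintro x (rfl | rfl)
            · exact ha
            · exact hb
          · rintro x (rfl | rfl) y (rfl | rfl)
            · exact Commute.refl _
            · exact hab
            · exact hab.symm
            · exact Commute.refl _
        have h5 : BddAbove {n : ℕ | ∃ E : Set G, E ⊆ D ∧ E.Finite ∧ (∀ a ∈ E, ∀ b ∈ E, Commute a b) ∧ E.ncard = n} := by
          refine ⟨Nat.card G, ?_⟩
          rintro n ⟨E, _, _, _, rfl⟩
          rw [← Set.ncard_univ]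
          exact Set.ncard_le_ncard (Set.subset_univ _) (Set.toFinite _)
        have h6 := le_csSup h5 h4
        have h7 : sSup {n : ℕ | ∃ E : Set G, E ⊆ D ∧ E.Finite ∧ (∀ a ∈ E, ∀ b ∈ E, Commute a b) ∧ E.ncard = n} = 1 := hw
        rw [h7] at h6
        omega
      have hcases : ∀ a ∈ D, ∀ b ∈ D, a = b ∨ (a * b) ^ 3 = 1 := by
        intro a ha b hb
        rcases h3 a ha b hb with h4 | h4
        · left
          apply hcomm a ha b hb
          have h5 : a * b = (a * b)⁻¹ := by
            rw [eq_inv_iff_mul_eq_one, ← pow_two]; exact h4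
          rw [mul_inv_rev, hinv a ha, hinv b hb] at h5
          exact h5
        · right; exact h4
      have hd3 : ∀ g : G, d * (g * d * g⁻¹) ∈ pCore 3 G := by
        apply H4.three_core d (h2 d hd)
        intro g
        rcases hcases d hd _ (hconj g d hd) with h4 | h4
        · refine ⟨0, ?_⟩
          rw [← h4, hsq d hd]; simp
        · have h5 : orderOf (d * (g * d * g⁻¹)) ∣ 3 := orderOf_dvd_of_pow_eq_one h4
          rcases (Nat.dvd_prime Nat.prime_three).mp h5 with h6 | h6
          · exact ⟨0, by rw [h6, pow_zero]⟩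
          · exact ⟨1, by rw [h6, pow_one]⟩
      have hdb : ∀ b ∈ D, d * b ∈ pCore 3 G := by
        intro b hb
        rcases hcases d hd b hb with h4 | h4
        · rw [← h4, hsq d hd]; exact one_mem _
        · have h5 : b = (d * b) * d * (d * b)⁻¹ := by
            rw [mul_inv_rev, hinv b hb, hinv d hd]
            have h6 : d * b * d * b * d = b⁻¹ := by
              rw [eq_inv_iff_mul_eq_one]
              calc d * b * d * b * d * b = (d * b) ^ 3 := by rw [pow_succ, pow_succ, pow_one]; group
                _ = 1 := h4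
            calc b = b⁻¹ := (hinv b hb).symm
              _ = d * b * d * b * d := h6.symm
              _ = d * b * d * (b * d) := by group
          have h7 := hd3 (d * b)
          rw [← h5] at h7
          exact h7
      rw [eq_top_iff, ← hgen, Subgroup.closure_le]
      intro b hb
      have e : b = d⁻¹ * (d * b) := by group
      rw [SetLike.mem_coe, e]
      exact mul_mem ((le_sup_left : Subgroup.zpowers d ≤ _) (inv_mem (Subgroup.mem_zpowers d))) ((le_sup_right : pCore 3 G ≤ _) (hdb b hb))
    · intro htop
      have hform : ∀ a ∈ D, ∃ o ∈ pCore 3 G, a = d * o := by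
        intro a ha
        have h4 : a ∈ Subgroup.zpowers d ⊔ pCore 3 G := by rw [htop]; trivial
        rw [Subgroup.mem_sup_of_normal_right] at h4
        obtain ⟨y, hy, o, ho, hyo⟩ := h4
        obtain ⟨i, hi⟩ := hy
        rcases Int.even_or_odd i with ⟨j, hj⟩ | ⟨j, hj⟩
        · exfalso
          have h5 : y = 1 := by
            rw [← hi, hj]
            show d ^ (j + j) = 1
            rw [← two_mul, zpow_mul]
            have : d ^ (2 : ℤ) = 1 := by
              rw [show (2 : ℤ) = ((2 : ℕ) : ℤ) by norm_num, zpow_natCast, pow_two]; exact hsq d hd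
            rw [this, one_zpow]
          rw [h5, one_mul] at hyo
          rw [hyo] at ho
          obtain ⟨k, hk⟩ := (IsPGroup.iff_orderOf.mp (L0.pCore_isPGroup 3 G)) ⟨a, ho⟩
          rw [Subgroup.orderOf_mk, h2 a ha] at hk
          have h6 : 2 ∣ 3 ^ k := ⟨1, by omega⟩
          exact absurd (Nat.prime_two.dvd_of_dvd_pow h6) (by norm_num)
        · refine ⟨o, ho, ?_⟩
          rw [← hyo]
          congr 1
          rw [← hi, hj]
          show d ^ (2 * j + 1) = d
          rw [zpow_add, zpow_mul, zpow_one]
          have : d ^ (2 : ℤ) = 1 := by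
            rw [show (2 : ℤ) = ((2 : ℕ) : ℤ) by norm_num, zpow_natCast, pow_two]; exact hsq d hd
          rw [this, one_zpow, one_mul]
      have hcomm : ∀ a ∈ D, ∀ b ∈ D, Commute a b → a = b := by
        intro a ha b hb hab
        obtain ⟨o, ho, hao⟩ := hform a ha
        obtain ⟨o', ho', hbo⟩ := hform b hb
        have h4 : a * b ∈ pCore 3 G := by
          have h5 : a * b = o⁻¹ * o' := by
            rw [← hinv a ha, hao, hbo]; group
          rw [h5]; exact mul_mem (inv_mem ho) ho'
        obtain ⟨k, hk⟩ := (IsPGroup.iff_orderOf.mp (L0.pCore_isPGroup 3 G)) ⟨_, h4⟩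
        rw [Subgroup.orderOf_mk] at hk
        have h5 : (a * b) ^ 2 = 1 := by
          rw [hab.mul_pow, pow_two, pow_two, hsq a ha, hsq b hb, one_mul]
        have h6 := orderOf_dvd_of_pow_eq_one h5
        rw [hk] at h6
        have h7 : (3 ^ k : ℕ) = 1 := Nat.eq_one_of_dvd_coprimes (Nat.Coprime.pow_left k (by norm_num : Nat.Coprime 3 2)) dvd_rfl h6
        rw [h7, orderOf_eq_one_iff] at hk
        rw [← hinv b hb]
        exact eq_inv_of_mul_eq_one_left hk
      show sSup {n : ℕ | ∃ E : Set G, E ⊆ D ∧ E.Finite ∧ (∀ a ∈ E, ∀ b ∈ E, Commute a b) ∧ E.ncard = n} = 1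
      apply IsGreatest.csSup_eq
      refine ⟨⟨{d}, by simpa using hd, Set.toFinite _, ?_, Set.ncard_singleton _⟩, ?_⟩
      · rintro x rfl y rfl
        exact Commute.refl _
      · rintro n ⟨E, hED, hEf, hEc, rfl⟩
        rw [Set.ncard_le_one hEf]
        intro x hx y hy
        exact hcomm x (hED hx) y (hED hy) (hEc x hx y hy)

end Cfsg.Agent.S5346
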