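import Cfsg.Statements.S5347


set_option autoImplicit false
open Cfsg

namespace Cfsg.Agent.S5347

/-- Let D be a conjugation-invariant generating set of 3-transpositions of a finite group G, p a prime bigger than 3, and P a p-subgroup of G. If a member d of D normalizes P then d centralizes P. -/
theorem result {G : Type*} [Group G] [Finite G] {D : Set G} (hD : Cfsg.IsThreeTranspositionGroup D) {p : ℕ} (hp : p.Prime) (hp3 : 3 < p) (P : Subgroup G) (hP : IsPGroup p P) {d : G} (hd : d ∈ D) (hnorm : d ∈ Subgroup.normalizer (P : Set G)) : ∀ x ∈ P, Commute d x := by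
  intro x hx
  obtain ⟨⟨h2, h3⟩, hc, _⟩ := hD
  have hmem : d * (x * d * x⁻¹) ∈ P := by
    have e : d * (x * d * x⁻¹) = (d * x * d⁻¹) * (d * d) * x⁻¹ := by group
    have hdd : d * d = 1 := by have := pow_orderOf_eq_one d; rw [h2 d hd, pow_two] at this; exact this
    rw [e, hdd, mul_one]
    exact P.mul_mem ((Subgroup.mem_normalizer_iff.1 hnorm x).1 hx) (P.inv_mem hx)
  obtain ⟨k, hk⟩ := hP ⟨_, hmem⟩
  have hk' : (d * (x * d * x⁻¹)) ^ p ^ k = 1 := by simpa using congrArg Subtype.val hk
  have hord : orderOf (d * (x * d * x⁻¹)) ∣ p ^ k := orderOf_dvd_of_pow_eq_one hk'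
  have h1 : d * (x * d * x⁻¹) = 1 := by
    rw [← orderOf_eq_one_iff]
    rcases h3 d hd _ (hc x d hd) with h | h
    · have h4 := orderOf_dvd_of_pow_eq_one h
      refine Nat.eq_one_of_dvd_coprimes ?_ hord h4
      exact Nat.Coprime.pow_left k ((Nat.coprime_primes hp Nat.prime_two).2 (by omega))
    · have h4 := orderOf_dvd_of_pow_eq_one h
      refine Nat.eq_one_of_dvd_coprimes ?_ hord h4
      exact Nat.Coprime.pow_left k ((Nat.coprime_primes hp Nat.prime_three).2 (by omega))
  have hdd : d * d = 1 := by have := pow_orderOf_eq_one d; rw [h2 d hd, pow_two] at this; exact this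
  show d * x = x * d
  have h5 : x * d * x⁻¹ = d := by
    calc x * d * x⁻¹ = (d * d) * (x * d * x⁻¹) := by rw [hdd, one_mul]
      _ = d * (d * (x * d * x⁻¹)) := by group
      _ = d := by rw [h1, mul_one]
  calc d * x = x * d * x⁻¹ * x := by rw [h5]
    _ = x * d := by group

end Cfsg.Agent.S5347
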