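import Cfsg.Statements.S5348


set_option autoImplicit false
open Cfsg

namespace Cfsg.Agent.S5348

/-- Let D be a conjugation-invariant generating set of 3-transpositions of a finite group G and d a member of D. Let V be the set of members of D commuting with exactly the same members of D as d, and W the set of members w of D such that the members of D other than w commuting with w are precisely the members of D other than d commuting with d. Then V = {d} or W = {d}. -/
theorem result {G : Type*} [Group G] [Finite G] {D : Set G} (hD : Cfsg.IsThreeTranspositionGroup D) {d : G} (hd : d ∈ D) : {v : G | v ∈ D ∧ ∀ e ∈ D, Commute v e ↔ Commute d e} = {d} ∨ {w : G | w ∈ D ∧ {y : G | y ∈ D ∧ y ≠ d ∧ Commute d y} = {y : G | y ∈ D ∧ y ≠ w ∧ Commute w y}} = {d} := by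
  by_contra hcon
  push Not at hcon
  obtain ⟨h1, h2⟩ := hcon
  have hv : ∃ v, v ∈ D ∧ (∀ e ∈ D, Commute v e ↔ Commute d e) ∧ v ≠ d := by
    by_contra hno
    apply h1
    ext v
    constructor
    · rintro ⟨a, b⟩
      by_contra hne
      exact hno ⟨v, a, b, hne⟩
    · intro h
      rw [Set.mem_singleton_iff] at h
      rw [h]; exact ⟨hd, fun e _ => Iff.rfl⟩
  have hw : ∃ w, w ∈ D ∧ {y : G | y ∈ D ∧ y ≠ d ∧ Commute d y} = {y : G | y ∈ D ∧ y ≠ w ∧ Commute w y} ∧ w ≠ d := by
    by_contra hno
    apply h2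
    ext v
    constructor
    · rintro ⟨a, b⟩
      by_contra hne
      exact hno ⟨v, a, b, hne⟩
    · intro h
      rw [Set.mem_singleton_iff] at h
      rw [h]; exact ⟨hd, rfl⟩
  obtain ⟨v, hv, hv2, hvd⟩ := hv
  obtain ⟨w, hw, hw2, hwd⟩ := hw
  have hdv : Commute d v := ((hv2 d hd).2 (Commute.refl d)).symm
  have hdw : ¬ Commute d w := by
    intro h
    have h3 : w ∈ {y : G | y ∈ D ∧ y ≠ d ∧ Commute d y} := ⟨hw, hwd, h⟩
    rw [hw2] at h3
    exact h3.2.1 rfl
  have h3 : v ∈ {y : G | y ∈ D ∧ y ≠ d ∧ Commute d y} := ⟨hv, hvd, hdv⟩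
  rw [hw2] at h3
  exact hdw ((hv2 w hw).1 h3.2.2.symm)

end Cfsg.Agent.S5348
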