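import Cfsg.Statements.S5357
import Mathlib
import Cfsg.Agent.H8.TTC1
open Cfsg.Agent.H7 Cfsg.Agent.H7.Tv Cfsg.Agent.H7.Orth Cfsg.Agent.H7.Orth.Qf Cfsg.Agent.H7.Witt

set_option autoImplicit false
open scoped MatrixGroups
open Cfsg

namespace Cfsg.Agent.S5357

theorem braid {n : ℕ} {Q : (Fin n → ZMod 3) → ZMod 3} {B : (Fin n → ZMod 3) →ₗ[ZMod 3] (Fin n → ZMod 3) →ₗ[ZMod 3] ZMod 3} (hQ : Qf Q B)
    {c : ZMod 3} (hc : c ≠ 0) {u v : Fin n → ZMod 3} (hu : Q u = c) (hv : Q v = c) :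
    Rf Q B u * Rf Q B v * Rf Q B u = if B u v = 0 then Rf Q B v else Rf Q B v * Rf Q B u * Rf Q B v := by
  have hu0 : Q u ≠ 0 := by rw [hu]; exact hc
  have hv0 : Q v ≠ 0 := by rw [hv]; exact hc
  have key : ∀ u v : Fin n → ZMod 3, Q u ≠ 0 → Q v ≠ 0 → Rf Q B u * Rf Q B v * Rf Q B u = Rf Q B (v - (B u v / Q u) • u) := by
    intro u v hu0 hv0
    have := Rf_conj hQ (Rf_mem_O hQ hu0) hv0
    rw [Rf_inv hQ hu0, ap_Rf hQ hu0] at this
    exact this
  split_ifs with h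
  · rw [key u v hu0 hv0, h, zero_div, zero_smul, sub_zero]
  · rw [key u v hu0 hv0, key v u hv0 hu0, hQ.symm v u, hu, hv]
    obtain ⟨s, hs⟩ : ∃ s, s = B u v / c := ⟨_, rfl⟩
    rw [← hs]
    have hs0 : s ≠ 0 := by rw [hs]; exact div_ne_zero h hc
    have hss : s * s = 1 := (by decide : ∀ s : ZMod 3, s ≠ 0 → s * s = 1) s hs0
    have h1 : v - s • u = (-s) • (u - s • v) := by
      rw [smul_sub, smul_smul, neg_mul, hss]
      module
    rw [h1]
    refine Rf_smul hQ ?_ (neg_ne_zero.2 hs0)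
    have h2 : Q (u - s • v) = Q u := by
      rw [hQ.sub, hQ.smul, map_smul, smul_eq_mul, hu, hv, hss]
      have h3 : B u v = s * c := by rw [hs, div_mul_cancel₀ _ hc]
      rw [h3]
      linear_combination (-c) * hss
    rw [h2]; exact hu0

/-- Let Q be a non-degenerate quadratic form on the n-dimensional coordinate space over the field with three elements, n ≥ 5, and c a non-zero scalar. In the subgroup of the isometry group of Q generated by the reflections in vectors v with Q(v) = c, these reflections form a single conjugacy class of 3-transpositions generating that subgroup. -/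
theorem result (n : ℕ) (hn : 5 ≤ n) (Q : QuadraticForm (ZMod 3) (Fin n → ZMod 3)) (hQ : (QuadraticMap.polarBilin Q).Nondegenerate) (c : ZMod 3) (hc : c ≠ 0) : Cfsg.IsThreeTranspositionClass {g : ↥(Cfsg.reflectionSubgroup (⇑Q) c) | (g : ↥(Cfsg.isometryGroup (ZMod 3) (⇑Q))) ∈ Cfsg.reflectionsOfNorm (⇑Q) c} := by
  classical
  obtain ⟨B, hBdef⟩ : ∃ B, B = QuadraticMap.polarBilin Q := ⟨_, rfl⟩
  have hQ' : Qf (⇑Q) B := by rw [hBdef]; exact qf_pB hQ
  have hcoe : ∀ {v : Fin n → ZMod 3}, Q v ≠ 0 → ((Rf (⇑Q) B v : GL (Fin n) (ZMod 3)) : Matrix (Fin n) (Fin n) (ZMod 3)) = Cfsg.reflectionMatrix (⇑Q) v := by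
    intro v hv
    rw [hBdef]; exact Rf_coe hQ hv
  have hmem : ∀ v : Fin n → ZMod 3, Q v = c → ∃ g : ↥(Cfsg.reflectionSubgroup (⇑Q) c), g.1.1 = Rf (⇑Q) B v ∧ (g : ↥(Cfsg.isometryGroup (ZMod 3) (⇑Q))) ∈ Cfsg.reflectionsOfNorm (⇑Q) c := by
    intro v hv
    have hv0 : Q v ≠ 0 := by rw [hv]; exact hc
    have h1 : (⟨Rf (⇑Q) B v, Rf_mem_O hQ' hv0⟩ : ↥(Cfsg.isometryGroup (ZMod 3) (⇑Q))) ∈ Cfsg.reflectionsOfNorm (⇑Q) c := ⟨v, hv, hcoe hv0⟩
    exact ⟨⟨_, Subgroup.subset_closure h1⟩, rfl, h1⟩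
  have hchar : ∀ g : ↥(Cfsg.reflectionSubgroup (⇑Q) c), (g : ↥(Cfsg.isometryGroup (ZMod 3) (⇑Q))) ∈ Cfsg.reflectionsOfNorm (⇑Q) c → ∃ v, Q v = c ∧ g.1.1 = Rf (⇑Q) B v := by
    rintro g ⟨v, hv, hg⟩
    refine ⟨v, hv, Units.ext ?_⟩
    rw [hg, hcoe (by rw [hv]; exact hc)]
  have hinj : ∀ {a b : ↥(Cfsg.reflectionSubgroup (⇑Q) c)}, a.1.1 = b.1.1 → a = b := fun h => Subtype.ext (Subtype.ext h)
  have hsq : ∀ {g : ↥(Cfsg.reflectionSubgroup (⇑Q) c)} {v}, Q v = c → g.1.1 = Rf (⇑Q) B v → g * g = 1 := by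
    intro g v hv hg
    apply hinj
    show g.1.1 * g.1.1 = 1
    rw [hg, Rf_sq hQ' (by rw [hv]; exact hc)]
  have hbr : ∀ {a b : ↥(Cfsg.reflectionSubgroup (⇑Q) c)} {u v}, Q u = c → Q v = c → a.1.1 = Rf (⇑Q) B u → b.1.1 = Rf (⇑Q) B v →
      (B u v = 0 → a * b * a = b) ∧ (B u v ≠ 0 → a * b * a = b * a * b) := by
    intro a b u v hu hv ha hb
    have := braid hQ' hc hu hv
    rw [← ha, ← hb] at this
    constructor
    · intro h
      rw [if_pos h] at this
      exact hinj this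
    · intro h
      rw [if_neg h] at this
      exact hinj this
  have hadj : ∀ {a b : ↥(Cfsg.reflectionSubgroup (⇑Q) c)} {u v}, Q u = c → Q v = c → a.1.1 = Rf (⇑Q) B u → b.1.1 = Rf (⇑Q) B v → B u v ≠ 0 → IsConj a b := by
    intro a b u v hu hv ha hb h
    have h1 := (hbr hu hv ha hb).2 h
    rw [isConj_iff]
    refine ⟨a * b, ?_⟩
    calc a * b * a * (a * b)⁻¹ = (b * a * b) * (a * b)⁻¹ := by rw [h1]
      _ = b := by group
  have h2c : (2 : ZMod 3) * c ≠ 0 := mul_ne_zero (by decide) hc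
  have hcls : ∀ {a b : ↥(Cfsg.reflectionSubgroup (⇑Q) c)} {u v}, Q u = c → Q v = c → a.1.1 = Rf (⇑Q) B u → b.1.1 = Rf (⇑Q) B v → IsConj a b := by
    intro a b u v hu hv ha hb
    by_cases h : B u v = 0
    · have hvu : B v u = 0 := by rw [hQ'.symm]; exact h
      have hrich : Rich (⇑Q) B (prp B (Submodule.span (ZMod 3) {u, v})) := by
        refine rich_prp_nd hQ' _ ?_ ?_
        · intro x hx hx'
          obtain ⟨s, t, rfl⟩ := Submodule.mem_span_pair.1 hx
          have e1 := hx' u (Submodule.subset_span (by simp))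
          have e2 := hx' v (Submodule.subset_span (by simp))
          simp only [map_add, map_smul, LinearMap.add_apply, LinearMap.smul_apply, smul_eq_mul, hQ'.self, hu, hv, h, hvu, mul_zero, add_zero, zero_add] at e1 e2
          have e3 := (mul_eq_zero.1 e1).resolve_right h2c
          have e4 := (mul_eq_zero.1 e2).resolve_right h2c
          rw [e3, e4]; simp
        · have : Module.finrank (ZMod 3) (Submodule.span (ZMod 3) {u, v}) ≤ 2 := finrank_span_le_card ({u, v} : Set (Fin n → ZMod 3)) |>.trans (by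
            rw [Set.toFinset_insert, Set.toFinset_singleton]
            exact Finset.card_le_two)
          rw [Fintype.card_fin]
          omega
      obtain ⟨z, hz, hqz, -⟩ := Rich.repr hQ' hrich (-c)
      obtain ⟨hzu, hzv⟩ := mem_prp_two.1 hz
      have hw : Q (u + v + z) = c := by
        rw [hQ'.add, hQ'.add, map_add, LinearMap.add_apply, hu, hv, h, hzu, hzv, hqz]
        ring
      obtain ⟨w, hw1, -⟩ := hmem _ hw
      have i1 : B u (u + v + z) ≠ 0 := by
        rw [map_add, map_add, hQ'.self, hu, h, hzu, add_zero, add_zero]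
        exact h2c
      have i2 : B (u + v + z) v ≠ 0 := by
        rw [hQ'.symm, map_add, map_add, hQ'.self, hv, hvu, hzv, add_zero, zero_add]
        exact h2c
      exact (hadj hu hw ha hw1 i1).trans (hadj hw hv hw1 hb i2)
    · exact hadj hu hv ha hb h
  refine ⟨⟨?_, ?_⟩, ?_, ?_⟩
  · intro g hg
    obtain ⟨v, hv, hg'⟩ := hchar g hg
    refine Cfsg.Agent.H8.TTC.order_two ?_ (hsq hv hg')
    rintro rfl
    have hv0 : Q v ≠ 0 := by rw [hv]; exact hc
    have h1 : ap (1 : GL (Fin n) (ZMod 3)) v = ap (Rf (⇑Q) B v) v := congrArg (fun a => ap a v) hg'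
    rw [ap_one, ap_Rf hQ' hv0, hQ'.self, mul_div_assoc, div_self hv0, mul_one] at h1
    have h2 : (2 : ZMod 3) • v = 0 := by
      have := sub_eq_self.1 h1.symm
      exact this
    have h3 : v = 0 := (smul_eq_zero.1 h2).resolve_left (by decide)
    rw [h3, hQ'.zero] at hv
    exact hc hv.symm
  · intro d hd e he
    obtain ⟨v, hv, hd'⟩ := hchar d hd
    obtain ⟨u, hu, he'⟩ := hchar e he
    refine Cfsg.Agent.H8.TTC.tt_aux (hsq hv hd') (hsq hu he') ?_
    by_cases h : B v u = 0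
    · exact Or.inl ((hbr hv hu hd' he').1 h)
    · exact Or.inr ((hbr hv hu hd' he').2 h)
  · obtain ⟨v0, -, hv0, -⟩ := Rich.repr hQ' (rich_top hQ' (by rw [Fintype.card_fin]; omega)) c
    obtain ⟨d0, hd0, hd0'⟩ := hmem v0 hv0
    refine ⟨d0, hd0', ?_⟩
    ext g
    change _ ↔ IsConj _ g
    constructor
    · intro hg
      obtain ⟨v, hv, hg'⟩ := hchar g hg
      exact hcls hv0 hv hd0 hg'
    · intro hg
      obtain ⟨A, hA⟩ := isConj_iff.1 hg
      have hv0' : Q v0 ≠ 0 := by rw [hv0]; exact hc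
      have h1 : g.1.1 = A.1.1 * Rf (⇑Q) B v0 * A.1.1⁻¹ := by
        rw [← hd0, ← hA]; rfl
      rw [Rf_conj hQ' A.1.2 hv0'] at h1
      have h2 : Q (ap A.1.1 v0) = c := by rw [mem_O.1 A.1.2]; exact hv0
      refine ⟨ap A.1.1 v0, h2, ?_⟩
      rw [← hcoe (by rw [h2]; exact hc), ← h1]
  · exact Subgroup.closure_closure_coe_preimage

end Cfsg.Agent.S5357
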