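import Cfsg.Statements.S5358
import Mathlib
import Mathlib

set_option autoImplicit false
open scoped MatrixGroups
open Cfsg

namespace Cfsg.Agent.S5358

open QuadraticMap Matrix

section
variable {F : Type*} [Field F] {n : ℕ} (Q : QuadraticForm F (Fin n → F))

theorem polarVec_dot (v x : Fin n → F) : polarVec ⇑Q v ⬝ᵥ x = polarBilin Q v x := by
  have h : x = ∑ j, x j • (Pi.single j (1 : F) : Fin n → F) := by
    funext i
    simp [Finset.sum_apply, Pi.single_apply]
  conv_rhs => rw [h]
  rw [map_sum, dotProduct]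
  refine Finset.sum_congr rfl fun j _ => ?_
  rw [map_smul, smul_eq_mul, mul_comm]
  rfl

theorem pB_symm (x y : Fin n → F) : polarBilin Q x y = polarBilin Q y x := polar_comm _ _ _

theorem refl_mulVec (v x : Fin n → F) : reflectionMatrix ⇑Q v *ᵥ x = x - (polarBilin Q x v / Q v) • v := by
  rw [reflectionMatrix, Matrix.sub_mulVec, Matrix.one_mulVec, Matrix.smul_mulVec, Matrix.vecMulVec_mulVec, polarVec_dot,
    pB_symm]
  congr 1
  funext i
  simp
  ring
end

/-- Let Q be a non-degenerate quadratic form on the n-dimensional coordinate space over the field with three elements and u, v vectors of the same non-zero norm Q(u) = Q(v) spanning different lines (v ≠ u and v ≠ −u). Then the reflection matrices of u and v commute if and only if u and v are orthogonal for the polar form of Q. -/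
theorem result (n : ℕ) (Q : QuadraticForm (ZMod 3) (Fin n → ZMod 3)) (hQ : (QuadraticMap.polarBilin Q).Nondegenerate) (u v : Fin n → ZMod 3) (hu : Q u ≠ 0) (huv : Q u = Q v) (h1 : v ≠ u) (h2 : v ≠ -u) : Commute (Cfsg.reflectionMatrix (⇑Q) u) (Cfsg.reflectionMatrix (⇑Q) v) ↔ QuadraticMap.polar (⇑Q) u v = 0 := by
  classical
  set f := polarBilin Q with hf
  have hsymm : ∀ x y, f x y = f y x := fun x y => by
    rw [hf, polarBilin_apply_apply, polarBilin_apply_apply]; exact QuadraticMap.polar_comm _ _ _
  have hself : ∀ x, f x x = 2 * Q x := fun x => by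
    rw [hf, polarBilin_apply_apply, QuadraticMap.polar_self]; simp [two_mul]
  have hpol : QuadraticMap.polar (⇑Q) u v = f u v := by rw [hf, polarBilin_apply_apply]
  have hv : Q v ≠ 0 := by rw [← huv]; exact hu
  have hmv := fun (w x : Fin n → ZMod 3) => refl_mulVec Q w x
  have hexp : ∀ x, reflectionMatrix (⇑Q) u *ᵥ (reflectionMatrix (⇑Q) v *ᵥ x) - reflectionMatrix (⇑Q) v *ᵥ (reflectionMatrix (⇑Q) u *ᵥ x)
      = (f x v * f u v / (Q u * Q v)) • u - (f x u * f u v / (Q u * Q v)) • v := by
    intro x
    rw [hmv v x, hmv u x, hmv u, hmv v]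
    simp only [← hf, map_sub, map_smul, LinearMap.sub_apply, LinearMap.smul_apply, smul_eq_mul, hsymm v u]
    funext i
    simp only [Pi.sub_apply, Pi.smul_apply, smul_eq_mul]
    field_simp
    ring
  rw [hpol]
  constructor
  · intro hcomm
    by_contra hc
    have h3 := hexp u
    have h4 : reflectionMatrix (⇑Q) u *ᵥ (reflectionMatrix (⇑Q) v *ᵥ u) = reflectionMatrix (⇑Q) v *ᵥ (reflectionMatrix (⇑Q) u *ᵥ u) := by
      rw [mulVec_mulVec, mulVec_mulVec, hcomm.eq]
    rw [h4, sub_self, hself u] at h3
    have h5 : u = (2 * Q u / f u v) • v := by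
      funext i
      have h6 := congrFun h3 i
      simp only [Pi.zero_apply, Pi.sub_apply, Pi.smul_apply, smul_eq_mul] at h6
      rw [Pi.smul_apply, smul_eq_mul]
      field_simp at h6 ⊢
      have h7 : f u v * u i - Q u * 2 * v i = 0 := by
        have h8 : f u v * (f u v * u i - Q u * 2 * v i) = 0 := by rw [← h6]; ring
        exact (mul_eq_zero.1 h8).resolve_left hc
      linear_combination h7
    have h8 : ∀ c : ZMod 3, c ≠ 0 → c = 1 ∨ c = -1 := by decide
    have h9 : (2 * Q u / f u v : ZMod 3) ≠ 0 := by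
      apply div_ne_zero _ hc
      exact mul_ne_zero (by decide) hu
    rcases h8 _ h9 with h10 | h10
    · rw [h10, one_smul] at h5; exact h1 h5.symm
    · rw [h10, neg_smul, one_smul] at h5; exact h2 (by rw [h5, neg_neg])
  · intro hc
    have h3 : reflectionMatrix (⇑Q) u * reflectionMatrix (⇑Q) v = reflectionMatrix (⇑Q) v * reflectionMatrix (⇑Q) u := by
      apply Matrix.ext_of_mulVec_single
      intro i
      rw [← mulVec_mulVec, ← mulVec_mulVec, ← sub_eq_zero, hexp, hc]
      simp
    exact h3

end Cfsg.Agent.S5358
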