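import Cfsg.Statements.S5363


set_option autoImplicit false
open Cfsg

namespace Cfsg.Agent.S5363

/-- Let D be a conjugation-invariant set of involutions of a finite group G. Then every product of two members of D has odd order or order 2 if and only if, for every a in D and every b in D different from a and commuting with a, the members of D commuting with a b are exactly those commuting with both a and b. -/
theorem result {G : Type*} [Group G] [Finite G] {D : Set G} (hinv : ∀ d ∈ D, orderOf d = 2) (hconj : ∀ g : G, ∀ d ∈ D, g * d * g⁻¹ ∈ D) : (∀ a ∈ D, ∀ b ∈ D, Odd (orderOf (a * b)) ∨ orderOf (a * b) = 2) ↔ ∀ a ∈ D, ∀ b ∈ D, b ≠ a → Commute a b → {y : G | y ∈ D ∧ Commute (a * b) y} = {y : G | y ∈ D ∧ Commute a y} ∩ {y : G | y ∈ D ∧ Commute b y} := by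
  have hsq : ∀ a ∈ D, a * a = 1 := by
    intro a ha
    have := pow_orderOf_eq_one a
    rw [hinv a ha, pow_two] at this; exact this
  have semi : ∀ a ∈ D, ∀ b ∈ D, SemiconjBy a (a * b) (a * b)⁻¹ ∧ SemiconjBy b (a * b) (a * b)⁻¹ := by
    intro a ha b hb
    have haa := hsq a ha
    have hbb := hsq b hb
    have hai : a⁻¹ = a := inv_eq_of_mul_eq_one_left haa
    have hbi : b⁻¹ = b := inv_eq_of_mul_eq_one_left hbb
    constructor
    · show a * (a * b) = (a * b)⁻¹ * a
      rw [mul_inv_rev, hai, hbi, mul_assoc, haa, mul_one, ← mul_assoc, haa, one_mul]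
    · show b * (a * b) = (a * b)⁻¹ * b
      rw [mul_inv_rev, hai, hbi]; group
  constructor
  · intro H a ha b hb hba hab
    have haa := hsq a ha
    have hbb := hsq b hb
    obtain ⟨z, hz⟩ : ∃ z, z = a * b := ⟨_, rfl⟩
    have hzz : z * z = 1 := by
      rw [hz]
      calc a * b * (a * b) = a * (b * a) * b := by group
        _ = a * (a * b) * b := by rw [hab.eq]
        _ = (a * a) * (b * b) := by group
        _ = 1 := by rw [haa, hbb, one_mul]
    have hz1 : z ≠ 1 := by
      intro h
      apply hba
      have : b = a * z := by rw [hz, ← mul_assoc, haa, one_mul]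
      rw [this, h, mul_one]
    have haz : Commute a z := by rw [hz]; exact (Commute.refl a).mul_right hab
    ext y
    constructor
    · rintro ⟨hy, hyz⟩
      rw [← hz] at hyz
      have key : Commute a y := by
        by_contra hnc
        have hyy := hsq y hy
        have no2 : (a * y) ^ 2 ≠ 1 := by
          intro h
          apply hnc
          show a * y = y * a
          have hai : a⁻¹ = a := inv_eq_of_mul_eq_one_left haa
          have hyi : y⁻¹ = y := inv_eq_of_mul_eq_one_left hyy
          rw [pow_two] at h
          have := eq_inv_of_mul_eq_one_left h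
          rw [mul_inv_rev, hai, hyi] at this
          exact this
        rcases H a ha y hy with hodd | h2
        · obtain ⟨k, hk⟩ := hodd
          have hm : (a * y) ^ (2 * k + 1) = 1 := by rw [← hk]; exact pow_orderOf_eq_one _
          have hcz : Commute (a * y) z := haz.mul_left hyz.symm
          have hr : (a * y) ^ k * a * ((a * y) ^ k)⁻¹ = y := by
            have s1 := (semi a ha y hy).1.pow_right k
            have s2 : a * (a * y) ^ k = (a * y)⁻¹ ^ k * a := s1
            have s3 : a * ((a * y) ^ k)⁻¹ = (a * y) ^ k * a := by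
              have := (semi a ha y hy).1.inv_right.pow_right k
              rw [inv_inv] at this
              rw [← inv_pow]; exact this
            have hyi : (a * y)⁻¹ * a = y := by
              have hai : a⁻¹ = a := inv_eq_of_mul_eq_one_left haa
              have hyi : y⁻¹ = y := inv_eq_of_mul_eq_one_left hyy
              rw [mul_inv_rev, hai, hyi, mul_assoc, haa, mul_one]
            rw [mul_assoc, s3, ← mul_assoc, ← pow_add]
            have : (a * y) ^ (k + k) = (a * y)⁻¹ := by
              rw [eq_inv_iff_mul_eq_one, ← pow_succ]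
              have : k + k + 1 = 2 * k + 1 := by ring
              rw [this]; exact hm
            rw [this, hyi]
          have hyzD : y * z ∈ D := by
            have h1 := hconj ((a * y) ^ k) b hb
            have hb2 : b = a * z := by rw [hz, ← mul_assoc, haa, one_mul]
            have hc2 : (a * y) ^ k * z = z * (a * y) ^ k := (hcz.pow_left k).eq
            have h2 : (a * y) ^ k * b * ((a * y) ^ k)⁻¹ = y * z := by
              calc (a * y) ^ k * b * ((a * y) ^ k)⁻¹ = (a * y) ^ k * (a * z) * ((a * y) ^ k)⁻¹ := by rw [← hb2]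
                _ = (a * y) ^ k * (z * a) * ((a * y) ^ k)⁻¹ := by rw [haz.eq]
                _ = ((a * y) ^ k * z) * a * ((a * y) ^ k)⁻¹ := by simp only [mul_assoc]
                _ = (z * (a * y) ^ k) * a * ((a * y) ^ k)⁻¹ := by rw [hc2]
                _ = z * ((a * y) ^ k * a * ((a * y) ^ k)⁻¹) := by simp only [mul_assoc]
                _ = z * y := by rw [hr]
                _ = y * z := hyz.eq
            rw [← h2]; exact h1
          have he : a * (y * z) = (a * y) * z := by rw [mul_assoc]
          rcases H a ha _ hyzD with ho | h2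
          · rw [he] at ho
            obtain ⟨m, hm2⟩ := ho
            have h5 : ((a * y) * z) ^ (2 * m + 1) = 1 := by rw [← hm2]; exact pow_orderOf_eq_one _
            rw [hcz.mul_pow] at h5
            have hzo : ∀ j : ℕ, z ^ (2 * j + 1) = z := by
              intro j
              rw [pow_succ, pow_mul, pow_two, hzz, one_pow, one_mul]
            rw [hzo] at h5
            have h6 : z = ((a * y) ^ (2 * m + 1))⁻¹ := eq_inv_of_mul_eq_one_right h5
            apply hz1
            rw [← hzo k]
            rw [h6, inv_pow, ← pow_mul, mul_comm, pow_mul, hm, one_pow, inv_one]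
          · rw [he] at h2
            have h5 := pow_orderOf_eq_one ((a * y) * z)
            rw [h2, hcz.mul_pow, pow_two z, hzz, mul_one] at h5
            exact no2 h5
        · apply no2
          rw [← h2]; exact pow_orderOf_eq_one _
      refine ⟨⟨hy, key⟩, hy, ?_⟩
      have hb2 : b = a * z := by rw [hz, ← mul_assoc, haa, one_mul]
      rw [hb2]; exact key.mul_left hyz
    · rintro ⟨⟨hy, h1⟩, _, h2⟩
      exact ⟨hy, h1.mul_left h2⟩
  · intro H a ha b hb
    have haa := hsq a ha
    have hbb := hsq b hb
    by_cases hodd : Odd (orderOf (a * b))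
    · exact Or.inl hodd
    · right
      obtain ⟨n, hn⟩ : 2 ∣ orderOf (a * b) := by rw [← even_iff_two_dvd, ← Nat.not_odd_iff_even]; exact hodd
      obtain ⟨w, hw⟩ : ∃ w, w = a * b := ⟨_, rfl⟩
      obtain ⟨s1, s2⟩ := semi a ha b hb
      rw [← hw] at s1 s2 hn
      have hbw : b = a * w := by rw [hw, ← mul_assoc, haa, one_mul]
      have cj : ∀ j : ℕ, (w ^ j)⁻¹ * a * (w ^ j)⁻¹⁻¹ = a * w ^ (2 * j) := by
        intro j
        have h1 : a * w ^ j = w⁻¹ ^ j * a := s1.pow_right j
        rw [inv_inv, ← inv_pow, ← h1, mul_assoc, ← pow_add]; congr 2; omega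
      have cjb : ∀ j : ℕ, (w ^ j)⁻¹ * b * (w ^ j)⁻¹⁻¹ = a * w ^ (2 * j + 1) := by
        intro j
        have h1 : b * w ^ j = w⁻¹ ^ j * b := s2.pow_right j
        rw [inv_inv, ← inv_pow, ← h1, mul_assoc, ← pow_add, hbw, mul_assoc, ← pow_succ']; congr 2; omega
      obtain ⟨t, ht⟩ : ∃ t, t = w ^ n := ⟨_, rfl⟩
      have ht2 : t * t = 1 := by rw [ht, ← pow_add, ← two_mul, ← hn]; exact pow_orderOf_eq_one _
      have hti : t⁻¹ = t := inv_eq_of_mul_eq_one_left ht2
      have hpos : 0 < orderOf w := orderOf_pos w
      have ht1 : t ≠ 1 := by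
        rw [ht]
        exact pow_ne_one_of_lt_orderOf (by omega) (by omega)
      have hat : a * t = t * a := by
        have h1 : a * w ^ n = w⁻¹ ^ n * a := s1.pow_right n
        rw [inv_pow, ← ht, hti] at h1; exact h1
      have hbt : b * t = t * b := by
        have h1 : b * w ^ n = w⁻¹ ^ n * b := s2.pow_right n
        rw [inv_pow, ← ht, hti] at h1; exact h1
      have hmem : a * t ∈ D := by
        rcases Nat.even_or_odd' n with ⟨j, hj | hj⟩
        · rw [ht, hj, ← cj]; exact hconj _ a ha
        · rw [ht, hj, ← cjb]; exact hconj _ b hb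
      have h6 : a * (a * t) = t := by rw [← mul_assoc, haa, one_mul]
      have h5 := H a ha (a * t) hmem (fun h => ht1 (by simpa using h)) (by show a * (a * t) = (a * t) * a; rw [mul_assoc a t a, ← hat])
      have h7 : b ∈ {y : G | y ∈ D ∧ Commute (a * (a * t)) y} := ⟨hb, by rw [h6]; exact hbt.symm⟩
      rw [h5] at h7
      have hab : Commute a b := h7.1.2
      rw [← hw]
      have hww : w ^ 2 = 1 := by
        rw [hw, pow_two]
        calc a * b * (a * b) = a * (b * a) * b := by group
          _ = a * (a * b) * b := by rw [hab.eq]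
          _ = (a * a) * (b * b) := by group
          _ = 1 := by rw [haa, hbb, one_mul]
      have h8 := orderOf_dvd_of_pow_eq_one hww
      exact Nat.dvd_antisymm h8 ⟨n, hn⟩

end Cfsg.Agent.S5363
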