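import Cfsg.Statements.S5364

-- import your own Cfsg.Agent.* helpers here

set_option autoImplicit false
open Cfsg

namespace Cfsg.Agent.S5364

/-- Let D be a conjugation-invariant set of involutions of a finite group G and t an involution in the centre of G such that d t does not lie in D for any d in D. If the images of the members of D in G modulo the subgroup generated by t satisfy the 3-transposition order conditions (each has order 2 and any two have product of order at most 3), then so do the members of D. -/
theorem result {G : Type*} [Group G] [Finite G] {D : Set G} (hinv : ∀ d ∈ D, orderOf d = 2) (hconj : ∀ g : G, ∀ d ∈ D, g * d * g⁻¹ ∈ D) (t : G) (ht : orderOf t = 2) (htZ : t ∈ Subgroup.center G) (hDt : ∀ d ∈ D, d * t ∉ D) [(Subgroup.zpowers t).Normal] (himg : Cfsg.IsThreeTranspositionSet ((QuotientGroup.mk : G → G ⧸ Subgroup.zpowers t) '' D)) : Cfsg.IsThreeTranspositionSet D := by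
  have sq : ∀ d ∈ D, d * d = 1 := fun d hd => by rw [← pow_two, ← hinv d hd, pow_orderOf_eq_one]
  have hinv' : ∀ d ∈ D, d⁻¹ = d := fun d hd => inv_eq_of_mul_eq_one_left (sq d hd)
  have hz : ∀ y ∈ Subgroup.zpowers t, y = 1 ∨ y = t := by
    intro y hy
    obtain ⟨k, rfl⟩ := Subgroup.mem_zpowers_iff.mp hy
    have ht2 : t ^ (2 : ℤ) = 1 := by
      have h := pow_orderOf_eq_one t
      rw [ht] at h
      exact_mod_cast h
    rcases Int.even_or_odd' k with ⟨m, rfl | rfl⟩
    · left; rw [zpow_mul, ht2, one_zpow]
    · right; rw [zpow_add, zpow_mul, ht2, one_zpow, one_mul, zpow_one]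
  refine ⟨hinv, fun d hd e he => ?_⟩
  have h1 := himg.2 _ ⟨d, hd, rfl⟩ _ ⟨e, he, rfl⟩
  rcases h1 with h1 | h1
  · left
    have h2 : (d * e) ^ 2 ∈ Subgroup.zpowers t := by
      rw [← QuotientGroup.eq_one_iff]
      simpa using h1
    rcases hz _ h2 with h3 | h3
    · exact h3
    · exfalso
      apply hDt e he
      have h4 : d * e * d⁻¹ = e * t := by
        rw [hinv' d hd, ← h3, pow_two]
        calc d * e * d = (e * e) * (d * e * d) := by rw [sq e he, one_mul]
          _ = e * (e * d * e * d) := by group
          _ = e * (d * e * (d * e)) := by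
            have h5 : e * d * e * d = d * e * (d * e) := by
              have h6 : (e * d * e * d)⁻¹ = d * e * d * e := by
                rw [mul_inv_rev, mul_inv_rev, mul_inv_rev, hinv' d hd, hinv' e he]; group
              have h7 : (d * e * (d * e))⁻¹ = d * e * (d * e) := by
                rw [← pow_two, h3]
                exact inv_eq_of_mul_eq_one_left (by rw [← pow_two, ← ht, pow_orderOf_eq_one])
              have h8 : d * e * d * e = d * e * (d * e) := by group
              rw [h8] at h6
              rw [← inv_inv (e * d * e * d), h6, h7]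
            rw [h5]
      rw [← h4]; exact hconj d e he
  · right
    have h2 : (d * e) ^ 3 ∈ Subgroup.zpowers t := by
      rw [← QuotientGroup.eq_one_iff]
      simpa using h1
    rcases hz _ h2 with h3 | h3
    · exact h3
    · exfalso
      have h4 : d * e * d⁻¹ ∈ D := hconj d e he
      have h5 : e * d * e⁻¹ ∈ D := hconj e d hd
      apply hDt _ h5
      have h6 : e * d * e⁻¹ * t = d * e * d⁻¹ := by
        have h7 : t = (d * e * d⁻¹) * (e * d * e⁻¹) := by
          rw [← h3, hinv' d hd, hinv' e he, pow_succ, pow_two]; group
        have h8 : e * d * e⁻¹ * t = t * (e * d * e⁻¹) := Subgroup.mem_center_iff.mp htZ _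
        rw [h8]
        nth_rewrite 1 [h7]
        rw [mul_assoc, sq _ h5, mul_one]
      rw [h6]; exact h4

end Cfsg.Agent.S5364
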