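import Cfsg.Statements.S5394
import Cfsg.Agent.H9.ClsThm

set_option autoImplicit false
open Cfsg

namespace Cfsg.Agent.S5394

/-- The automorphism group of the length-24 code built from the squares modulo 23 has exactly two conjugacy classes of involutions: an involution either fixes exactly the eight points of an octad or has no fixed points, both kinds occur, and any two involutions of the same kind are conjugate in the group. -/
theorem result : (∀ g ∈ Cfsg.M24, orderOf g = 2 → (Finset.univ.filter fun p => g p = p) ∈ Cfsg.octads ∨ ∀ p, g p ≠ p) ∧ (∃ g ∈ Cfsg.M24, orderOf g = 2 ∧ (Finset.univ.filter fun p => g p = p) ∈ Cfsg.octads) ∧ (∃ g ∈ Cfsg.M24, orderOf g = 2 ∧ ∀ p, g p ≠ p) ∧ ∀ g ∈ Cfsg.M24, ∀ h ∈ Cfsg.M24, orderOf g = 2 → orderOf h = 2 → ((∀ p, g p ≠ p) ↔ (∀ p, h p ≠ p)) → ∃ k ∈ Cfsg.M24, k * g * k⁻¹ = h := by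
  have hord : ∀ {g : Equiv.Perm Cfsg.GolayPt}, orderOf g = 2 → g ^ 2 = 1 ∧ g ≠ 1 := by
    intro g h
    exact ⟨by rw [← h]; exact pow_orderOf_eq_one g, by rintro rfl; simp at h⟩
  have hord' : ∀ {g : Equiv.Perm Cfsg.GolayPt}, g ^ 2 = 1 → g ≠ 1 → orderOf g = 2 := fun h1 h2 =>
    orderOf_eq_prime h1 h2
  have hoct : H9.fx (H9.toPerm H9.c2A) ∈ Cfsg.octads := H9.fx_c2A_oct
  refine ⟨?_, ?_, ?_, ?_⟩
  · intro g hg h2
    obtain ⟨a1, a2⟩ := hord h2
    by_cases hf : ∃ p, g p = p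
    · left
      exact H9.fx_2A hg a1 a2 hf
    · right; push Not at hf; exact hf
  · refine ⟨H9.toPerm H9.c2A, H9.checkM24_mem H9.c2A_m, ?_, hoct⟩
    apply hord' ((H9.powOK_iff (H9.checkM24_perm H9.c2A_m)).1 H9.c2A_pow)
    intro h
    rw [h] at hoct
    have h8 := H9.octad_card hoct
    have : H9.fx (1 : Equiv.Perm Cfsg.GolayPt) = Finset.univ := by ext p; simp [H9.mem_fx]
    rw [this, Finset.card_univ, H9.card_pt] at h8
    omega
  · refine ⟨H9.toPerm H9.c2B, H9.checkM24_mem H9.c2B_m, ?_, H9.ff_2B⟩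
    apply hord' ((H9.powOK_iff (H9.checkM24_perm H9.c2B_m)).1 H9.c2B_pow)
    intro h
    exact H9.ff_2B none (by rw [h]; rfl)
  · intro g hg h hh h2 h2' hiff
    obtain ⟨a1, a2⟩ := hord h2
    obtain ⟨b1, b2⟩ := hord h2'
    have fin : ∀ G : Equiv.Perm Cfsg.GolayPt, (∃ u ∈ Cfsg.M24, u * g * u⁻¹ = G) → (∃ v ∈ Cfsg.M24, v * h * v⁻¹ = G) →
        ∃ k ∈ Cfsg.M24, k * g * k⁻¹ = h := by
      rintro G ⟨u, hu, h3⟩ ⟨v, hv, h4⟩
      refine ⟨v⁻¹ * u, Cfsg.M24.mul_mem (Cfsg.M24.inv_mem hv) hu, ?_⟩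
      have : v⁻¹ * u * g * (v⁻¹ * u)⁻¹ = v⁻¹ * (u * g * u⁻¹) * v := by group
      rw [this, h3, ← h4]; group
    by_cases hf : ∀ p, g p ≠ p
    · exact fin _ (H9.conj_2B hg a1 hf) (H9.conj_2B hh b1 (hiff.1 hf))
    · have hf' : ¬ ∀ p, h p ≠ p := fun h => hf (hiff.2 h)
      push Not at hf hf'
      exact fin _ (H9.conj_2A hg a1 a2 hf) (H9.conj_2A hh b1 b2 hf')

end Cfsg.Agent.S5394
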