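import Cfsg.Statements.S5410
import Cfsg.Agent.H9.Leech.Mon4

set_option autoImplicit false
open Cfsg

namespace Cfsg.Agent.S5410

/-- Let G be a finite group of Monster type at the involution z with Q the extraspecial normal subgroup of order 2^25 of C = C_G(z) (so C/Q is identified with the first Conway group with Q modulo its centre the Leech lattice modulo 2, and z is not weakly closed in Q). Let g in G with s = g z g⁻¹ a member of Q other than z, let X be the image in C/Q of the centralizer of s in C, and let E be the image in C/Q of the intersection of g Q g⁻¹ with C. Then E is a normal subgroup of X, elementary abelian of order 2^11, and it has a complement in X isomorphic to the Mathieu group of degree 24 (the automorphism group of the length-24 binary Golay code). -/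
theorem result {G : Type*} [Group G] [Finite G] (z : G) (Q : Subgroup (Subgroup.centralizer ({z} : Set G))) [Q.Normal] (hM : Cfsg.IsOfMonsterType z Q) (s : G) (hsQ : ∃ hsc : s ∈ Subgroup.centralizer ({z} : Set G), (⟨s, hsc⟩ : Subgroup.centralizer ({z} : Set G)) ∈ Q) (hs : IsConj z s) (hs1 : s ≠ z) (g : G) (hg : g * z * g⁻¹ = s) (X E : Subgroup ((Subgroup.centralizer ({z} : Set G)) ⧸ Q)) (hX : X = ((Subgroup.centralizer ({z} : Set G) ⊓ Subgroup.centralizer ({s} : Set G)).subgroupOf (Subgroup.centralizer ({z} : Set G))).map (QuotientGroup.mk' Q)) (hE : E = (((Q.map (Subgroup.centralizer ({z} : Set G)).subtype).map (MulAut.conj g).toMonoidHom ⊓ Subgroup.centralizer ({z} : Set G)).subgroupOf (Subgroup.centralizer ({z} : Set G))).map (QuotientGroup.mk' Q)) : E ≤ X ∧ (∀ x ∈ X, ∀ y ∈ E, x * y * x⁻¹ ∈ E) ∧ Cfsg.IsElementaryAbelian 2 E ∧ Nat.card E = 2 ^ 11 ∧ ∃ K : Subgroup ((Subgroup.centralizer ({z} : Set G)) ⧸ Q), K ≤ X ∧ E ⊓ K = ⊥ ∧ E ⊔ K = X ∧ Nonempty (K ≃* Cfsg.M24) :=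 by
  obtain ⟨hE0, e, ψ, hψ⟩ := hM
  obtain ⟨c, m, hc⟩ := H9.Leech.exists_mt hE0 hψ
  obtain ⟨hsc, hsq⟩ := hsQ
  have f : H9.Leech.Cf c g (⟨⟨s, hsc⟩, hsq⟩ : Q) := ⟨hc, hg.symm, fun h => hs1 (by
    have h1 := congrArg (H9.Leech.inc Q) h
    rw [hc] at h1; exact h1)⟩
  have hX' : X = H9.Leech.Cf.XX Q (H9.Leech.inc Q ⟨⟨s, hsc⟩, hsq⟩) := hX
  have hE' : E = H9.Leech.Cf.EE Q g := hE
  rw [hX', hE']
  have hcard := hE0.2.2.2.1
  obtain ⟨h1, h2⟩ := f.EE_range m hcard
  exact ⟨f.EE_le m, fun x hx y hy => f.EE_norm hx hy, h1, h2, f.complement m hcard⟩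

end Cfsg.Agent.S5410
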