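import Cfsg.Statements.S5411
import Cfsg.Agent.H9.Leech.Mon3

set_option autoImplicit false
open Cfsg

namespace Cfsg.Agent.S5411

/-- Let G be a finite group of Monster type at the involution z with Q the extraspecial normal subgroup of order 2^25 of C = C_G(z) (so C/Q is identified with the first Conway group with Q modulo its centre the Leech lattice modulo 2, and z is not weakly closed in Q). Then C acts transitively by conjugation on the involutions of Q that are not conjugate to z in G. -/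
theorem result {G : Type*} [Group G] [Finite G] (z : G) (Q : Subgroup (Subgroup.centralizer ({z} : Set G))) [Q.Normal] (hM : Cfsg.IsOfMonsterType z Q) (s t : G) (hsQ : ∃ hsc : s ∈ Subgroup.centralizer ({z} : Set G), (⟨s, hsc⟩ : Subgroup.centralizer ({z} : Set G)) ∈ Q) (htQ : ∃ htc : t ∈ Subgroup.centralizer ({z} : Set G), (⟨t, htc⟩ : Subgroup.centralizer ({z} : Set G)) ∈ Q) (hs2 : orderOf s = 2) (ht2 : orderOf t = 2) (hs : ¬ IsConj z s) (ht : ¬ IsConj z t) : ∃ h ∈ Subgroup.centralizer ({z} : Set G), h * s * h⁻¹ = t := by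
  obtain ⟨hE, e, ψ, hψ⟩ := hM
  obtain ⟨c, m, hc⟩ := H9.Leech.exists_mt hE hψ
  obtain ⟨hsc, hsq⟩ := hsQ
  obtain ⟨htc, htq⟩ := htQ
  have h2 : ∀ x : G, ∀ hx : x ∈ Subgroup.centralizer ({z} : Set G), ∀ hq : (⟨x, hx⟩ : Subgroup.centralizer ({z} : Set G)) ∈ Q, orderOf x = 2 →
      (⟨⟨x, hx⟩, hq⟩ : Q) * ⟨⟨x, hx⟩, hq⟩ = 1 ∧ (⟨⟨x, hx⟩, hq⟩ : Q) ≠ 1 := by
    intro x hx hq ho
    have h3 := pow_orderOf_eq_one x
    rw [ho, pow_two] at h3
    refine ⟨H9.Leech.inc_inj h3, fun h => ?_⟩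
    have h4 : x = 1 := congrArg (H9.Leech.inc Q) h
    rw [h4, orderOf_one] at ho
    norm_num at ho
  obtain ⟨s2, s1⟩ := h2 s hsc hsq hs2
  obtain ⟨t2, t1⟩ := h2 t htc htq ht2
  exact H9.Leech.trans_noncentral hE m hc (x := ⟨⟨s, hsc⟩, hsq⟩) (y := ⟨⟨t, htc⟩, htq⟩) s2 t2 s1 t1 hs ht

end Cfsg.Agent.S5411
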