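import Cfsg.Statements.S5420
import Cfsg.Agent.L0.Core

set_option autoImplicit false
open Cfsg

namespace Cfsg.Agent.S5420

/-- Let Q be an extraspecial 2-subgroup of the finite group G whose centralizer in G is its centre Z and which is normal in the centralizer of Z. If Z lies in the largest normal 2-subgroup of G, then Q is a large extraspecial 2-subgroup of G: it normalizes no non-trivial subgroup of G of odd order. -/
theorem result {G : Type*} [Group G] [Finite G] (Q : Subgroup G) (hL1 : Cfsg.IsExtraspecial 2 ↥Q) (hL2 : Subgroup.centralizer (Q : Set G) = ((Subgroup.center ↥Q).map Q.subtype)) (hL3 : Subgroup.centralizer (((Subgroup.center ↥Q).map Q.subtype) : Set G) ≤ Subgroup.normalizer (Q : Set G)) (hZ : ((Subgroup.center ↥Q).map Q.subtype) ≤ Cfsg.pCore 2 G) : Cfsg.IsLargeExtraspecial Q := by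
  have _i : Fact (Nat.Prime 2) := ⟨Nat.prime_two⟩
  have cop : ∀ (A K : Subgroup G), IsPGroup 2 A → Odd (Nat.card K) → ∀ x, x ∈ A → x ∈ K → x = 1 := by
    intro A K hA hK x hxA hxK
    obtain ⟨k, hk⟩ := hA ⟨x, hxA⟩
    have h1 : x ^ 2 ^ k = 1 := by simpa using congrArg Subtype.val hk
    have h2 : orderOf x ∣ Nat.card K := by
      have := orderOf_dvd_natCard (⟨x, hxK⟩ : K)
      rwa [Subgroup.orderOf_mk] at this
    have h3 : orderOf x ∣ 2 ^ k := orderOf_dvd_of_pow_eq_one h1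
    have h4 : Nat.Coprime (Nat.card K) (2 ^ k) := Nat.Coprime.pow_right k (Nat.coprime_two_right.2 hK)
    exact orderOf_eq_one_iff.1 (Nat.eq_one_of_dvd_coprimes h4 h2 h3)
  refine ⟨hL1, hL2, hL3, ?_⟩
  intro K hK hQK
  have hO : IsPGroup 2 (Cfsg.pCore 2 G) := Cfsg.Agent.L0.pCore_isPGroup 2 G
  have hOn : (Cfsg.pCore 2 G).Normal := inferInstance
  have hQ2 : IsPGroup 2 Q := hL1.1.1
  have h1 : ∀ k ∈ K, k ∈ Subgroup.centralizer (((Subgroup.center ↥Q).map Q.subtype : Subgroup G) : Set G) := by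
    intro k hk
    rw [Subgroup.mem_centralizer_iff]
    intro z hz
    have hzQ : z ∈ Q := by obtain ⟨q, _, rfl⟩ := hz; exact q.2
    have hz1 : z * k * z⁻¹ * k⁻¹ = 1 := by
      apply cop _ K hO hK
      · have : z * k * z⁻¹ * k⁻¹ = z * (k * z⁻¹ * k⁻¹) := by group
        rw [this]
        exact mul_mem (hZ hz) (hOn.conj_mem _ (inv_mem (hZ hz)) k)
      · exact K.mul_mem ((Subgroup.mem_normalizer_iff.1 (hQK hzQ) k).1 hk) (K.inv_mem hk)
    exact mul_inv_eq_iff_eq_mul.1 (mul_inv_eq_one.1 hz1)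
  rw [Subgroup.eq_bot_iff_forall]
  intro k hk
  have h2 : k ∈ Subgroup.centralizer (Q : Set G) := by
    rw [Subgroup.mem_centralizer_iff]
    intro q hq
    have h3 : q * k * q⁻¹ * k⁻¹ = 1 := by
      apply cop Q K hQ2 hK
      · have : q * k * q⁻¹ * k⁻¹ = q * (k * q⁻¹ * k⁻¹) := by group
        rw [this]
        exact mul_mem hq ((Subgroup.mem_normalizer_iff.1 (hL3 (h1 k hk)) q⁻¹).1 (inv_mem hq))
      · exact K.mul_mem ((Subgroup.mem_normalizer_iff.1 (hQK hq) k).1 hk) (K.inv_mem hk)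
    exact mul_inv_eq_iff_eq_mul.1 (mul_inv_eq_one.1 h3)
  rw [hL2] at h2
  refine cop Q K hQ2 hK k ?_ hk
  obtain ⟨q, _, rfl⟩ := h2
  exact q.2

end Cfsg.Agent.S5420
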