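import Cfsg.Statements.S5421
import Cfsg.Agent.H2.Fpf
import Cfsg.Agent.L0.Core
import Mathlib

set_option autoImplicit false
open Cfsg

namespace Cfsg.Agent.S5421

open Subgroup

variable {G : Type*} [Group G]

theorem inter_one {K P : Subgroup G} (hK : Odd (Nat.card ↥K)) (hP : IsPGroup 2 ↥P) {x : G} (hxK : x ∈ K) (hxP : x ∈ P) : x = 1 := by
  obtain ⟨n, hn⟩ := hP ⟨x, hxP⟩
  have hn' : x ^ 2 ^ n = 1 := congrArg Subtype.val hn
  have h1 : orderOf x ∣ 2 ^ n := orderOf_dvd_of_pow_eq_one hn'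
  have h2 : orderOf x ∣ Nat.card ↥K := Subgroup.orderOf_dvd_natCard K hxK
  have h3 : (Nat.card ↥K).Coprime (2 ^ n) := Nat.Coprime.pow_right n (Nat.Coprime.symm (Nat.coprime_two_left.2 hK))
  exact orderOf_eq_one_iff.1 (Nat.eq_one_of_dvd_coprimes h3 h2 h1)

theorem inverts [Finite G] {K : Subgroup G} {t : G} (ht : t * t = 1) (htK : t ∈ normalizer (K : Set G)) (hf : ∀ k ∈ K, k * t = t * k → k = 1) :
    ∀ k ∈ K, t * k * t⁻¹ = k⁻¹ := by
  intro k hk
  let σ : ↥K →* ↥K :=
    { toFun := fun k => ⟨t * k * t⁻¹, (Subgroup.mem_normalizer_iff.1 htK k).1 k.2⟩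
      map_one' := Subtype.ext (by simp)
      map_mul' := fun a b => Subtype.ext (by simp [mul_assoc]) }
  have hσ : H2.Fpf σ := by
    intro x hx
    have h1 : t * x * t⁻¹ = x := congrArg Subtype.val hx
    have h2 : (x : G) = 1 := hf x x.2 (by
      have : t * x = x * t := by
        calc t * x = t * x * t⁻¹ * t := by group
          _ = x * t := by rw [h1]
      exact this.symm)
    exact Subtype.ext h2
  have h2 : ∀ g, σ (σ g) = g := by
    intro g
    apply Subtype.ext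
    show t * (t * g * t⁻¹) * t⁻¹ = g
    have : t⁻¹ = t := inv_eq_of_mul_eq_one_right ht
    calc t * (t * g * t⁻¹) * t⁻¹ = (t * t) * g * (t * t)⁻¹ := by group
      _ = g := by rw [ht]; group
  exact congrArg Subtype.val (hσ.eq_inv h2 ⟨k, hk⟩)

/-- Let Q be an extraspecial 2-subgroup of the finite group G whose centralizer in G is its centre Z and which is normal in the centralizer of Z. If some involution b of Q outside Z has Z inside the largest normal 2-subgroup of the centralizer of b, then Q is a large extraspecial 2-subgroup of G. -/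
theorem result {G : Type*} [Group G] [Finite G] (Q : Subgroup G) (hL1 : Cfsg.IsExtraspecial 2 ↥Q) (hL2 : Subgroup.centralizer (Q : Set G) = ((Subgroup.center ↥Q).map Q.subtype)) (hL3 : Subgroup.centralizer (((Subgroup.center ↥Q).map Q.subtype) : Set G) ≤ Subgroup.normalizer (Q : Set G)) (b : G) (hbQ : b ∈ Q) (hbZ : b ∉ ((Subgroup.center ↥Q).map Q.subtype)) (hb : orderOf b = 2) (hZ : ((Subgroup.center ↥Q).map Q.subtype) ≤ (Cfsg.pCore 2 ↥(Subgroup.centralizer ({b} : Set G))).map (Subgroup.centralizer ({b} : Set G)).subtype) : Cfsg.IsLargeExtraspecial Q := by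
  refine ⟨hL1, hL2, hL3, ?_⟩
  intro K hK hQK
  have hQ2 : IsPGroup 2 ↥Q := hL1.1.1
  obtain ⟨z0, hz0⟩ : ∃ z : ↥Q, z ∈ Subgroup.center ↥Q ∧ z ≠ 1 ∧ ∀ x ∈ Subgroup.center ↥Q, x = 1 ∨ x = z := by
    obtain ⟨a, b, hab, huniv⟩ := Nat.card_eq_two_iff.1 hL1.2
    have hcase : ∀ x : Subgroup.center ↥Q, x = a ∨ x = b := fun x => by
      have : x ∈ ({a, b} : Set _) := huniv ▸ Set.mem_univ x
      simpa using this
    rcases hcase 1 with h | h
    · refine ⟨b, b.2, fun h' => hab ?_, fun x hx => ?_⟩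
      · rw [← h]; exact (Subtype.ext h').symm
      · rcases hcase ⟨x, hx⟩ with h1 | h1
        · left; rw [← h] at h1; exact congrArg Subtype.val h1
        · right; exact congrArg Subtype.val h1
    · refine ⟨a, a.2, fun h' => hab ?_, fun x hx => ?_⟩
      · rw [← h]; exact Subtype.ext h'
      · rcases hcase ⟨x, hx⟩ with h1 | h1
        · right; exact congrArg Subtype.val h1
        · left; rw [← h] at h1; exact congrArg Subtype.val h1
  obtain ⟨hzc, hz1, hzall⟩ := hz0
  have hzQ : (z0 : G) ∈ Q := z0.2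
  have hzz : (z0 : G) * z0 = 1 := by
    have : z0 * z0 = 1 := by
      rcases hzall (z0 * z0) (mul_mem hzc hzc) with h | h
      · exact h
      · exact absurd (mul_eq_left.1 h) hz1
    exact congrArg Subtype.val this
  have hbb : b * b = 1 := by rw [← pow_two, ← hb, pow_orderOf_eq_one]
  have hzb : (z0 : G) * b = b * z0 := congrArg Subtype.val ((Subgroup.mem_center_iff.1 hzc ⟨b, hbQ⟩).symm)
  obtain ⟨q, hq, hqb⟩ : ∃ q ∈ Q, q * b * q⁻¹ = b * z0 := by
    have h1 : (⟨b, hbQ⟩ : ↥Q) ∉ Subgroup.center ↥Q := fun h => hbZ ⟨_, h, rfl⟩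
    rw [Subgroup.mem_center_iff] at h1
    push Not at h1
    obtain ⟨q, hq⟩ := h1
    have h2 : q * ⟨b, hbQ⟩ * q⁻¹ * (⟨b, hbQ⟩ : ↥Q)⁻¹ ∈ Subgroup.center ↥Q := by
      rw [← hL1.1.2.2]
      exact Subgroup.commutator_mem_commutator (mem_top q) (mem_top _)
    rcases hzall _ h2 with h3 | h3
    · exfalso
      apply hq
      have := mul_inv_eq_one.1 h3
      exact mul_inv_eq_iff_eq_mul.1 this
    · refine ⟨q, q.2, ?_⟩
      have h4 : (q : G) * b * (q : G)⁻¹ * b⁻¹ = z0 := congrArg Subtype.val h3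
      rw [← hzb, ← h4]; group
  have hZcent : ∀ k : G, k * z0 = z0 * k → k ∈ Subgroup.centralizer (((Subgroup.center ↥Q).map Q.subtype : Subgroup G) : Set G) := by
    intro k hk
    rw [Subgroup.mem_centralizer_iff]
    rintro _ ⟨x, hx, rfl⟩
    rcases hzall x hx with h | h
    · rw [h]; simp
    · rw [h]; exact hk.symm
  have ha : ∀ k ∈ K, k * z0 = z0 * k → k = 1 := by
    intro k hk hkz
    have hkN := hL3 (hZcent k hkz)
    have hkC : k ∈ Subgroup.centralizer (Q : Set G) := by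
      rw [Subgroup.mem_centralizer_iff]
      intro x hx
      have h1 : k * x * k⁻¹ * x⁻¹ = 1 := by
        refine inter_one hK hQ2 ?_ ?_
        · have : k * x * k⁻¹ * x⁻¹ = k * (x * k⁻¹ * x⁻¹) := by group
          rw [this]
          exact K.mul_mem hk ((Subgroup.mem_normalizer_iff.1 (hQK hx) _).1 (K.inv_mem hk))
        · exact Q.mul_mem ((Subgroup.mem_normalizer_iff.1 hkN _).1 hx) (Q.inv_mem hx)
      have h2 := mul_inv_eq_one.1 h1
      exact (mul_inv_eq_iff_eq_mul.1 h2).symm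
    rw [hL2] at hkC
    exact inter_one hK hQ2 hk (Subgroup.map_subtype_le _ hkC)
  have hbk : ∀ k ∈ K, k * b = b * k → k = 1 := by
    intro k hk hkb
    apply ha k hk
    have hkC : k ∈ Subgroup.centralizer ({b} : Set G) := by
      rw [Subgroup.mem_centralizer_singleton_iff]; exact hkb
    obtain ⟨w, hw, hwz⟩ := hZ (show (z0 : G) ∈ (Subgroup.center ↥Q).map Q.subtype from ⟨z0, hzc, rfl⟩)
    have hO2 : IsPGroup 2 ↥((Cfsg.pCore 2 ↥(Subgroup.centralizer ({b} : Set G))).map (Subgroup.centralizer ({b} : Set G)).subtype) :=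
      (L0.pCore_isPGroup 2 _).map _
    have h1 : k * z0 * k⁻¹ * (z0 : G)⁻¹ = 1 := by
      refine inter_one hK hO2 ?_ ?_
      · have : k * z0 * k⁻¹ * (z0 : G)⁻¹ = k * (z0 * k⁻¹ * (z0 : G)⁻¹) := by group
        rw [this]
        exact K.mul_mem hk ((Subgroup.mem_normalizer_iff.1 (hQK hzQ) _).1 (K.inv_mem hk))
      · have h2 : (⟨k, hkC⟩ : ↥(Subgroup.centralizer ({b} : Set G))) * w * (⟨k, hkC⟩ : ↥(Subgroup.centralizer ({b} : Set G)))⁻¹ * w⁻¹ ∈ Cfsg.pCore 2 ↥(Subgroup.centralizer ({b} : Set G)) :=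
          mul_mem ((inferInstance : (Cfsg.pCore 2 ↥(Subgroup.centralizer ({b} : Set G))).Normal).conj_mem w hw _) (inv_mem hw)
        refine ⟨_, h2, ?_⟩
        show k * (w : G) * k⁻¹ * (w : G)⁻¹ = _
        have : (w : G) = z0 := hwz
        rw [this]
    have h2 := mul_inv_eq_one.1 h1
    exact mul_inv_eq_iff_eq_mul.1 h2
  have hc : ∀ k ∈ K, k * (b * z0) = (b * z0) * k → k = 1 := by
    intro k hk hkb
    have h1 : q⁻¹ * k * q = 1 := by
      refine hbk _ ?_ ?_
      · have := (Subgroup.mem_normalizer_iff.1 (hQK (inv_mem hq)) k).1 hk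
        rwa [inv_inv] at this
      · have hb' : b = q⁻¹ * (b * z0) * q := by rw [← hqb]; group
        calc q⁻¹ * k * q * b = q⁻¹ * k * q * (q⁻¹ * (b * z0) * q) := by rw [← hb']
          _ = q⁻¹ * (k * (b * z0)) * q := by group
          _ = q⁻¹ * ((b * z0) * k) * q := by rw [hkb]
          _ = (q⁻¹ * (b * z0) * q) * (q⁻¹ * k * q) := by group
          _ = b * (q⁻¹ * k * q) := by rw [← hb']
    have : k = q * (q⁻¹ * k * q) * q⁻¹ := by group
    rw [this, h1]; group
  have hzi := inverts hzz (hQK hzQ) ha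
  have hbi := inverts hbb (hQK hbQ) hbk
  rw [eq_bot_iff]
  intro k hk
  rw [Subgroup.mem_bot]
  apply hc k hk
  have h1 := hzi k hk
  have h2 := hbi k⁻¹ (inv_mem hk)
  have h3 : (b * z0) * k * (b * z0)⁻¹ = k := by
    calc (b * z0) * k * (b * z0)⁻¹ = b * (z0 * k * (z0 : G)⁻¹) * b⁻¹ := by group
      _ = k := by rw [h1, h2, inv_inv]
  exact (mul_inv_eq_iff_eq_mul.1 h3).symm

end Cfsg.Agent.S5421
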