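import Cfsg.Statements.S5433


set_option autoImplicit false
open Cfsg

namespace Cfsg.Agent.S5433

/-- Let Q be a large extraspecial 2-subgroup of the finite group G (extraspecial; centralizer equal to its centre; normal in the centralizer of its centre; normalizing no non-trivial subgroup of odd order), and L a normal subgroup of G containing Q. Then G is the product of L and the normalizer of Q. -/
theorem result {G : Type*} [Group G] [Finite G] (Q : Subgroup G) (hQ : Cfsg.IsLargeExtraspecial Q) (L : Subgroup G) [L.Normal] (hQL : Q ≤ L) : L ⊔ Subgroup.normalizer (Q : Set G) = ⊤ := by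
  have _i : Fact (Nat.Prime 2) := ⟨Nat.prime_two⟩
  obtain ⟨hE, hC, hN, _⟩ := hQ
  have uniq : ∀ u v : G, u ∈ (Subgroup.center Q).map Q.subtype → v ∈ (Subgroup.center Q).map Q.subtype → u ≠ 1 → v ≠ 1 → u = v := by
    rintro _ _ ⟨a, ha, rfl⟩ ⟨b, hb, rfl⟩ h1 h2
    obtain ⟨y, hy, hy2⟩ := (Nat.card_eq_two_iff' (1 : Subgroup.center Q)).1 hE.2
    have e1 := hy2 ⟨a, ha⟩ (fun h => h1 (by rw [show a = 1 from congrArg Subtype.val h]; simp))
    have e2 := hy2 ⟨b, hb⟩ (fun h => h2 (by rw [show b = 1 from congrArg Subtype.val h]; simp))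
    have : a = b := congrArg Subtype.val (e1.trans e2.symm)
    rw [this]
  have hQp : IsPGroup 2 Q := hE.1.1
  have hQp' : IsPGroup 2 (Q.subgroupOf L) := hQp.comap_subtype
  obtain ⟨T, hT⟩ := hQp'.exists_le_sylow
  have hF := Sylow.normalizer_sup_eq_top T
  rw [sup_comm, eq_top_iff, ← hF]
  refine sup_le_sup ?_ le_rfl
  have hQT : ∀ q ∈ Q, q ∈ (T : Subgroup L).map L.subtype := by
    intro q hq
    exact ⟨⟨q, hQL hq⟩, hT (Subgroup.mem_subgroupOf.2 hq), rfl⟩
  obtain ⟨y0, hy0, _⟩ := (Nat.card_eq_two_iff' (1 : Subgroup.center Q)).1 hE.2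
  have hnt : Nontrivial T := by
    refine ⟨⟨⟨⟨((y0 : Q) : G), hQL (y0 : Q).2⟩, hT (Subgroup.mem_subgroupOf.2 (y0 : Q).2)⟩, 1, ?_⟩⟩
    intro h
    apply hy0
    have : ((y0 : Q) : G) = 1 := by
      have := congrArg (fun x : T => ((x : L) : G)) h
      simpa using this
    exact Subtype.ext (Subtype.ext this)
  have hcen := T.isPGroup'.center_nontrivial
  obtain ⟨z, hz⟩ := exists_ne (1 : Subgroup.center T)
  intro n hn
  have hn' := Subgroup.mem_normalizer_iff.1 hn
  -- central elements of T lie in Z(Q)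
  have key : ∀ u : G, u ∈ (T : Subgroup L).map L.subtype → (∀ v ∈ (T : Subgroup L).map L.subtype, v * u = u * v) → u ∈ (Subgroup.center Q).map Q.subtype := by
    intro u _ hu
    rw [← hC, Subgroup.mem_centralizer_iff]
    intro q hq
    exact hu q (hQT q hq)
  have hzT : (((z : T) : L) : G) ∈ (T : Subgroup L).map L.subtype := ⟨((z : T) : L), (z : T).2, rfl⟩
  have hzc : ∀ v ∈ (T : Subgroup L).map L.subtype, v * (((z : T) : L) : G) = (((z : T) : L) : G) * v := by
    rintro _ ⟨v, hv, rfl⟩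
    have := Subgroup.mem_center_iff.1 z.2 ⟨v, hv⟩
    exact congrArg (fun x : T => ((x : L) : G)) this
  have hz1 : (((z : T) : L) : G) ≠ 1 := by
    intro h
    exact hz (Subtype.ext (Subtype.ext (Subtype.ext h)))
  obtain ⟨zz, hzz⟩ : ∃ zz : G, zz = (((z : T) : L) : G) := ⟨_, rfl⟩
  rw [← hzz] at hzT hzc hz1
  have hk1 := key _ hzT hzc
  have hk2 := key (n * zz * n⁻¹) ((hn' _).1 hzT) (by
    intro v hv
    have h1 : n⁻¹ * v * n ∈ (T : Subgroup L).map L.subtype := by
      rw [hn']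
      have : n * (n⁻¹ * v * n) * n⁻¹ = v := by group
      rw [this]; exact hv
    have h2 := hzc _ h1
    calc v * (n * zz * n⁻¹) = n * (n⁻¹ * v * n * zz) * n⁻¹ := by group
      _ = n * (zz * (n⁻¹ * v * n)) * n⁻¹ := by rw [h2]
      _ = _ := by group)
  have hne : n * zz * n⁻¹ ≠ 1 := by
    intro h
    apply hz1
    calc zz = n⁻¹ * (n * zz * n⁻¹) * n := by group
      _ = 1 := by rw [h]; group
  have heq := uniq _ _ hk2 hk1 hne hz1
  apply hN
  rw [Subgroup.mem_centralizer_iff]
  intro u hu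
  by_cases hu1 : u = 1
  · rw [hu1]; group
  · have : u = zz := uniq _ _ hu hk1 hu1 hz1
    rw [this]
    exact (mul_inv_eq_iff_eq_mul.1 heq).symm

end Cfsg.Agent.S5433
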