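import Cfsg.Statements.S5437


set_option autoImplicit false
open Cfsg

namespace Cfsg.Agent.S5437

/-- Let I be a set of involutions of the finite group G closed under conjugation, and H a subgroup of G. The following are equivalent: (1) for every member x of I lying in H, the conjugates of x lying in H form a single H-class and the centralizer of x lies in H; (2) for every g outside H, no member of I lies in both H and g H g⁻¹; (3) every member of I lying in H fixes exactly one coset in the action of G on the cosets of H. -/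
theorem result {G : Type*} [Group G] [Finite G] (I : Set G) (hI : ∀ x ∈ I, orderOf x = 2) (hIc : ∀ g : G, ∀ x ∈ I, g * x * g⁻¹ ∈ I) (H : Subgroup G) : ((∀ x ∈ I, x ∈ H → (∀ g : G, g * x * g⁻¹ ∈ H → ∃ h ∈ H, h * x * h⁻¹ = g * x * g⁻¹) ∧ Subgroup.centralizer ({x} : Set G) ≤ H) ↔ (∀ g : G, g ∉ H → ∀ x ∈ I, ¬ (x ∈ H ∧ x ∈ (H : Subgroup G).map (MulAut.conj g).toMonoidHom))) ∧ ((∀ g : G, g ∉ H → ∀ x ∈ I, ¬ (x ∈ H ∧ x ∈ (H : Subgroup G).map (MulAut.conj g).toMonoidHom)) ↔ ∀ x ∈ I, x ∈ H → ∃! c : G ⧸ H, x • c = c) := by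
  have e1 : ∀ (x g : G), x ∈ (H : Subgroup G).map (MulAut.conj g).toMonoidHom ↔ g⁻¹ * x * g ∈ H := by
    intro x g
    constructor
    · rintro ⟨h, hh, rfl⟩
      have : g⁻¹ * ((MulAut.conj g).toMonoidHom h) * g = h := by
        show g⁻¹ * (g * h * g⁻¹) * g = h
        group
      rw [this]; exact hh
    · intro h
      exact ⟨g⁻¹ * x * g, h, by show g * (g⁻¹ * x * g) * g⁻¹ = x; group⟩
  have e2 : ∀ (x g : G), x • (QuotientGroup.mk g : G ⧸ H) = QuotientGroup.mk g ↔ g⁻¹ * x * g ∈ H := by
    intro x g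
    show (QuotientGroup.mk (x * g) : G ⧸ H) = QuotientGroup.mk g ↔ _
    rw [QuotientGroup.eq, ← H.inv_mem_iff]
    have : ((x * g)⁻¹ * g)⁻¹ = g⁻¹ * x * g := by group
    rw [this]
  constructor
  · constructor
    · intro h g hg x hx hxH
      obtain ⟨hxH, hxg⟩ := hxH
      rw [e1] at hxg
      obtain ⟨h1, h2⟩ := h x hx hxH
      obtain ⟨k, hk, hk2⟩ := h1 g⁻¹ (by rw [inv_inv]; exact hxg)
      rw [inv_inv] at hk2
      have h3 : g * k ∈ Subgroup.centralizer ({x} : Set G) := by
        rw [Subgroup.mem_centralizer_singleton_iff]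
        have h4 : k * x = g⁻¹ * x * g * k := by rw [← hk2]; group
        calc g * k * x = g * (k * x) := by group
          _ = x * (g * k) := by rw [h4]; group
      exact hg ((Subgroup.mul_mem_cancel_right H hk).1 (h2 h3))
    · intro h x hx hxH
      have h3 : ∀ g : G, g * x * g⁻¹ ∈ H → g ∈ H := by
        intro g hg
        by_contra hgH
        refine h g hgH _ (hIc g x hx) ⟨hg, ?_⟩
        rw [e1]
        have : g⁻¹ * (g * x * g⁻¹) * g = x := by group
        rw [this]; exact hxH
      refine ⟨fun g hg => ⟨g, h3 g hg, rfl⟩, fun c hc => h3 c ?_⟩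
      rw [Subgroup.mem_centralizer_singleton_iff] at hc
      rw [hc]
      have : x * c * c⁻¹ = x := by group
      rw [this]; exact hxH
  · constructor
    · intro h x hx hxH
      refine ⟨QuotientGroup.mk 1, (e2 x 1).2 (by simpa using hxH), ?_⟩
      intro c hc
      obtain ⟨g, rfl⟩ := QuotientGroup.mk_surjective c
      have hg := (e2 x g).1 hc
      have hgH : g ∈ H := by
        by_contra hgH
        exact h g hgH x hx ⟨hxH, (e1 x g).2 hg⟩
      rw [QuotientGroup.eq]
      simpa using hgH
    · intro h g hg x hx hxx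
      obtain ⟨c, hc, hc2⟩ := h x hx hxx.1
      have h1 := hc2 (QuotientGroup.mk 1) ((e2 x 1).2 (by simpa using hxx.1))
      have h2 := hc2 (QuotientGroup.mk g) ((e2 x g).2 ((e1 x g).1 hxx.2))
      have h3 := h1.trans h2.symm
      rw [QuotientGroup.eq] at h3
      exact hg (by simpa using h3)

end Cfsg.Agent.S5437
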