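import Cfsg.Statements.S5438


set_option autoImplicit false
open Cfsg

namespace Cfsg.Agent.S5438

/-- Let z be a 2-central involution of the finite group G (an involution central in some Sylow 2-subgroup) and H a subgroup containing z such that the coset H is the only coset of H fixed by z (in the action of G on the cosets of H). Then H has odd index in G, and for every 2-element x of H the conjugates of x lying in H form a single H-class. -/
theorem result {G : Type*} [Group G] [Finite G] (z : G) (hz : Cfsg.IsTwoCentralInvolution z) (H : Subgroup G) (hzH : z ∈ H) (hfix : ∀ g : G, g⁻¹ * z * g ∈ H → g ∈ H) : Odd H.index ∧ ∀ x ∈ H, (∃ k : ℕ, orderOf x = 2 ^ k) → ∀ g : G, g * x * g⁻¹ ∈ H → ∃ h ∈ H, h * x * h⁻¹ = g * x * g⁻¹ := by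
  classical
  obtain ⟨hz2, P, hzP, hcP⟩ := hz
  have e2 : ∀ (x g : G), x • (QuotientGroup.mk g : G ⧸ H) = QuotientGroup.mk g ↔ g⁻¹ * x * g ∈ H := by
    intro x g
    show (QuotientGroup.mk (x * g) : G ⧸ H) = QuotientGroup.mk g ↔ _
    rw [QuotientGroup.eq, ← H.inv_mem_iff]
    have : ((x * g)⁻¹ * g)⁻¹ = g⁻¹ * x * g := by group
    rw [this]
  have hPH : (P : Subgroup G) ≤ H := by
    intro c hc
    apply hfix
    have := hcP c hc
    have : c⁻¹ * z * c = z := by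
      rw [mul_assoc, ← this]; group
    rw [this]; exact hzH
  have hodd : Odd H.index := by
    haveI : Fact (Nat.Prime 2) := ⟨Nat.prime_two⟩
    have h1 := P.not_dvd_index
    rw [← Nat.not_even_iff_odd, even_iff_two_dvd]
    intro h2
    exact h1 (h2.trans (Subgroup.index_dvd_of_le hPH))
  refine ⟨hodd, ?_⟩
  -- conjugates of z fix one coset
  have fix1 : ∀ (a b : G), (a * z * a⁻¹) • (QuotientGroup.mk b : G ⧸ H) = QuotientGroup.mk b → (QuotientGroup.mk b : G ⧸ H) = QuotientGroup.mk a := by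
    intro a b h
    rw [e2] at h
    have h2 : a⁻¹ * b ∈ H := by
      apply hfix
      have : (a⁻¹ * b)⁻¹ * z * (a⁻¹ * b) = b⁻¹ * (a * z * a⁻¹) * b := by group
      rw [this]; exact h
    rw [eq_comm, QuotientGroup.eq]; exact h2
  -- an element of order a power of 2 fixing a coset commutes with a conjugate of z fixing it
  have comm1 : ∀ x ∈ H, (∃ k : ℕ, orderOf x = 2 ^ k) → ∃ a ∈ H, (a * z * a⁻¹) * x = x * (a * z * a⁻¹) := by
    intro x hx hk
    haveI : Fact (Nat.Prime 2) := ⟨Nat.prime_two⟩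
    obtain ⟨k, hk⟩ := hk
    have hp : IsPGroup 2 (Subgroup.zpowers (⟨x, hx⟩ : H)) := by
      apply IsPGroup.of_card (n := k)
      rw [Nat.card_zpowers, Subgroup.orderOf_mk, hk]
    obtain ⟨Q, hQ⟩ := hp.exists_le_sylow
    obtain ⟨g, hg⟩ := MulAction.exists_smul_eq H (P.subtype hPH) Q
    refine ⟨g, g.2, ?_⟩
    have hxQ : (⟨x, hx⟩ : H) ∈ Q := hQ (Subgroup.mem_zpowers _)
    rw [← hg] at hxQ
    open scoped Pointwise in have hxQ' : (⟨x, hx⟩ : H) ∈ (MulAut.conj g • ((P.subtype hPH : Sylow 2 H) : Subgroup H)) := hxQ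
    rw [Subgroup.mem_pointwise_smul_iff_inv_smul_mem] at hxQ'
    have h3 : (g : G)⁻¹ * x * g ∈ (P : Subgroup G) := by
      have h4 : (((MulAut.conj g)⁻¹ • (⟨x, hx⟩ : H) : H) : G) ∈ (P : Subgroup G) := hxQ'
      have h5 : (((MulAut.conj g)⁻¹ • (⟨x, hx⟩ : H) : H) : G) = (g : G)⁻¹ * x * g := by
        rw [← map_inv]
        show ((g⁻¹ * (⟨x, hx⟩ : H) * g⁻¹⁻¹ : H) : G) = _
        rw [inv_inv]; rfl
      rw [← h5]; exact h4
    have h5 := hcP _ h3
    calc (g : G) * z * (g : G)⁻¹ * x = g * (z * ((g : G)⁻¹ * x * g)) * (g : G)⁻¹ := by group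
      _ = g * (((g : G)⁻¹ * x * g) * z) * (g : G)⁻¹ := by rw [h5]
      _ = _ := by group
  intro x hx hk g hg
  obtain ⟨a, ha, hax⟩ := comm1 x hx hk
  obtain ⟨b, hb, hbx⟩ := comm1 (g * x * g⁻¹) hg (by
    obtain ⟨k, hk⟩ := hk
    refine ⟨k, ?_⟩
    have : orderOf (g * x * g⁻¹) = orderOf x := by
      have := (MulAut.conj g).orderOf_eq x
      simpa using this
    rw [this, hk])
  -- the key fact on Sylow subgroups of the centralizer
  haveI : Fact (Nat.Prime 2) := ⟨Nat.prime_two⟩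
  have key : ∀ (c : G), c * z * c⁻¹ ∈ Subgroup.centralizer ({x} : Set G) → ∃ S : Sylow 2 (Subgroup.centralizer ({x} : Set G)), (∀ s ∈ S, (s : G) • (QuotientGroup.mk c : G ⧸ H) = QuotientGroup.mk c) ∧ ∃ s ∈ S, (s : G) = c * z * c⁻¹ := by
    intro c hc
    have hp : IsPGroup 2 (Subgroup.zpowers (⟨c * z * c⁻¹, hc⟩ : Subgroup.centralizer ({x} : Set G))) := by
      apply IsPGroup.of_card (n := 1)
      rw [Nat.card_zpowers, Subgroup.orderOf_mk, pow_one]
      have := (MulAut.conj c).orderOf_eq z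
      rw [← hz2, ← this]; rfl
    obtain ⟨S, hS⟩ := hp.exists_le_sylow
    have hcS : (⟨c * z * c⁻¹, hc⟩ : Subgroup.centralizer ({x} : Set G)) ∈ S := hS (Subgroup.mem_zpowers _)
    refine ⟨S, ?_, _, hcS, rfl⟩
    have hne : (MulAction.fixedPoints ((S : Subgroup (Subgroup.centralizer ({x} : Set G)))) (G ⧸ H)).Nonempty := by
      apply S.isPGroup'.nonempty_fixed_point_of_prime_not_dvd_card
      rw [← Subgroup.index]
      intro h
      exact (Nat.not_even_iff_odd.2 hodd) (even_iff_two_dvd.2 h)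
    obtain ⟨q, hq⟩ := hne
    have h1 := hq ⟨_, hcS⟩
    obtain ⟨b', rfl⟩ := QuotientGroup.mk_surjective q
    have h2 := fix1 c b' h1
    intro s hs
    rw [← h2]
    exact hq ⟨s, hs⟩
  obtain ⟨S, hS, s, hs, hsz⟩ := key a (Subgroup.mem_centralizer_singleton_iff.2 hax)
  have hcomm : g⁻¹ * b * z * (g⁻¹ * b)⁻¹ ∈ Subgroup.centralizer ({x} : Set G) := by
    rw [Subgroup.mem_centralizer_singleton_iff]
    calc g⁻¹ * b * z * (g⁻¹ * b)⁻¹ * x = g⁻¹ * (b * z * b⁻¹ * (g * x * g⁻¹)) * g := by group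
      _ = g⁻¹ * ((g * x * g⁻¹) * (b * z * b⁻¹)) * g := by rw [hbx]
      _ = _ := by group
  obtain ⟨T, hT, _⟩ := key (g⁻¹ * b) hcomm
  obtain ⟨c, hc⟩ := MulAction.exists_smul_eq (Subgroup.centralizer ({x} : Set G)) T S
  rw [← hc] at hs
  open scoped Pointwise in have hs' : s ∈ (MulAut.conj c • (T : Subgroup (Subgroup.centralizer ({x} : Set G)))) := hs
  rw [Subgroup.mem_pointwise_smul_iff_inv_smul_mem] at hs'
  have h6 := hT _ hs'
  have h5 : (((MulAut.conj c)⁻¹ • s : Subgroup.centralizer ({x} : Set G)) : G) = (c : G)⁻¹ * s * c := by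
    rw [← map_inv]
    show ((c⁻¹ * s * c⁻¹⁻¹ : Subgroup.centralizer ({x} : Set G)) : G) = _
    rw [inv_inv]; rfl
  rw [h5, e2, hsz] at h6
  have h7 := fix1 a ((c : G) * (g⁻¹ * b)) ((e2 _ _).2 (by
    have : ((c : G) * (g⁻¹ * b))⁻¹ * (a * z * a⁻¹) * ((c : G) * (g⁻¹ * b)) = (g⁻¹ * b)⁻¹ * ((c : G)⁻¹ * (a * z * a⁻¹) * c) * (g⁻¹ * b) := by group
    rw [this]; exact h6))
  rw [QuotientGroup.eq] at h7
  have h8 : g * (c : G)⁻¹ ∈ H := by
    have : g * (c : G)⁻¹ = b * (((c : G) * (g⁻¹ * b))⁻¹ * a) * a⁻¹ := by group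
    rw [this]
    exact H.mul_mem (H.mul_mem hb h7) (H.inv_mem ha)
  have hcx : (c : G) * x = x * c := Subgroup.mem_centralizer_singleton_iff.1 c.2
  refine ⟨_, h8, ?_⟩
  calc g * (c : G)⁻¹ * x * (g * (c : G)⁻¹)⁻¹ = g * ((c : G)⁻¹ * (x * c)) * g⁻¹ := by group
    _ = g * ((c : G)⁻¹ * (c * x)) * g⁻¹ := by rw [hcx]
    _ = _ := by group

end Cfsg.Agent.S5438
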