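import Cfsg.Statements.S5439


set_option autoImplicit false
open Cfsg

namespace Cfsg.Agent.S5439

/-- Let I and J be two different conjugacy classes of involutions of the finite group G and H a subgroup such that every member of I ∪ J fixes exactly one coset in the action on the cosets of H, and such that for every a in I ∩ H and every b in (I ∪ J) ∩ H different from a and commuting with it, the centralizer of a b lies in H. Then H = G. -/
theorem result {G : Type*} [Group G] [Finite G] (I J : Set G) (a₀ b₀ : G) (ha₀ : orderOf a₀ = 2) (hb₀ : orderOf b₀ = 2) (hI : I = {x | IsConj a₀ x}) (hJ : J = {x | IsConj b₀ x}) (hIJ : I ≠ J) (H : Subgroup G) (hfix : ∀ x ∈ I ∪ J, ∃! c : G ⧸ H, x • c = c) (hcent : ∀ a ∈ I, a ∈ H → ∀ b ∈ I ∪ J, b ∈ H → a ≠ b → a * b = b * a → Subgroup.centralizer ({a * b} : Set G) ≤ H) : H = ⊤ := by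
  classical
  have sq : ∀ c₀ : G, orderOf c₀ = 2 → ∀ x, IsConj c₀ x → x * x = 1 := by
    intro c₀ h x hx
    have h1 : c₀ * c₀ = 1 := by have := pow_orderOf_eq_one c₀; rw [h, pow_two] at this; exact this
    obtain ⟨g, rfl⟩ := isConj_iff.1 hx
    calc g * c₀ * g⁻¹ * (g * c₀ * g⁻¹) = g * (c₀ * c₀) * g⁻¹ := by group
      _ = 1 := by rw [h1]; group
  have sqI : ∀ x ∈ I, x * x = 1 := by rw [hI]; exact sq a₀ ha₀
  have sqJ : ∀ x ∈ J, x * x = 1 := by rw [hJ]; exact sq b₀ hb₀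
  have clI : ∀ g : G, ∀ x ∈ I, g * x * g⁻¹ ∈ I := by
    intro g x hx; rw [hI] at hx ⊢; exact IsConj.trans hx (isConj_iff.2 ⟨g, rfl⟩)
  have clJ : ∀ g : G, ∀ x ∈ J, g * x * g⁻¹ ∈ J := by
    intro g x hx; rw [hJ] at hx ⊢; exact IsConj.trans hx (isConj_iff.2 ⟨g, rfl⟩)
  have hdis : ∀ x ∈ I, x ∈ J → False := by
    intro x hx hx'
    apply hIJ
    rw [hI] at hx ⊢
    rw [hJ] at hx' ⊢
    ext y
    exact ⟨fun h => IsConj.trans hx' (IsConj.trans (IsConj.symm hx) h), fun h => IsConj.trans hx (IsConj.trans (IsConj.symm hx') h)⟩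
  have e2 : ∀ (x g : G), x • (QuotientGroup.mk g : G ⧸ H) = QuotientGroup.mk g ↔ g⁻¹ * x * g ∈ H := by
    intro x g
    show (QuotientGroup.mk (x * g) : G ⧸ H) = QuotientGroup.mk g ↔ _
    rw [QuotientGroup.eq, ← H.inv_mem_iff]
    have : ((x * g)⁻¹ * g)⁻¹ = g⁻¹ * x * g := by group
    rw [this]
  have main : ∀ a ∈ I, a ∈ H → ∀ b ∈ J, b ∈ H := by
    intro a ha haH b hb
    have haa := sqI a ha
    have hbb := sqJ b hb
    obtain ⟨w, hw⟩ : ∃ w, w = a * b := ⟨_, rfl⟩
    have hbw : b = a * w := by rw [hw, ← mul_assoc, haa, one_mul]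
    have hai : a⁻¹ = a := inv_eq_of_mul_eq_one_left haa
    have hbi : b⁻¹ = b := inv_eq_of_mul_eq_one_left hbb
    have hwi : w⁻¹ = b * a := by rw [hw, mul_inv_rev, hai, hbi]
    have s1 : SemiconjBy a w w⁻¹ := by
      show a * w = w⁻¹ * a
      rw [hwi, mul_assoc, haa, mul_one, hbw]
    have s2 : SemiconjBy b w w⁻¹ := by
      show b * w = w⁻¹ * b
      rw [hwi, hw]; group
    have cj : ∀ j : ℕ, (w ^ j)⁻¹ * a * (w ^ j)⁻¹⁻¹ = a * w ^ (2 * j) := by
      intro j
      have h1 : a * w ^ j = w⁻¹ ^ j * a := s1.pow_right j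
      rw [inv_inv, ← inv_pow, ← h1, mul_assoc, ← pow_add]; congr 2; omega
    have cjb : ∀ j : ℕ, (w ^ j)⁻¹ * b * (w ^ j)⁻¹⁻¹ = a * w ^ (2 * j + 1) := by
      intro j
      have h1 : b * w ^ j = w⁻¹ ^ j * b := s2.pow_right j
      rw [inv_inv, ← inv_pow, ← h1, mul_assoc, ← pow_add, hbw, mul_assoc, ← pow_succ']; congr 2; omega
    obtain ⟨n, hn⟩ : 2 ∣ orderOf w := by
      by_contra hcon
      have hodd : Odd (orderOf w) := by rw [← Nat.not_even_iff_odd, even_iff_two_dvd]; exact hcon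
      obtain ⟨k, hk⟩ := hodd
      have hwm : w ^ (2 * k + 1) = 1 := by rw [← hk]; exact pow_orderOf_eq_one _
      have h3 := cj (k + 1)
      have h4 : 2 * (k + 1) = (2 * k + 1) + 1 := by ring
      have h5 : w ^ (2 * (k + 1)) = w := by rw [h4, pow_succ, hwm, one_mul]
      rw [h5, ← hbw] at h3
      exact hdis b (by rw [← h3]; exact clI _ a ha) hb
    obtain ⟨t, ht⟩ : ∃ t, t = w ^ n := ⟨_, rfl⟩
    have ht2 : t * t = 1 := by rw [ht, ← pow_add, ← two_mul, ← hn]; exact pow_orderOf_eq_one _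
    have hti : t⁻¹ = t := inv_eq_of_mul_eq_one_left ht2
    have hpos : 0 < orderOf w := orderOf_pos w
    have ht1 : t ≠ 1 := by
      rw [ht]
      exact pow_ne_one_of_lt_orderOf (by omega) (by omega)
    have hat : a * t = t * a := by
      have h1 : a * w ^ n = w⁻¹ ^ n * a := s1.pow_right n
      rw [inv_pow, ← ht, hti] at h1; exact h1
    have hbt : b * t = t * b := by
      have h1 : b * w ^ n = w⁻¹ ^ n * b := s2.pow_right n
      rw [inv_pow, ← ht, hti] at h1; exact h1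
    have hmem : a * t ∈ I ∪ J := by
      rcases Nat.even_or_odd' n with ⟨j, hj | hj⟩
      · left; rw [ht, hj, ← cj]; exact clI _ a ha
      · right; rw [ht, hj, ← cjb]; exact clJ _ b hb
    have htH : t ∈ H := by
      obtain ⟨c, _, hc2⟩ := hfix a (Or.inl ha)
      have h1 : a • (QuotientGroup.mk (1 : G) : G ⧸ H) = QuotientGroup.mk 1 := (e2 a 1).2 (by simpa using haH)
      have h2 : a • (t • (QuotientGroup.mk (1 : G) : G ⧸ H)) = t • (QuotientGroup.mk (1 : G) : G ⧸ H) := by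
        rw [smul_smul, hat, ← smul_smul, h1]
      have h3 := (hc2 _ h2).trans (hc2 _ h1).symm
      have := (e2 t 1).1 h3
      simpa using this
    have h5 := hcent a ha haH (a * t) hmem (H.mul_mem haH htH) (fun h => ht1 (by simpa using h.symm)) (by rw [mul_assoc a t a, ← hat])
    apply h5
    have h6 : a * (a * t) = t := by rw [← mul_assoc, haa, one_mul]
    rw [Subgroup.mem_centralizer_singleton_iff, h6]
    exact hbt
  rw [Subgroup.eq_top_iff']
  intro g
  have hallH : ∀ b ∈ J, b ∈ H := by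
    obtain ⟨c, hc, _⟩ := hfix a₀ (Or.inl (by rw [hI]; exact IsConj.refl _))
    obtain ⟨g, rfl⟩ := QuotientGroup.mk_surjective c
    have h1 := (e2 _ _).1 hc
    refine main _ ?_ h1
    have : g⁻¹ * a₀ * g = g⁻¹ * a₀ * g⁻¹⁻¹ := by group
    rw [this]
    exact clI _ _ (by rw [hI]; exact IsConj.refl _)
  have hb0 : b₀ ∈ J := by rw [hJ]; exact IsConj.refl _
  obtain ⟨c, _, hc2⟩ := hfix b₀ (Or.inr hb0)
  have h1 := hc2 (QuotientGroup.mk 1) ((e2 b₀ 1).2 (by simpa using hallH b₀ hb0))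
  have h2 := hc2 (QuotientGroup.mk g) ((e2 b₀ g).2 (by
    have : g⁻¹ * b₀ * g = g⁻¹ * b₀ * g⁻¹⁻¹ := by group
    rw [this]; exact hallH _ (clJ _ _ hb0)))
  have h3 := h1.trans h2.symm
  rw [QuotientGroup.eq] at h3
  simpa using h3

end Cfsg.Agent.S5439
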