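import Cfsg.Statements.S5459
import Cfsg.Agent.L0.GenFit
import Mathlib

set_option autoImplicit false
open Cfsg

namespace Cfsg.Agent.S5459

open Subgroup
open scoped commutatorElement

def RR {G : Type*} [Group G] (d a b : G) : Prop := IsConj d a ∧ IsConj d b ∧ Commute a b

theorem rr_conj {G : Type*} [Group G] {d a b : G} (g : G) (h : RR d a b) : RR d (g * a * g⁻¹) (g * b * g⁻¹) := by
  obtain ⟨h1, h2, h3⟩ := h
  refine ⟨h1.trans (isConj_iff.2 ⟨g, rfl⟩), h2.trans (isConj_iff.2 ⟨g, rfl⟩), ?_⟩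
  show (g * a * g⁻¹) * (g * b * g⁻¹) = (g * b * g⁻¹) * (g * a * g⁻¹)
  have : a * b = b * a := h3
  calc (g * a * g⁻¹) * (g * b * g⁻¹) = g * (a * b) * g⁻¹ := by group
    _ = g * (b * a) * g⁻¹ := by rw [this]
    _ = _ := by group

theorem tg_conj {G : Type*} [Group G] {d a b : G} (g : G) (h : Relation.ReflTransGen (RR d) a b) : Relation.ReflTransGen (RR d) (g * a * g⁻¹) (g * b * g⁻¹) := by
  induction h with
  | refl => exact Relation.ReflTransGen.refl
  | tail _ h1 ih => exact ih.tail (rr_conj g h1)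

theorem tg_symm {G : Type*} [Group G] {d a b : G} (h : Relation.ReflTransGen (RR d) a b) : Relation.ReflTransGen (RR d) b a := by
  induction h with
  | refl => exact Relation.ReflTransGen.refl
  | tail _ h1 ih => exact Relation.ReflTransGen.head ⟨h1.2.1, h1.1, h1.2.2.symm⟩ ih

theorem root {G : Type*} [Group G] [Finite G] {Z : Subgroup G} (hodd : Odd (Nat.card Z)) (n : ℕ) (hn : n.Coprime (Nat.card Z)) {c : G} (hc : c ∈ Z) : ∃ z ∈ Z, z ^ n = c := by
  have h1 : (Nat.card Z).Coprime n := hn.symm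
  have h2 : n.Coprime (orderOf c) := Nat.Coprime.coprime_dvd_right (Subgroup.orderOf_dvd_natCard Z hc) hn
  obtain ⟨m, hm⟩ := exists_pow_eq_self_of_coprime h2
  exact ⟨c ^ m, pow_mem hc m, by rw [← pow_mul, mul_comm, pow_mul]; exact hm⟩

/-- Let G be a finite group with a quasisimple normal subgroup L and an involution d such that G is generated by L and d, the centre of L has odd order, and d inverts every element of the centre of L. If the commuting graph on the conjugacy class of the image of d in G modulo the centre of L is connected, then the commuting graph on the conjugacy class of d is connected. -/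
theorem result {G : Type*} [Group G] [Finite G] (L : Subgroup G) [L.Normal] (hL : Cfsg.IsQuasisimple ↥L) (d : G) (hd : orderOf d = 2) (hgen : L ⊔ Subgroup.zpowers d = ⊤) (hodd : Odd (Nat.card ↥(Subgroup.center ↥L))) (hinv : ∀ c ∈ (Subgroup.center ↥L).map L.subtype, d * c * d⁻¹ = c⁻¹) [hn : ((Subgroup.center ↥L).map L.subtype).Normal] (hconn : (Cfsg.commutingGraph (conjugatesOf (QuotientGroup.mk d : G ⧸ (Subgroup.center ↥L).map L.subtype))).Connected) : (Cfsg.commutingGraph (conjugatesOf d)).Connected := by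
  obtain ⟨Z, hZ⟩ : ∃ Z, Z = (Subgroup.center ↥L).map L.subtype := ⟨_, rfl⟩
  have hZn : Z.Normal := by rw [hZ]; exact hn
  have hZL : Z ≤ L := by rw [hZ]; exact Subgroup.map_subtype_le _
  have hZodd : Odd (Nat.card Z) := by
    rw [hZ, Nat.card_congr ((Subgroup.center ↥L).equivMapOfInjective _ L.subtype_injective).symm.toEquiv]; exact hodd
  have hinv' : ∀ x : G, IsConj d x → ∀ c ∈ Z, x * c * x⁻¹ = c⁻¹ := by
    intro x hx c hc
    obtain ⟨g, rfl⟩ := isConj_iff.1 hx
    have h1 : g⁻¹ * c * g ∈ Z := by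
      have := hZn.conj_mem c hc g⁻¹
      rwa [inv_inv] at this
    have h2 := hinv _ (hZ ▸ h1)
    calc g * d * g⁻¹ * c * (g * d * g⁻¹)⁻¹ = g * (d * (g⁻¹ * c * g) * d⁻¹) * g⁻¹ := by group
      _ = g * (g⁻¹ * c * g)⁻¹ * g⁻¹ := by rw [h2]
      _ = c⁻¹ := by group
  have hconj' : ∀ x : G, IsConj d x → ∀ z ∈ Z, z * x * z⁻¹ = z ^ 2 * x := by
    intro x hx z hz
    have h1 := hinv' x hx z⁻¹ (inv_mem hz)
    rw [inv_inv] at h1
    calc z * x * z⁻¹ = z * (x * z⁻¹ * x⁻¹) * x := by group
      _ = z ^ 2 * x := by rw [h1, pow_two]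
  have hcop : ∀ n, n = 2 ∨ n = 4 → n.Coprime (Nat.card Z) := by
    intro n hn
    have h2 : Nat.Coprime 2 (Nat.card Z) := Nat.coprime_two_left.2 hZodd
    rcases hn with rfl | rfl
    · exact h2
    · exact Nat.Coprime.pow_left 2 h2
  subst hZ
  -- connectivity in the quotient
  obtain ⟨hpre, -⟩ := hconn
  -- lifting
  have hlift : ∀ (x y : ↥(conjugatesOf (QuotientGroup.mk d : G ⧸ (Subgroup.center ↥L).map L.subtype))),
      (commutingGraph (conjugatesOf (QuotientGroup.mk d : G ⧸ (Subgroup.center ↥L).map L.subtype))).Reachable x y →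
      ∀ a : G, IsConj d a → (QuotientGroup.mk a : G ⧸ (Subgroup.center ↥L).map L.subtype) = x →
        ∃ b : G, IsConj d b ∧ (QuotientGroup.mk b : G ⧸ (Subgroup.center ↥L).map L.subtype) = y ∧ Relation.ReflTransGen (RR d) a b := by
    intro x y hxy a ha hax
    rw [SimpleGraph.reachable_iff_reflTransGen] at hxy
    induction hxy with
    | refl => exact ⟨a, ha, hax, Relation.ReflTransGen.refl⟩
    | tail _ h1 ih =>
      rename_i u v _
      obtain ⟨b, hb, hbu, hab⟩ := ih
      obtain ⟨hne, hcomm⟩ := (SimpleGraph.fromRel_adj _ _ _).1 h1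
      have hcomm' : Commute (u : G ⧸ (Subgroup.center ↥L).map L.subtype) v := by
        rcases hcomm with h | h
        · exact h
        · exact h.symm
      obtain ⟨gq, hgq⟩ := isConj_iff.1 (show IsConj (QuotientGroup.mk d : G ⧸ (Subgroup.center ↥L).map L.subtype) (v : G ⧸ (Subgroup.center ↥L).map L.subtype) from v.2)
      obtain ⟨g, rfl⟩ := QuotientGroup.mk_surjective gq
      obtain ⟨w, hw⟩ : ∃ w, w = g * d * g⁻¹ := ⟨_, rfl⟩
      have hwc : IsConj d w := isConj_iff.2 ⟨g, hw.symm⟩
      have hwv : (QuotientGroup.mk w : G ⧸ (Subgroup.center ↥L).map L.subtype) = v := by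
        rw [hw, ← hgq]; rfl
      have hc : b * w * b⁻¹ * w⁻¹ ∈ (Subgroup.center ↥L).map L.subtype := by
        rw [← QuotientGroup.eq_one_iff]
        show (QuotientGroup.mk b : G ⧸ (Subgroup.center ↥L).map L.subtype) * (QuotientGroup.mk w : G ⧸ (Subgroup.center ↥L).map L.subtype) * (QuotientGroup.mk b : G ⧸ (Subgroup.center ↥L).map L.subtype)⁻¹ * (QuotientGroup.mk w : G ⧸ (Subgroup.center ↥L).map L.subtype)⁻¹ = 1
        rw [hbu, hwv, hcomm'.eq]; group
      obtain ⟨z, hz, hz4⟩ := root hZodd 4 (hcop 4 (Or.inr rfl)) hc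
      have hw' := hconj' w hwc z hz
      refine ⟨z * w * z⁻¹, hwc.trans (isConj_iff.2 ⟨z, rfl⟩), ?_, hab.tail ⟨hb, hwc.trans (isConj_iff.2 ⟨z, rfl⟩), ?_⟩⟩
      · have hz1 : (QuotientGroup.mk z : G ⧸ (Subgroup.center ↥L).map L.subtype) = 1 := (QuotientGroup.eq_one_iff z).2 hz
        show (QuotientGroup.mk z : G ⧸ (Subgroup.center ↥L).map L.subtype) * (QuotientGroup.mk w : G ⧸ (Subgroup.center ↥L).map L.subtype) * (QuotientGroup.mk z : G ⧸ (Subgroup.center ↥L).map L.subtype)⁻¹ = v
        rw [hz1, one_mul, inv_one, mul_one, hwv]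
      · show b * (z * w * z⁻¹) = (z * w * z⁻¹) * b
        rw [hw']
        have h3 := hinv' b hb (z ^ 2) (pow_mem hz 2)
        have h4 : b * z ^ 2 = (z ^ 2)⁻¹ * b := by rw [← h3]; group
        have h5 : b * w = z ^ 4 * (w * b) := by rw [hz4]; group
        calc b * (z ^ 2 * w) = (b * z ^ 2) * w := by group
          _ = (z ^ 2)⁻¹ * (b * w) := by rw [h4]; group
          _ = (z ^ 2)⁻¹ * (z ^ 4 * (w * b)) := by rw [h5]
          _ = z ^ 2 * w * b := by group
  let G0 : Subgroup G :=
    { carrier := {g | Relation.ReflTransGen (RR d) d (g * d * g⁻¹)}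
      one_mem' := by
        show Relation.ReflTransGen (RR d) d (1 * d * 1⁻¹)
        rw [one_mul, inv_one, mul_one]
      mul_mem' := by
        intro a b ha hb
        show Relation.ReflTransGen (RR d) d (a * b * d * (a * b)⁻¹)
        have h1 := tg_conj a hb
        have e : a * (b * d * b⁻¹) * a⁻¹ = a * b * d * (a * b)⁻¹ := by group
        rw [e] at h1
        exact Relation.ReflTransGen.trans ha h1
      inv_mem' := by
        intro a ha
        show Relation.ReflTransGen (RR d) d (a⁻¹ * d * a⁻¹⁻¹)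
        have h1 := tg_conj a⁻¹ ha
        have e : a⁻¹ * (a * d * a⁻¹) * a⁻¹⁻¹ = d := by group
        rw [e] at h1
        exact tg_symm h1 }
  have hG0 : ∀ g : G, g ∈ G0 ↔ Relation.ReflTransGen (RR d) d (g * d * g⁻¹) := fun g => Iff.rfl
  have hcover : ∀ g : G, ∃ z ∈ (Subgroup.center ↥L).map L.subtype, z * g ∈ G0 := by
    intro g
    obtain ⟨b, hb, hby, hab⟩ := hlift ⟨QuotientGroup.mk d, IsConj.refl _⟩ ⟨QuotientGroup.mk (g * d * g⁻¹), isConj_iff.2 ⟨(QuotientGroup.mk g : G ⧸ (Subgroup.center ↥L).map L.subtype), rfl⟩⟩ (hpre _ _) d (IsConj.refl _) rfl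
    have h1 : b * (g * d * g⁻¹)⁻¹ ∈ (Subgroup.center ↥L).map L.subtype := by
      rw [← QuotientGroup.eq_one_iff]
      show (QuotientGroup.mk b : G ⧸ (Subgroup.center ↥L).map L.subtype) * (QuotientGroup.mk (g * d * g⁻¹) : G ⧸ (Subgroup.center ↥L).map L.subtype)⁻¹ = 1
      rw [hby, mul_inv_cancel]
    obtain ⟨z, hz, hz2⟩ := root hZodd 2 (hcop 2 (Or.inl rfl)) h1
    refine ⟨z, hz, ?_⟩
    rw [hG0]
    have h2 := hconj' (g * d * g⁻¹) (isConj_iff.2 ⟨g, rfl⟩) z hz
    have e : z * g * d * (z * g)⁻¹ = b := by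
      calc z * g * d * (z * g)⁻¹ = z * (g * d * g⁻¹) * z⁻¹ := by group
        _ = z ^ 2 * (g * d * g⁻¹) := h2
        _ = b := by rw [hz2]; group
    rw [e]; exact hab
  have hcen : ∀ z ∈ (Subgroup.center ↥L).map L.subtype, ∀ l ∈ L, z * l = l * z := by
    rintro _ ⟨z, hz, rfl⟩ l hl
    exact (congrArg Subtype.val (Subgroup.mem_center_iff.1 hz ⟨l, hl⟩)).symm
  have hLG0 : L ≤ G0 := by
    rw [← L0.commutator_self_of_isQuasisimple hL, Subgroup.commutator_le]
    intro a ha b hb
    obtain ⟨z, hz, hza⟩ := hcover a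
    obtain ⟨w, hw, hwb⟩ := hcover b
    have e : ⁅a, b⁆ = ⁅z * a, w * b⁆ := by
      have h1 := hcen z hz
      have h2 := hcen w hw
      have hw' : w ∈ L := hZL hw
      have c1 : Commute z a := h1 a ha
      have c2 : Commute z b := h1 b hb
      have c3 : Commute z w := h1 w hw'
      have c4 : Commute w a := h2 a ha
      have c5 : Commute w b := h2 b hb
      rw [commutatorElement_def, commutatorElement_def]
      have s1 : z * a * (w * b) = (z * w) * (a * b) := by
        calc z * a * (w * b) = z * (a * w) * b := by group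
          _ = z * (w * a) * b := by rw [c4.eq]
          _ = _ := by group
      have s2 : (w * b) * (z * a) = (z * w) * (b * a) := by
        calc (w * b) * (z * a) = w * (b * z) * a := by group
          _ = w * (z * b) * a := by rw [c2.eq]
          _ = (w * z) * (b * a) := by group
          _ = _ := by rw [c3.eq]
      calc a * b * a⁻¹ * b⁻¹ = (a * b) * (b * a)⁻¹ := by group
        _ = ((z * w) * (a * b)) * ((z * w) * (b * a))⁻¹ := by
            have s3 : Commute (z * w) (a * b) := (c1.mul_right c2).mul_left (c4.mul_right c5)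
            have s4 : Commute (z * w) ((a * b) * (b * a)⁻¹) := s3.mul_right ((c2.mul_right c1).mul_left (c5.mul_right c4)).inv_right
            have s5 : ((z * w) * (a * b)) * ((z * w) * (b * a))⁻¹ = ((z * w) * ((a * b) * (b * a)⁻¹)) * (z * w)⁻¹ := by group
            rw [s5, s4.eq]; group
        _ = (z * a * (w * b)) * ((w * b) * (z * a))⁻¹ := by rw [s1, s2]
        _ = _ := by group
    rw [e]
    exact G0.mul_mem (G0.mul_mem (G0.mul_mem hza hwb) (G0.inv_mem hza)) (G0.inv_mem hwb)
  have hdG0 : d ∈ G0 := by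
    rw [hG0, mul_inv_cancel_right]
  have hG0top : G0 = ⊤ := by
    rw [eq_top_iff, ← hgen]
    exact sup_le hLG0 (by rw [zpowers_le]; exact hdG0)
  have hall : ∀ x : G, IsConj d x → Relation.ReflTransGen (RR d) d x := by
    intro x hx
    obtain ⟨g, rfl⟩ := isConj_iff.1 hx
    exact (hG0 g).1 (hG0top ▸ mem_top g)
  have hreach : ∀ a b : G, Relation.ReflTransGen (RR d) a b → ∀ (ha : IsConj d a) (hb : IsConj d b),
      (commutingGraph (conjugatesOf d)).Reachable ⟨a, ha⟩ ⟨b, hb⟩ := by
    intro a b hab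
    induction hab with
    | refl => exact fun ha hb => SimpleGraph.Reachable.refl _
    | tail _ h1 ih =>
      intro ha hc
      rename_i u v _
      have h2 := ih ha h1.1
      by_cases huv : u = v
      · subst huv; exact h2
      · refine h2.trans (SimpleGraph.Adj.reachable ((SimpleGraph.fromRel_adj _ _ _).2 ⟨fun h => huv (congrArg Subtype.val h), Or.inl h1.2.2⟩))
  haveI : Nonempty ↥(conjugatesOf d) := ⟨⟨d, IsConj.refl d⟩⟩
  refine SimpleGraph.Connected.mk ?_
  intro x y
  exact (hreach _ _ (hall _ x.2) (IsConj.refl d) x.2).symm.trans (hreach _ _ (hall _ y.2) (IsConj.refl d) y.2)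

end Cfsg.Agent.S5459
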