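import Cfsg.Statements.S5541
import Mathlib

set_option autoImplicit false
open Cfsg

namespace Cfsg.Agent.S5541

/-- Let ρ be a representation of a group H on a finite-dimensional real vector space U whose only ρ-invariant subspaces are the zero subspace and U, and suppose U carries a non-zero ρ-invariant symmetric bilinear form. Then the following are equivalent: (1) there is a non-zero ρ-equivariant commutative bilinear product on U of which every ρ-equivariant bilinear product is a scalar multiple; (2) there is a non-zero ρ-invariant trilinear form on U that is symmetric under all permutations of its arguments and of which every ρ-invariant trilinear form is a scalar multiple. -/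
theorem result {H : Type*} [Group H] {U : Type*} [AddCommGroup U] [Module ℝ U] [FiniteDimensional ℝ U] (ρ : Representation ℝ H U) (hirr : ∀ W : Submodule ℝ U, (∀ g : H, W.map (ρ g) ≤ W) → W = ⊥ ∨ W = ⊤) (B : LinearMap.BilinForm ℝ U) (hB0 : B ≠ 0) (hBs : ∀ u v, B u v = B v u) (hBi : ∀ (g : H) (u v : U), B (ρ g u) (ρ g v) = B u v) : (∃ m : U →ₗ[ℝ] U →ₗ[ℝ] U, m ≠ 0 ∧ (∀ u v, m u v = m v u) ∧ (∀ (g : H) (u v : U), m (ρ g u) (ρ g v) = ρ g (m u v)) ∧ ∀ m' : U →ₗ[ℝ] U →ₗ[ℝ] U, (∀ (g : H) (u v : U), m' (ρ g u) (ρ g v) = ρ g (m' u v)) → ∃ c : ℝ, m' = c • m) ↔ (∃ t : U →ₗ[ℝ] U →ₗ[ℝ] U →ₗ[ℝ] ℝ, t ≠ 0 ∧ (∀ u v w, t u v w = t v u w ∧ t u v w = t u w v) ∧ (∀ (g : H) (u v w : U), t (ρ g u) (ρ g v) (ρ g w) = t u v w) ∧ ∀ t' : U →ₗ[ℝ] U →ₗ[ℝ] U →ₗ[ℝ] ℝ, (∀ (g : H) (u v w : U), t' (ρ g u) (ρ g v) (ρ g w) = t' u v w) → ∃ c : ℝ, t' = c • t) := by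
  have hgg : ∀ (g : H) (w : U), ρ g (ρ g⁻¹ w) = w := by
    intro g w
    rw [← Module.End.mul_apply, ← map_mul, mul_inv_cancel, map_one]; rfl
  have hnd : ∀ x, B x = 0 → x = 0 := by
    have hW : ∀ g : H, (LinearMap.ker B).map (ρ g) ≤ LinearMap.ker B := by
      intro g
      rintro _ ⟨x, hx, rfl⟩
      have hx' : B x = 0 := hx
      show B (ρ g x) = 0
      ext v
      rw [← hgg g v, hBi, hx']; rfl
    rcases hirr _ hW with h | h
    · intro x hx
      have : x ∈ LinearMap.ker B := hx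
      rw [h] at this
      simpa using this
    · exact absurd (LinearMap.ker_eq_top.mp h) hB0
  have hinj : Function.Injective B := by
    rw [← LinearMap.ker_eq_bot, LinearMap.ker_eq_bot']
    exact hnd
  let E : U ≃ₗ[ℝ] (U →ₗ[ℝ] ℝ) := LinearMap.linearEquivOfInjective B hinj (Subspace.dual_finrank_eq (K := ℝ) (V := U)).symm
  have hE : ∀ x, E x = B x := fun x => rfl
  -- back and forth
  have hTm : ∀ m : U →ₗ[ℝ] U →ₗ[ℝ] U, (∀ (g : H) (u v : U), m (ρ g u) (ρ g v) = ρ g (m u v)) →
      ∀ (g : H) (u v w : U), B (m (ρ g u) (ρ g v)) (ρ g w) = B (m u v) w := by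
    intro m hm g u v w
    rw [hm, hBi]
  have hmT : ∀ t : U →ₗ[ℝ] U →ₗ[ℝ] U →ₗ[ℝ] ℝ, (∀ (g : H) (u v w : U), t (ρ g u) (ρ g v) (ρ g w) = t u v w) →
      ∀ (g : H) (u v : U), E.symm (t (ρ g u) (ρ g v)) = ρ g (E.symm (t u v)) := by
    intro t ht g u v
    apply E.injective
    rw [LinearEquiv.apply_symm_apply]
    ext w
    have h1 : t (ρ g u) (ρ g v) w = t u v (ρ g⁻¹ w) := by
      conv_lhs => rw [← hgg g w]
      rw [ht]
    rw [h1, hE]
    conv_rhs => rw [← hgg g w]
    rw [hBi, ← hE, LinearEquiv.apply_symm_apply]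
  constructor
  · rintro ⟨m, hm0, hmc, hme, hmu⟩
    let t : U →ₗ[ℝ] U →ₗ[ℝ] U →ₗ[ℝ] ℝ := m.compr₂ B
    have ht : ∀ u v w, t u v w = B (m u v) w := fun u v w => rfl
    have hti : ∀ (g : H) (u v w : U), t (ρ g u) (ρ g v) (ρ g w) = t u v w := hTm m hme
    have htu : ∀ t' : U →ₗ[ℝ] U →ₗ[ℝ] U →ₗ[ℝ] ℝ, (∀ (g : H) (u v w : U), t' (ρ g u) (ρ g v) (ρ g w) = t' u v w) → ∃ c : ℝ, t' = c • t := by
      intro t' ht'
      obtain ⟨c, hc⟩ := hmu (t'.compr₂ E.symm.toLinearMap) (fun g u v => hmT t' ht' g u v)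
      refine ⟨c, ?_⟩
      ext u v w
      have h1 := LinearMap.congr_fun (LinearMap.congr_fun hc u) v
      have h2 : E.symm (t' u v) = c • m u v := h1
      have h3 : t' u v = E (c • m u v) := by rw [← h2, LinearEquiv.apply_symm_apply]
      rw [h3, map_smul, hE]
      rfl
    have ht0 : t ≠ 0 := by
      intro h
      apply hm0
      ext u v
      apply hnd
      ext w
      have := LinearMap.congr_fun (LinearMap.congr_fun (LinearMap.congr_fun h u) v) w
      exact this
    have hsw : ∃ c : ℝ, ∀ u v w, t u w v = c * t u v w := by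
      let L : (U →ₗ[ℝ] U →ₗ[ℝ] ℝ) →ₗ[ℝ] (U →ₗ[ℝ] U →ₗ[ℝ] ℝ) :=
        { toFun := fun s => s.flip, map_add' := fun _ _ => rfl, map_smul' := fun _ _ => rfl }
      obtain ⟨c, hc⟩ := htu (L.comp t) (fun g u v w => hti g u w v)
      refine ⟨c, fun u v w => ?_⟩
      have := LinearMap.congr_fun (LinearMap.congr_fun (LinearMap.congr_fun hc u) v) w
      exact this
    obtain ⟨c, hc⟩ := hsw
    have hc12 : ∀ u v w, t u v w = t v u w := fun u v w => by rw [ht, ht, hmc]
    obtain ⟨u0, v0, w0, hne⟩ : ∃ u v w, t u v w ≠ 0 := by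
      by_contra hcon
      push Not at hcon
      apply ht0
      ext u v w
      exact hcon u v w
    have hc2 : c * c = 1 := by
      have h1 := hc u0 v0 w0
      have h2 := hc u0 w0 v0
      rw [h1] at h2
      have : (c * c - 1) * t u0 v0 w0 = 0 := by linear_combination -h2
      rcases mul_eq_zero.mp this with h | h
      · linarith
      · exact absurd h hne
    have hc1 : c = 1 := by
      have h3 : (c - 1) * (c + 1) = 0 := by linear_combination hc2
      rcases mul_eq_zero.mp h3 with h | h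
      · linarith
      · exfalso
        have hcm : c = -1 := by linarith
        subst hcm
        apply hne
        have e1 := hc12 u0 v0 w0
        have e2 := hc v0 w0 u0
        have e3 := hc12 v0 w0 u0
        have e4 := hc w0 u0 v0
        have e5 := hc12 w0 u0 v0
        have e6 := hc u0 v0 w0
        linarith
    subst hc1
    exact ⟨t, ht0, fun u v w => ⟨hc12 u v w, by rw [hc u v w, one_mul]⟩, hti, htu⟩
  · rintro ⟨t, ht0, hts, hti, htu⟩
    refine ⟨t.compr₂ E.symm.toLinearMap, ?_, ?_, ?_, ?_⟩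
    · intro h
      apply ht0
      ext u v w
      have h1 : E.symm (t u v) = 0 := LinearMap.congr_fun (LinearMap.congr_fun h u) v
      have h2 : t u v = 0 := by
        rw [← E.apply_symm_apply (t u v), h1, map_zero]
      rw [h2]; rfl
    · intro u v
      show E.symm (t u v) = E.symm (t v u)
      congr 1
      ext w
      exact (hts u v w).1
    · intro g u v
      exact hmT t hti g u v
    · intro m' hm'
      obtain ⟨c, hc⟩ := htu (m'.compr₂ B) (hTm m' hm')
      refine ⟨c, ?_⟩
      ext u v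
      apply E.injective
      show E (m' u v) = E (c • E.symm (t u v))
      rw [map_smul, LinearEquiv.apply_symm_apply, hE]
      exact LinearMap.congr_fun (LinearMap.congr_fun hc u) v

end Cfsg.Agent.S5541
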