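import Cfsg.Statements.S5543
import Mathlib.Tactic.Module
import Mathlib.Tactic.NormNum
import Mathlib.Data.Set.Card
import Mathlib.Algebra.Group.Subgroup.Finite
-- import your own Cfsg.Agent.* helpers here

set_option autoImplicit false
open Cfsg

namespace Cfsg.Agent.S5543

theorem pick {G : Type*} [Group G] (X : Subgroup G) (h : 4 < Nat.card X) (s : Set G) (hs : s.Finite) (hc : s.ncard ≤ 4) :
    ∃ z ∈ X, z ∉ s := by
  by_contra hcon
  push Not at hcon
  have h1 : (X : Set G) ⊆ s := fun z hz => hcon z hz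
  have h2 := Set.ncard_le_ncard h1 hs
  have h3 : (X : Set G).ncard = Nat.card X := rfl
  omega

theorem idem {V : Type*} [AddCommGroup V] [Module ℝ V] (mul : V →ₗ[ℝ] V →ₗ[ℝ] V) (a w : V)
    (hw : w ∈ Cfsg.Axial.eigenSum mul a ({1, 0} : Set ℝ)) : mul a (mul a w) = mul a w := by
  have hle : Cfsg.Axial.eigenSum mul a ({1, 0} : Set ℝ) ≤ LinearMap.ker (mul a ∘ₗ mul a - mul a) := by
    apply iSup₂_le
    intro c hc v hv
    have hv' : mul a v = c • v := Module.End.mem_eigenspace_iff.1 hv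
    rw [LinearMap.mem_ker, LinearMap.sub_apply, LinearMap.comp_apply, hv', map_smul, hv', sub_eq_zero]
    rcases hc with rfl | hc
    · simp
    · rw [Set.mem_singleton_iff] at hc; subst hc; simp
  have := hle hw
  rw [LinearMap.mem_ker, LinearMap.sub_apply, LinearMap.comp_apply, sub_eq_zero] at this
  exact this

/-- Let V be a finite-dimensional real vector space with a commutative bilinear product and a positive-definite symmetric bilinear form that associates with the product and satisfies the Norton inequality (the Majorana setting of the definitions). Let X be a group of linear automorphisms of V in which every element squares to the identity, and suppose every non-identity element x of X is a Majorana involution with an axial vector a(x) of squared length 1, such that for any two distinct non-identity x, y the product a(x) ∘ a(y) equals (1/8)(a(x) + a(y) − a(xy)) (the dihedral subalgebra of type 2A whose third axis belongs to the involution xy). Then X has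 order at most 4. -/
theorem result {V : Type*} [AddCommGroup V] [Module ℝ V] [FiniteDimensional ℝ V] (mul : V →ₗ[ℝ] V →ₗ[ℝ] V) (B : LinearMap.BilinForm ℝ V) (hV : Cfsg.Axial.IsMajoranaAmbient mul B) (X : Subgroup (V ≃ₗ[ℝ] V)) (hX : ∀ x ∈ X, x * x = 1) (ax : (V ≃ₗ[ℝ] V) → V) (hax : ∀ x ∈ X, x ≠ 1 → Cfsg.Axial.IsMajoranaPair mul B x (ax x)) (h1 : ∀ x ∈ X, x ≠ 1 → B (ax x) (ax x) = 1) (h2A : ∀ x ∈ X, ∀ y ∈ X, x ≠ 1 → y ≠ 1 → x ≠ y → mul (ax x) (ax y) = (1 / 8 : ℝ) • (ax x + ax y - ax (x * y))) : Nat.card ↥X ≤ 4 := by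
  by_contra hcon
  push Not at hcon
  obtain ⟨x, hx, hx1⟩ := pick X hcon {1} (Set.toFinite _) (by rw [Set.ncard_singleton]; omega)
  obtain ⟨y, hy, hy1⟩ := pick X hcon {1, x} (Set.toFinite _) (le_trans (Set.ncard_insert_le _ _) (by rw [Set.ncard_singleton]; omega))
  obtain ⟨z, hz, hz1⟩ := pick X hcon {1, x, y, x * y} (Set.toFinite _)
    (le_trans (Set.ncard_insert_le _ _) (Nat.succ_le_succ (le_trans (Set.ncard_insert_le _ _) (Nat.succ_le_succ (le_trans (Set.ncard_insert_le _ _) (by rw [Set.ncard_singleton]))))))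
  simp only [Set.mem_insert_iff, Set.mem_singleton_iff, not_or] at hx1 hy1 hz1
  obtain ⟨hy1, hyx⟩ := hy1
  obtain ⟨hz1, hzx, hzy, hzxy⟩ := hz1
  have hinv : ∀ g ∈ X, g⁻¹ = g := fun g hg => inv_eq_of_mul_eq_one_right (hX g hg)
  have hcomm : ∀ g ∈ X, ∀ h ∈ X, g * h = h * g := by
    intro g hg h hh
    have := hinv (g * h) (X.mul_mem hg hh)
    rw [mul_inv_rev, hinv g hg, hinv h hh] at this
    exact this.symm
  have hne : ∀ g ∈ X, ∀ h ∈ X, g ≠ h → g * h ≠ 1 := by
    intro g hg h hh hgh h1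
    exact hgh (by rw [← hinv h hh]; exact eq_inv_of_mul_eq_one_left h1)
  have hxy : x * y ≠ 1 := hne x hx y hy (Ne.symm hyx)
  have hxz : x * z ≠ 1 := hne x hx z hz (Ne.symm hzx)
  have hyz : y * z ≠ 1 := hne y hy z hz (Ne.symm hzy)
  have hxyX : x * y ∈ X := X.mul_mem hx hy
  have hxzX : x * z ∈ X := X.mul_mem hx hz
  have hyzX : y * z ∈ X := X.mul_mem hy hz
  have e1 : x * (x * y) = y := by rw [← mul_assoc, hX x hx, one_mul]
  have e2 : x * (x * z) = z := by rw [← mul_assoc, hX x hx, one_mul]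
  have e3 : y * (x * z) = x * (y * z) := by rw [← mul_assoc, hcomm y hy x hx, mul_assoc]
  have e4 : x * y * z = x * (y * z) := mul_assoc _ _ _
  have e5 : x * y * (x * z) = y * z := by
    rw [hcomm x hx y hy, mul_assoc, e2]
  have n1 : x ≠ x * y := fun h => hy1 (by simpa using h.symm)
  have n2 : x ≠ x * z := fun h => hz1 (by simpa using h.symm)
  have n3 : y ≠ x * z := fun h => hzxy (by rw [h, e2])
  have n4 : x * y ≠ z := fun h => hzxy h.symm
  have n5 : x * y ≠ x * z := fun h => hzy (mul_left_cancel h).symm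
  have n6 : x ≠ y * z := fun h => hzxy (by rw [h, mul_assoc, hcomm z hz y hy, ← mul_assoc, hX y hy, one_mul])
  have hxyzX : x * (y * z) ∈ X := X.mul_mem hx hyzX
  have hxyz : x * (y * z) ≠ 1 := hne x hx _ hyzX n6
  have n7 : y * z ≠ x * (y * z) := fun h => hx1 (by
    have : x * (y * z) = 1 * (y * z) := by rw [one_mul]; exact h.symm
    exact mul_right_cancel this)
  have m1 := h2A x hx y hy hx1 hy1 (Ne.symm hyx)
  have m2 := h2A x hx (x * y) hxyX hx1 hxy n1
  have m3 := h2A x hx z hz hx1 hz1 (Ne.symm hzx)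
  have m4 := h2A x hx (x * z) hxzX hx1 hxz n2
  have m5 := h2A y hy z hz hy1 hz1 (Ne.symm hzy)
  have m6 := h2A y hy (x * z) hxzX hy1 hxz n3
  have m7 := h2A (x * y) hxyX z hz hxy hz1 n4
  have m8 := h2A (x * y) hxyX (x * z) hxzX hxy hxz n5
  have m9 := h2A x hx (y * z) hyzX hx1 hyz n6
  have m10 := h2A x hx (x * (y * z)) hxyzX hx1 hxyz (fun h => hyz (by simpa using h.symm))
  have m11 := h2A (y * z) hyzX (x * (y * z)) hxyzX hyz hxyz n7
  have e6 : x * (x * (y * z)) = y * z := by rw [← mul_assoc, hX x hx, one_mul]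
  have e7 : y * z * (x * (y * z)) = x := by
    rw [hcomm x hx (y * z) hyzX, ← mul_assoc, hX _ hyzX, one_mul]
  rw [e1] at m2
  rw [e2] at m4
  rw [e3] at m6
  rw [e4] at m7
  rw [e5] at m8
  rw [e6] at m10
  rw [e7] at m11
  obtain ⟨_, _, ⟨⟨ha0, haa, _, hfus⟩, _⟩, _⟩ := hax x hx hx1
  set A := ax x
  have q1 : ax y - ax (x * y) ∈ Cfsg.Axial.eigen mul A (1 / 4) := by
    rw [Cfsg.Axial.eigen, Module.End.mem_eigenspace_iff, map_sub, m1, m2]
    module
  have q2 : ax z - ax (x * z) ∈ Cfsg.Axial.eigen mul A (1 / 4) := by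
    rw [Cfsg.Axial.eigen, Module.End.mem_eigenspace_iff, map_sub, m3, m4]
    module
  have hS : (1 / 4 : ℝ) ∈ Cfsg.Axial.majoranaSpectrum := by
    simp [Cfsg.Axial.majoranaSpectrum]
  have q3 := hfus _ hS _ hS _ q1 _ q2
  have hlaw : Cfsg.Axial.monsterLaw (1 / 4 : ℝ) (1 / 32) (1 / 4) (1 / 4) = {1, 0} := by
    rw [Cfsg.Axial.monsterLaw]; norm_num
  rw [hlaw] at q3
  have q4 : mul (ax y - ax (x * y)) (ax z - ax (x * z)) = (-1 / 4 : ℝ) • (ax (y * z) - ax (x * (y * z))) := by
    rw [map_sub, map_sub, LinearMap.sub_apply, LinearMap.sub_apply, m5, m6, m7, m8]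
    module
  have q5 := idem mul A _ q3
  have q6 : mul A (ax (y * z) - ax (x * (y * z))) = (1 / 4 : ℝ) • (ax (y * z) - ax (x * (y * z))) := by
    rw [map_sub, m9, m10]
    module
  rw [q4, map_smul, q6, map_smul, map_smul, q6] at q5
  have q7 : ax (y * z) - ax (x * (y * z)) = 0 := by
    have : (3 / 64 : ℝ) • (ax (y * z) - ax (x * (y * z))) = 0 := by
      have h := sub_eq_zero.2 q5
      rw [← h]; module
    exact (smul_eq_zero.1 this).resolve_left (by norm_num)
  have q8 : ax (x * (y * z)) = ax (y * z) := (sub_eq_zero.1 q7).symm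
  obtain ⟨_, _, ⟨⟨_, hbb, _, _⟩, _⟩, _⟩ := hax (y * z) hyzX hyz
  rw [q8, hbb] at m11
  have q9 : A = (-6 : ℝ) • ax (y * z) := by
    have h : (8 : ℝ) • ax (y * z) = ax (y * z) + ax (y * z) - A := by
      conv_lhs => rw [m11]
      module
    have h' : A = ax (y * z) + ax (y * z) - (8 : ℝ) • ax (y * z) := by rw [h]; abel
    rw [h']; module
  have q10 := h1 x hx hx1
  have q11 := h1 (y * z) hyzX hyz
  change B A A = 1 at q10
  rw [q9] at q10
  simp only [map_smul, LinearMap.smul_apply, smul_eq_mul, q11] at q10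
  norm_num at q10


end Cfsg.Agent.S5543
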