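import Cfsg.Statements.S5550
import Cfsg.Agent.H9.GolMod3

set_option autoImplicit false
open Cfsg

namespace Cfsg.Agent.S5550

/-- Let u be a word of the length-24 binary Golay code of the definitions (possibly zero or all-ones) and w any binary word of length 24 outside the code. Then some automorphism of the code (a coordinate permutation preserving it) fixes u but moves w to a word not congruent to w modulo the code: the stabilizer of a codeword fixes no non-zero element of the quotient of the space of all words by the code. -/
theorem result (u : (Cfsg.GolayPt → ZMod 2)) (hu : u ∈ Cfsg.golayCode) (w : (Cfsg.GolayPt → ZMod 2)) (hw : w ∉ Cfsg.golayCode) : ∃ σ ∈ Cfsg.M24, (fun p => u (σ.symm p)) = u ∧ (fun p => w (σ.symm p)) - w ∉ Cfsg.golayCode := by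
  rw [← H9.ch_support u] at hu
  rw [← H9.ch_support w] at hw
  obtain ⟨σ, hσ, h1, h2⟩ := H9.no_fixed (H9.ch_mem.1 hu) (fun h => hw (H9.ch_mem.2 h))
  refine ⟨σ, hσ, ?_, ?_⟩
  · have e := H9.ch_perm (Cfsg.support₂ u) σ
    rw [h1, H9.ch_support] at e
    exact e
  · intro hh
    apply h2
    rw [← H9.ch_mem, ← H9.ch_add, ← H9.ch_perm, H9.ch_support]
    have e : ∀ a b : Cfsg.GolayPt → ZMod 2, a - b = a + b := by
      intro a b
      funext p
      rw [Pi.sub_apply, Pi.add_apply]
      have : ∀ x y : ZMod 2, x - y = x + y := by decide
      exact this _ _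
    rw [← e]
    exact hh

end Cfsg.Agent.S5550
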