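import Cfsg.Statements.S5553
import Cfsg.Agent.H9.Leech.V4

set_option autoImplicit false
open Cfsg

namespace Cfsg.Agent.S5553

/-- The Leech lattice of the definitions has an additive subgroup A containing twice the lattice, of index 2^12 in the lattice, all of whose vectors have squared length divisible by 32: the invariant quadratic form 'squared length over 16 modulo 2' on the lattice modulo twice the lattice (a 24-dimensional space over the field with two elements) vanishes on a 12-dimensional subspace, so it is of plus type. -/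
theorem result : ∃ A : AddSubgroup (Cfsg.GolayPt → ℤ), A ≤ Cfsg.leechLattice ∧ (∀ v ∈ Cfsg.leechLattice, (2 : ℤ) • v ∈ A) ∧ (A.addSubgroupOf Cfsg.leechLattice).index = 2 ^ 12 ∧ ∀ v ∈ A, (32 : ℤ) ∣ Cfsg.sqNorm v := by
  refine ⟨H9.Leech.V4Z, H9.Leech.V4Z_le, ?_, H9.Leech.V4Z_relIndex, ?_⟩
  · intro v hv
    obtain ⟨_, h⟩ := H9.Leech.mem_iff.1 hv
    rw [H9.Leech.mem_V4Z]
    rcases h with ⟨h1, h2⟩ | ⟨h1, h2⟩
    · refine ⟨⟨0, fun i => ?_⟩, ?_⟩
      · change (2 * v i) % 4 = _; have := h1 i; omega
      · change (∑ i, 2 * v i) % 8 = 0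
        rw [← Finset.mul_sum]; omega
    · refine ⟨⟨1, fun i => ?_⟩, ?_⟩
      · change (2 * v i) % 4 = _; have := h1 i; omega
      · change (∑ i, 2 * v i) % 8 = 0
        rw [← Finset.mul_sum]; omega
  · rintro _ ⟨v, hv, rfl⟩
    exact H9.Leech.V4_norm hv

end Cfsg.Agent.S5553
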