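import Cfsg.Statements.S5599
import Cfsg.Agent.H9.Out22
import Cfsg.Agent.H9.Mathieu

set_option autoImplicit false
open scoped Pointwise
open Cfsg

namespace Cfsg.Agent.S5599

/-- In the automorphism group of the length-24 code, the two-point Mathieu group (permutations of the code's group fixing the extra point and the residue 0) has index 2 in the setwise stabiliser of that pair of points, and an element of the code's group interchanging the two points normalises the two-point group and induces on it, by conjugation, an automorphism that is not inner. -/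
theorem result (g : Equiv.Perm Cfsg.GolayPt) (hg : g ∈ Cfsg.M24) (h₁ : g none = some 0) (h₂ : g (some 0) = none) : Cfsg.Spor.M22.relIndex (Cfsg.M24 ⊓ MulAction.stabilizer (Equiv.Perm Cfsg.GolayPt) ({none, some 0} : Finset Cfsg.GolayPt)) = 2 ∧ (∀ x ∈ Cfsg.Spor.M22, g * x * g⁻¹ ∈ Cfsg.Spor.M22) ∧ ¬ ∃ h ∈ Cfsg.Spor.M22, ∀ x ∈ Cfsg.Spor.M22, g * x * g⁻¹ = h * x * h⁻¹ := by
  rw [← H9.B_zero, ← H9.B_one] at h₁ h₂ ⊢
  rw [H9.M22_eq]
  have hB : H9.B 0 ≠ H9.B 1 := fun h => H9.B_ne (i := 1) (j := 0) (by norm_num) (by norm_num) h.symm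
  refine ⟨?_, fun x hx => (H9.swap22_norm hg h₁ h₂ x).1 hx, H9.Hc2_noninner hg h₁ h₂⟩
  have key : ∀ x : Equiv.Perm Cfsg.GolayPt, x ∈ Cfsg.M24 ⊓ MulAction.stabilizer (Equiv.Perm Cfsg.GolayPt) ({H9.B 0, H9.B 1} : Finset Cfsg.GolayPt) →
      x ∈ Cfsg.M24 ∧ ((x (H9.B 0) = H9.B 0 ∧ x (H9.B 1) = H9.B 1) ∨ (x (H9.B 0) = H9.B 1 ∧ x (H9.B 1) = H9.B 0)) := by
    intro x hx
    refine ⟨hx.1, ?_⟩
    have h3 : x • ({H9.B 0, H9.B 1} : Finset Cfsg.GolayPt) = {H9.B 0, H9.B 1} := hx.2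
    have m0 : x (H9.B 0) ∈ ({H9.B 0, H9.B 1} : Finset Cfsg.GolayPt) := by
      rw [← h3, H9.mem_smul_iff']; simp
    have m1 : x (H9.B 1) ∈ ({H9.B 0, H9.B 1} : Finset Cfsg.GolayPt) := by
      rw [← h3, H9.mem_smul_iff']; simp
    rw [Finset.mem_insert, Finset.mem_singleton] at m0 m1
    rcases m0 with m0 | m0 <;> rcases m1 with m1 | m1
    · exact absurd (x.injective (m0.trans m1.symm)) hB
    · exact Or.inl ⟨m0, m1⟩
    · exact Or.inr ⟨m0, m1⟩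
    · exact absurd (x.injective (m0.trans m1.symm)) hB
  have hgK : g ∈ Cfsg.M24 ⊓ MulAction.stabilizer (Equiv.Perm Cfsg.GolayPt) ({H9.B 0, H9.B 1} : Finset Cfsg.GolayPt) := by
    refine ⟨hg, ?_⟩
    show g • ({H9.B 0, H9.B 1} : Finset Cfsg.GolayPt) = {H9.B 0, H9.B 1}
    rw [Finset.smul_finset_insert, Finset.smul_finset_singleton]
    show ({g (H9.B 0), g (H9.B 1)} : Finset Cfsg.GolayPt) = _
    rw [h₁, h₂, Finset.pair_comm]
  rw [Subgroup.relIndex, Subgroup.index_eq_two_iff]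
  refine ⟨⟨g, hgK⟩, fun x => ?_⟩
  obtain ⟨hxM, hx⟩ := key x x.2
  have e1 : (x * ⟨g, hgK⟩ ∈ (H9.Hc 2).subgroupOf (Cfsg.M24 ⊓ MulAction.stabilizer (Equiv.Perm Cfsg.GolayPt) ({H9.B 0, H9.B 1} : Finset Cfsg.GolayPt))) ↔
      (x : Equiv.Perm Cfsg.GolayPt) * g ∈ H9.Hc 2 := Iff.rfl
  have e2 : (x ∈ (H9.Hc 2).subgroupOf (Cfsg.M24 ⊓ MulAction.stabilizer (Equiv.Perm Cfsg.GolayPt) ({H9.B 0, H9.B 1} : Finset Cfsg.GolayPt))) ↔
      (x : Equiv.Perm Cfsg.GolayPt) ∈ H9.Hc 2 := Iff.rfl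
  rw [e1, e2, H9.mem_Hc2, H9.mem_Hc2, Equiv.Perm.mul_apply, Equiv.Perm.mul_apply, h₁, h₂]
  rcases hx with ⟨a, b⟩ | ⟨a, b⟩
  · right
    refine ⟨⟨hxM, a, b⟩, ?_⟩
    rintro ⟨_, h3, _⟩
    rw [b] at h3; exact hB h3.symm
  · left
    refine ⟨⟨Cfsg.M24.mul_mem hxM hg, b, a⟩, ?_⟩
    rintro ⟨_, h3, _⟩
    rw [a] at h3; exact hB h3.symm

end Cfsg.Agent.S5599
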