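import Cfsg.Statements.S5601
import Cfsg.Agent.H9.ClsThm

set_option autoImplicit false
open scoped Pointwise
open Cfsg

namespace Cfsg.Agent.S5601

section
open scoped Pointwise
open H9 in
/-- the fixed points of a cyclic subgroup of order 3 -/
theorem fix_eq {X : Subgroup ↥Cfsg.M24} {x : ↥Cfsg.M24} (hx : X = Subgroup.zpowers x) :
    {p : Cfsg.GolayPt | ∀ y ∈ X, ((y : ↥Cfsg.M24) : Equiv.Perm Cfsg.GolayPt) p = p} = (H9.fx (x : Equiv.Perm Cfsg.GolayPt) : Set Cfsg.GolayPt) := by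
  ext p
  rw [Finset.mem_coe, H9.mem_fx]
  constructor
  · intro h; exact h x (by rw [hx]; exact Subgroup.mem_zpowers x)
  · intro h y hy
    rw [hx] at hy
    obtain ⟨n, rfl⟩ := hy
    have : (x : Equiv.Perm Cfsg.GolayPt) ∈ MulAction.stabilizer (Equiv.Perm Cfsg.GolayPt) p := h
    have h2 := (MulAction.stabilizer (Equiv.Perm Cfsg.GolayPt) p).zpow_mem this n
    exact h2

theorem gen3 {X : Subgroup ↥Cfsg.M24} (hX : Nat.card X = 3) : ∃ x : ↥Cfsg.M24, X = Subgroup.zpowers x ∧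
    (x : Equiv.Perm Cfsg.GolayPt) ^ 3 = 1 ∧ (x : Equiv.Perm Cfsg.GolayPt) ≠ 1 := by
  haveI : Fact (Nat.Prime 3) := ⟨Nat.prime_three⟩
  haveI : IsCyclic X := isCyclic_of_prime_card hX
  obtain ⟨⟨x, hx⟩, hgen⟩ := IsCyclic.exists_generator (α := X)
  have hXz : X = Subgroup.zpowers x := by
    ext y
    constructor
    · intro hy
      obtain ⟨n, hn⟩ := hgen ⟨y, hy⟩
      exact ⟨n, congrArg Subtype.val hn⟩
    · rintro ⟨n, rfl⟩; exact X.zpow_mem hx n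
  have ho : orderOf x = 3 := by rw [← Nat.card_zpowers, ← hXz, hX]
  refine ⟨x, hXz, ?_, ?_⟩
  · have := pow_orderOf_eq_one x
    rw [ho] at this
    exact congrArg Subtype.val this
  · intro h
    have : x = 1 := Subtype.ext h
    rw [this, orderOf_one] at ho
    omega

theorem main : (∀ X : Subgroup ↥Cfsg.M24, Nat.card X = 3 → ∀ x : ↥Cfsg.M24, X = Subgroup.zpowers x →
      (x : Equiv.Perm Cfsg.GolayPt) ^ 3 = 1 → (x : Equiv.Perm Cfsg.GolayPt) ≠ 1 →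
      ((H9.fx (x : Equiv.Perm Cfsg.GolayPt)).card = 6 ∧ ∃ u ∈ Cfsg.M24, u * x * u⁻¹ = H9.toPerm H9.c3A) ∨
      ((H9.fx (x : Equiv.Perm Cfsg.GolayPt)).card = 0 ∧ ∃ u ∈ Cfsg.M24, u * x * u⁻¹ = H9.toPerm H9.c3B)) := by
  intro X hX x hx h3 h1
  by_cases hf : ∃ p, (x : Equiv.Perm Cfsg.GolayPt) p = p
  · left
    obtain ⟨u, hu, h⟩ := H9.conj_3A x.2 h3 h1 hf
    refine ⟨?_, u, hu, h⟩
    rw [← H9.fx_conj_card _ u, h, H9.fx_c3A, H9.card_S, H9.fx3A_pc]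
  · right
    push Not at hf
    refine ⟨?_, H9.conj_3B x.2 h3 hf⟩
    rw [Finset.card_eq_zero, Finset.eq_empty_iff_forall_notMem]
    intro p hp
    exact hf p (H9.mem_fx.1 hp)

theorem ex3 {P : ℕ} (hP : H9.checkM24 P = true) (hp : H9.powOK P 3 = true) (h1 : H9.toPerm P ≠ 1) :
    ∃ X : Subgroup ↥Cfsg.M24, Nat.card X = 3 ∧
      {p : Cfsg.GolayPt | ∀ x ∈ X, ((x : ↥Cfsg.M24) : Equiv.Perm Cfsg.GolayPt) p = p}.ncard = (H9.fx (H9.toPerm P)).card := by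
  have h3 := (H9.powOK_iff (H9.checkM24_perm hP)).1 hp
  refine ⟨Subgroup.zpowers ⟨H9.toPerm P, H9.checkM24_mem hP⟩, ?_, ?_⟩
  · rw [Nat.card_zpowers]
    haveI : Fact (Nat.Prime 3) := ⟨Nat.prime_three⟩
    apply orderOf_eq_prime
    · exact Subtype.ext h3
    · intro h; exact h1 (congrArg Subtype.val h)
  · rw [fix_eq rfl, Set.ncard_coe_finset]
end

/-- The group of the length-24 code has exactly two conjugacy classes of subgroups of order 3: a subgroup of order 3 fixes either exactly 6 of the 24 points or none of them, both cases occur, and two subgroups of order 3 with the same number of fixed points are conjugate. -/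
theorem result : (∀ X : Subgroup ↥Cfsg.M24, Nat.card X = 3 → {p : Cfsg.GolayPt | ∀ x ∈ X, ((x : ↥Cfsg.M24) : Equiv.Perm Cfsg.GolayPt) p = p}.ncard = 6 ∨ {p : Cfsg.GolayPt | ∀ x ∈ X, ((x : ↥Cfsg.M24) : Equiv.Perm Cfsg.GolayPt) p = p}.ncard = 0) ∧ (∃ X : Subgroup ↥Cfsg.M24, Nat.card X = 3 ∧ {p : Cfsg.GolayPt | ∀ x ∈ X, ((x : ↥Cfsg.M24) : Equiv.Perm Cfsg.GolayPt) p = p}.ncard = 6) ∧ (∃ X : Subgroup ↥Cfsg.M24, Nat.card X = 3 ∧ {p : Cfsg.GolayPt | ∀ x ∈ X, ((x : ↥Cfsg.M24) : Equiv.Perm Cfsg.GolayPt) p = p}.ncard = 0) ∧ ∀ X Y : Subgroup ↥Cfsg.M24, Nat.card X = 3 → Nat.card Y = 3 → {p : Cfsg.GolayPt | ∀ x ∈ X, ((x : ↥Cfsg.M24) : Equiv.Perm Cfsg.GolayPt) p = p}.ncard = {p : Cfsg.GolayPt | ∀ x ∈ Y, ((x : ↥Cfsg.M24) : Equiv.Perm Cfsg.GolayPt) p = p}.ncard → ∃ k : ↥Cfsg.M24, MulAut.conj k • X = Y := by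
  have h3A1 : H9.toPerm H9.c3A ≠ 1 := by
    intro h
    have h6 : (H9.fx (H9.toPerm H9.c3A)).card = 6 := by rw [H9.fx_c3A, H9.card_S, H9.fx3A_pc]
    rw [h] at h6
    have : H9.fx (1 : Equiv.Perm Cfsg.GolayPt) = Finset.univ := by ext p; simp [H9.mem_fx]
    rw [this, Finset.card_univ, H9.card_pt] at h6
    omega
  have h3B1 : H9.toPerm H9.c3B ≠ 1 := fun h => H9.ff_3B none (by rw [h]; rfl)
  refine ⟨?_, ?_, ?_, ?_⟩
  · intro X hX
    obtain ⟨x, hx, h3, h1⟩ := gen3 hX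
    rw [fix_eq hx, Set.ncard_coe_finset]
    rcases main X hX x hx h3 h1 with h | h
    · left; exact h.1
    · right; exact h.1
  · obtain ⟨X, h1, h2⟩ := ex3 H9.c3A_m H9.c3A_pow h3A1
    exact ⟨X, h1, by rw [h2, H9.fx_c3A, H9.card_S, H9.fx3A_pc]⟩
  · obtain ⟨X, h1, h2⟩ := ex3 H9.c3B_m H9.c3B_pow h3B1
    refine ⟨X, h1, ?_⟩
    rw [h2, Finset.card_eq_zero, Finset.eq_empty_iff_forall_notMem]
    intro p hp
    exact H9.ff_3B p (H9.mem_fx.1 hp)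
  · intro X Y hX hY he
    obtain ⟨x, hx, x3, x1⟩ := gen3 hX
    obtain ⟨y, hy, y3, y1⟩ := gen3 hY
    rw [fix_eq hx, fix_eq hy, Set.ncard_coe_finset, Set.ncard_coe_finset] at he
    have fin : ∀ G : Equiv.Perm Cfsg.GolayPt, (∃ u ∈ Cfsg.M24, u * x * u⁻¹ = G) → (∃ v ∈ Cfsg.M24, v * y * v⁻¹ = G) →
        ∃ k : ↥Cfsg.M24, MulAut.conj k • X = Y := by
      rintro G ⟨u, hu, h3⟩ ⟨v, hv, h4⟩
      refine ⟨⟨v⁻¹ * u, Cfsg.M24.mul_mem (Cfsg.M24.inv_mem hv) hu⟩, ?_⟩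
      have e : (⟨v⁻¹ * u, Cfsg.M24.mul_mem (Cfsg.M24.inv_mem hv) hu⟩ : ↥Cfsg.M24) * x *
          (⟨v⁻¹ * u, Cfsg.M24.mul_mem (Cfsg.M24.inv_mem hv) hu⟩ : ↥Cfsg.M24)⁻¹ = y := by
        apply Subtype.ext
        show v⁻¹ * u * x * (v⁻¹ * u)⁻¹ = y
        have : v⁻¹ * u * x * (v⁻¹ * u)⁻¹ = v⁻¹ * (u * x * u⁻¹) * v := by group
        rw [this, h3, ← h4]; group
      rw [hx, hy, ← e]
      ext z
      rw [Subgroup.mem_smul_pointwise_iff_exists]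
      constructor
      · rintro ⟨w, ⟨n, rfl⟩, rfl⟩
        refine ⟨n, ?_⟩
        show (_ * x * _⁻¹) ^ n = MulAut.conj _ (x ^ n)
        rw [map_zpow, MulAut.conj_apply]
      · rintro ⟨n, rfl⟩
        refine ⟨x ^ n, ⟨n, rfl⟩, ?_⟩
        show MulAut.conj _ (x ^ n) = (_ * x * _⁻¹) ^ n
        rw [map_zpow, MulAut.conj_apply]
    rcases main X hX x hx x3 x1 with hA | hB
    · rcases main Y hY y hy y3 y1 with hA' | hB'
      · exact fin _ hA.2 hA'.2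
      · exfalso; rw [hA.1, hB'.1] at he; omega
    · rcases main Y hY y hy y3 y1 with hA' | hB'
      · exfalso; rw [hB.1, hA'.1] at he; omega
      · exact fin _ hB.2 hB'.2

end Cfsg.Agent.S5601
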