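import Cfsg.Statements.S5602
import Cfsg.Agent.H9.ClsThm

set_option autoImplicit false
open scoped Pointwise
open Cfsg

namespace Cfsg.Agent.S5602

/-- An element of order 3 of the group of the length-24 code having exactly 6 fixed points maps to themselves exactly 21 octads, exactly 15 trios, exactly 16 sextets and exactly 20 dodecads. -/
theorem result (g : Equiv.Perm Cfsg.GolayPt) (hg : g ∈ Cfsg.M24) (h₃ : orderOf g = 3) (h₆ : (Finset.univ.filter fun p => g p = p).card = 6) : {o : Finset Cfsg.GolayPt | o ∈ Cfsg.octads ∧ g • o = o}.ncard = 21 ∧ {T : Finset (Finset Cfsg.GolayPt) | T ∈ Cfsg.trios ∧ g • T = T}.ncard = 15 ∧ {S : Finset (Finset Cfsg.GolayPt) | S ∈ Cfsg.sextets ∧ g • S = S}.ncard = 16 ∧ {d : Finset Cfsg.GolayPt | d ∈ Cfsg.dodecads ∧ g • d = d}.ncard = 20 := by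
  have h1 : g ≠ 1 := by rintro rfl; simp at h₃
  have h3 : g ^ 3 = 1 := by rw [← h₃]; exact pow_orderOf_eq_one g
  obtain ⟨p, hp⟩ : (Finset.univ.filter fun p => g p = p).Nonempty := by rw [← Finset.card_pos, h₆]; norm_num
  obtain ⟨u, hu, h⟩ := H9.conj_3A hg h3 h1 ⟨p, (Finset.mem_filter.1 hp).2⟩
  rw [← H9.pk0_3A] at h
  have e1 := H9.inv_oct (P := H9.c3A) (A := H9.c3A_A) H9.c3A_g
  have e2 := H9.inv_tri (P := H9.c3A) (A := H9.c3A_A) H9.c3A_g
  have e3 := H9.inv_sxt (P := H9.c3A) (A := H9.c3A_S) H9.c3A_gs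
  have e4 := H9.inv_dod (P := H9.c3A) (A := H9.c3A_A) H9.c3A_g
  rw [← H9.ncard_inv_conj (fun g hg x hx => H9.smul_mem_octads hg hx) hu h] at e1
  rw [← H9.ncard_inv_conj (fun g hg x hx => H9.smul_mem_trios hg hx) hu h] at e2
  rw [← H9.ncard_inv_conj (fun g hg x hx => H9.smul_mem_sextets hg hx) hu h] at e3
  rw [← H9.ncard_inv_conj (fun g hg x hx => H9.smul_mem_dodecads hg hx) hu h] at e4
  refine ⟨e1.trans ?_, e2.trans ?_, e3.trans ?_, e4.trans ?_⟩ <;> decide +kernel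

end Cfsg.Agent.S5602
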