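import Cfsg.Statements.S5605
import Cfsg.Agent.H9.ClsThm

set_option autoImplicit false
open scoped Pointwise
open Cfsg

namespace Cfsg.Agent.S5605

/-- An involution of the group of the length-24 code with exactly 8 fixed points maps to themselves exactly 71 octads, exactly 99 trios and exactly 91 sextets. -/
theorem result (g : Equiv.Perm Cfsg.GolayPt) (hg : g ∈ Cfsg.M24) (h₂ : orderOf g = 2) (h₈ : (Finset.univ.filter fun p => g p = p).card = 8) : {o : Finset Cfsg.GolayPt | o ∈ Cfsg.octads ∧ g • o = o}.ncard = 71 ∧ {T : Finset (Finset Cfsg.GolayPt) | T ∈ Cfsg.trios ∧ g • T = T}.ncard = 99 ∧ {S : Finset (Finset Cfsg.GolayPt) | S ∈ Cfsg.sextets ∧ g • S = S}.ncard = 91 := by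
  have h1 : g ≠ 1 := by rintro rfl; simp at h₂
  have h3 : g ^ 2 = 1 := by rw [← h₂]; exact pow_orderOf_eq_one g
  obtain ⟨p, hp⟩ : (Finset.univ.filter fun p => g p = p).Nonempty := by rw [← Finset.card_pos, h₈]; norm_num
  obtain ⟨u, hu, h⟩ := H9.conj_2A hg h3 h1 ⟨p, (Finset.mem_filter.1 hp).2⟩
  rw [← H9.pk0_2A] at h
  have e1 := H9.inv_oct (P := H9.c2A) (A := H9.c2A_A) H9.c2A_g
  have e2 := H9.inv_tri (P := H9.c2A) (A := H9.c2A_A) H9.c2A_g
  have e3 := H9.inv_sxt (P := H9.c2A) (A := H9.c2A_S) H9.c2A_gs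
  rw [← H9.ncard_inv_conj (fun g hg x hx => H9.smul_mem_octads hg hx) hu h] at e1
  rw [← H9.ncard_inv_conj (fun g hg x hx => H9.smul_mem_trios hg hx) hu h] at e2
  rw [← H9.ncard_inv_conj (fun g hg x hx => H9.smul_mem_sextets hg hx) hu h] at e3
  refine ⟨e1.trans ?_, e2.trans ?_, e3.trans ?_⟩ <;> decide +kernel

end Cfsg.Agent.S5605
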