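import Cfsg.Statements.S5606
import Cfsg.Agent.H9.ClsThm

set_option autoImplicit false
open scoped Pointwise
open Cfsg

namespace Cfsg.Agent.S5606

/-- A fixed-point-free involution of the group of the length-24 code maps to themselves exactly 15 octads, exactly 75 trios and exactly 51 sextets. -/
theorem result (g : Equiv.Perm Cfsg.GolayPt) (hg : g ∈ Cfsg.M24) (h₂ : orderOf g = 2) (h₀ : ∀ p, g p ≠ p) : {o : Finset Cfsg.GolayPt | o ∈ Cfsg.octads ∧ g • o = o}.ncard = 15 ∧ {T : Finset (Finset Cfsg.GolayPt) | T ∈ Cfsg.trios ∧ g • T = T}.ncard = 75 ∧ {S : Finset (Finset Cfsg.GolayPt) | S ∈ Cfsg.sextets ∧ g • S = S}.ncard = 51 := by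
  have h3 : g ^ 2 = 1 := by rw [← h₂]; exact pow_orderOf_eq_one g
  obtain ⟨u, hu, h⟩ := H9.conj_2B hg h3 h₀
  rw [← H9.pk0_2B] at h
  have e1 := H9.inv_oct (P := H9.c2B) (A := H9.c2B_A) H9.c2B_g
  have e2 := H9.inv_tri (P := H9.c2B) (A := H9.c2B_A) H9.c2B_g
  have e3 := H9.inv_sxt (P := H9.c2B) (A := H9.c2B_S) H9.c2B_gs
  rw [← H9.ncard_inv_conj (fun g hg x hx => H9.smul_mem_octads hg hx) hu h] at e1
  rw [← H9.ncard_inv_conj (fun g hg x hx => H9.smul_mem_trios hg hx) hu h] at e2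
  rw [← H9.ncard_inv_conj (fun g hg x hx => H9.smul_mem_sextets hg hx) hu h] at e3
  refine ⟨e1.trans ?_, e2.trans ?_, e3.trans ?_⟩ <;> decide +kernel

end Cfsg.Agent.S5606
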