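import Cfsg.Statements.S5616
import Cfsg.Agent.H9.OrbY
import Cfsg.Agent.H9.Sext2

set_option autoImplicit false
open scoped Pointwise
open Cfsg

namespace Cfsg.Agent.S5616

/-- the colour -/
def col (Y : Finset Cfsg.GolayPt) (X : Finset (Finset Cfsg.GolayPt)) : ℕ := (X.filter fun t => (t ∩ Y).Nonempty).card

theorem col_smul (g : Equiv.Perm Cfsg.GolayPt) (Y : Finset Cfsg.GolayPt) (X : Finset (Finset Cfsg.GolayPt)) :
    col (g • Y) (g • X) = col Y X := by
  unfold col
  have : ((g • X).filter fun t => (t ∩ g • Y).Nonempty) = g • (X.filter fun t => (t ∩ Y).Nonempty) := by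
    ext t
    rw [Finset.mem_filter, ← Finset.inv_smul_mem_iff, ← Finset.inv_smul_mem_iff, Finset.mem_filter]
    refine and_congr_right fun _ => ?_
    have : t ∩ g • Y = g • (g⁻¹ • t ∩ Y) := by rw [Finset.smul_finset_inter, smul_inv_smul]
    rw [this, Finset.smul_finset_nonempty]
  rw [this, Finset.card_smul_finset]

theorem col_list {s y : ℕ} (hy : y < 2 ^ 24) {l : List ℕ} (h : H9.sxl s l = true) :
    col (H9.S y) (H9.Sx s) = (l.filter fun m => !(Nat.beq (Nat.land m y) 0)).length := by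
  obtain ⟨h1, h2, h3⟩ := H9.Sx_list h
  rw [h1, col]
  apply H9.filter_list_card h2 (fun m hm => (h3 m hm).1)
  intro m hm
  have e : H9.S m ∩ H9.S y = H9.S (Nat.land m y) := (H9.S_and m y).symm
  rw [e, Bool.not_eq_true', Bool.eq_false_iff, Ne, H9.beq_iff, Finset.nonempty_iff_ne_empty, Ne, not_iff_not]
  constructor
  · intro h; rw [h]; exact H9.S_zero
  · intro h
    exact H9.S_inj (lt_of_le_of_lt Nat.and_le_right hy) (by norm_num) (h.trans H9.S_zero.symm)

theorem c1 : col (H9.S (H9.bsMask 3)) (H9.Sx 106) = 1 := by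
  rw [col_list (by decide +kernel) (l := [8912899, 2097348, 1050648, 70688, 4211456, 434176]) (by decide +kernel)]
  decide +kernel
theorem c2 : col (H9.S (H9.bsMask 3)) (H9.Sx 27) = 2 := by
  rw [col_list (by decide +kernel) (l := [8389377, 4734978, 2097180, 394272, 1050816, 110592]) (by decide +kernel)]
  decide +kernel
theorem c3 : col (H9.S (H9.bsMask 3)) (H9.Sx 15) = 3 := by
  rw [col_list (by decide +kernel) (l := [2361345, 4784130, 1668, 8519752, 1048880, 61440]) (by decide +kernel)]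
  decide +kernel

theorem std : (∀ y ∈ Cfsg.sextets, ∀ z ∈ Cfsg.sextets, col (H9.S (H9.bsMask 3)) y = col (H9.S (H9.bsMask 3)) z →
      ∃ g ∈ MulAction.stabilizer Cfsg.M24 (H9.S (H9.bsMask 3)), g • y = z) ∧
    {y | y ∈ Cfsg.sextets ∧ col (H9.S (H9.bsMask 3)) y = 1}.ncard = 21 ∧
    {y | y ∈ Cfsg.sextets ∧ col (H9.S (H9.bsMask 3)) y = 2}.ncard = 630 ∧
    {y | y ∈ Cfsg.sextets ∧ col (H9.S (H9.bsMask 3)) y = 3}.ncard = 1120 := by
  have h := H9.sy3_s_reps
  have hs := h.2.1
  simp only [List.map_cons, List.map_nil, List.cons.injEq, and_true] at hs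
  obtain ⟨a1, a2⟩ := h.classes (col (H9.S (H9.bsMask 3))) (by
      intro g hg x _
      have hg' : (g : Equiv.Perm Cfsg.GolayPt) • H9.S (H9.bsMask 3) = H9.S (H9.bsMask 3) := hg
      have := col_smul (g : Equiv.Perm Cfsg.GolayPt) (H9.S (H9.bsMask 3)) x
      rw [hg'] at this
      exact this) (by simp [c1, c2, c3])
  have b1 := a2 (H9.Sx 106) (by simp)
  have b2 := a2 (H9.Sx 27) (by simp)
  have b3 := a2 (H9.Sx 15) (by simp)
  rw [c1] at b1
  rw [c2] at b2
  rw [c3] at b3
  exact ⟨a1, by rw [b1]; exact hs.1, by rw [b2]; exact hs.2.1, by rw [b3]; exact hs.2.2⟩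

/-- Let Y be a set of 3 of the 24 points. The sextets of the length-24 code whose tetrads meeting Y number 1, 2 or 3 are respectively 21, 630 and 1120 in number, and two sextets with the same number of tetrads meeting Y are conjugate under the setwise stabiliser of Y in the code's group. -/
theorem result (Y : Finset Cfsg.GolayPt) (hY : Y.card = 3) : {S : Finset (Finset Cfsg.GolayPt) | S ∈ Cfsg.sextets ∧ (S.filter fun t => (t ∩ Y).Nonempty).card = 1}.ncard = 21 ∧ {S : Finset (Finset Cfsg.GolayPt) | S ∈ Cfsg.sextets ∧ (S.filter fun t => (t ∩ Y).Nonempty).card = 2}.ncard = 630 ∧ {S : Finset (Finset Cfsg.GolayPt) | S ∈ Cfsg.sextets ∧ (S.filter fun t => (t ∩ Y).Nonempty).card = 3}.ncard = 1120 ∧ ∀ S S' : Finset (Finset Cfsg.GolayPt), S ∈ Cfsg.sextets → S' ∈ Cfsg.sextets → (S.filter fun t => (t ∩ Y).Nonempty).card = (S'.filter fun t => (t ∩ Y).Nonempty).card → ∃ g ∈ Cfsg.M24, g • Y = Y ∧ g • S = S' := by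
  obtain ⟨u, hu, h⟩ := H9.exists_toBaseSet (s := Y) (by omega)
  rw [hY] at h
  obtain ⟨s0, s1, s2, s3⟩ := std
  have key : ∀ k, {X : Finset (Finset Cfsg.GolayPt) | X ∈ Cfsg.sextets ∧ (X.filter fun t => (t ∩ Y).Nonempty).card = k}.ncard =
      {y | y ∈ Cfsg.sextets ∧ col (H9.S (H9.bsMask 3)) y = k}.ncard := by
    intro k
    apply H9.ncard_transport' u
    intro X
    show (X ∈ Cfsg.sextets ∧ col Y X = k) ↔ (u • X ∈ Cfsg.sextets ∧ col (H9.S (H9.bsMask 3)) (u • X) = k)
    rw [← h, col_smul]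
    refine and_congr_left fun _ => ⟨fun hX => H9.smul_mem_sextets hu hX, fun hX => ?_⟩
    have := H9.smul_mem_sextets (Cfsg.M24.inv_mem hu) hX
    rwa [inv_smul_smul] at this
  refine ⟨by rw [key]; exact s1, by rw [key]; exact s2, by rw [key]; exact s3, ?_⟩
  intro X X' hX hX' he
  have he' : col Y X = col Y X' := he
  obtain ⟨g, hg, h1⟩ := s0 (u • X) (H9.smul_mem_sextets hu hX) (u • X') (H9.smul_mem_sextets hu hX')
    (by rw [← h, col_smul, col_smul, he'])
  refine ⟨u⁻¹ * g * u, H9.back hu g.2, ?_, ?_⟩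
  · have hg' : (g : Equiv.Perm Cfsg.GolayPt) • H9.S (H9.bsMask 3) = H9.S (H9.bsMask 3) := hg
    rw [mul_smul, mul_smul, h, hg', ← h, inv_smul_smul]
  · rw [mul_smul, mul_smul]
    have : (g : Equiv.Perm Cfsg.GolayPt) • u • X = u • X' := h1
    rw [this, inv_smul_smul]

end Cfsg.Agent.S5616
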