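import Cfsg.Statements.S5631
import Cfsg.Agent.H7.Tv

set_option autoImplicit false
open Cfsg
open Cfsg.Agent.H7.Tv Module

namespace Cfsg.Agent.S5631

/-- For a finite field F and n ≥ 13, the stabiliser in SL_n(F) of any proper non-zero subspace W of F^n is a maximal subgroup of SL_n(F). Here SL_n(F) is the kernel of the determinant inside GL_n(F) and the stabiliser is the set of elements of determinant one mapping W onto itself. -/
theorem result {F : Type*} [Field F] [Fintype F] (n : ℕ) (hn : 13 ≤ n) (W : Submodule F (Fin n → F)) (hW0 : W ≠ ⊥) (hW1 : W ≠ ⊤) : Cfsg.Geo.IsMaximalIn (Cfsg.Geo.specialLinear (Fin n) F) (Cfsg.Geo.subspaceStabilizer W ⊓ Cfsg.Geo.specialLinear (Fin n) F) := by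
  classical
  set H := Cfsg.Geo.subspaceStabilizer W ⊓ Cfsg.Geo.specialLinear (Fin n) F with hH
  have hstab : ∀ g : Matrix.GeneralLinearGroup (Fin n) F, g ∈ Cfsg.Geo.subspaceStabilizer W ↔
      ∀ v, v ∈ W ↔ ap g v ∈ W := fun g => Iff.rfl
  have hfin : ∀ g : Matrix.GeneralLinearGroup (Fin n) F, (∀ v, v ∈ W → ap g v ∈ W) → g ∈ Cfsg.Geo.subspaceStabilizer W := by
    intro g hg
    rw [hstab]
    have h1 : W.map (linE g : (Fin n → F) →ₗ[F] (Fin n → F)) = W := by
      apply Submodule.eq_of_le_of_finrank_eq
      · rintro _ ⟨v, hv, rfl⟩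
        exact hg v hv
      · exact LinearEquiv.finrank_map_eq (linE g) W
    intro v
    refine ⟨hg v, fun hv => ?_⟩
    rw [← h1] at hv
    obtain ⟨w, hw, hw'⟩ := hv
    have : w = v := ap_injective g hw'
    rw [← this]
    exact hw
  -- transvections in `H`
  have hT1 : ∀ (u : Fin n → F) (l : Dual F (Fin n → F)), l u = 0 → u ∈ W → In H u l := by
    intro u l hl hu g hg
    refine ⟨hfin g (fun v hv => ?_), hg.mem_SL hl⟩
    rw [hg]
    exact W.add_mem hv (W.smul_mem _ hu)
  have hT2 : ∀ (u : Fin n → F) (l : Dual F (Fin n → F)), l u = 0 → (∀ w ∈ W, l w = 0) → In H u l := by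
    intro u l hl hW g hg
    refine ⟨hfin g (fun v hv => ?_), hg.mem_SL hl⟩
    rw [hg, hW v hv, zero_smul, add_zero]
    exact hv
  have main : ∀ M : Subgroup (Matrix.GeneralLinearGroup (Fin n) F), H ≤ M → M ≤ Cfsg.Geo.specialLinear (Fin n) F →
      (∃ g ∈ M, g ∉ H) → Cfsg.Geo.specialLinear (Fin n) F ≤ M := by
    rintro M hHM hMS ⟨g, hgM, hgH⟩
    -- the good centres
    let Pc : (Fin n → F) → Prop := fun u => ∀ l : Dual F (Fin n → F), l u = 0 → In M u l
    have hPW : ∀ u ∈ W, Pc u := fun u hu l hl k hk => hHM (hT1 u l hl hu k hk)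
    have hPg : ∀ u, ∀ h ∈ M, Pc u → Pc (ap h u) := by
      intro u h hh hu l hl
      have h1 : In M u (l.comp (lin h)) := hu _ hl
      have h2 := h1.conj hh
      have h3 : (l.comp (lin h)).comp (lin h⁻¹) = l := by
        apply LinearMap.ext
        intro x
        change l (ap h (ap h⁻¹ x)) = l x
        rw [ap_ap_inv]
      rwa [h3] at h2
    have hPs : ∀ (u : Fin n → F) (c : F), Pc u → Pc (c • u) := by
      intro u c hu l hl
      by_cases hc : c = 0
      · rw [hc, zero_smul]
        exact In.zero_left M l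
      · rw [In.smul_iff]
        apply hu
        rw [map_smul, smul_eq_mul] at hl
        rw [LinearMap.smul_apply, smul_eq_mul]
        rcases mul_eq_zero.1 hl with h | h
        · exact absurd h hc
        · rw [h, mul_zero]
    obtain ⟨u₀, hu₀, hPu₀⟩ : ∃ u₀, u₀ ∉ W ∧ Pc u₀ := by
      have h1 : ¬ ∀ v, v ∈ W → ap g v ∈ W := fun h => hgH ⟨hfin g h, hMS hgM⟩
      push Not at h1
      obtain ⟨v, hv, hv'⟩ := h1
      exact ⟨ap g v, hv', hPg v g hgM (hPW v hv)⟩
    apply SL_le
    intro u l hl
    by_cases hu : u ∈ W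
    · exact hPW u hu l hl
    -- move `u₀` to `u`, possibly after scaling
    have hmove : ∀ x : Fin n → F, x ∉ W → (u - x ∈ W ∨ u ∉ W ⊔ Submodule.span F {x}) → Pc x → Pc u := by
      intro x hx hux hPx
      have : ∃ l' : Dual F (Fin n → F), l' x = 1 ∧ l' (u - x) = 0 ∧ ((u - x ∈ W) ∨ ∀ w ∈ W, l' w = 0) := by
        rcases hux with h | h
        · have hxs : x ∉ Submodule.span F {u - x} := by
            intro hx'
            apply hx
            exact (Submodule.span_singleton_le_iff_mem _ _).2 h hx'
          obtain ⟨l', h1, h2⟩ := exists_dual_one hxs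
          exact ⟨l', h1, h2 _ (Submodule.mem_span_singleton_self _), Or.inl h⟩
        · have hxs : x ∉ W ⊔ Submodule.span F {u - x} := by
            intro hx'
            obtain ⟨w, hw, y, hy, hwy⟩ := Submodule.mem_sup.1 hx'
            obtain ⟨c, rfl⟩ := Submodule.mem_span_singleton.1 hy
            by_cases hc : c = 0
            · rw [hc, zero_smul, add_zero] at hwy
              rw [← hwy] at hx
              exact hx hw
            · apply h
              have : u = (-c⁻¹) • w + (c⁻¹ + 1) • x := by
                have h3 : c • u = x - w + c • x := by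
                  have : c • u = (w + c • (u - x)) - w + c • x := by rw [smul_sub]; abel
                  rw [this, hwy]
                have h4 : u = c⁻¹ • (c • u) := by rw [smul_smul, inv_mul_cancel₀ hc, one_smul]
                rw [h4, h3]
                rw [smul_add, smul_sub, smul_smul, inv_mul_cancel₀ hc, add_smul, one_smul, neg_smul]
                abel
              rw [this]
              exact Submodule.add_mem_sup (W.smul_mem _ hw)
                (Submodule.smul_mem _ _ (Submodule.mem_span_singleton_self x))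
          obtain ⟨l', h1, h2⟩ := exists_dual_one hxs
          exact ⟨l', h1, h2 _ (Submodule.mem_sup_right (Submodule.mem_span_singleton_self _)),
            Or.inr (fun w hw => h2 w (Submodule.mem_sup_left hw))⟩
      obtain ⟨l', h1, h2, h3⟩ := this
      obtain ⟨k, hk⟩ := exists_tv h2
      have hkM : k ∈ M := by
        apply hHM
        rcases h3 with h | h
        · exact hT1 _ _ h2 h k hk
        · exact hT2 _ _ h2 h k hk
      have h4 := hPg x k hkM hPx
      rw [hk, h1, one_smul, add_sub_cancel] at h4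
      exact h4
    by_cases hu' : u ∈ W ⊔ Submodule.span F {u₀}
    · obtain ⟨w, hw, y, hy, hwy⟩ := Submodule.mem_sup.1 hu'
      obtain ⟨c, rfl⟩ := Submodule.mem_span_singleton.1 hy
      have hc : c ≠ 0 := by
        rintro rfl
        rw [zero_smul, add_zero] at hwy
        rw [← hwy] at hu
        exact hu hw
      refine hmove (c • u₀) ?_ (Or.inl ?_) (hPs _ _ hPu₀) l hl
      · intro h
        exact hu₀ ((W.smul_mem_iff hc).1 h)
      · rw [← hwy, add_sub_cancel_right]
        exact hw
    · exact hmove u₀ hu₀ (Or.inr hu') hPu₀ l hl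
  have hle : H ≤ Cfsg.Geo.specialLinear (Fin n) F := inf_le_right
  refine ⟨lt_of_le_of_ne hle ?_, ?_⟩
  · intro heq
    obtain ⟨w, hw, hw0⟩ := (Submodule.ne_bot_iff W).1 hW0
    obtain ⟨x, hx⟩ : ∃ x, x ∉ W := by
      by_contra hcon
      push Not at hcon
      exact hW1 ((Submodule.eq_top_iff').2 hcon)
    have hws : w ∉ Submodule.span F {x} := by
      intro h
      obtain ⟨c, rfl⟩ := Submodule.mem_span_singleton.1 h
      by_cases hc : c = 0
      · rw [hc, zero_smul] at hw0
        exact hw0 rfl
      · exact hx ((W.smul_mem_iff hc).1 hw)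
    obtain ⟨l, hl, hl'⟩ := exists_dual_one hws
    have hlx : l x = 0 := hl' x (Submodule.mem_span_singleton_self x)
    obtain ⟨g, hg⟩ := exists_tv hlx
    have hgH : g ∈ H := by
      rw [heq]
      exact hg.mem_SL hlx
    have h1 := ((hstab g).1 hgH.1 w).1 hw
    rw [hg, hl, one_smul] at h1
    exact hx ((Submodule.add_mem_iff_right W hw).1 h1)
  · intro M hHM hMS
    by_cases h : M ≤ H
    · exact Or.inl (le_antisymm h hHM)
    · right
      obtain ⟨g, hg, hg'⟩ := SetLike.not_le_iff_exists.1 h
      exact le_antisymm hMS (main M hHM hMS ⟨g, hg, hg'⟩)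

end Cfsg.Agent.S5631
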