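import Cfsg.Statements.S5632
import Cfsg.Agent.H7.Tv

set_option autoImplicit false
open Cfsg
open Cfsg.Agent.H7.Tv Module

namespace Cfsg.Agent.S5632

/-- For a finite field F and subspaces 0 < W < U of F^n with dim W + dim U = n, the elements of SL_n(F) stabilising both W and U form a subgroup that is not maximal in SL_n(F): some subgroup lies strictly between it and SL_n(F). -/
theorem result {F : Type*} [Field F] [Fintype F] (n : ℕ) (W U : Submodule F (Fin n → F)) (hW0 : W ≠ ⊥) (hWU : W < U) (hdim : Module.finrank F W + Module.finrank F U = n) : ∃ K : Subgroup (Matrix.GeneralLinearGroup (Fin n) F), Cfsg.Geo.subspaceStabilizer W ⊓ Cfsg.Geo.subspaceStabilizer U ⊓ Cfsg.Geo.specialLinear (Fin n) F < K ∧ K < Cfsg.Geo.specialLinear (Fin n) F := by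
  classical
  have hU1 : U ≠ ⊤ := by
    rintro rfl
    rw [finrank_top, Module.finrank_fin_fun] at hdim
    have h1 : finrank F W = 0 := by omega
    rw [Submodule.finrank_eq_zero] at h1
    exact hW0 h1
  have hW1 : W ≠ ⊤ := by
    rintro rfl
    exact (not_top_lt hWU)
  refine ⟨Cfsg.Geo.subspaceStabilizer W ⊓ Cfsg.Geo.specialLinear (Fin n) F, ?_, ?_⟩
  · refine lt_of_le_of_ne ?_ ?_
    · exact le_inf (inf_le_left.trans inf_le_left) inf_le_right
    · intro heq
      obtain ⟨x, hx⟩ := exists_notMem_of_ne_top hU1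
      obtain ⟨y, hy, hyW⟩ := SetLike.exists_of_lt hWU
      have hys : y ∉ W ⊔ Submodule.span F {x} := by
        intro h
        obtain ⟨w, hw, z, hz, hwz⟩ := Submodule.mem_sup.1 h
        obtain ⟨c, rfl⟩ := Submodule.mem_span_singleton.1 hz
        by_cases hc : c = 0
        · rw [hc, zero_smul, add_zero] at hwz
          exact hyW (hwz ▸ hw)
        · apply hx
          have h1 : c • x ∈ U := by
            have : c • x = y - w := by rw [← hwz]; abel
            rw [this]
            exact U.sub_mem hy (hWU.le hw)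
          exact (U.smul_mem_iff hc).1 h1
      obtain ⟨l, hl, hl'⟩ := exists_dual_one hys
      have hlx : l x = 0 := hl' x (Submodule.mem_sup_right (Submodule.mem_span_singleton_self x))
      obtain ⟨g, hg⟩ := exists_tv hlx
      have h1 : g ∈ Cfsg.Geo.subspaceStabilizer W ⊓ Cfsg.Geo.specialLinear (Fin n) F :=
        ⟨tv_mem_stab_right hg (fun w hw => hl' w (Submodule.mem_sup_left hw)), hg.mem_SL hlx⟩
      rw [← heq] at h1
      have h2 := ((mem_stab_iff U g).1 h1.1.2 y).1 hy
      rw [hg, hl, one_smul] at h2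
      exact hx ((Submodule.add_mem_iff_right U hy).1 h2)
  · refine lt_of_le_of_ne inf_le_right ?_
    intro heq
    obtain ⟨g, hg, hg'⟩ := exists_tv_notMem_stab hW0 hW1
    rw [← heq] at hg
    exact hg' hg.1

end Cfsg.Agent.S5632
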