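import Cfsg.Statements.S5633
import Cfsg.Agent.H7.Tv

set_option autoImplicit false
open Cfsg
open Cfsg.Agent.H7.Tv Module

namespace Cfsg.Agent.S5633

/-- For a finite field F and complementary non-zero subspaces W ⊕ U = F^n with dim W < dim U, the elements of SL_n(F) stabilising both W and U form a subgroup that is not maximal in SL_n(F): some subgroup lies strictly between it and SL_n(F). -/
theorem result {F : Type*} [Field F] [Fintype F] (n : ℕ) (W U : Submodule F (Fin n → F)) (hW0 : W ≠ ⊥) (hWU : W ⊓ U = ⊥) (hWU' : W ⊔ U = ⊤) (hdim : Module.finrank F W < Module.finrank F U) : ∃ K : Subgroup (Matrix.GeneralLinearGroup (Fin n) F), Cfsg.Geo.subspaceStabilizer W ⊓ Cfsg.Geo.subspaceStabilizer U ⊓ Cfsg.Geo.specialLinear (Fin n) F < K ∧ K < Cfsg.Geo.specialLinear (Fin n) F := by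
  classical
  have hU1 : U ≠ ⊤ := by
    rintro rfl
    rw [inf_top_eq] at hWU
    exact hW0 hWU
  have hW1 : W ≠ ⊤ := by
    rintro rfl
    rw [top_inf_eq] at hWU
    rw [hWU, finrank_bot] at hdim
    omega
  have hU0 : U ≠ ⊥ := by
    rintro rfl
    rw [finrank_bot] at hdim
    omega
  refine ⟨Cfsg.Geo.subspaceStabilizer W ⊓ Cfsg.Geo.specialLinear (Fin n) F, ?_, ?_⟩
  · refine lt_of_le_of_ne ?_ ?_
    · exact le_inf (inf_le_left.trans inf_le_left) inf_le_right
    · intro heq
      obtain ⟨x, hx, hx0⟩ := (Submodule.ne_bot_iff W).1 hW0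
      obtain ⟨y, hy, hy0⟩ := (Submodule.ne_bot_iff U).1 hU0
      have hys : y ∉ Submodule.span F {x} := by
        intro h
        obtain ⟨c, rfl⟩ := Submodule.mem_span_singleton.1 h
        have : c • x ∈ W ⊓ U := ⟨W.smul_mem _ hx, hy⟩
        rw [hWU, Submodule.mem_bot] at this
        exact hy0 this
      obtain ⟨l, hl, hl'⟩ := exists_dual_one hys
      have hlx : l x = 0 := hl' x (Submodule.mem_span_singleton_self x)
      obtain ⟨g, hg⟩ := exists_tv hlx
      have h1 : g ∈ Cfsg.Geo.subspaceStabilizer W ⊓ Cfsg.Geo.specialLinear (Fin n) F :=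
        ⟨tv_mem_stab_left hg hx, hg.mem_SL hlx⟩
      rw [← heq] at h1
      have h2 := ((mem_stab_iff U g).1 h1.1.2 y).1 hy
      rw [hg, hl, one_smul] at h2
      have h3 : x ∈ W ⊓ U := ⟨hx, (Submodule.add_mem_iff_right U hy).1 h2⟩
      rw [hWU, Submodule.mem_bot] at h3
      exact hx0 h3
  · refine lt_of_le_of_ne inf_le_right ?_
    intro heq
    obtain ⟨g, hg, hg'⟩ := exists_tv_notMem_stab hW0 hW1
    rw [← heq] at hg
    exact hg' hg.1

end Cfsg.Agent.S5633
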