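import Cfsg.Statements.S5638
import Cfsg.Agent.H7.Tps

set_option autoImplicit false
open Cfsg
open Cfsg.Agent.H7.Tps Cfsg.Agent.H7.FieldSub
open scoped Kronecker MatrixGroups

namespace Cfsg.Agent.S5638

/-- Over the field with 2 elements, for n = 2 n₂ ≥ 13, the stabiliser in SL_n of a tensor decomposition with factors of dimensions 2 and n₂ (the conjugate by any P of the Kronecker-product subgroup transported along any bijection Fin n ≃ Fin 2 × Fin n₂, intersected with SL_n) is not a maximal subgroup: some subgroup lies strictly between it and SL_n. -/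
theorem result {F : Type*} [Field F] [Fintype F] (n : ℕ) (hn : 13 ≤ n) (hq : Fintype.card F = 2) (n₂ : ℕ) (e : Fin n ≃ Fin 2 × Fin n₂) (P : Matrix.GeneralLinearGroup (Fin n) F) : ∃ K : Subgroup (Matrix.GeneralLinearGroup (Fin n) F), Cfsg.Geo.tensorProductSubgroup 2 n₂ e P ⊓ Cfsg.Geo.specialLinear (Fin n) F < K ∧ K < Cfsg.Geo.specialLinear (Fin n) F := by
  classical
  have hcn : n = 2 * n₂ := by
    have := Fintype.card_congr e
    simpa using this
  have h01 : ∀ x : F, x = 0 ∨ x = 1 := by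
    intro x
    have h1 : ({0, 1} : Finset F) = Finset.univ := by
      apply Finset.eq_univ_of_card
      rw [Finset.card_pair zero_ne_one, hq]
    have h2 : x ∈ ({0, 1} : Finset F) := by rw [h1]; exact Finset.mem_univ _
    simpa using h2
  have h2 : (1 : F) + 1 = 0 := by
    rcases h01 (1 + 1) with h | h
    · exact h
    · exact absurd (add_left_cancel (h.trans (add_zero (1 : F)).symm)) one_ne_zero
  have hadd : ∀ X : Matrix (Fin n) (Fin n) F, X + X = 0 := by
    intro X
    have : X + X = ((1 : F) + 1) • X := by rw [add_smul, one_smul]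
    rw [this, h2, zero_smul]
  let ω : Matrix (Fin 2) (Fin 2) F := !![0, 1; 1, 1]
  have hω : ω * ω = 1 + ω := by
    ext i j
    fin_cases i <;> fin_cases j <;> simp [ω, Matrix.mul_apply, Fin.sum_univ_two, h2]
  set W : Matrix (Fin n) (Fin n) F := Th e P (ω ⊗ₖ 1) with hW
  have hWW : W * W = 1 + W := by
    rw [hW, ← Th_mul, ← Matrix.mul_kronecker_mul, hω, mul_one, Matrix.add_kronecker, Matrix.one_kronecker_one, Th_add, Th_one]
  let K : Subalgebra F (Matrix (Fin n) (Fin n) F) :=
    { carrier := {X | ∃ x y : F, X = x • 1 + y • W}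
      mul_mem' := by
        rintro _ _ ⟨x, y, rfl⟩ ⟨z, w, rfl⟩
        refine ⟨x * z + y * w, x * w + y * z + y * w, ?_⟩
        rw [add_mul, mul_add, mul_add, smul_mul_smul_comm, smul_mul_smul_comm, smul_mul_smul_comm, smul_mul_smul_comm, hWW,
          one_mul, one_mul, mul_one, smul_add]
        module
      one_mem' := ⟨1, 0, by rw [one_smul, zero_smul, add_zero]⟩
      add_mem' := by
        rintro _ _ ⟨x, y, rfl⟩ ⟨z, w, rfl⟩
        exact ⟨x + z, y + w, by module⟩
      zero_mem' := ⟨0, 0, by rw [zero_smul, zero_smul, add_zero]⟩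
      algebraMap_mem' := by
        intro r
        exact ⟨r, 0, by rw [zero_smul, add_zero, Algebra.algebraMap_eq_smul_one]⟩ }
  have hKm : ∀ X, X ∈ K ↔ ∃ x y : F, X = x • 1 + y • W := fun X => Iff.rfl
  have hcomm : ∀ x ∈ K, ∀ y ∈ K, x * y = y * x := by
    intro X hX Y hY
    obtain ⟨x, y, rfl⟩ := (hKm X).1 hX
    obtain ⟨z, w, rfl⟩ := (hKm Y).1 hY
    rw [add_mul, mul_add, mul_add, add_mul, mul_add, mul_add, smul_mul_smul_comm, smul_mul_smul_comm, smul_mul_smul_comm, smul_mul_smul_comm,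
      smul_mul_smul_comm, smul_mul_smul_comm, smul_mul_smul_comm, smul_mul_smul_comm, mul_comm z x, mul_comm z y, mul_comm w x, mul_comm w y]
    simp only [one_mul, mul_one]
    abel
  have hinv : ∀ x ∈ K, x ≠ 0 → ∃ y ∈ K, x * y = 1 := by
    intro X hX hX0
    obtain ⟨x, y, rfl⟩ := (hKm X).1 hX
    rcases h01 y with rfl | rfl
    · rcases h01 x with rfl | rfl
      · exfalso; apply hX0; simp
      · exact ⟨1, K.one_mem, by simp⟩
    · rcases h01 x with rfl | rfl
      · refine ⟨1 + W, (hKm _).2 ⟨1, 1, by simp⟩, ?_⟩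
        rw [zero_smul, zero_add, one_smul, mul_add, mul_one, hWW]
        rw [add_comm (1 : Matrix (Fin n) (Fin n) F) W, ← add_assoc, hadd, zero_add]
      · refine ⟨W, (hKm _).2 ⟨0, 1, by simp⟩, ?_⟩
        rw [one_smul, one_smul, add_mul, one_mul, hWW, add_comm (1 : Matrix (Fin n) (Fin n) F) W, ← add_assoc, hadd, zero_add]
  have hnb : W ∉ (⊥ : Subalgebra F (Matrix (Fin n) (Fin n) F)) := by
    intro h
    rw [Algebra.mem_bot] at h
    obtain ⟨c, hc⟩ := h
    have h3 : Th e P (c • (1 : Matrix (Fin 2 × Fin n₂) (Fin 2 × Fin n₂) F)) = Th e P (ω ⊗ₖ 1) := by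
      rw [Th_smul, Th_one, ← Algebra.algebraMap_eq_smul_one]; exact hc
    have h4 := Th_inj e P h3
    have h5 := congrFun (congrFun h4 (0, ⟨0, by omega⟩)) (1, ⟨0, by omega⟩)
    simp [ω, Matrix.kroneckerMap_apply] at h5
  have hWK : W ∈ K := (hKm _).2 ⟨0, 1, by simp⟩
  obtain ⟨s, hsS, -, hsK⟩ := mover (F := F) (n := n) (K0 := ⊥) (K := K)
    (fun x hx y _ => by
      rw [Algebra.mem_bot] at hx
      obtain ⟨a, rfl⟩ := hx
      exact Algebra.commutes a y)
    (fun x hx hx0 => by
      rw [Algebra.mem_bot] at hx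
      obtain ⟨a, rfl⟩ := hx
      have ha : a ≠ 0 := by rintro rfl; exact hx0 (map_zero _)
      exact ⟨algebraMap F _ a⁻¹, Algebra.mem_bot.2 ⟨_, rfl⟩, by rw [← map_mul, mul_inv_cancel₀ ha, map_one]⟩)
    hcomm hinv bot_le ⟨W, hWK, hnb⟩ (by
      haveI : Nonempty (Fin n) := ⟨⟨0, by omega⟩⟩
      rw [Subalgebra.finrank_bot]; omega)
  have hconj : ∀ g ∈ Geo.tensorProductSubgroup 2 n₂ e P, ∀ k ∈ K, (g : Matrix (Fin n) (Fin n) F) * k * ((g⁻¹ : GL (Fin n) F) : Matrix (Fin n) (Fin n) F) ∈ K := by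
    intro g hg k hk
    obtain ⟨a, b, hab⟩ := (mem_tps e P).1 hg
    have hgi : ((g⁻¹ : GL (Fin n) F) : Matrix (Fin n) (Fin n) F) =
        Th e P (((a⁻¹ : GL (Fin 2) F) : Matrix (Fin 2) (Fin 2) F) ⊗ₖ ((b⁻¹ : GL (Fin n₂) F) : Matrix (Fin n₂) (Fin n₂) F)) := by
      have h3 : (g : Matrix (Fin n) (Fin n) F) * Th e P (((a⁻¹ : GL (Fin 2) F) : Matrix (Fin 2) (Fin 2) F) ⊗ₖ ((b⁻¹ : GL (Fin n₂) F) : Matrix (Fin n₂) (Fin n₂) F)) = 1 := by
        rw [hab, ← Th_mul, ← Matrix.mul_kronecker_mul, P_inv', P_inv', Matrix.one_kronecker_one, Th_one]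
      calc ((g⁻¹ : GL (Fin n) F) : Matrix (Fin n) (Fin n) F) = ((g⁻¹ : GL (Fin n) F) : Matrix (Fin n) (Fin n) F) * ((g : Matrix (Fin n) (Fin n) F) * Th e P (((a⁻¹ : GL (Fin 2) F) : Matrix (Fin 2) (Fin 2) F) ⊗ₖ ((b⁻¹ : GL (Fin n₂) F) : Matrix (Fin n₂) (Fin n₂) F))) := by rw [h3, mul_one]
        _ = _ := by rw [← mul_assoc, P_inv, one_mul]
    set B : Matrix (Fin 2) (Fin 2) F := (a : Matrix (Fin 2) (Fin 2) F) * ω * ((a⁻¹ : GL (Fin 2) F) : Matrix (Fin 2) (Fin 2) F) with hB
    have hgW : (g : Matrix (Fin n) (Fin n) F) * W * ((g⁻¹ : GL (Fin n) F) : Matrix (Fin n) (Fin n) F) = Th e P (B ⊗ₖ 1) := by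
      rw [hgi, hab, hW, ← Th_mul, ← Th_mul, ← Matrix.mul_kronecker_mul, ← Matrix.mul_kronecker_mul, mul_one, P_inv']
    have htr : B.trace = 1 := by
      rw [hB, Matrix.trace_mul_comm, ← mul_assoc, P_inv, one_mul]
      simp [ω, Matrix.trace_fin_two]
    have hdet : B.det = 1 := by
      rw [hB, Matrix.det_mul, Matrix.det_mul, mul_right_comm, ← Matrix.det_mul, P_inv', Matrix.det_one, one_mul]
      simp only [ω, Matrix.det_fin_two_of]
      linear_combination -h2
    have hBω : B = ω ∨ B = 1 + ω := by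
      rw [Matrix.trace_fin_two] at htr
      rw [Matrix.det_fin_two] at hdet
      rcases h01 (B 0 0) with h3 | h3
      · left
        rw [h3, zero_add] at htr
        rw [h3, zero_mul, zero_sub] at hdet
        have h4 : B 0 1 = 1 := (h01 _).resolve_left (fun h => by rw [h, zero_mul, neg_zero] at hdet; exact zero_ne_one hdet)
        have h5 : B 1 0 = 1 := (h01 _).resolve_left (fun h => by rw [h, mul_zero, neg_zero] at hdet; exact zero_ne_one hdet)
        ext i j
        fin_cases i <;> fin_cases j <;> simp [ω, h3, h4, h5, htr]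
      · right
        have h6 : B 1 1 = 0 := by
          rw [h3] at htr
          exact add_left_cancel (htr.trans (add_zero 1).symm)
        rw [h6, mul_zero, zero_sub] at hdet
        have h4 : B 0 1 = 1 := (h01 _).resolve_left (fun h => by rw [h, zero_mul, neg_zero] at hdet; exact zero_ne_one hdet)
        have h5 : B 1 0 = 1 := (h01 _).resolve_left (fun h => by rw [h, mul_zero, neg_zero] at hdet; exact zero_ne_one hdet)
        ext i j
        fin_cases i <;> fin_cases j <;> simp [ω, h3, h4, h5, h6, h2]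
    have hgWK : (g : Matrix (Fin n) (Fin n) F) * W * ((g⁻¹ : GL (Fin n) F) : Matrix (Fin n) (Fin n) F) ∈ K := by
      rw [hgW]
      rcases hBω with h | h
      · rw [h]; exact hWK
      · rw [h, Matrix.add_kronecker, Matrix.one_kronecker_one, Th_add, Th_one]
        exact K.add_mem K.one_mem hWK
    obtain ⟨x, y, rfl⟩ := (hKm k).1 hk
    rw [mul_add, add_mul, mul_smul_comm, mul_smul_comm, smul_mul_assoc, smul_mul_assoc, mul_one, P_inv']
    exact K.add_mem (K.smul_mem K.one_mem _) (K.smul_mem hgWK _)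
  have hnorm : Geo.tensorProductSubgroup 2 n₂ e P ≤ Geo.subalgebraNormalizer K := by
    intro g hg k
    constructor
    · exact hconj g hg k
    · intro hk
      have h7 := hconj g⁻¹ (inv_mem hg) _ hk
      have h8 : ((g⁻¹ : GL (Fin n) F) : Matrix (Fin n) (Fin n) F) *
          ((g : Matrix (Fin n) (Fin n) F) * k * ((g⁻¹ : GL (Fin n) F) : Matrix (Fin n) (Fin n) F)) *
          (((g⁻¹)⁻¹ : GL (Fin n) F) : Matrix (Fin n) (Fin n) F) = k := by
        rw [inv_inv]
        simp only [← mul_assoc, ← Units.val_mul, inv_mul_cancel, Units.val_one, one_mul]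
        rw [mul_assoc, ← Units.val_mul, inv_mul_cancel, Units.val_one, mul_one]
      rw [h8] at h7
      exact h7
  refine ⟨Geo.subalgebraNormalizer K ⊓ Geo.specialLinear (Fin n) F, lt_of_le_of_ne (inf_le_inf_right _ hnorm) ?_,
    lt_of_le_of_ne inf_le_right ?_⟩
  · intro heq
    let i0 : Fin n₂ := ⟨0, by omega⟩
    let i1 : Fin n₂ := ⟨1, by omega⟩
    have hi : i0 ≠ i1 := by simp [i0, i1]
    set E : Matrix (Fin n₂) (Fin n₂) F := Matrix.single i0 i1 1 with hE
    have hEE : E * E = 0 := by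
      rw [hE, Matrix.single_mul_single_of_ne]
      exact hi.symm
    set N : Matrix (Fin n) (Fin n) F := Th e P (ω ⊗ₖ E) with hN
    have hNN : N * N = 0 := by
      rw [hN, ← Th_mul, ← Matrix.mul_kronecker_mul, hEE, Matrix.kronecker_zero, Th_zero]
    have hNW : N * W = W * N := by
      rw [hN, hW, ← Th_mul, ← Th_mul, ← Matrix.mul_kronecker_mul, ← Matrix.mul_kronecker_mul, mul_one, one_mul]
    let t : GL (Fin n) F := ⟨1 + N, 1 - N, by rw [mul_sub, mul_one, add_mul, one_mul, hNN]; abel,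
      by rw [mul_add, mul_one, sub_mul, one_mul, hNN]; abel⟩
    have htW : ∀ k ∈ K, (t : Matrix (Fin n) (Fin n) F) * k * ((t⁻¹ : GL (Fin n) F) : Matrix (Fin n) (Fin n) F) = k := by
      intro k hk
      obtain ⟨x, y, rfl⟩ := (hKm k).1 hk
      have h3 : N * (x • 1 + y • W) = (x • 1 + y • W) * N := by
        rw [mul_add, add_mul, mul_smul_comm, mul_smul_comm, smul_mul_assoc, smul_mul_assoc, mul_one, one_mul, hNW]
      change (1 + N) * _ * (1 - N) = _
      rw [add_mul, one_mul, h3, ← mul_one_add, mul_assoc,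
        show (1 + N) * (1 - N) = 1 by rw [mul_sub, mul_one, add_mul, one_mul, hNN]; abel, mul_one]
    have ht : t ∈ Geo.subalgebraNormalizer K ⊓ Geo.specialLinear (Fin n) F := by
      constructor
      · intro k
        constructor
        · intro hk
          rw [htW k hk]; exact hk
        · intro hk
          have h5 := htW _ hk
          have h6 : (t : Matrix (Fin n) (Fin n) F) * k * ((t⁻¹ : GL (Fin n) F) : Matrix (Fin n) (Fin n) F) = k := by
            set k' := (t : Matrix (Fin n) (Fin n) F) * k * ((t⁻¹ : GL (Fin n) F) : Matrix (Fin n) (Fin n) F) with hk'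
            have h7 : (t : Matrix (Fin n) (Fin n) F) * k' = k' * t := by
              calc (t : Matrix (Fin n) (Fin n) F) * k' = (t : Matrix (Fin n) (Fin n) F) * k' * (((t⁻¹ : GL (Fin n) F) : Matrix (Fin n) (Fin n) F) * t) := by rw [P_inv, mul_one]
                _ = ((t : Matrix (Fin n) (Fin n) F) * k' * ((t⁻¹ : GL (Fin n) F) : Matrix (Fin n) (Fin n) F)) * t := by simp only [mul_assoc]
                _ = k' * t := by rw [h5]
            have h8 : (t : Matrix (Fin n) (Fin n) F) * k = k' * t := by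
              rw [hk']
              calc (t : Matrix (Fin n) (Fin n) F) * k = (t : Matrix (Fin n) (Fin n) F) * k * (((t⁻¹ : GL (Fin n) F) : Matrix (Fin n) (Fin n) F) * t) := by rw [P_inv, mul_one]
                _ = _ := by simp only [mul_assoc]
            have h9 : (t : Matrix (Fin n) (Fin n) F) * k = (t : Matrix (Fin n) (Fin n) F) * k' := by rw [h8, h7]
            have h10 := congrArg (fun X => ((t⁻¹ : GL (Fin n) F) : Matrix (Fin n) (Fin n) F) * X) h9
            simp only [← mul_assoc, P_inv, one_mul] at h10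
            exact h10.symm
          rw [← h6]; exact hk
      · refine MonoidHom.mem_ker.2 (Units.ext ?_)
        exact det_unip hNN
    rw [← heq] at ht
    obtain ⟨a, b, hab⟩ := (mem_tps e P).1 ht.1
    have h3 : Th e P (1 + ω ⊗ₖ E) = Th e P ((a : Matrix (Fin 2) (Fin 2) F) ⊗ₖ (b : Matrix (Fin n₂) (Fin n₂) F)) := by
      rw [← hab, Th_add, Th_one]
    have h4 := Th_inj e P h3
    have e1 := congrFun (congrFun h4 (0, i0)) (0, i0)
    have e2 := congrFun (congrFun h4 (0, i0)) (1, i0)
    have e3 := congrFun (congrFun h4 (0, i0)) (1, i1)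
    simp [ω, E, Matrix.kroneckerMap_apply, Matrix.single_apply, hi, hi.symm] at e1 e2 e3
    rcases e2 with h5 | h5
    · rw [h5, zero_mul] at e3
      exact one_ne_zero e3
    · rw [h5, mul_zero] at e1
      exact one_ne_zero e1
  · intro heq
    have : s ∈ Geo.specialLinear (Fin n) F := hsS
    rw [← heq] at this
    exact hsK this.1

end Cfsg.Agent.S5638
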