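import Cfsg.Statements.S5642
import Cfsg.Agent.H7.Tv

set_option autoImplicit false
open Cfsg
open Cfsg.Agent.H7.Tv Module

namespace Cfsg.Agent.S5642

/-- For a finite field F and n ≥ 13, let f be a non-degenerate symplectic form on F^n (so n is even). Then the elements of SL_n(F) that are similarities of f (f(gu, gv) = c f(u, v) for a non-zero scalar c depending on g) form a maximal subgroup of SL_n(F). -/
theorem result {F : Type*} [Field F] [Fintype F] (n : ℕ) (hn : 13 ≤ n) (f : (Fin n → F) → (Fin n → F) → F) (hf : Cfsg.Geo.IsSymplecticForm f) : Cfsg.Geo.IsMaximalIn (Cfsg.Geo.specialLinear (Fin n) F) (Cfsg.Geo.similarityGroup f ⊓ Cfsg.Geo.specialLinear (Fin n) F) := by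
  classical
  -- the form as a bilinear map
  let fb : (Fin n → F) →ₗ[F] (Fin n → F) →ₗ[F] F :=
    LinearMap.mk₂ F f hf.bilinear.add_left hf.bilinear.smul_left hf.bilinear.add_right hf.bilinear.smul_right
  have hfb : ∀ x y, fb x y = f x y := fun x y => rfl
  have hA : Alt fb := ⟨fun v => hf.alternating v, by
    intro v hv
    by_contra hne
    obtain ⟨⟨x, hx⟩, _⟩ := hf.nondegenerate v hne
    exact hx (hv x)⟩
  set H := Cfsg.Geo.similarityGroup f ⊓ Cfsg.Geo.specialLinear (Fin n) F with hH
  -- symplectic transvections are in `H`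
  have hT : ∀ v, Ctr fb H v := by
    intro v c g hg
    refine ⟨⟨1, fun x y => ?_⟩, ?_⟩
    · have := hg.isIso hA x y
      rw [Units.val_one, one_mul]
      exact this
    · exact IsTv.mem_SL (u := v) (l := c • fb.flip v) (by simp [hA.alt]) hg
  -- `M` not in `H`
  have main : ∀ M : Subgroup (Matrix.GeneralLinearGroup (Fin n) F), H ≤ M → M ≤ Cfsg.Geo.specialLinear (Fin n) F →
      (∃ g ∈ M, g ∉ H) → Cfsg.Geo.specialLinear (Fin n) F ≤ M := by
    rintro M hHM hMS ⟨g, hgM, hgH⟩
    have hTM : ∀ v, Ctr fb M v := fun v c k hk => hHM (hT v c k hk)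
    -- the operator `A` with f(x, A p) = f(g⁻¹ x, g⁻¹ p)
    obtain ⟨p, v, hp0, hvp, hpv, hIn⟩ : ∃ p v : Fin n → F, p ≠ 0 ∧ v ∉ Submodule.span F {p} ∧ fb p v = 0 ∧ InF M p (fb.flip v) := by
      by_contra hcon
      push Not at hcon
      let e : (Fin n → F) ≃ₗ[F] Dual F (Fin n → F) := LinearEquiv.ofBijective fb.flip (by
        refine ⟨hA.flip_injective, fun l => ?_⟩
        obtain ⟨v, hv⟩ := hA.exists_rep l
        exact ⟨v, LinearMap.ext (fun x => (hv x).symm)⟩)
      let A : (Fin n → F) →ₗ[F] (Fin n → F) :=
        { toFun := fun p => e.symm ((fb.flip (ap g⁻¹ p)).comp (lin g⁻¹))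
          map_add' := by
            intro x y
            rw [ap_add, map_add, LinearMap.add_comp, map_add]
          map_smul' := by
            intro c x
            rw [ap_smul, map_smul, LinearMap.smul_comp, map_smul]
            rfl }
      have hAs : ∀ x p, fb x (A p) = fb (ap g⁻¹ x) (ap g⁻¹ p) := by
        intro x p
        have h1 : e (A p) = (fb.flip (ap g⁻¹ p)).comp (lin g⁻¹) := LinearEquiv.apply_symm_apply _ _
        have h2 : (e (A p)) x = fb x (A p) := rfl
        rw [← h2, h1]
        rfl
      have hscal : ∀ p, ∃ c : F, A p = c • p := by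
        intro p
        have hperp : fb p (A p) = 0 := by rw [hAs, hA.alt]
        by_cases hm : A p ∈ Submodule.span F {p}
        · obtain ⟨c, hc⟩ := Submodule.mem_span_singleton.1 hm
          exact ⟨c, hc.symm⟩
        · exfalso
          have hp0 : p ≠ 0 := by
            rintro rfl
            apply hm
            rw [map_zero]
            exact Submodule.zero_mem _
          apply hcon p (A p) hp0 hm hperp
          have h1 : InF M (ap g⁻¹ p) (fb.flip (ap g⁻¹ p)) := by
            intro c k hk
            exact hTM (ap g⁻¹ p) c k hk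
          have h2 := h1.conj hgM
          rw [ap_ap_inv] at h2
          have h3 : (fb.flip (ap g⁻¹ p)).comp (lin g⁻¹) = fb.flip (A p) := by
            apply LinearMap.ext
            intro x
            exact (hAs x p).symm
          rw [h3] at h2
          exact h2
      obtain ⟨c, hc⟩ := exists_scalar A hscal
      apply hgH
      have hsim : ∀ x y, fb (ap g⁻¹ x) (ap g⁻¹ y) = c * fb x y := by
        intro x y
        rw [← hAs, hc, map_smul, smul_eq_mul]
      have hn0 : ∃ x y, fb x y ≠ 0 := by
        have : (Pi.single ⟨0, by omega⟩ 1 : Fin n → F) ≠ 0 := by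
          intro h
          have := congrFun h ⟨0, by omega⟩
          simp at this
        obtain ⟨w, hw⟩ := hA.exists_ne this
        exact ⟨_, w, hw⟩
      obtain ⟨x, y, hxy⟩ := hn0
      have hc0 : c ≠ 0 := by
        rintro rfl
        apply hxy
        have := hsim (ap g x) (ap g y)
        rwa [ap_inv_ap, ap_inv_ap, zero_mul] at this
      have hgi : g⁻¹ ∈ Cfsg.Geo.similarityGroup f := ⟨Units.mk0 c hc0, fun u v => hsim u v⟩
      exact ⟨(Subgroup.inv_mem_iff _).1 hgi, hMS hgM⟩
    let B : Submodule F (Fin n → F) :=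
      { carrier := {w | fb p w = 0 ∧ InF M p (fb.flip w)}
        zero_mem' := by
          refine ⟨map_zero _, ?_⟩
          intro c
          rw [map_zero, smul_zero]
          exact In.zero M p
        add_mem' := by
          rintro a b ⟨ha, ha'⟩ ⟨hb, hb'⟩
          refine ⟨by rw [map_add, ha, hb, add_zero], ?_⟩
          rw [map_add]
          exact ha'.add ha hb hb'
        smul_mem' := by
          rintro c a ⟨ha, ha'⟩
          refine ⟨by rw [map_smul, ha, smul_zero], ?_⟩
          rw [map_smul]
          exact ha'.smul c }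
    have hB1 : ∀ w, fb p w = 0 → fb v w ≠ 0 → w ∈ B := by
      intro w hw hvw
      obtain ⟨T, hT⟩ := exists_stv hA w 1
      have hTM' : T ∈ M := hTM w 1 T hT
      have hTp : ap T p = p := by rw [hT, hw, mul_zero, zero_smul, add_zero]
      have h1 := hIn.conj hTM'
      rw [hTp] at h1
      have h2 : (fb.flip v).comp (lin T⁻¹) = fb.flip (ap T v) := by
        apply LinearMap.ext
        intro x
        change fb (ap T⁻¹ x) v = fb x (ap T v)
        rw [← hT.isIso hA, ap_ap_inv]
      rw [h2] at h1
      have h3 : ap T v ∈ B := by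
        refine ⟨?_, h1⟩
        have := hT.isIso hA p v
        rw [hTp] at this
        rw [this]
        exact hpv
      have h4 : v ∈ B := ⟨hpv, hIn⟩
      have h5 := B.sub_mem h3 h4
      rw [hT, add_sub_cancel_left, one_mul] at h5
      exact (B.smul_mem_iff hvw).1 h5
    obtain ⟨w₀, hw₀, hw₀'⟩ := hA.exists_perp hvp
    have hw₀p : fb p w₀ = 0 := hw₀' p (Submodule.mem_span_singleton_self p)
    have hB2 : ∀ w, fb p w = 0 → w ∈ B := by
      intro w hw
      by_cases h : fb v w = 0
      · have h1 : w + w₀ ∈ B := hB1 _ (by rw [map_add, hw, hw₀p, add_zero]) (by rw [map_add, h, hw₀, zero_add]; exact one_ne_zero)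
        have h2 : w₀ ∈ B := hB1 _ hw₀p (by rw [hw₀]; exact one_ne_zero)
        have := B.sub_mem h1 h2
        rwa [add_sub_cancel_right] at this
      · exact hB1 w hw h
    apply SL_le
    intro u l hl
    by_cases hu : u = 0
    · rw [hu]
      exact In.zero_left M l
    obtain ⟨g, hg, hgi, hgp, -⟩ := move hA (M := M) (C := ⊤) (fun w _ => hTM w) hA.nd_top
      (Submodule.mem_top (x := p)) (Submodule.mem_top (x := u)) hp0 hu
    have h1 : In M p (l.comp (lin g)) := by
      obtain ⟨w, hw⟩ := hA.exists_rep (l.comp (lin g))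
      have h2 : l.comp (lin g) = fb.flip w := LinearMap.ext hw
      have h3 : fb p w = 0 := by
        rw [← hw]
        change l (ap g p) = 0
        rw [hgp, hl]
      rw [h2]
      exact (hB2 w h3).2.one
    have h2 := h1.conj hg
    rw [hgp] at h2
    have h3 : (l.comp (lin g)).comp (lin g⁻¹) = l := by
      apply LinearMap.ext
      intro x
      change l (ap g (ap g⁻¹ x)) = l x
      rw [ap_ap_inv]
    rwa [h3] at h2
  have hle : H ≤ Cfsg.Geo.specialLinear (Fin n) F := inf_le_right
  refine ⟨lt_of_le_of_ne hle ?_, ?_⟩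
  · intro heq
    -- a transvection which is not a similarity
    have he0 : (Pi.single ⟨0, by omega⟩ 1 : Fin n → F) ≠ 0 := by
      intro h
      have := congrFun h ⟨0, by omega⟩
      simp at this
    set u : Fin n → F := Pi.single ⟨0, by omega⟩ 1 with hu
    obtain ⟨v, hv, hv'⟩ : ∃ v, fb u v = 0 ∧ v ∉ Submodule.span F {u} := by
      by_contra hcon
      push Not at hcon
      have h1 : LinearMap.ker (fb u) ≤ Submodule.span F {u} := fun v hv => hcon v hv
      have h2 := Submodule.finrank_mono h1
      have h3 := finrank_span_le_card (R := F) ({u} : Set (Fin n → F))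
      have h4 := LinearMap.finrank_range_add_finrank_ker (fb u)
      have h5 : finrank F (LinearMap.range (fb u)) ≤ 1 := by
        have := Submodule.finrank_le (LinearMap.range (fb u))
        rwa [finrank_self] at this
      rw [Module.finrank_fin_fun] at h4
      simp at h3
      omega
    obtain ⟨g, hg⟩ := exists_tv (u := u) (l := fb.flip v) hv
    have hgH : g ∈ H := by
      rw [heq]
      exact IsTv.mem_SL (l := fb.flip v) hv hg
    obtain ⟨⟨c, hc⟩, -⟩ := hgH
    have hc' : ∀ x y, fb (ap g x) (ap g y) = (c : F) * fb x y := hc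
    have hexp : ∀ x y, fb (ap g x) (ap g y) = fb x y + fb y v * fb x u + fb x v * fb u y := by
      intro x y
      rw [hg, hg]
      simp only [map_add, map_smul, LinearMap.add_apply, LinearMap.smul_apply, hA.alt, smul_eq_mul,
        LinearMap.flip_apply]
      ring
    obtain ⟨y, hy⟩ := hA.exists_ne he0
    have hc1 : (c : F) = 1 := by
      have h1 := hexp u y
      rw [hc', hv, hA.alt, zero_mul, mul_zero, add_zero, add_zero] at h1
      have h2 : ((c : F) - 1) * fb u y = 0 := by rw [sub_mul, h1, one_mul, sub_self]
      rcases mul_eq_zero.1 h2 with h | h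
      · exact sub_eq_zero.1 h
      · exact absurd h hy
    obtain ⟨x, hx, hx'⟩ := hA.exists_perp hv'
    have hxu : fb x u = 0 := hA.skew_zero (hx' u (Submodule.mem_span_singleton_self u))
    have h1 := hexp x y
    rw [hc', hc1, one_mul, hxu, mul_zero, add_zero] at h1
    have h2 : fb x v * fb u y = 0 := by
      have : fb x y + fb x v * fb u y = fb x y := h1.symm
      simpa using this
    rcases mul_eq_zero.1 h2 with h | h
    · have := hA.skew x v
      rw [h, hx] at this
      simp at this
    · exact hy h
  · intro M hHM hMS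
    by_cases h : M ≤ H
    · exact Or.inl (le_antisymm h hHM)
    · right
      obtain ⟨g, hg, hg'⟩ := SetLike.not_le_iff_exists.1 h
      exact le_antisymm hMS (main M hHM hMS ⟨g, hg, hg'⟩)

end Cfsg.Agent.S5642
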