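import Cfsg.Statements.S5643
import Cfsg.Agent.H7.UTv

set_option autoImplicit false
open Cfsg
open Cfsg.Agent.H7.Tv Cfsg.Agent.H7.UTv Module

namespace Cfsg.Agent.S5643

/-- For a finite field F and n ≥ 13, let σ be a field automorphism of F of order two and f a non-degenerate unitary form on F^n with respect to σ. Then the elements of SL_n(F) that are similarities of f form a maximal subgroup of SL_n(F). -/
theorem result {F : Type*} [Field F] [Fintype F] (n : ℕ) (hn : 13 ≤ n) (σ : F ≃+* F) (f : (Fin n → F) → (Fin n → F) → F) (hf : Cfsg.Geo.IsUnitaryForm σ f) : Cfsg.Geo.IsMaximalIn (Cfsg.Geo.specialLinear (Fin n) F) (Cfsg.Geo.similarityGroup f ⊓ Cfsg.Geo.specialLinear (Fin n) F) := by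

  classical
  let s : F →+* F := (σ : F →+* F)
  have hs : ∀ x, s x = σ x := fun x => rfl
  let B : (Fin n → F) →ₛₗ[s] (Fin n → F) →ₗ[F] F :=
    LinearMap.mk₂'ₛₗ s (RingHom.id F) (fun u v => f v u)
      (fun u u' v => by
        change f v (u + u') = f v u + f v u'
        rw [hf.herm, hf.add_left, map_add, ← hf.herm, ← hf.herm])
      (fun c u v => by
        change f v (c • u) = σ c * f v u
        rw [hf.herm, hf.smul_left, map_mul, ← hf.herm])
      (fun u v v' => hf.add_left _ _ _)
      (fun c u v => hf.smul_left _ _ _)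
  have hBf : ∀ u v, B u v = f v u := fun u v => rfl
  have hB : Hm B := ⟨fun h => hf.ne_refl (RingEquiv.ext fun x => by
      have := DFunLike.congr_fun h x
      exact this), fun a => hf.involutive a, fun x y => by
      rw [hBf, hBf, hs, ← hf.herm], fun v hv => by
      by_contra hne
      obtain ⟨⟨x, hx⟩, _⟩ := hf.nondegenerate v hne
      exact hx (hv x)⟩
  set H := Cfsg.Geo.similarityGroup f ⊓ Cfsg.Geo.specialLinear (Fin n) F with hH
  have hcard : Fintype.card (Fin n) = n := Fintype.card_fin n
  -- unitary transvections are in `H`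
  have hT : ∀ u, B u u = 0 → UC B H u := by
    intro u hu c hc g hg
    refine ⟨⟨1, fun x y => ?_⟩, ?_⟩
    · have := isom_utv hB.symm hu hc hg y x
      rw [Units.val_one, one_mul]
      exact this
    · exact IsTv.mem_SL (u := u) (l := c • B u) (by rw [LinearMap.smul_apply, hu, smul_zero]) hg
  -- `M` not in `H`
  have main : ∀ M : Subgroup (Matrix.GeneralLinearGroup (Fin n) F), H ≤ M → M ≤ Cfsg.Geo.specialLinear (Fin n) F →
      (∃ g ∈ M, g ∉ H) → Cfsg.Geo.specialLinear (Fin n) F ≤ M := by
    rintro M hHM hMS ⟨g, hgM, hgH⟩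
    have hTM : ∀ u, B u u = 0 → UC B M u := fun u hu c hc k hk => hHM (hT u hu c hc k hk)
    obtain ⟨p, v, hp0, hvp, hpv, hIn⟩ : ∃ p v : Fin n → F, p ≠ 0 ∧ v ∉ Submodule.span F {p} ∧ B v p = 0 ∧
        ∀ c, c + s c = 0 → In M p (c • B v) := by
      by_contra hcon
      push Not at hcon
      -- the operator `A` with B(A p, x) = B(g⁻¹ p, g⁻¹ x)
      have hex : ∀ p : Fin n → F, ∃ w, ∀ x, B w x = B (ap g⁻¹ p) (ap g⁻¹ x) := fun p =>
        hB.exists_rep ((B (ap g⁻¹ p)).comp (lin g⁻¹))
      choose A₀ hA₀ using hex
      have huniq : ∀ a b : Fin n → F, (∀ x, B a x = B b x) → a = b := by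
        intro a b hab
        rw [← sub_eq_zero]
        apply hB.nd
        intro x
        rw [map_sub, LinearMap.sub_apply, hab, sub_self]
      let A : (Fin n → F) →ₗ[F] (Fin n → F) :=
        { toFun := A₀
          map_add' := by
            intro x y
            apply huniq
            intro z
            rw [map_add, LinearMap.add_apply, hA₀, hA₀, hA₀, ap_add, map_add, LinearMap.add_apply]
          map_smul' := by
            intro c x
            apply huniq
            intro z
            rw [RingHom.id_apply, LinearMap.map_smulₛₗ, LinearMap.smul_apply, hA₀, hA₀, ap_smul, LinearMap.map_smulₛₗ,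
              LinearMap.smul_apply] }
      have hA : ∀ p x, B (A p) x = B (ap g⁻¹ p) (ap g⁻¹ x) := hA₀
      have hscal : ∀ u, B u u = 0 → ∃ c : F, A (ap g u) = c • ap g u := by
        intro u hu
        by_cases hm : A (ap g u) ∈ Submodule.span F {ap g u}
        · obtain ⟨c, hc⟩ := Submodule.mem_span_singleton.1 hm
          exact ⟨c, hc.symm⟩
        · exfalso
          have hp0 : ap g u ≠ 0 := by
            intro h0
            apply hm
            rw [h0, map_zero]
            exact Submodule.zero_mem _
          obtain ⟨c, hc, hc'⟩ := hcon (ap g u) (A (ap g u)) hp0 hm (by rw [hA, ap_inv_ap]; exact hu)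
          apply hc'
          have h2 := (hTM u hu c hc).conj hgM
          have h3 : (c • B u).comp (lin g⁻¹) = c • B (A (ap g u)) := by
            apply LinearMap.ext
            intro x
            change (c • B u) (ap g⁻¹ x) = _
            rw [LinearMap.smul_apply, LinearMap.smul_apply, hA, ap_inv_ap]
          rwa [h3] at h2
      obtain ⟨c, hc⟩ := scalar_of_iso hB (by rw [hcard]; omega) ((lin g⁻¹).comp (A.comp (lin g))) (by
        intro u hu
        obtain ⟨c, hc⟩ := hscal u hu
        refine ⟨c, ?_⟩
        change ap g⁻¹ (A (ap g u)) = _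
        rw [hc, ap_smul, ap_inv_ap])
      have hc' : ∀ p, A p = c • p := by
        intro p
        have h1 := hc (ap g⁻¹ p)
        change ap g⁻¹ (A (ap g (ap g⁻¹ p))) = _ at h1
        rw [ap_ap_inv, ← ap_smul] at h1
        exact ap_injective _ h1
      apply hgH
      have hsim : ∀ x y, B (ap g⁻¹ x) (ap g⁻¹ y) = s c * B x y := by
        intro x y
        rw [← hA, hc', LinearMap.map_smulₛₗ, LinearMap.smul_apply, smul_eq_mul]
      have hc0 : s c ≠ 0 := by
        intro h0
        have hn0 : (Pi.single ⟨0, by omega⟩ 1 : Fin n → F) ≠ 0 := by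
          intro h
          have := congrFun h ⟨0, by omega⟩
          simp at this
        apply hn0
        apply hB.nd
        intro u
        have := hsim (ap g (Pi.single ⟨0, by omega⟩ 1 : Fin n → F)) (ap g u)
        rwa [ap_inv_ap, ap_inv_ap, h0, zero_mul] at this
      have hgi : g⁻¹ ∈ Cfsg.Geo.similarityGroup f := ⟨Units.mk0 (s c) hc0, fun u v => hsim v u⟩
      exact ⟨(Subgroup.inv_mem_iff _).1 hgi, hMS hgM⟩
    exact SL_le_of_tv hB (by rw [hcard]; omega) hTM hp0 hvp hpv hIn
  have hle : H ≤ Cfsg.Geo.specialLinear (Fin n) F := inf_le_right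
  refine ⟨lt_of_le_of_ne hle ?_, ?_⟩
  · intro heq
    -- a transvection which is not a similarity
    obtain ⟨c, hc⟩ : ∃ c, c + s c ≠ 0 := by
      by_contra hcon
      push Not at hcon
      apply hB.ne
      ext a
      have h1 := hcon 1
      have h2 := hcon a
      rw [map_one] at h1
      rw [RingHom.id_apply]
      linear_combination h2 - a * h1
    obtain ⟨u, hu, hu0, -⟩ := hB.exists_iso (S := ⊥) (y := Pi.single ⟨0, by omega⟩ 1) (by
      intro h
      have := congrFun ((Submodule.mem_bot F).1 h) ⟨0, by omega⟩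
      simp at this) (by rw [finrank_bot, hcard]; omega)
    obtain ⟨g, hg⟩ := exists_utv hu c
    have hgH : g ∈ H := by
      rw [heq]
      exact IsTv.mem_SL (l := c • B u) (by rw [LinearMap.smul_apply, hu, smul_zero]) hg
    obtain ⟨⟨d, hd⟩, -⟩ := hgH
    have hd' : ∀ x y, B (ap g x) (ap g y) = (d : F) * B x y := fun x y => hd y x
    have hexp : ∀ x y, B (ap g x) (ap g y) = B x y + (c + s c) * (B u y * B x u) := by
      intro x y
      rw [hg, hg]
      simp only [map_add, map_smul, LinearMap.add_apply, LinearMap.smul_apply, LinearMap.map_smulₛₗ, hu, smul_eq_mul,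
        map_mul, hB.symm]
      ring
    set y : Fin n → F := Pi.single ⟨0, by omega⟩ 1 with hy
    have h1 := hexp u y
    rw [hd', hu0, hu] at h1
    have h2 := hexp y y
    rw [hd'] at h2
    have h3 : (d : F) = 1 := by linear_combination h1
    have h4 : B y u ≠ 0 := hB.ne_swap (by rw [hu0]; exact one_ne_zero)
    rw [hu0] at h2
    have h5 : (c + s c) * B y u = 0 := by
      rw [h3] at h2
      linear_combination -h2
    rcases mul_eq_zero.1 h5 with h | h
    · exact hc h
    · exact h4 h
  · intro M hHM hMS
    by_cases h : M ≤ H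
    · exact Or.inl (le_antisymm h hHM)
    · right
      obtain ⟨g, hg, hg'⟩ := SetLike.not_le_iff_exists.1 h
      exact le_antisymm hMS (main M hHM hMS ⟨g, hg, hg'⟩)

end Cfsg.Agent.S5643
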