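import Cfsg.Statements.S5645
import Cfsg.Agent.H7.SpGen

set_option autoImplicit false
open Cfsg
open Cfsg.Agent.H7.Tv Module

namespace Cfsg.Agent.S5645

/-- For a finite field F and m ≥ 7, in the symplectic group Sp_2m(F) of the standard alternating form on F^(2m) (as a subgroup of GL_2m(F)), the stabiliser of any non-zero subspace on which the form vanishes identically is a maximal subgroup. -/
theorem result {F : Type*} [Field F] [Fintype F] (m : ℕ) (hm : 7 ≤ m) (W : Submodule F (Fin m ⊕ Fin m → F)) (hW0 : W ≠ ⊥) (hW : Cfsg.Geo.IsTotallySingularFor (Cfsg.sympForm m F) W) : Cfsg.Geo.IsMaximalIn (Cfsg.spGL m F) (Cfsg.Geo.subspaceStabilizer W ⊓ Cfsg.spGL m F) := by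
  classical
  have hf := sf_alt (F := F) m
  set H := Cfsg.Geo.subspaceStabilizer W ⊓ Cfsg.spGL m F with hH
  have hWts : ∀ u ∈ W, ∀ v ∈ W, sf m F u v = 0 := hW
  have hcH : ∀ w ∈ perp (sf m F) W, Ctr (sf m F) H w := by
    intro w hw c g hg
    refine ⟨mem_stab_of_le W g (fun v hv => ?_), stv_mem_spGL hg⟩
    rw [hg, hf.skew_zero (hw v hv), mul_zero, zero_smul, add_zero]
    exact hv
  have hWperp : W ≤ perp (sf m F) W := fun u hu v hv => hWts u hu v hv
  have main : ∀ M : Subgroup (Matrix.GeneralLinearGroup (Fin m ⊕ Fin m) F), H ≤ M → M ≤ Cfsg.spGL m F →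
      (∃ g ∈ M, g ∉ H) → Cfsg.spGL m F ≤ M := by
    rintro M hHM hMS ⟨g, hgM, hgH⟩
    have hcM : ∀ w ∈ perp (sf m F) W, Ctr (sf m F) M w := fun w hw c k hk => hHM (hcH w hw c k hk)
    -- the elements `E_{a,b}`
    have hE : ∀ a ∈ W, ∀ b, sf m F a b = 0 → ∃ k ∈ M, ∀ x, ap k x = x + sf m F x a • b + sf m F x b • a := by
      intro a ha b hab
      obtain ⟨k1, hk1⟩ := exists_stv hf (a + b) 1
      obtain ⟨k2, hk2⟩ := exists_stv hf a (-1)
      obtain ⟨k3, hk3⟩ := exists_stv hf b (-1)
      have hba : sf m F b a = 0 := hf.skew_zero hab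
      have hk : ∀ x, ap (k1 * (k2 * k3)) x = x + sf m F x a • b + sf m F x b • a := by
        intro x
        rw [ap_mul, ap_mul, hk1, hk2, hk3]
        simp only [map_add, map_smul, LinearMap.add_apply, LinearMap.smul_apply, smul_eq_mul, hf.alt, hab, hba]
        module
      refine ⟨k1 * (k2 * k3), hHM ⟨mem_stab_of_le W _ (fun v hv => ?_), ?_⟩, hk⟩
      · rw [hk, hWts v hv a ha, zero_smul, add_zero]
        exact W.add_mem hv (W.smul_mem _ ha)
      · exact (Cfsg.spGL m F).mul_mem (stv_mem_spGL hk1) ((Cfsg.spGL m F).mul_mem (stv_mem_spGL hk2) (stv_mem_spGL hk3))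
    obtain ⟨v₀, hv₀, hcv₀⟩ : ∃ v₀, v₀ ∉ perp (sf m F) W ∧ Ctr (sf m F) M v₀ := by
      have h1 : ¬ ∀ v, v ∈ perp (sf m F) W → ap g v ∈ perp (sf m F) W := by
        intro h
        apply hgH
        have h2 := mem_stab_of_le _ g h
        rw [mem_stab_iff] at h2
        refine ⟨mem_stab_of_le W g (fun v hv => ?_), hMS hgM⟩
        rw [← perp_perp hf W]
        intro w hw
        have h3 : ap g⁻¹ w ∈ perp (sf m F) W := by
          rw [h2, ap_ap_inv]
          exact hw
        have h4 : IsIso (sf m F) g := hMS hgM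
        rw [← ap_ap_inv g w, h4]
        exact hf.skew_zero (h3 v hv)
      push Not at h1
      obtain ⟨v, hv, hv'⟩ := h1
      exact ⟨ap g v, hv', Ctr.conj (f := sf m F) hgM (hMS hgM) (hcM v hv)⟩
    -- one coset of `W^⊥`
    have hcos : ∀ v, Ctr (sf m F) M v → ∀ a ∈ W, sf m F v a ≠ 0 → ∀ x, sf m F x a ≠ 0 → Ctr (sf m F) M x := by
      intro v hv a ha hva x hxa
      -- `v + b` for `b ∈ a^⊥`
      have h1 : ∀ b, sf m F a b = 0 → Ctr (sf m F) M (v + b) := by
        intro b hab
        -- `v + b + μ a`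
        obtain ⟨k, hk, hk'⟩ := hE a ha ((sf m F v a)⁻¹ • b) (by rw [map_smul, hab, smul_zero])
        have hki : IsIso (sf m F) k := hMS hk
        have h2 := Ctr.conj hk hki hv
        rw [hk', smul_smul, mul_inv_cancel₀ hva, one_smul] at h2
        set μ := sf m F v ((sf m F v a)⁻¹ • b) with hμ
        -- remove `μ a`
        have h3 : Ctr (sf m F) M a := hcM a (hWperp ha)
        have h4 : sf m F (v + b + μ • a) a ≠ 0 := by
          rw [map_add, map_add, LinearMap.add_apply, LinearMap.add_apply, hf.skew_zero hab, map_smul,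
            LinearMap.smul_apply, hf.alt, smul_zero, add_zero, add_zero]
          exact hva
        have h5 := Ctr.line hf h2 h3 h4 (-μ)
        have : v + b + μ • a + -μ • a = v + b := by module
        rwa [this] at h5
      have h2 : x = ((sf m F v a)⁻¹ * sf m F x a) • (v + (((sf m F x a)⁻¹ * sf m F v a) • x - v)) := by
        rw [add_sub_cancel, smul_smul]
        have : (sf m F v a)⁻¹ * sf m F x a * ((sf m F x a)⁻¹ * sf m F v a) = 1 := by field_simp
        rw [this, one_smul]
      rw [h2]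
      apply Ctr.smul
      apply h1
      apply hf.skew_zero
      rw [map_sub, LinearMap.sub_apply, map_smul, LinearMap.smul_apply, smul_eq_mul]
      field_simp
      ring
    apply spGL_le
    intro x
    by_cases hx : x ∈ perp (sf m F) W
    · exact hcM x hx
    rw [mem_perp] at hx hv₀
    push Not at hx hv₀
    obtain ⟨a', ha', hxa'⟩ := hx
    obtain ⟨a, ha, hva⟩ := hv₀
    -- a vector not orthogonal to `a` and `a'`
    obtain ⟨z, -, hz1, hz2⟩ := exists_notMem_two (A := LinearMap.ker ((sf m F).flip a)) (B := LinearMap.ker ((sf m F).flip a'))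
      (C := ⊤) (x := v₀) (y := x) Submodule.mem_top Submodule.mem_top (by simpa using hva) (by simpa using hxa')
    have hz1' : sf m F z a ≠ 0 := by simpa using hz1
    have hz2' : sf m F z a' ≠ 0 := by simpa using hz2
    exact hcos z (hcos v₀ hcv₀ a ha hva z hz1') a' ha' hz2' x hxa'
  have hle : H ≤ Cfsg.spGL m F := inf_le_right
  refine ⟨lt_of_le_of_ne hle ?_, ?_⟩
  · intro heq
    obtain ⟨w, hw, hw0⟩ := (Submodule.ne_bot_iff W).1 hW0
    obtain ⟨x, hx⟩ := hf.exists_ne hw0
    obtain ⟨g, hg⟩ := exists_stv hf x 1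
    have hgH : g ∈ H := by rw [heq]; exact stv_mem_spGL hg
    have h1 := ((mem_stab_iff W g).1 hgH.1 w).1 hw
    rw [hg, one_mul] at h1
    have h2 : x ∈ W := (W.smul_mem_iff hx).1 ((Submodule.add_mem_iff_right W hw).1 h1)
    exact hx (hWts w hw x h2)
  · intro M hHM hMS
    by_cases h : M ≤ H
    · exact Or.inl (le_antisymm h hHM)
    · right
      obtain ⟨g, hg, hg'⟩ := SetLike.not_le_iff_exists.1 h
      exact le_antisymm hMS (main M hHM hMS ⟨g, hg, hg'⟩)

end Cfsg.Agent.S5645
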