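import Cfsg.Statements.S5646
import Cfsg.Agent.H7.SpGen

set_option autoImplicit false
open Cfsg
open Cfsg.Agent.H7.Tv Module

namespace Cfsg.Agent.S5646

/-- For a finite field F and m ≥ 7, in the symplectic group Sp_2m(F) of the standard alternating form on F^(2m), the stabiliser of any non-zero subspace W on which the form is non-degenerate and with dim W < m is a maximal subgroup. -/
theorem result {F : Type*} [Field F] [Fintype F] (m : ℕ) (hm : 7 ≤ m) (W : Submodule F (Fin m ⊕ Fin m → F)) (hW0 : W ≠ ⊥) (hW : Cfsg.Geo.IsNondegenerateOn (Cfsg.sympForm m F) W) (hdim : Module.finrank F W < m) : Cfsg.Geo.IsMaximalIn (Cfsg.spGL m F) (Cfsg.Geo.subspaceStabilizer W ⊓ Cfsg.spGL m F) := by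
  classical
  have hf := sf_alt (F := F) m
  set H := Cfsg.Geo.subspaceStabilizer W ⊓ Cfsg.spGL m F with hH
  have hnd : Nd (sf m F) W := by
    intro x hx hx0
    obtain ⟨_, z, hz, hz'⟩ := hW x hx hx0
    exact ⟨z, hz, hz'⟩
  have hndp : Nd (sf m F) (perp (sf m F) W) := Nd.perp hf hnd
  have hsum : finrank F W + finrank F (perp (sf m F) W) = m + m := by
    have h1 := Submodule.finrank_sup_add_finrank_inf_eq W (perp (sf m F) W)
    rw [hnd.inf_perp, hnd.sup_perp hf, finrank_bot, finrank_top, add_zero] at h1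
    rw [← h1]
    simp
  have hcH1 : ∀ w ∈ W, Ctr (sf m F) H w := by
    intro w hw c g hg
    refine ⟨mem_stab_of_le W g (fun v hv => ?_), stv_mem_spGL hg⟩
    rw [hg]
    exact W.add_mem hv (W.smul_mem _ hw)
  have hcH2 : ∀ w ∈ perp (sf m F) W, Ctr (sf m F) H w := by
    intro w hw c g hg
    refine ⟨mem_stab_of_le W g (fun v hv => ?_), stv_mem_spGL hg⟩
    rw [hg, hf.skew_zero (hw v hv), mul_zero, zero_smul, add_zero]
    exact hv
  have main : ∀ M : Subgroup (Matrix.GeneralLinearGroup (Fin m ⊕ Fin m) F), H ≤ M → M ≤ Cfsg.spGL m F →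
      (∃ g ∈ M, g ∉ H) → Cfsg.spGL m F ≤ M := by
    rintro M hHM hMS ⟨g, hgM, hgH⟩
    have hiso : ∀ h ∈ M, IsIso (sf m F) h := fun h hh => hMS hh
    have hcM1 : ∀ w ∈ W, Ctr (sf m F) M w := fun w hw c k hk => hHM (hcH1 w hw c k hk)
    have hcM2 : ∀ w ∈ perp (sf m F) W, Ctr (sf m F) M w := fun w hw c k hk => hHM (hcH2 w hw c k hk)
    -- a mixed centre
    obtain ⟨a, ha, b, hb, ha0, hb0, hab⟩ : ∃ a ∈ W, ∃ b ∈ perp (sf m F) W, a ≠ 0 ∧ b ≠ 0 ∧
        Ctr (sf m F) M (a + b) := by
      by_contra hcon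
      push Not at hcon
      have h1 : ∀ x ∈ perp (sf m F) W, ap g x ∈ W ∨ ap g x ∈ perp (sf m F) W := by
        intro x hx
        obtain ⟨a, ha, b, hb, hab⟩ := hnd.exists_decomp hf (ap g x)
        have h2 : Ctr (sf m F) M (a + b) := by
          rw [← hab]
          exact Ctr.conj hgM (hiso g hgM) (hcM2 x hx)
        by_cases ha0 : a = 0
        · right; rw [hab, ha0, zero_add]; exact hb
        · by_cases hb0 : b = 0
          · left; rw [hab, hb0, add_zero]; exact ha
          · exact absurd h2 (hcon a ha b hb ha0 hb0)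
      have h2 : (∀ x ∈ perp (sf m F) W, ap g x ∈ W) ∨ (∀ x ∈ perp (sf m F) W, ap g x ∈ perp (sf m F) W) := by
        by_contra h3
        push Not at h3
        obtain ⟨⟨x, hx, hxW⟩, ⟨y, hy, hyW⟩⟩ := h3
        have hx' := (h1 x hx).resolve_left hxW
        have hy' := (h1 y hy).resolve_right hyW
        rcases h1 (x + y) ((perp (sf m F) W).add_mem hx hy) with h | h
        · rw [ap_add] at h
          exact hxW ((Submodule.add_mem_iff_left W hy').1 h)
        · rw [ap_add] at h
          exact hyW ((Submodule.add_mem_iff_right _ hx').1 h)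
      rcases h2 with h2 | h2
      · -- dimension
        have h3 : (perp (sf m F) W).map (linE g : (Fin m ⊕ Fin m → F) →ₗ[F] (Fin m ⊕ Fin m → F)) ≤ W := by
          rintro _ ⟨v, hv, rfl⟩
          exact h2 v hv
        have h4 := Submodule.finrank_mono h3
        have h5 : finrank F ((perp (sf m F) W).map (linE g : (Fin m ⊕ Fin m → F) →ₗ[F] (Fin m ⊕ Fin m → F))) = finrank F (perp (sf m F) W) :=
          LinearEquiv.finrank_map_eq (linE g) _
        omega
      · apply hgH
        have h3 := mem_stab_of_le _ g h2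
        rw [mem_stab_iff] at h3
        refine ⟨mem_stab_of_le W g (fun v hv => ?_), hMS hgM⟩
        rw [← perp_perp hf W]
        intro w hw
        have h4 : ap g⁻¹ w ∈ perp (sf m F) W := by
          rw [h3, ap_ap_inv]
          exact hw
        rw [← ap_ap_inv g w, hiso g hgM]
        exact hf.skew_zero (h4 v hv)
    apply spGL_le
    intro x
    obtain ⟨c, hc, d, hd, rfl⟩ := hnd.exists_decomp hf x
    by_cases hc0 : c = 0
    · rw [hc0, zero_add]
      exact hcM2 d hd
    by_cases hd0 : d = 0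
    · rw [hd0, add_zero]
      exact hcM1 c hc
    obtain ⟨k1, hk1, hki1, hk1a, hk1f⟩ := move hf hcM1 hnd ha hc ha0 hc0
    obtain ⟨k2, hk2, hki2, hk2b, hk2f⟩ := move hf hcM2 hndp hb hd hb0 hd0
    have h1 := Ctr.conj hk1 hki1 hab
    rw [ap_add, hk1a, hk1f b (fun w hw => hb w hw)] at h1
    have h2 := Ctr.conj hk2 hki2 h1
    rw [ap_add, hk2b, hk2f c (fun w hw => hf.skew_zero (hw c hc))] at h2
    exact h2
  have hle : H ≤ Cfsg.spGL m F := inf_le_right
  refine ⟨lt_of_le_of_ne hle ?_, ?_⟩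
  · intro heq
    obtain ⟨a, ha, ha0⟩ := (Submodule.ne_bot_iff W).1 hW0
    obtain ⟨x, hx, hxa⟩ := hnd a ha ha0
    have hpb : perp (sf m F) W ≠ ⊥ := by
      intro h
      rw [h, finrank_bot] at hsum
      omega
    obtain ⟨b, hb, hb0⟩ := (Submodule.ne_bot_iff _).1 hpb
    obtain ⟨g, hg⟩ := exists_stv hf (x + b) 1
    have hgH : g ∈ H := by rw [heq]; exact stv_mem_spGL hg
    have h1 := ((mem_stab_iff W g).1 hgH.1 a).1 ha
    rw [hg, one_mul] at h1
    have h3 : sf m F a (x + b) ≠ 0 := by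
      rw [map_add, hf.skew_zero (hb a ha), add_zero]
      exact hxa
    have h2 : x + b ∈ W := (W.smul_mem_iff h3).1 ((Submodule.add_mem_iff_right W ha).1 h1)
    have h4 : b ∈ W ⊓ perp (sf m F) W := ⟨(Submodule.add_mem_iff_right W hx).1 h2, hb⟩
    rw [hnd.inf_perp, Submodule.mem_bot] at h4
    exact hb0 h4
  · intro M hHM hMS
    by_cases h : M ≤ H
    · exact Or.inl (le_antisymm h hHM)
    · right
      obtain ⟨g, hg, hg'⟩ := SetLike.not_le_iff_exists.1 h
      exact le_antisymm hMS (main M hHM hMS ⟨g, hg, hg'⟩)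

end Cfsg.Agent.S5646
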