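import Cfsg.Statements.S5647
import Cfsg.Agent.H7.SpDec

set_option autoImplicit false
open Cfsg
open Cfsg.Agent.H7.Tv Module

namespace Cfsg.Agent.S5647

/-- For a finite field F with q elements and m ≥ 7, let D be a decomposition of F^(2m) into t ≥ 2 pairwise orthogonal subspaces of equal dimension k on each of which the standard alternating form is non-degenerate, spanning F^(2m). Unless k = 2 and q = 2, the elements of Sp_2m(F) permuting the members of D form a maximal subgroup of Sp_2m(F). -/
theorem result {F : Type*} [Field F] [Fintype F] (m : ℕ) (hm : 7 ≤ m) {t : ℕ} (k : ℕ) (D : Fin t → Submodule F (Fin m ⊕ Fin m → F)) (hD : Cfsg.Geo.IsNondegenerateMDecomposition (Cfsg.sympForm m F) k D) (hex : ¬ (k = 2 ∧ Fintype.card F = 2)) : Cfsg.Geo.IsMaximalIn (Cfsg.spGL m F) (Cfsg.Geo.decompositionStabilizer D ⊓ Cfsg.spGL m F) := by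
  classical
  have hf := sf_alt (F := F) m
  have ht : 2 ≤ t := hD.decomp.two_le
  have hkpos : 0 < k := hD.decomp.pos
  have hfr : ∀ i, finrank F (D i) = k := hD.decomp.finrank_eq
  have hO : ODec (sf m F) D := by
    refine ⟨fun i x hx hx0 => ?_, fun i j hij x hx y hy => hD.orthogonal i j hij x hx y hy, hD.decomp.iSup_eq_top⟩
    obtain ⟨_, z, hz, hz'⟩ := hD.nondegenerate i x hx hx0
    exact ⟨z, hz, hz'⟩
  set H := Cfsg.Geo.decompositionStabilizer D ⊓ Cfsg.spGL m F with hH
  -- membership in `H`
  have hmemH : ∀ (g : Matrix.GeneralLinearGroup (Fin m ⊕ Fin m) F), IsIso (sf m F) g →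
      (∃ σ : Equiv.Perm (Fin t), ∀ i, ∀ x ∈ D i, ap g x ∈ D (σ i)) → g ∈ H := by
    rintro g hg ⟨σ, hσ⟩
    refine ⟨⟨σ, fun i => ?_⟩, hg⟩
    apply Submodule.eq_of_le_of_finrank_eq
    · rintro _ ⟨v, hv, rfl⟩
      exact hσ i v hv
    · rw [hfr]
      have h1 : finrank F ((D i).map (linE g : (Fin m ⊕ Fin m → F) →ₗ[F] (Fin m ⊕ Fin m → F))) = finrank F (D i) :=
        LinearEquiv.finrank_map_eq (linE g) _
      rw [hfr] at h1
      exact h1
  have hcH : ∀ i, ∀ x ∈ D i, Ctr (sf m F) H x := by
    intro i x hx c g hg
    refine hmemH g (hg.isIso hf) ⟨1, fun j y hy => ?_⟩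
    rw [hg]
    by_cases hij : j = i
    · subst hij
      exact (D j).add_mem hy ((D j).smul_mem _ hx)
    · rw [hO.orth j i hij y hy x hx, mul_zero, zero_smul, add_zero]
      exact hy
  have hnz : ∀ i, ∃ x ∈ D i, x ≠ 0 := by
    intro i
    have : D i ≠ ⊥ := by
      intro h
      have := hfr i
      rw [h, finrank_bot] at this
      omega
    exact (Submodule.ne_bot_iff _).1 this
  -- a vector in `D i`, orthogonal to `x`, not killing
  have hperp : ∀ i, ∀ x ∈ D i, x ≠ 0 → ∃ y ∈ D i, y ≠ 0 ∧ x + y ≠ 0 ∧ sf m F x y = 0 := by
    intro i x hx hx0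
    by_cases hq : ∃ c : F, c ≠ 0 ∧ 1 + c ≠ 0
    · obtain ⟨c, hc, hc1⟩ := hq
      refine ⟨c • x, (D i).smul_mem _ hx, smul_ne_zero hc hx0, ?_, by rw [map_smul, hf.alt, smul_zero]⟩
      have : x + c • x = (1 + c) • x := by rw [add_smul, one_smul]
      rw [this]
      exact smul_ne_zero hc1 hx0
    · -- `F` has two elements
      push Not at hq
      have hcard : Fintype.card F = 2 := by
        have h1 : ∀ c : F, c = 0 ∨ c = -1 := by
          intro c
          by_cases hc : c = 0
          · exact Or.inl hc
          · exact Or.inr (eq_neg_of_add_eq_zero_right (hq c hc))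
        have h2 : (1 : F) = -1 := by
          rcases h1 1 with h | h
          · exact absurd h one_ne_zero
          · exact h
        have h3 : (Finset.univ : Finset F) = {0, 1} := by
          ext c
          simp only [Finset.mem_univ, Finset.mem_insert, Finset.mem_singleton, true_iff]
          rcases h1 c with h | h
          · exact Or.inl h
          · exact Or.inr (by rw [h, ← h2])
        rw [← Finset.card_univ, h3, Finset.card_pair zero_ne_one]
      have hk2 : k ≠ 2 := fun h => hex ⟨h, hcard⟩
      -- dimension at least three
      have hk3 : 3 ≤ k := by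
        obtain ⟨z, hz, hxz⟩ := hO.nd i x hx hx0
        have hli : LinearIndependent F ![(⟨x, hx⟩ : D i), ⟨z, hz⟩] := by
          rw [LinearIndependent.pair_iff]
          intro a b hab
          have h1 : a • x + b • z = 0 := congrArg Subtype.val hab
          have h2 : sf m F x (a • x + b • z) = 0 := by rw [h1, map_zero]
          rw [map_add, map_smul, map_smul, hf.alt, smul_zero, zero_add, smul_eq_mul] at h2
          have hb : b = 0 := (mul_eq_zero.1 h2).resolve_right hxz
          rw [hb, zero_smul, add_zero] at h1
          exact ⟨(smul_eq_zero.1 h1).resolve_right hx0, hb⟩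
        have := hli.fintype_card_le_finrank
        rw [hfr] at this
        simp at this
        omega
      have h1 : ¬ (D i ⊓ perp (sf m F) (Submodule.span F {x}) : Submodule F _) ≤ Submodule.span F {x} := by
        intro h
        have h3 := Submodule.finrank_mono h
        have h4 := finrank_perp_span_singleton hf x
        have h5 := finrank_span_le_card (R := F) ({x} : Set (Fin m ⊕ Fin m → F))
        simp at h5
        have h6 := Submodule.finrank_sup_add_finrank_inf_eq (D i) (perp (sf m F) (Submodule.span F {x}))
        have h7 := Submodule.finrank_le (D i ⊔ perp (sf m F) (Submodule.span F {x}))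
        rw [Module.finrank_pi] at h7
        rw [hfr] at h6
        omega
      obtain ⟨y, ⟨hyD, hyp⟩, hy⟩ := SetLike.not_le_iff_exists.1 h1
      refine ⟨y, hyD, ?_, ?_, hf.skew_zero (hyp x (Submodule.mem_span_singleton_self x))⟩
      · rintro rfl; exact hy (Submodule.zero_mem _)
      · intro h
        apply hy
        rw [Submodule.mem_span_singleton]
        exact ⟨-1, by rw [neg_smul, one_smul]; exact (eq_neg_of_add_eq_zero_right h).symm⟩
  have hcomp : ∀ (a : Fin t → (Fin m ⊕ Fin m → F)), (∀ i, a i ∈ D i) → ∀ j, (∀ i, i ≠ j → a i = 0) → ∑ i, a i ∈ D j := by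
    intro a ha j h
    rw [Finset.sum_eq_single j]
    · exact ha j
    · intro i _ hij; exact h i hij
    · intro h; exact absurd (Finset.mem_univ j) h
  have main : ∀ M : Subgroup (Matrix.GeneralLinearGroup (Fin m ⊕ Fin m) F), H ≤ M → M ≤ Cfsg.spGL m F →
      (∃ g ∈ M, g ∉ H) → Cfsg.spGL m F ≤ M := by
    rintro M hHM hMS ⟨g, hgM, hgH⟩
    have hiso : ∀ h ∈ M, IsIso (sf m F) h := fun h hh => hMS hh
    have hcM : ∀ i, ∀ x ∈ D i, Ctr (sf m F) M x := fun i x hx c k hk => hHM (hcH i x hx c k hk)
    -- some `g (D i)` is contained in no `D j`
    obtain ⟨i₀, hi₀⟩ : ∃ i, ∀ j, ∃ x ∈ D i, ap g x ∉ D j := by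
      by_contra hcon
      push Not at hcon
      choose σ hσ using hcon
      have hinj : Function.Injective σ := by
        intro i j hij
        by_contra hne
        obtain ⟨x, hx, hx0⟩ := hnz i
        have h1 : ∀ y, ap g y ∈ D (σ i) → y ∈ D i := by
          intro y hy
          have h2 : (D i).map (linE g : (Fin m ⊕ Fin m → F) →ₗ[F] (Fin m ⊕ Fin m → F)) = D (σ i) := by
            apply Submodule.eq_of_le_of_finrank_eq
            · rintro _ ⟨v, hv, rfl⟩
              exact hσ i v hv
            · rw [hfr]
              have h1 : finrank F ((D i).map (linE g : (Fin m ⊕ Fin m → F) →ₗ[F] (Fin m ⊕ Fin m → F))) = finrank F (D i) :=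
                LinearEquiv.finrank_map_eq (linE g) _
              rw [h1, hfr]
          rw [← h2] at hy
          obtain ⟨z, hz, hz'⟩ := hy
          have : z = y := ap_injective g hz'
          rw [← this]; exact hz
        obtain ⟨y, hy, hy0⟩ := hnz j
        have h2 : y ∈ D i := h1 y (by rw [hij]; exact hσ j y hy)
        obtain ⟨z, hz, hz'⟩ := hO.nd i y h2 hy0
        exact hz' (hO.orth j i (Ne.symm hne) y hy z hz)
      apply hgH
      exact hmemH g (hiso g hgM) ⟨Equiv.ofBijective σ ⟨hinj, Finite.surjective_of_injective hinj⟩, fun i x hx => hσ i x hx⟩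
    -- a centre with support of size at least two
    obtain ⟨S, hS2, hGS⟩ : ∃ S : Finset (Fin t), 2 ≤ S.card ∧ Good (sf m F) D M S := by
      by_contra hcon
      push Not at hcon
      have h1 : ∀ x ∈ D i₀, ∃ j, ap g x ∈ D j := by
        intro x hx
        obtain ⟨a, ha, hax⟩ := hO.exists_sum (ap g x)
        have h2 : Ctr (sf m F) M (∑ i, a i) := by
          rw [← hax]; exact Ctr.conj hgM (hiso g hgM) (hcM i₀ x hx)
        have h3 := good_of_exists hf hO hcM (S := Finset.univ.filter (fun i => a i ≠ 0)) ha (by simp) h2
        by_cases h4 : 2 ≤ (Finset.univ.filter (fun i => a i ≠ 0)).card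
        · exact absurd h3 (hcon _ h4)
        · rcases Finset.eq_empty_or_nonempty (Finset.univ.filter (fun i => a i ≠ 0)) with h5 | ⟨j, hj⟩
          · refine ⟨i₀, ?_⟩
            rw [hax]
            apply hcomp a ha
            intro i _
            by_contra h6
            have : i ∈ Finset.univ.filter (fun i => a i ≠ 0) := by simp [h6]
            rw [h5] at this
            simp at this
          · refine ⟨j, ?_⟩
            rw [hax]
            apply hcomp a ha
            intro i hij
            by_contra h6
            have h7 : i ∈ Finset.univ.filter (fun i => a i ≠ 0) := by simp [h6]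
            have h8 : ({i, j} : Finset (Fin t)).card ≤ (Finset.univ.filter (fun i => a i ≠ 0)).card := by
              apply Finset.card_le_card
              intro r hr
              rw [Finset.mem_insert, Finset.mem_singleton] at hr
              rcases hr with rfl | rfl
              · exact h7
              · exact hj
            rw [Finset.card_pair hij] at h8
            exact h4 h8
      -- all in one `D j`
      obtain ⟨x, hx, hx0⟩ := hnz i₀
      obtain ⟨j, hj⟩ := h1 x hx
      obtain ⟨y, hy, hyj⟩ := hi₀ j
      obtain ⟨l, hl⟩ := h1 y hy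
      have hlj : l ≠ j := by rintro rfl; exact hyj hl
      obtain ⟨r, hr⟩ := h1 (x + y) ((D i₀).add_mem hx hy)
      rw [ap_add] at hr
      have hgx0 : ap g x ≠ 0 := by rw [Ne, ap_eq_zero]; exact hx0
      have hgy0 : ap g y ≠ 0 := by
        intro h
        apply hyj
        rw [h]; exact (D j).zero_mem
      have hrj : r = j := by
        by_contra hne
        obtain ⟨z, hz, hz'⟩ := hO.nd j (ap g x) hj hgx0
        apply hz'
        have h2 := hO.orth r j hne _ hr z hz
        rw [map_add, LinearMap.add_apply, hO.orth l j hlj _ hl z hz, add_zero] at h2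
        exact h2
      rw [hrj] at hr
      exact hyj ((Submodule.add_mem_iff_right _ hj).1 hr)
    -- reduce to a pair
    obtain ⟨i, j, hij, hGij⟩ : ∃ i j, i ≠ j ∧ Good (sf m F) D M {i, j} := by
      by_cases hS : S.card = 2
      · obtain ⟨i, j, hij, rfl⟩ := Finset.card_eq_two.1 hS
        exact ⟨i, j, hij, hGS⟩
      · obtain ⟨i, hi, j, hj, hij⟩ := Finset.one_lt_card.1 (show 1 < S.card by omega)
        refine ⟨i, j, hij, ?_⟩
        choose x hx hx0 using hnz
        obtain ⟨y, hy, hxy⟩ := hO.nd i (x i) (hx i) (hx0 i)
        obtain ⟨z, hz, hz0, hxz0, hxz⟩ := hperp j (x j) (hx j) (hx0 j)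
        let a : Fin t → (Fin m ⊕ Fin m → F) := fun r => if r ∈ S then x r else 0
        let b : Fin t → (Fin m ⊕ Fin m → F) := fun r => if r = i then y else if r = j then z else if r ∈ S then - x r else 0
        have ha : ∀ r, a r ∈ D r := by
          intro r
          simp only [a]
          split_ifs
          · exact hx r
          · exact (D r).zero_mem
        have hb : ∀ r, b r ∈ D r := by
          intro r
          simp only [b]
          split_ifs with h1 h2 h3
          · rw [h1]; exact hy
          · rw [h2]; exact hz
          · exact (D r).neg_mem (hx r)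
          · exact (D r).zero_mem
        have hy0 : y ≠ 0 := by
          rintro rfl
          exact hxy (map_zero _)
        have haS : ∀ r, a r ≠ 0 ↔ r ∈ S := by
          intro r
          simp only [a]
          by_cases h : r ∈ S
          · simp [h, hx0 r]
          · simp [h]
        have hbS : ∀ r, b r ≠ 0 ↔ r ∈ S := by
          intro r
          simp only [b]
          by_cases h1 : r = i
          · subst h1; simp [hy0, hi]
          · by_cases h2 : r = j
            · subst h2; simp [h1, hz0, hj]
            · by_cases h : r ∈ S
              · simp [h1, h2, h, hx0 r]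
              · simp [h1, h2, h]
        have hca := hGS a ha haS
        have hcb := hGS b hb hbS
        have hform : sf m F (∑ r, a r) (∑ r, b r) ≠ 0 := by
          rw [hO.form_sum_sum ha hb, Finset.sum_eq_single i]
          · simp only [a, b]
            rw [if_pos hi, if_pos trivial]
            exact hxy
          · intro r _ hri
            simp only [a, b]
            rw [if_neg hri]
            by_cases hrj : r = j
            · rw [hrj, if_pos hj, if_pos rfl]; exact hxz
            · rw [if_neg hrj]
              by_cases h : r ∈ S
              · rw [if_pos h, if_pos h, map_neg, hf.alt, neg_zero]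
              · rw [if_neg h, if_neg h, map_zero]
          · intro h; exact absurd (Finset.mem_univ i) h
        have hline := Ctr.line hf hca hcb hform 1
        rw [one_smul, ← Finset.sum_add_distrib] at hline
        refine good_of_exists hf hO hcM (fun r => (D r).add_mem (ha r) (hb r)) ?_ hline
        intro r
        simp only [a, b]
        rw [Finset.mem_insert, Finset.mem_singleton]
        by_cases h1 : r = i
        · subst h1
          rw [if_pos hi, if_pos rfl]
          simp only [true_or, iff_true]
          intro h
          apply hxy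
          have : y = -(x r) := (eq_neg_of_add_eq_zero_right h)
          rw [this, map_neg, hf.alt, neg_zero]
        · rw [if_neg h1]
          by_cases h2 : r = j
          · subst h2
            rw [if_pos hj, if_pos rfl]
            simp [hxz0]
          · rw [if_neg h2]
            by_cases h : r ∈ S
            · simp [h, h1, h2]
            · simp [h, h1, h2]
    -- all pairs
    have hswap : ∀ i i' j : Fin t, i ≠ j → i' ≠ j → i ≠ i' → ∃ g ∈ M, IsIso (sf m F) g ∧ (∀ x ∈ D i, ap g x ∈ D i') ∧
        ∀ x ∈ D j, ap g x = x := by
      intro i i' j hij hi'j hii'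
      obtain ⟨s, hsi, hs1, hs2, hs3⟩ := exists_swap hf (by rw [hfr, hfr]) (hO.nd i) (hO.nd i') (hO.orth i i' hii')
      have hsM : s ∈ M := by
        apply hHM
        refine hmemH s hsi ⟨Equiv.swap i i', fun r x hx => ?_⟩
        by_cases h1 : r = i
        · subst h1; rw [Equiv.swap_apply_left]; exact hs1 x hx
        · by_cases h2 : r = i'
          · subst h2; rw [Equiv.swap_apply_right]; exact hs2 x hx
          · rw [Equiv.swap_apply_of_ne_of_ne h1 h2, hs3 x (hO.mem_perp_of_ne h1 hx) (hO.mem_perp_of_ne h2 hx)]
            exact hx
      exact ⟨s, hsM, hsi, hs1, fun x hx => hs3 x (hO.mem_perp_of_ne hij.symm hx) (hO.mem_perp_of_ne hi'j.symm hx)⟩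
    have hstep : ∀ i j i' : Fin t, i ≠ j → i' ≠ j → Good (sf m F) D M {i, j} → Good (sf m F) D M {i', j} := by
      intro i j i' hij hi'j h
      exact good_swap hf hO hcM hij hi'j (hswap i i' j hij hi'j) hnz h
    have hpair : ∀ i' j' : Fin t, i' ≠ j' → Good (sf m F) D M {i', j'} := by
      intro i' j' hij'
      by_cases h : i' = j
      · subst h
        by_cases h2 : j' = i
        · subst h2
          rw [Finset.pair_comm]
          exact hGij
        · have := hstep i i' j' hij (Ne.symm hij') hGij
          rw [Finset.pair_comm]
          exact this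
      · have h1 := hstep i j i' hij h hGij
        rw [Finset.pair_comm] at h1 ⊢
        exact hstep j i' j' (Ne.symm h) (Ne.symm hij') h1
    -- all supports
    have hall : ∀ n : ℕ, ∀ X : Finset (Fin t), X.card = n → Good (sf m F) D M X := by
      intro n
      induction n with
      | zero =>
        intro X hX a ha haX
        rw [Finset.card_eq_zero] at hX
        have : ∑ i, a i = 0 := by
          apply Finset.sum_eq_zero
          intro i _
          by_contra h
          have := (haX i).1 h
          rw [hX] at this
          simp at this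
        rw [this]
        exact Ctr.zero
      | succ n ih =>
        intro X hX a ha haX
        by_cases h1 : n = 0
        · subst h1
          obtain ⟨r, rfl⟩ := Finset.card_eq_one.1 hX
          apply hcM r
          apply hcomp a ha
          intro i hir
          by_contra h
          exact hir (Finset.mem_singleton.1 ((haX i).1 h))
        by_cases h2 : n = 1
        · subst h2
          obtain ⟨i', j', hij', rfl⟩ := Finset.card_eq_two.1 hX
          exact hpair i' j' hij' a ha haX
        obtain ⟨p, hp, q, hq, hpq⟩ := Finset.one_lt_card.1 (show 1 < X.card by omega)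
        obtain ⟨y, hy, hay⟩ := hO.nd p (a p) (ha p) ((haX p).2 hp)
        -- v has support X \ {q}; w has support {p, q}
        let v : Fin t → (Fin m ⊕ Fin m → F) := fun r => if r = q then 0 else if r = p then a p - y else a r
        let w : Fin t → (Fin m ⊕ Fin m → F) := fun r => if r = q then a q else if r = p then y else 0
        have hv : ∀ r, v r ∈ D r := by
          intro r
          simp only [v]
          split_ifs with h3 h4
          · exact (D r).zero_mem
          · rw [h4]; exact (D p).sub_mem (ha p) hy
          · exact ha r
        have hw : ∀ r, w r ∈ D r := by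
          intro r
          simp only [w]
          split_ifs with h3 h4
          · rw [h3]; exact ha q
          · rw [h4]; exact hy
          · exact (D r).zero_mem
        have hy0 : y ≠ 0 := by
          rintro rfl
          exact hay (map_zero _)
        have hpy : a p - y ≠ 0 := by
          intro h
          apply hay
          rw [← sub_eq_zero.1 h, hf.alt]
        have hvX : ∀ r, v r ≠ 0 ↔ r ∈ X.erase q := by
          intro r
          simp only [v]
          rw [Finset.mem_erase]
          by_cases h3 : r = q
          · simp [h3]
          · by_cases h4 : r = p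
            · subst h4; simp [h3, hpy, hp]
            · simp only [h3, h4, if_false, ne_eq, not_false_eq_true, true_and]
              exact haX r
        have hwX : ∀ r, w r ≠ 0 ↔ r ∈ ({p, q} : Finset (Fin t)) := by
          intro r
          simp only [w]
          rw [Finset.mem_insert, Finset.mem_singleton]
          by_cases h3 : r = q
          · subst h3; simp [(haX r).2 hq]
          · by_cases h4 : r = p
            · subst h4; simp [h3, hy0]
            · simp [h3, h4]
        have hcv := ih (X.erase q) (by rw [Finset.card_erase_of_mem hq]; omega) v hv hvX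
        have hcw := hpair p q hpq w hw hwX
        have hform : sf m F (∑ r, v r) (∑ r, w r) ≠ 0 := by
          rw [hO.form_sum_sum hv hw, Finset.sum_eq_single p]
          · simp only [v, w]
            rw [if_neg hpq, if_neg hpq, if_pos trivial, if_pos trivial, map_sub, LinearMap.sub_apply, hf.alt, sub_zero]
            exact hay
          · intro r _ hrp
            simp only [v, w]
            by_cases h3 : r = q
            · rw [if_pos h3, map_zero, LinearMap.zero_apply]
            · rw [if_neg h3, if_neg h3, if_neg hrp, if_neg hrp, map_zero]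
          · intro h; exact absurd (Finset.mem_univ p) h
        have hline := Ctr.line hf hcv hcw hform 1
        rw [one_smul, ← Finset.sum_add_distrib] at hline
        have : ∀ r, v r + w r = a r := by
          intro r
          simp only [v, w]
          by_cases h3 : r = q
          · rw [if_pos h3, if_pos h3, zero_add, h3]
          · by_cases h4 : r = p
            · rw [if_neg h3, if_neg h3, if_pos h4, if_pos h4, sub_add_cancel, h4]
            · rw [if_neg h3, if_neg h3, if_neg h4, if_neg h4, add_zero]
        rwa [Finset.sum_congr rfl (fun r _ => this r)] at hline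
    apply spGL_le
    intro x
    obtain ⟨a, ha, rfl⟩ := hO.exists_sum x
    exact hall _ (Finset.univ.filter (fun i => a i ≠ 0)) rfl a ha (by simp)
  have hle : H ≤ Cfsg.spGL m F := inf_le_right
  refine ⟨lt_of_le_of_ne hle ?_, ?_⟩
  · intro heq
    set i : Fin t := ⟨0, by omega⟩ with hi
    set j : Fin t := ⟨1, by omega⟩ with hj
    have hij : i ≠ j := by
      intro h
      have := congrArg Fin.val h
      simp [hi, hj] at this
    obtain ⟨a, ha, ha0⟩ := hnz i
    obtain ⟨b, hb, hb0⟩ := hnz j
    obtain ⟨y, hy, hay⟩ := hO.nd i a ha ha0
    obtain ⟨g, hg⟩ := exists_stv hf (a + b) 1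
    have hgH : g ∈ H := by rw [heq]; exact stv_mem_spGL hg
    obtain ⟨⟨σ, hσ⟩, -⟩ := hgH
    have h1 : ap g y ∈ D (σ i) := by
      rw [← hσ i]
      exact ⟨y, hy, rfl⟩
    have hya : sf m F y a ≠ 0 := hf.skew_ne hay
    have h2 : ap g y = (y + sf m F y a • a) + sf m F y a • b := by
      rw [hg, one_mul, map_add, hO.orth i j hij y hy b hb, add_zero, smul_add, add_assoc]
    rw [h2] at h1
    have h3 : y + sf m F y a • a ∈ D i := (D i).add_mem hy ((D i).smul_mem _ ha)
    have h4 : sf m F y a • b ∈ D j := (D j).smul_mem _ hb
    by_cases hσi : σ i = i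
    · rw [hσi] at h1
      have h5 : sf m F y a • b ∈ D i := (Submodule.add_mem_iff_right _ h3).1 h1
      obtain ⟨z, hz, hz'⟩ := hO.nd j (sf m F y a • b) h4 (smul_ne_zero hya hb0)
      exact hz' (hO.orth i j hij _ h5 z hz)
    · have h5 : sf m F (y + sf m F y a • a + sf m F y a • b) a = sf m F y a := by
        simp only [map_add, map_smul, LinearMap.add_apply, LinearMap.smul_apply, hf.alt,
          hO.orth j i hij.symm b hb a ha, smul_zero, add_zero]
      have h6 := hO.orth (σ i) i hσi _ h1 a ha
      rw [h5] at h6
      exact hya h6
  · intro M hHM hMS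
    by_cases h : M ≤ H
    · exact Or.inl (le_antisymm h hHM)
    · right
      obtain ⟨g, hg, hg'⟩ := SetLike.not_le_iff_exists.1 h
      exact le_antisymm hMS (main M hHM hMS ⟨g, hg, hg'⟩)

end Cfsg.Agent.S5647
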