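import Cfsg.Statements.S5648
import Cfsg.Agent.H7.SpDec

set_option autoImplicit false
open Cfsg
open Cfsg.Agent.H7.Tv Module

namespace Cfsg.Agent.S5648

/-- Over the field with 2 elements and for m ≥ 7, let D be a decomposition of F^(2m) into t pairwise orthogonal non-degenerate 2-dimensional subspaces for the standard alternating form (t = m ≥ 2). Then the elements of Sp_2m(2) permuting the members of D form a subgroup that is not maximal: some subgroup lies strictly between it and Sp_2m(2). -/
theorem result {F : Type*} [Field F] [Fintype F] (m : ℕ) (hm : 7 ≤ m) (hq : Fintype.card F = 2) {t : ℕ} (D : Fin t → Submodule F (Fin m ⊕ Fin m → F)) (hD : Cfsg.Geo.IsNondegenerateMDecomposition (Cfsg.sympForm m F) 2 D) : ∃ K : Subgroup (Matrix.GeneralLinearGroup (Fin m ⊕ Fin m) F), Cfsg.Geo.decompositionStabilizer D ⊓ Cfsg.spGL m F < K ∧ K < Cfsg.spGL m F := by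
  classical
  have hf := sf_alt (F := F) m
  have hfr : ∀ i, finrank F (D i) = 2 := hD.decomp.finrank_eq
  have hO : ODec (sf m F) D := by
    refine ⟨fun i x hx hx0 => ?_, fun i j hij x hx y hy => hD.orthogonal i j hij x hx y hy, hD.decomp.iSup_eq_top⟩
    obtain ⟨_, z, hz, hz'⟩ := hD.nondegenerate i x hx hx0
    exact ⟨z, hz, hz'⟩
  have h01 : ∀ c : F, c = 0 ∨ c = 1 := by
    intro c
    by_contra h
    push Not at h
    have h1 : ({0, 1, c} : Finset F).card = 3 := by
      rw [Finset.card_insert_of_notMem, Finset.card_pair h.2.symm]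
      simp only [Finset.mem_insert, Finset.mem_singleton, not_or]
      exact ⟨zero_ne_one, h.1.symm⟩
    have h2 := Finset.card_le_univ ({0, 1, c} : Finset F)
    rw [hq] at h2
    omega
  have h11 : (1 : F) + 1 = 0 := by
    rcases h01 (1 + 1) with h | h
    · exact h
    · have := add_eq_left.1 h
      exact absurd this one_ne_zero
  have hneg : ∀ a : F, a + a = 0 := fun a => by
    rcases h01 a with h | h
    · rw [h, add_zero]
    · rw [h, h11]
  have hne1 : ∀ c : F, c ≠ 0 → c = 1 := fun c hc => (h01 c).resolve_left hc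
  -- components
  choose cmp hcmp hcmps using hO.exists_sum
  have hcu : ∀ v (a : Fin t → (Fin m ⊕ Fin m → F)), (∀ i, a i ∈ D i) → v = ∑ i, a i → cmp v = a := by
    intro v a ha hv
    exact hO.unique (hcmp v) ha (by rw [← hcmps v, hv])
  have hcadd : ∀ v w, cmp (v + w) = cmp v + cmp w := by
    intro v w
    apply hcu
    · intro i; exact (D i).add_mem (hcmp v i) (hcmp w i)
    · conv_lhs => rw [hcmps v, hcmps w]
      rw [← Finset.sum_add_distrib]
      rfl
  have hcsmul : ∀ (c : F) v, cmp (c • v) = c • cmp v := by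
    intro c v
    apply hcu
    · intro i; exact (D i).smul_mem c (hcmp v i)
    · conv_lhs => rw [hcmps v, Finset.smul_sum]
      rfl
  let N : (Fin m ⊕ Fin m → F) → F := fun x => if x = 0 then 0 else 1
  have hN : ∀ i, ∀ x ∈ D i, ∀ y ∈ D i, N (x + y) = N x + N y + sf m F x y := by
    intro i x hx y hy
    by_cases hx0 : x = 0
    · simp only [N]
      rw [hx0, zero_add, if_pos rfl, zero_add, map_zero, LinearMap.zero_apply, add_zero]
    by_cases hy0 : y = 0
    · simp only [N]
      rw [hy0, add_zero, if_pos rfl, add_zero, map_zero, add_zero]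
    by_cases hxy : x + y = 0
    · simp only [N]
      rw [if_pos hxy, if_neg hx0, if_neg hy0, h11, zero_add]
      have : y = -x := (eq_neg_of_add_eq_zero_right hxy)
      rw [this, map_neg, hf.alt, neg_zero]
    · simp only [N]
      rw [if_neg hxy, if_neg hx0, if_neg hy0, h11, zero_add]
      symm
      apply hne1
      intro hxy0
      -- `x, y` span `D i`
      have hli : LinearIndependent F ![(⟨x, hx⟩ : D i), ⟨y, hy⟩] := by
        rw [LinearIndependent.pair_iff]
        intro a b hab
        have h1 : a • x + b • y = 0 := congrArg Subtype.val hab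
        rcases h01 a with ha | ha
        · rw [ha, zero_smul, zero_add] at h1
          exact ⟨ha, (smul_eq_zero.1 h1).resolve_right hy0⟩
        · rcases h01 b with hb | hb
          · rw [hb, zero_smul, add_zero] at h1
            exact ⟨(smul_eq_zero.1 h1).resolve_right hx0, hb⟩
          · exfalso
            rw [ha, hb, one_smul, one_smul] at h1
            exact hxy h1
      have hspan := hli.span_eq_top_of_card_eq_finrank (by rw [hfr]; rfl)
      obtain ⟨z, hz, hxz⟩ := hO.nd i x hx hx0
      have hz' : (⟨z, hz⟩ : D i) ∈ Submodule.span F (Set.range ![(⟨x, hx⟩ : D i), ⟨y, hy⟩]) := by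
        rw [hspan]; trivial
      rw [Matrix.range_cons, Matrix.range_cons, Matrix.range_empty, Set.union_empty] at hz'
      rw [Set.singleton_union, Submodule.mem_span_pair] at hz'
      obtain ⟨a, b, hab⟩ := hz'
      have h1 : a • x + b • y = z := congrArg Subtype.val hab
      apply hxz
      rw [← h1, map_add, map_smul, map_smul, hf.alt, hxy0, smul_zero, smul_zero, add_zero]
  let Q : (Fin m ⊕ Fin m → F) → F := fun v => ∑ i, N (cmp v i)
  have hQadd : ∀ x y, Q (x + y) = Q x + Q y + sf m F x y := by
    intro x y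
    simp only [Q]
    rw [hcadd]
    conv_rhs => rw [hcmps x, hcmps y, hO.form_sum_sum (hcmp x) (hcmp y)]
    rw [← hcmps x, ← hcmps y, ← Finset.sum_add_distrib, ← Finset.sum_add_distrib]
    apply Finset.sum_congr rfl
    intro i _
    exact hN i _ (hcmp x i) _ (hcmp y i)
  have hNs : ∀ (c : F) x, N (c • x) = c * N x := by
    intro c x
    rcases h01 c with h | h
    · simp only [N]; rw [h, zero_smul, if_pos rfl, zero_mul]
    · rw [h, one_smul, one_mul]
  have hQs : ∀ (c : F) x, Q (c • x) = c * Q x := by
    intro c x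
    simp only [Q]
    rw [hcsmul, Finset.mul_sum]
    exact Finset.sum_congr rfl (fun i _ => hNs c _)
  have hQT : ∀ (w : Fin m ⊕ Fin m → F) (g : Matrix.GeneralLinearGroup (Fin m ⊕ Fin m) F), IsSTv (sf m F) g w 1 →
      ∀ x, Q (ap g x) = Q x + (Q w + 1) * sf m F x w := by
    intro w g hg x
    rw [hg, one_mul, hQadd, hQs, map_smul, smul_eq_mul]
    have : sf m F x w * sf m F x w = sf m F x w := by
      rcases h01 (sf m F x w) with h | h
      · rw [h, zero_mul]
      · rw [h, one_mul]
    rw [this]
    ring
  let K : Subgroup (Matrix.GeneralLinearGroup (Fin m ⊕ Fin m) F) :=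
    { carrier := {g | IsIso (sf m F) g ∧ ∀ v, Q (ap g v) = Q v}
      one_mem' := ⟨IsIso.one, fun v => by rw [ap_one]⟩
      mul_mem' := by
        rintro a b ⟨ha, ha'⟩ ⟨hb, hb'⟩
        exact ⟨ha.mul hb, fun v => by rw [ap_mul, ha', hb']⟩
      inv_mem' := by
        rintro a ⟨ha, ha'⟩
        exact ⟨ha.inv, fun v => by rw [← ha' (ap a⁻¹ v), ap_ap_inv]⟩ }
  have hnz : ∀ i, ∃ x ∈ D i, x ≠ 0 := by
    intro i
    have : D i ≠ ⊥ := by
      intro h
      have := hfr i
      rw [h, finrank_bot] at this
      omega
    exact (Submodule.ne_bot_iff _).1 this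
  choose x hx hx0 using hnz
  -- `3 ≤ t`
  have ht : 3 ≤ t := by
    let φ : ((i : Fin t) → D i) →ₗ[F] (Fin m ⊕ Fin m → F) := ∑ i, (D i).subtype ∘ₗ LinearMap.proj i
    have hφ : Function.Surjective φ := by
      intro v
      refine ⟨fun i => ⟨cmp v i, hcmp v i⟩, ?_⟩
      simp only [φ, LinearMap.sum_apply, LinearMap.comp_apply, LinearMap.proj_apply, Submodule.subtype_apply]
      exact (hcmps v).symm
    have h1 := LinearMap.finrank_le_finrank_of_surjective hφ
    have h2 : finrank F ((i : Fin t) → D i) = ∑ i, finrank F (D i) := Module.finrank_pi_fintype F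
    rw [h2, Module.finrank_pi] at h1
    simp [hfr] at h1
    omega
  set i : Fin t := ⟨0, by omega⟩ with hi
  set j : Fin t := ⟨1, by omega⟩ with hj
  set l : Fin t := ⟨2, by omega⟩ with hl
  have hij : i ≠ j := by
    intro h
    have := congrArg Fin.val h
    simp [hi, hj] at this
  have hil : i ≠ l := by
    intro h
    have := congrArg Fin.val h
    simp [hi, hl] at this
  have hjl : j ≠ l := by
    intro h
    have := congrArg Fin.val h
    simp [hj, hl] at this
  have hcx : ∀ r, cmp (x r) = Pi.single r (x r) := by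
    intro r
    apply hcu
    · intro s
      by_cases h : s = r
      · subst h; rw [Pi.single_eq_same]; exact hx s
      · rw [Pi.single_eq_of_ne h]; exact (D s).zero_mem
    · simp
  have hQx : ∀ r, Q (x r) = 1 := by
    intro r
    simp only [Q]
    rw [hcx, Finset.sum_eq_single r]
    · rw [Pi.single_eq_same]
      simp only [N]
      rw [if_neg (hx0 r)]
    · intro s _ hsr
      rw [Pi.single_eq_of_ne hsr]
      simp only [N]
      rw [if_pos trivial]
    · intro h; exact absurd (Finset.mem_univ r) h
  have hfx : ∀ r s, r ≠ s → sf m F (x r) (x s) = 0 := fun r s hrs => hO.orth r s hrs _ (hx r) _ (hx s)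
  refine ⟨K, lt_of_le_of_ne ?_ ?_, lt_of_le_of_ne ?_ ?_⟩
  · rintro g ⟨⟨σ, hσ⟩, hg⟩
    refine ⟨hg, fun v => ?_⟩
    have h1 : cmp (ap g v) = fun r => ap g (cmp v (σ.symm r)) := by
      apply hcu
      · intro r
        have h2 := hσ (σ.symm r)
        rw [Equiv.apply_symm_apply] at h2
        rw [← h2]
        exact ⟨_, hcmp v (σ.symm r), rfl⟩
      · rw [Equiv.sum_comp σ.symm (fun r => ap g (cmp v r))]
        conv_lhs => rw [hcmps v]
        exact map_sum (lin g) (cmp v) _
    simp only [Q]
    rw [h1]
    rw [Equiv.sum_comp σ.symm (fun r => N (ap g (cmp v r)))]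
    apply Finset.sum_congr rfl
    intro r _
    simp only [N]
    by_cases h : cmp v r = 0
    · rw [h, ap_zero]
    · rw [if_neg h, if_neg (by rw [ap_eq_zero]; exact h)]
  · intro heq
    obtain ⟨g, hg⟩ := exists_stv hf (x i + x j + x l) 1
    have hQw : Q (x i + x j + x l) = 1 := by
      rw [hQadd, hQadd, hQx, hQx, hQx, hfx i j hij, map_add, LinearMap.add_apply, hfx i l hil, hfx j l hjl, h11]
      ring
    have hgK : g ∈ K := by
      refine ⟨hg.isIso hf, fun v => ?_⟩
      rw [hQT _ g hg, hQw, h11, zero_mul, add_zero]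
    rw [← heq] at hgK
    obtain ⟨⟨σ, hσ⟩, -⟩ := hgK
    obtain ⟨y, hy, hay⟩ := hO.nd i (x i) (hx i) (hx0 i)
    have h1 : ap g y ∈ D (σ i) := by
      rw [← hσ i]
      exact ⟨y, hy, rfl⟩
    have hya : sf m F y (x i) ≠ 0 := hf.skew_ne hay
    set c := sf m F y (x i) with hc
    have hyw : sf m F y (x i + x j + x l) = c := by
      rw [map_add, map_add, hO.orth i j hij y hy _ (hx j), hO.orth i l hil y hy _ (hx l), add_zero, add_zero]
    have h2 : ap g y = y + c • (x i + x j + x l) := by
      rw [hg, one_mul, hyw]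
    rw [h2] at h1
    -- the form against `x i` is nonzero
    have hxi : sf m F (y + c • (x i + x j + x l)) (x i) ≠ 0 := by
      simp only [map_add, map_smul, LinearMap.add_apply, LinearMap.smul_apply, hf.alt, hfx j i hij.symm,
        hfx l i hil.symm, smul_zero, add_zero]
      exact hya
    have hσi : σ i = i := by
      by_contra hne
      exact hxi (hO.orth (σ i) i hne _ h1 _ (hx i))
    obtain ⟨z, hz, hz'⟩ := hO.nd j (x j) (hx j) (hx0 j)
    have h3 : sf m F (y + c • (x i + x j + x l)) z = c * sf m F (x j) z := by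
      simp only [map_add, map_smul, LinearMap.add_apply, LinearMap.smul_apply,
        hO.orth i j hij y hy z hz, hO.orth i j hij _ (hx i) z hz, hO.orth l j hjl.symm _ (hx l) z hz, add_zero, zero_add,
        smul_eq_mul]
    rw [hσi] at h1
    have h4 := hO.orth i j hij _ h1 z hz
    rw [h3] at h4
    rcases mul_eq_zero.1 h4 with h | h
    · exact hya h
    · exact hz' h
  · intro g hg
    exact hg.1
  · intro heq
    obtain ⟨g, hg⟩ := exists_stv hf (x i + x j) 1
    have hQw : Q (x i + x j) = 0 := by
      rw [hQadd, hQx, hQx, hfx i j hij, h11, add_zero]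
    have hgK : g ∈ K := by
      rw [heq]; exact stv_mem_spGL hg
    have hw0 : x i + x j ≠ 0 := by
      intro h
      have h1 : cmp (x i + x j) i = x i := by
        rw [hcadd, hcx, hcx, Pi.add_apply, Pi.single_eq_same, Pi.single_eq_of_ne hij, add_zero]
      have h2 : cmp 0 = 0 := hcu 0 0 (fun r => (D r).zero_mem) (by simp)
      rw [h, h2] at h1
      exact hx0 i h1.symm
    obtain ⟨z, hz⟩ := hf.exists_ne hw0
    have h1 := hQT _ g hg z
    rw [hgK.2 z, hQw, zero_add, one_mul] at h1
    have h2 : sf m F z (x i + x j) = 0 := by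
      have : Q z + sf m F z (x i + x j) = Q z := h1.symm
      simpa using this
    exact hf.skew_ne hz h2

end Cfsg.Agent.S5648
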