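import Cfsg.Statements.S5652
import Cfsg.Agent.H7.SpGen

set_option autoImplicit false
open Cfsg
open Cfsg.Agent.H7.Tv Module

namespace Cfsg.Agent.S5652

/-- For a finite field F of characteristic two and m ≥ 7, let Q be a non-degenerate quadratic form on F^(2m) whose polar form is the standard alternating form. Then the elements of Sp_2m(F) that are similarities of Q (they are exactly the isometries of Q) form a maximal subgroup of Sp_2m(F). -/
theorem result {F : Type*} [Field F] [Fintype F] (m : ℕ) (hm : 7 ≤ m) (heven : ¬ Odd (Fintype.card F)) (Q : (Fin m ⊕ Fin m → F) → F) (hQ : Cfsg.Geo.IsNondegenerateQuadraticForm Q) (hpol : ∀ u v, QuadraticMap.polar Q u v = Cfsg.sympForm m F u v) : Cfsg.Geo.IsMaximalIn (Cfsg.spGL m F) (Cfsg.Geo.quadSimilarityGroup Q ⊓ Cfsg.spGL m F) := by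
  classical
  have hf := sf_alt (F := F) m
  have hchar : ringChar F = 2 := by
    rw [FiniteField.even_card_iff_char_two]
    rw [Nat.not_odd_iff_even] at heven
    exact Nat.even_iff.1 heven
  haveI : CharP F 2 := ringChar.of_eq hchar
  have hsq : ∀ a : F, ∃ r : F, a = r * r := fun a => FiniteField.isSquare_of_char_two hchar a
  have h2 : ∀ a : F, a + a = 0 := fun a => CharTwo.add_self_eq_zero a
  have hneg : ∀ a : F, -a = a := fun a => CharTwo.neg_eq a
  have hQadd : ∀ x y, Q (x + y) = Q x + Q y + sf m F x y := by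
    intro x y
    have := hpol x y
    rw [QuadraticMap.polar] at this
    rw [sf_apply, ← this]
    ring
  have hQs : ∀ (c : F) x, Q (c • x) = c ^ 2 * Q x := hQ.smul
  have hQ0 : Q 0 = 0 := by
    have := hQs 0 0
    rw [smul_zero] at this
    rw [this]; ring
  set H := Cfsg.Geo.quadSimilarityGroup Q ⊓ Cfsg.spGL m F with hH
  have hmemH : ∀ g : Matrix.GeneralLinearGroup (Fin m ⊕ Fin m) F, IsIso (sf m F) g → (∀ x, Q (ap g x) = Q x) → g ∈ H := by
    intro g hg hgQ
    refine ⟨⟨1, fun v => ?_⟩, hg⟩
    rw [Units.val_one, one_mul]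
    exact hgQ v
  -- transvections
  have hTQ : ∀ (w : Fin m ⊕ Fin m → F) (c : F) (g : Matrix.GeneralLinearGroup (Fin m ⊕ Fin m) F), IsSTv (sf m F) g w c →
      ∀ x, Q (ap g x) = Q x + (c * c * Q w + c) * (sf m F x w * sf m F x w) := by
    intro w c g hg x
    rw [hg, hQadd, hQs, map_smul, smul_eq_mul]
    ring
  have hTH : ∀ (w : Fin m ⊕ Fin m → F) (c : F), c * c * Q w + c = 0 → ∀ g, IsSTv (sf m F) g w c → g ∈ H := by
    intro w c hc g hg
    refine hmemH g (hg.isIso hf) (fun x => ?_)
    rw [hTQ w c g hg, hc, zero_mul, add_zero]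
  -- large subspaces represent everything
  have hval : ∀ U : Submodule F (Fin m ⊕ Fin m → F), m < finrank F U → ∀ α : F, ∃ u ∈ U, Q u = α := by
    intro U hU α
    obtain ⟨u₀, hu₀, hQu₀⟩ : ∃ u₀ ∈ U, Q u₀ ≠ 0 := by
      by_contra hcon
      push Not at hcon
      have h1 : U ≤ perp (sf m F) U := by
        intro x hx y hy
        have h3 := hQadd x y
        rw [hcon _ (U.add_mem hx hy), hcon x hx, hcon y hy, zero_add, zero_add] at h3
        exact h3.symm
      have h3 := Submodule.finrank_mono h1
      rw [finrank_perp hf] at h3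
      simp at h3
      omega
    obtain ⟨r, hr⟩ := hsq (α / Q u₀)
    refine ⟨r • u₀, U.smul_mem _ hu₀, ?_⟩
    rw [hQs, sq, ← hr]
    field_simp
  have hcard : Fintype.card (Fin m ⊕ Fin m) = m + m := by simp
  have hinf : ∀ U V : Submodule F (Fin m ⊕ Fin m → F), finrank F U + finrank F V ≤ finrank F (U ⊓ V : Submodule F _) + (m + m) := by
    intro U V
    have h1 := Submodule.finrank_sup_add_finrank_inf_eq U V
    have h3 := Submodule.finrank_le (U ⊔ V)
    rw [Module.finrank_pi, hcard] at h3
    omega
  -- transitivity of `H` on vectors of given value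
  have htrans1 : ∀ v v', Q v = Q v' → sf m F v v' ≠ 0 → ∃ h ∈ H, ap h v = v' := by
    intro v v' hvv hne
    have hQw : Q (v + v') = sf m F v v' := by rw [hQadd, hvv, h2, zero_add]
    obtain ⟨g, hg⟩ := exists_stv hf (v + v') (sf m F v v')⁻¹
    refine ⟨g, hTH _ _ ?_ g hg, ?_⟩
    · rw [hQw, mul_assoc, inv_mul_cancel₀ hne, mul_one, h2]
    · rw [hg, map_add, hf.alt, zero_add, inv_mul_cancel₀ hne, one_smul, ← add_assoc]
      have : v + v = 0 := by funext i; exact h2 _
      rw [this, zero_add]
  have htrans : ∀ v v', v ≠ 0 → v' ≠ 0 → Q v = Q v' → ∃ h ∈ H, ap h v = v' := by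
    intro v v' hv hv' hvv
    obtain ⟨a, ha⟩ := hf.exists_ne hv
    obtain ⟨b, hb⟩ := hf.exists_ne hv'
    obtain ⟨z₀, -, hz1, hz2⟩ := exists_notMem_two (A := LinearMap.ker (sf m F v)) (B := LinearMap.ker (sf m F v')) (C := ⊤)
      (x := a) (y := b) Submodule.mem_top Submodule.mem_top (by simpa using ha) (by simpa using hb)
    rw [LinearMap.mem_ker] at hz1 hz2
    set U := perp (sf m F) (Submodule.span F {v}) ⊓ (perp (sf m F) (Submodule.span F {v'}) ⊓ perp (sf m F) (Submodule.span F {z₀})) with hU
    have hUf : m < finrank F U := by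
      have h3 := hinf (perp (sf m F) (Submodule.span F {v'})) (perp (sf m F) (Submodule.span F {z₀}))
      have h4 := hinf (perp (sf m F) (Submodule.span F {v})) (perp (sf m F) (Submodule.span F {v'}) ⊓ perp (sf m F) (Submodule.span F {z₀}))
      have h5 := finrank_perp_span_singleton hf v
      have h6 := finrank_perp_span_singleton hf v'
      have h7 := finrank_perp_span_singleton hf z₀
      rw [hcard] at h5 h6 h7
      rw [hU]
      omega
    obtain ⟨y, hy, hyQ⟩ := hval U hUf (Q v + Q z₀)
    have hy1 : sf m F v y = 0 := hf.skew_zero (hy.1 v (Submodule.mem_span_singleton_self v))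
    have hy2 : sf m F v' y = 0 := hf.skew_zero (hy.2.1 v' (Submodule.mem_span_singleton_self v'))
    have hy3 : sf m F z₀ y = 0 := hf.skew_zero (hy.2.2 z₀ (Submodule.mem_span_singleton_self z₀))
    have hQz : Q (z₀ + y) = Q v := by
      rw [hQadd, hy3, hyQ, add_zero]
      have : Q z₀ + (Q v + Q z₀) = Q v + (Q z₀ + Q z₀) := by ring
      rw [this, h2, add_zero]
    obtain ⟨h, hh, hhv⟩ := htrans1 v (z₀ + y) hQz.symm (by rw [map_add, hy1, add_zero]; exact hz1)
    obtain ⟨k, hk, hkv⟩ := htrans1 (z₀ + y) v' (by rw [hQz, hvv]) (by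
      rw [map_add, LinearMap.add_apply, hf.skew y v', hy2, neg_zero, add_zero]
      exact hf.skew_ne hz2)
    exact ⟨k * h, H.mul_mem hk hh, by rw [ap_mul, hhv, hkv]⟩
  have main : ∀ M : Subgroup (Matrix.GeneralLinearGroup (Fin m ⊕ Fin m) F), H ≤ M → M ≤ Cfsg.spGL m F →
      (∃ g ∈ M, g ∉ H) → Cfsg.spGL m F ≤ M := by
    rintro M hHM hMS ⟨g, hgM, hgH⟩
    have hiso : ∀ h ∈ M, IsIso (sf m F) h := fun h hh => hMS hh
    let Tc : (Fin m ⊕ Fin m → F) → Prop := fun w => ∀ k, IsSTv (sf m F) k w 1 → k ∈ M
    have hTconj : ∀ w, Tc w → ∀ h ∈ M, Tc (ap h w) := by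
      intro w hw h hh k hk
      have h1 : h⁻¹ * k * h ∈ M := by
        apply hw
        intro x
        rw [ap_mul, ap_mul, hk, ap_add, ap_smul, ap_inv_ap, ap_inv_ap, hiso h hh]
      have : k = h * (h⁻¹ * k * h) * h⁻¹ := by group
      rw [this]
      exact M.mul_mem (M.mul_mem hh h1) (M.inv_mem hh)
    have hT1 : ∀ w, Q w = 1 → Tc w := fun w hw k hk => hHM (hTH w 1 (by rw [hw, one_mul, one_mul, h2]) k hk)
    have hTall : ∀ w, Tc w := by
      -- the defect
      let δ : (Fin m ⊕ Fin m → F) → F := fun x => Q (ap g x) + Q x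
      have hδadd : ∀ x y, δ (x + y) = δ x + δ y := by
        intro x y
        change Q (ap g (x + y)) + Q (x + y) = (Q (ap g x) + Q x) + (Q (ap g y) + Q y)
        rw [ap_add, hQadd, hQadd, hiso g hgM]
        have := h2 (sf m F x y)
        linear_combination this
      have hδs : ∀ (c : F) x, δ (c • x) = c ^ 2 * δ x := by
        intro c x
        change Q (ap g (c • x)) + Q (c • x) = c ^ 2 * (Q (ap g x) + Q x)
        rw [ap_smul, hQs, hQs]; ring
      obtain ⟨x₁, hx₁⟩ : ∃ x₁, δ x₁ ≠ 0 := by
        by_contra hcon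
        push Not at hcon
        apply hgH
        apply hmemH g (hiso g hgM)
        intro x
        have h3 : Q (ap g x) + Q x = 0 := hcon x
        rw [← hneg (Q x)]
        exact eq_neg_of_add_eq_zero_left h3
      let K : Submodule F (Fin m ⊕ Fin m → F) :=
        { carrier := {x | δ x = 0}
          zero_mem' := by
            change Q (ap g 0) + Q 0 = 0
            rw [ap_zero, hQ0, add_zero]
          add_mem' := by
            intro a b ha hb
            change δ (a + b) = 0
            rw [hδadd, ha, hb, add_zero]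
          smul_mem' := by
            intro c a ha
            change δ (c • a) = 0
            rw [hδs, ha, mul_zero] }
      have hKf : m + m ≤ finrank F K + 1 := by
        have h3 : K ⊔ Submodule.span F {x₁} = ⊤ := by
          rw [eq_top_iff]
          intro x _
          obtain ⟨r, hr⟩ := hsq (δ x / δ x₁)
          have h4 : x + r • x₁ ∈ K := by
            change δ (x + r • x₁) = 0
            rw [hδadd, hδs, sq, ← hr, div_mul_cancel₀ _ hx₁, h2]
          have h5 : x = (x + r • x₁) + (-r) • x₁ := by module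
          rw [h5]
          exact Submodule.add_mem_sup h4 (Submodule.smul_mem _ _ (Submodule.mem_span_singleton_self _))
        have h4 := Submodule.finrank_sup_add_finrank_inf_eq K (Submodule.span F {x₁})
        rw [h3, finrank_top, Module.finrank_pi, hcard] at h4
        have h5 := finrank_span_le_card (R := F) ({x₁} : Set (Fin m ⊕ Fin m → F))
        simp at h5
        omega
      intro w
      by_cases hw0 : w = 0
      · intro k hk
        have : k = 1 := ap_ext (fun v => by rw [hk, hw0]; simp)
        rw [this]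
        exact M.one_mem
      by_cases hα : Q w = 1
      · exact hT1 w hα
      have hα' : Q w + 1 ≠ 0 := by
        intro h
        apply hα
        rw [← hneg 1]
        exact eq_neg_of_add_eq_zero_left h
      obtain ⟨r, hr⟩ := hsq ((Q w + 1) / δ x₁)
      have hr0 : δ (r • x₁) = Q w + 1 := by
        rw [hδs, sq, ← hr, div_mul_cancel₀ _ hx₁]
      have hUf : m < finrank F (K ⊓ perp (sf m F) (Submodule.span F {r • x₁}) : Submodule F _) := by
        have h3 := hinf K (perp (sf m F) (Submodule.span F {r • x₁}))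
        have h4 := finrank_perp_span_singleton hf (r • x₁)
        rw [hcard] at h4
        omega
      obtain ⟨y, ⟨hyK, hyp⟩, hyQ⟩ := hval _ hUf (1 + Q (r • x₁))
      have hy1 : sf m F (r • x₁) y = 0 := hf.skew_zero (hyp _ (Submodule.mem_span_singleton_self _))
      have hQx : Q (r • x₁ + y) = 1 := by
        rw [hQadd, hy1, hyQ, add_zero]
        have := h2 (Q (r • x₁))
        linear_combination this
      have hδx : δ (r • x₁ + y) = Q w + 1 := by
        rw [hδadd, hr0]
        have : δ y = 0 := hyK
        rw [this, add_zero]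
      have hQgx : Q (ap g (r • x₁ + y)) = Q w := by
        have h3 : Q (ap g (r • x₁ + y)) + Q (r • x₁ + y) = Q w + 1 := hδx
        rw [hQx] at h3
        exact add_right_cancel h3
      have hne : ap g (r • x₁ + y) ≠ 0 := by
        rw [Ne, ap_eq_zero]
        intro h
        rw [h] at hδx
        apply hα'
        rw [← hδx]
        change Q (ap g 0) + Q 0 = 0
        rw [ap_zero, hQ0, add_zero]
      obtain ⟨h, hh, hhv⟩ := htrans _ w hne hw0 hQgx
      have h3 := hTconj _ (hTconj _ (hT1 _ hQx) g hgM) h (hHM hh)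
      rw [hhv] at h3
      exact h3
    apply spGL_le
    intro w c k hk
    obtain ⟨r, hr⟩ := hsq c
    apply hTall (r • w)
    intro x
    rw [hk, hr, map_smul, smul_smul, one_mul, smul_eq_mul]
    congr 2
    ring
  have hle : H ≤ Cfsg.spGL m F := inf_le_right
  refine ⟨lt_of_le_of_ne hle ?_, ?_⟩
  · intro heq
    obtain ⟨w, hw0, hw1⟩ : ∃ w, w ≠ 0 ∧ Q w ≠ 1 := by
      by_contra hcon
      push Not at hcon
      have he0 : (Pi.single (.inl ⟨0, by omega⟩) 1 : Fin m ⊕ Fin m → F) ≠ 0 := by
        intro h
        have := congrFun h (.inl ⟨0, by omega⟩)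
        simp at this
      set a : Fin m ⊕ Fin m → F := Pi.single (.inl ⟨0, by omega⟩) 1 with ha
      have h1 : ¬ perp (sf m F) (Submodule.span F {a}) ≤ Submodule.span F {a} := by
        intro h
        have h3 := Submodule.finrank_mono h
        have h4 := finrank_perp_span_singleton hf a
        have h5 := finrank_span_le_card (R := F) ({a} : Set (Fin m ⊕ Fin m → F))
        simp at h5
        rw [hcard] at h4
        omega
      obtain ⟨b, hb, hb'⟩ := SetLike.not_le_iff_exists.1 h1
      have hb0 : b ≠ 0 := by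
        rintro rfl
        exact hb' (Submodule.zero_mem _)
      have hab : a + b ≠ 0 := by
        intro h
        apply hb'
        rw [Submodule.mem_span_singleton]
        exact ⟨-1, by rw [neg_smul, one_smul]; exact (eq_neg_of_add_eq_zero_right h).symm⟩
      have h3 := hQadd a b
      rw [hcon _ hab, hcon a he0, hcon b hb0, hf.skew_zero (hb a (Submodule.mem_span_singleton_self a)), add_zero, h2] at h3
      exact one_ne_zero h3
    obtain ⟨g, hg⟩ := exists_stv hf w 1
    have hgH : g ∈ H := by rw [heq]; exact stv_mem_spGL hg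
    obtain ⟨⟨c, hc⟩, -⟩ := hgH
    have hc' : ∀ x, Q (ap g x) = (c : F) * Q x := hc
    obtain ⟨x, hx⟩ := hf.exists_ne hw0
    -- `c = 1`
    have hgi := hg.isIso hf
    have hc1 : (c : F) = 1 := by
      have h3 : sf m F (ap g w) (ap g x) = (c : F) * sf m F w x := by
        have h4 := hQadd (ap g w) (ap g x)
        rw [← ap_add, hc', hc', hc', hQadd] at h4
        linear_combination -h4
      rw [hgi] at h3
      have h4 : ((c : F) - 1) * sf m F w x = 0 := by rw [sub_mul, one_mul, ← h3, sub_self]
      rcases mul_eq_zero.1 h4 with h | h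
      · exact sub_eq_zero.1 h
      · exact absurd h hx
    have h3 := hTQ w 1 g hg x
    rw [hc', hc1, one_mul, one_mul, one_mul] at h3
    have h4 : (Q w + 1) * (sf m F x w * sf m F x w) = 0 := by
      have : Q x + (Q w + 1) * (sf m F x w * sf m F x w) = Q x := h3.symm
      simpa using this
    rcases mul_eq_zero.1 h4 with h | h
    · apply hw1
      rw [← hneg 1]
      exact eq_neg_of_add_eq_zero_left h
    · exact hf.skew_ne hx (mul_self_eq_zero.1 h)
  · intro M hHM hMS
    by_cases h : M ≤ H
    · exact Or.inl (le_antisymm h hHM)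
    · right
      obtain ⟨g, hg, hg'⟩ := SetLike.not_le_iff_exists.1 h
      exact le_antisymm hMS (main M hHM hMS ⟨g, hg, hg'⟩)

end Cfsg.Agent.S5652
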