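import Cfsg.Statements.S5653
import Cfsg.Agent.H7.UniMax
import Cfsg.Agent.H7.Orth3

set_option autoImplicit false
open Cfsg
open Module Matrix Cfsg.Agent.H7 Cfsg.Agent.H7.UTv Cfsg.Agent.H7.Tv Cfsg.Agent.H7.Witt

namespace Cfsg.Agent.S5653

/-- Let F be the field with q² elements and n ≥ 13, and let SU_n(q) be the group of matrices of determinant one preserving the standard unitary form Σ u_i v_i^q on F^n (the intersection of the unitary group GU_n with the kernel of the determinant). The elements of SU_n(q) stabilising a non-zero subspace on which the form vanishes identically form a maximal subgroup of SU_n(q). -/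
theorem result {F : Type*} [Field F] [Fintype F] (n q : ℕ) (hF : Fintype.card F = q ^ 2) (hn : 13 ≤ n) (W : Submodule F (Fin n → F)) (hW0 : W ≠ ⊥) (hW : Cfsg.Geo.IsTotallySingularFor (Cfsg.hermForm n F q) W) : Cfsg.Geo.IsMaximalIn (Cfsg.GU n F q ⊓ Cfsg.Geo.specialLinear (Fin n) F) (Cfsg.Geo.subspaceStabilizer W ⊓ (Cfsg.GU n F q ⊓ Cfsg.Geo.specialLinear (Fin n) F)) := by
  obtain ⟨σ, hσ, hB, hBq, hGU⟩ := hm_std hF n
  have hdet : DetOne (Cfsg.Agent.H7.Herm.hB n σ) := by
    intro g hg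
    have h1 := Cfsg.Agent.H7.Herm.det_pow hF (A := (g : Matrix (Fin n) (Fin n) F)) ((hGU g).2 hg)
    rw [lin, LinearMap.det_toLin', hσ, ← pow_succ']
    exact h1
  generalize hBB : Cfsg.Agent.H7.Herm.hB n σ = B at *
  have hG : Cfsg.GU n F q ⊓ Cfsg.Geo.specialLinear (Fin n) F = SUn B := by
    ext g
    constructor
    · rintro ⟨h1, h2⟩
      exact ⟨(hGU g).1 h1, h2⟩
    · rintro ⟨h1, h2⟩
      exact ⟨(hGU g).2 h1, h2⟩
  rw [hG]

  have hW' : ∀ x ∈ W, ∀ y ∈ W, B x y = 0 := by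
    intro x hx y hy
    rw [hBq]
    exact hW y hy x hx
  apply su_maximal hB (by rw [Fintype.card_fin]; omega) inf_le_right
  · obtain ⟨w, hw, hw0⟩ := Submodule.exists_mem_ne_zero_of_ne_bot hW0
    obtain ⟨f, -, hf, hwf⟩ := exists_partner hB (nd_top hB) Submodule.mem_top hw0 (hW' w hw w hw)
    have hfw : B f w = 1 := by rw [← hB.symm, hwf, map_one]
    obtain ⟨k, hk0, hk⟩ := hB.exists_tz
    obtain ⟨t, ht⟩ := exists_utv hf k
    refine ⟨t, TC_le_SUn hB (uc_TC Submodule.mem_top hf k hk t ht), fun h => ?_⟩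
    have h1 := Cfsg.Agent.H7.Orth.mem_sstab.1 h.1 w hw
    rw [ht, LinearMap.smul_apply, hfw, smul_eq_mul, mul_one] at h1
    have h2 : f ∈ W := by
      have h3 := (W.add_mem_iff_right hw).1 h1
      have h4 := W.smul_mem k⁻¹ h3
      rwa [smul_smul, inv_mul_cancel₀ hk0, one_smul] at h4
    have h5 := hW' f h2 w hw
    rw [hfw] at h5
    exact one_ne_zero h5
  · intro M hHM hMS g hg hgH
    refine ts_UC hB hdet hW' (fun g hg h => hHM ⟨Cfsg.Agent.H7.Orth.mem_sstab.2 h, hg⟩) hg (hMS hg).1 ?_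
    by_contra hcon
    push Not at hcon
    exact hgH ⟨Cfsg.Agent.H7.Orth.mem_sstab.2 hcon, hMS hg⟩

end Cfsg.Agent.S5653
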