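import Cfsg.Statements.S5654
import Cfsg.Agent.H7.UniMax
import Cfsg.Agent.H7.Orth3

set_option autoImplicit false
open Cfsg
open Module Matrix Cfsg.Agent.H7 Cfsg.Agent.H7.UTv Cfsg.Agent.H7.Tv Cfsg.Agent.H7.Witt

namespace Cfsg.Agent.S5654

/-- Let F be the field with q² elements and n ≥ 13. In SU_n(q) (determinant-one isometries of the standard unitary form on F^n) the stabiliser of a non-zero subspace W on which the form is non-degenerate and with 2 dim W < n is a maximal subgroup. -/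
theorem result {F : Type*} [Field F] [Fintype F] (n q : ℕ) (hF : Fintype.card F = q ^ 2) (hn : 13 ≤ n) (W : Submodule F (Fin n → F)) (hW0 : W ≠ ⊥) (hW : Cfsg.Geo.IsNondegenerateOn (Cfsg.hermForm n F q) W) (hdim : 2 * Module.finrank F W < n) : Cfsg.Geo.IsMaximalIn (Cfsg.GU n F q ⊓ Cfsg.Geo.specialLinear (Fin n) F) (Cfsg.Geo.subspaceStabilizer W ⊓ (Cfsg.GU n F q ⊓ Cfsg.Geo.specialLinear (Fin n) F)) := by
  obtain ⟨σ, hσ, hB, hBq, hGU⟩ := hm_std hF n
  have hdet : DetOne (Cfsg.Agent.H7.Herm.hB n σ) := by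
    intro g hg
    have h1 := Cfsg.Agent.H7.Herm.det_pow hF (A := (g : Matrix (Fin n) (Fin n) F)) ((hGU g).2 hg)
    rw [lin, LinearMap.det_toLin', hσ, ← pow_succ']
    exact h1
  generalize hBB : Cfsg.Agent.H7.Herm.hB n σ = B at *
  have hG : Cfsg.GU n F q ⊓ Cfsg.Geo.specialLinear (Fin n) F = SUn B := by
    ext g
    constructor
    · rintro ⟨h1, h2⟩
      exact ⟨(hGU g).1 h1, h2⟩
    · rintro ⟨h1, h2⟩
      exact ⟨(hGU g).2 h1, h2⟩
  rw [hG]

  have hW' : UTv.Nd B W := by
    intro x hx hx'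
    by_contra hx0
    obtain ⟨y, hy, hyx⟩ := (hW x hx hx0).2
    rw [← hBq] at hyx
    exact hyx (hx' y hy)
  have hfr := hB.finrank_prp' W
  rw [Fintype.card_fin] at hfr
  have hND : UTv.Nd B (prp B W) := by
    have h1 := nd_inf hB (nd_top hB) le_top hW'
    rwa [top_inf_eq] at h1
  have hd : finrank F W < finrank F (prp B W) := by omega
  · apply su_maximal hB (by rw [Fintype.card_fin]; omega) inf_le_right
    · have hpos : 1 ≤ finrank F W := by
        rw [Nat.one_le_iff_ne_zero]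
        intro h
        exact hW0 (Submodule.finrank_eq_zero.1 h)
      obtain ⟨x, hx, hxx⟩ := exists_aniso_nd hB hW' hpos
      obtain ⟨y, hy, hy0, hyy⟩ := exists_norm hB hND (by omega) (γ := -(B x x)) (by rw [map_neg, hB.self_fixed])
      have huu : B (x + y) (x + y) = 0 := by
        simp only [map_add, LinearMap.add_apply, hy x hx, hB.zero_swap (hy x hx), hyy]
        ring
      obtain ⟨k, hk0, hk⟩ := hB.exists_tz
      obtain ⟨t, ht⟩ := exists_utv huu k
      refine ⟨t, TC_le_SUn hB (uc_TC Submodule.mem_top huu k hk t ht), fun h => ?_⟩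
      have h1 := Cfsg.Agent.H7.Orth.mem_sstab.1 h.1 x hx
      rw [ht, LinearMap.smul_apply, map_add, LinearMap.add_apply, hB.zero_swap (hy x hx), add_zero, smul_eq_mul] at h1
      have h3 := (W.add_mem_iff_right hx).1 h1
      have h4 := W.smul_mem (k * B x x)⁻¹ h3
      rw [smul_smul, inv_mul_cancel₀ (mul_ne_zero hk0 hxx), one_smul] at h4
      exact hy0 (hW' y ((W.add_mem_iff_right hx).1 h4) hy)
    · intro M hHM hMS g hg hgH
      refine nd_UC hB hdet hW' hd (by omega) (fun g hg h => hHM ⟨Cfsg.Agent.H7.Orth.mem_sstab.2 h, hg⟩) hg (hMS hg).1 ?_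
      by_contra hcon
      push Not at hcon
      exact hgH ⟨Cfsg.Agent.H7.Orth.mem_sstab.2 hcon, hMS hg⟩

end Cfsg.Agent.S5654
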