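import Cfsg.Statements.S5656
import Cfsg.Agent.H7.UniStd

set_option autoImplicit false
open Cfsg
open Module Matrix Cfsg.Agent.H7 Cfsg.Agent.H7.UTv Cfsg.Agent.H7.Tv Cfsg.Agent.H7.Herm

namespace Cfsg.Agent.S5656

/-- Let F be the field with 4 elements (q = 2) and n ≥ 13. Let D be a decomposition of F^n into t pairwise orthogonal 2-dimensional subspaces, each non-degenerate for the standard unitary form Σ u_i v_i². Then the elements of SU_n(2) permuting the members of D form a subgroup that is not maximal: some subgroup lies strictly between it and SU_n(2). -/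
theorem result {F : Type*} [Field F] [Fintype F] (n : ℕ) (hF : Fintype.card F = 4) (hn : 13 ≤ n) {t : ℕ} (D : Fin t → Submodule F (Fin n → F)) (hD : Cfsg.Geo.IsNondegenerateMDecomposition (Cfsg.hermForm n F 2) 2 D) : ∃ K : Subgroup (Matrix.GeneralLinearGroup (Fin n) F), Cfsg.Geo.decompositionStabilizer D ⊓ (Cfsg.GU n F 2 ⊓ Cfsg.Geo.specialLinear (Fin n) F) < K ∧ K < (Cfsg.GU n F 2 ⊓ Cfsg.Geo.specialLinear (Fin n) F) := by
  classical
  obtain ⟨σ, hσ, hB, hBq, hGU⟩ := hm_std (q := 2) (by rw [hF]; norm_num) n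
  generalize hBB : Cfsg.Agent.H7.Herm.hB n σ = B at *
  have h2 : (2 : F) = 0 := by
    have h := FiniteField.cast_card_eq_zero F
    rw [hF] at h
    have h' : (2 : F) * 2 = 0 := by
      push_cast at h
      linear_combination h
    rcases mul_eq_zero.1 h' with h | h <;> exact h
  have hval : ∀ x, B x x ≠ 0 → B x x = 1 := by
    intro x hx
    have h1 := hB.self_fixed x
    rw [hσ, sq] at h1
    exact mul_left_cancel₀ hx (by rw [h1, mul_one])
  have hnorm : ∀ x : F, x ≠ 0 → x * σ x = 1 := by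
    intro x hx
    rw [hσ, ← pow_succ']
    have h3 := FiniteField.pow_card_sub_one_eq_one x hx
    rwa [hF] at h3
  have hND : ∀ i, UTv.Nd B (D i) := by
    intro i x hx hx'
    by_contra hx0
    obtain ⟨y, hy, hyx⟩ := (hD.nondegenerate i x hx hx0).2
    rw [← hBq] at hyx
    exact hyx (hx' y hy)
  have horth : ∀ i j, i ≠ j → ∀ x ∈ D i, ∀ y ∈ D j, B x y = 0 := by
    intro i j hij x hx y hy
    rw [hBq]
    exact hD.orthogonal j i (Ne.symm hij) y hy x hx
  have ht3 : 3 ≤ t := by
    by_contra hcon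
    have h1 := hD.decomp.two_le
    have h3 : t = 2 := by omega
    subst h3
    have h4 : (⊤ : Submodule F (Fin n → F)) ≤ D 0 ⊔ D 1 := by
      rw [← hD.decomp.iSup_eq_top]
      apply iSup_le
      intro i
      fin_cases i
      · exact le_sup_left
      · exact le_sup_right
    have h5 := Submodule.finrank_mono h4
    have h6 := Submodule.finrank_add_le_finrank_add_finrank (D 0) (D 1)
    rw [hD.decomp.finrank_eq, hD.decomp.finrank_eq] at h6
    rw [finrank_top, finrank_fintype_fun_eq_card, Fintype.card_fin] at h5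
    omega
  -- orthonormal vectors
  have hex : ∀ i, ∃ a ∈ D i, B a a = 1 := by
    intro i
    obtain ⟨a, ha, ha'⟩ := exists_aniso_nd hB (hND i) (by rw [hD.decomp.finrank_eq]; norm_num)
    exact ⟨a, ha, hval a ha'⟩
  have hex2 : ∀ i a, a ∈ D i → B a a = 1 → ∃ a' ∈ D i, B a' a' = 1 ∧ B a a' = 0 ∧
      ∀ v ∈ D i, v = (B a v) • a + (B a' v) • a' := by
    intro i a ha haa
    have ha0 : B a a ≠ 0 := by rw [haa]; exact one_ne_zero
    have h1 := finrank_inf_prp hB (hND i) (span_one_le ha)
    rw [finrank_span_self (ne_zero_of_aniso ha0), hD.decomp.finrank_eq] at h1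
    have hn1 := nd_inf hB (hND i) (span_one_le ha) (nd_span_one hB ha0)
    obtain ⟨a', ha', haa'⟩ := exists_aniso_nd hB hn1 (by omega)
    have h3 := mem_prp_one.1 ha'.2
    have haa1 := hval a' haa'
    refine ⟨a', ha'.1, haa1, h3, fun v hv => ?_⟩
    have h4 : v - (B a v) • a ∈ D i ⊓ Cfsg.Agent.H7.Witt.prp B (Submodule.span F {a}) := by
      refine ⟨(D i).sub_mem hv ((D i).smul_mem _ ha), mem_prp_one.2 ?_⟩
      rw [map_sub, map_smul, haa, smul_eq_mul, mul_one, sub_self]
    have h5 : Submodule.span F {a'} = D i ⊓ Cfsg.Agent.H7.Witt.prp B (Submodule.span F {a}) := by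
      apply Submodule.eq_of_le_of_finrank_eq (span_one_le ha')
      rw [finrank_span_self (ne_zero_of_aniso haa')]
      omega
    rw [← h5] at h4
    obtain ⟨m, hm⟩ := Submodule.mem_span_singleton.1 h4
    have h6 : B a' v = m := by
      have h7 := congrArg (B a') hm
      rw [map_smul, map_sub, map_smul, haa1, hB.zero_swap h3, smul_zero, sub_zero, smul_eq_mul, mul_one] at h7
      exact h7.symm
    rw [h6, hm]
    abel
  -- the anisotropic vectors of the summands
  have hmult : ∀ i a, a ∈ D i → B a a = 1 → ∀ v ∈ D i, B v v ≠ 0 → B a v ≠ 0 → v = (B a v) • a := by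
    intro i a ha haa v hv hvv hav
    obtain ⟨a', ha', haa', h3, h4⟩ := hex2 i a ha haa
    have h5 := h4 v hv
    have h6 : B a' v = 0 := by
      by_contra h7
      apply hvv
      have h8 : B v v = (B a v) * σ (B a v) + (B a' v) * σ (B a' v) := by
        nth_rewrite 1 2 [h5]
        simp only [map_add, LinearMap.add_apply, map_smul, LinearMap.map_smulₛₗ, LinearMap.smul_apply, smul_eq_mul, haa, haa',
          h3, hB.zero_swap h3]
        ring
      rw [h8, hnorm _ hav, hnorm _ h7]
      linear_combination h2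
    rw [h6, zero_smul, add_zero] at h5
    exact h5
  let S : Set (Fin n → F) := {v | (∃ i, v ∈ D i) ∧ B v v ≠ 0}
  let K : Subgroup (GL (Fin n) F) :=
    { carrier := {g | g ∈ Cfsg.GU n F 2 ⊓ Cfsg.Geo.specialLinear (Fin n) F ∧ ∀ v, ap g v ∈ S ↔ v ∈ S}
      mul_mem' := by
        rintro x y ⟨hx, hx'⟩ ⟨hy, hy'⟩
        exact ⟨mul_mem hx hy, fun v => by rw [ap_mul, hx', hy']⟩
      one_mem' := ⟨one_mem _, fun v => by rw [ap_one]⟩
      inv_mem' := by
        rintro x ⟨hx, hx'⟩
        exact ⟨inv_mem hx, fun v => by rw [← hx', ap_ap_inv]⟩ }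
  have hfwd : ∀ g ∈ Cfsg.Geo.decompositionStabilizer D ⊓ (Cfsg.GU n F 2 ⊓ Cfsg.Geo.specialLinear (Fin n) F), ∀ v ∈ S, ap g v ∈ S := by
    rintro g ⟨⟨π, hπ⟩, hg, -⟩ v ⟨⟨i, hi⟩, hv⟩
    refine ⟨⟨π i, ?_⟩, ?_⟩
    · rw [← hπ i]
      exact ⟨v, hi, rfl⟩
    · rw [(hGU g).1 hg]; exact hv
  have hHK : Cfsg.Geo.decompositionStabilizer D ⊓ (Cfsg.GU n F 2 ⊓ Cfsg.Geo.specialLinear (Fin n) F) ≤ K := by
    intro g hg
    refine ⟨hg.2, fun v => ⟨fun h => ?_, hfwd g hg v⟩⟩
    have := hfwd g⁻¹ (inv_mem hg) _ h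
    rwa [ap_inv_ap] at this
  obtain ⟨a, ha, haa⟩ := hex ⟨0, by omega⟩
  obtain ⟨b, hb, hbb⟩ := hex ⟨1, by omega⟩
  obtain ⟨c, hc, hcc⟩ := hex ⟨2, by omega⟩
  have h01 : (⟨0, by omega⟩ : Fin t) ≠ ⟨1, by omega⟩ := by simp
  have h02 : (⟨0, by omega⟩ : Fin t) ≠ ⟨2, by omega⟩ := by simp
  have h12 : (⟨1, by omega⟩ : Fin t) ≠ ⟨2, by omega⟩ := by simp
  generalize (⟨0, by omega⟩ : Fin t) = i0 at *
  generalize (⟨1, by omega⟩ : Fin t) = i1 at *
  generalize (⟨2, by omega⟩ : Fin t) = i2 at *
  have hab := horth _ _ h01 a ha b hb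
  have hac := horth _ _ h02 a ha c hc
  have hbc := horth _ _ h12 b hb c hc
  have huniq : ∀ i j v, v ∈ D i → v ∈ D j → v ≠ 0 → i = j := by
    intro i j v hi hj hv0
    by_contra hij
    apply hv0
    apply hND i v hi
    intro y hy
    exact horth i j hij y hy v hj
  have hne : ∀ {v}, B v v = 1 → v ≠ 0 := by
    rintro v hv rfl
    rw [map_zero] at hv
    exact zero_ne_one hv
  refine ⟨K, lt_of_le_of_ne hHK ?_, lt_of_le_of_ne (fun g hg => hg.1) ?_⟩
  · intro heq
    have huu : B (a + b) (a + b) = 0 := by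
      simp only [map_add, LinearMap.add_apply, haa, hbb, hab, hB.zero_swap hab]
      linear_combination h2
    obtain ⟨g, hg⟩ := exists_utv huu 1
    have hc1 : (1 : F) + σ 1 = 0 := by rw [map_one]; linear_combination h2
    have hgI := isom_utv hB.symm huu hc1 hg
    have hgS : g ∈ Cfsg.Geo.specialLinear (Fin n) F := IsTv.mem_SL (by rw [LinearMap.smul_apply, huu, smul_zero]) hg
    have hgap : ∀ x, ap g x = x + B (a + b) x • (a + b) := by
      intro x
      rw [hg, one_smul]
    have h2s : ∀ x : Fin n → F, x + x = 0 := by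
      intro x
      rw [← two_smul F, h2, zero_smul]
    have hgg : ∀ x, ap g (ap g x) = x := by
      intro x
      rw [hgap (ap g x), hgap x]
      rw [(B (a + b)).map_add, (B (a + b)).map_smul, huu, smul_zero, add_zero, add_assoc, h2s, add_zero]
    have hgf : ∀ v ∈ S, ap g v ∈ S := by
      rintro v ⟨⟨i, hi⟩, hv⟩
      have hvg : B (ap g v) (ap g v) ≠ 0 := by rw [hgI]; exact hv
      by_cases hi0 : i = i0
      · subst hi0
        have hbv : B b v = 0 := hB.zero_swap (horth _ _ h01 v hi b hb)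
        by_cases hav : B a v = 0
        · have : ap g v = v := by
            rw [hgap, map_add, LinearMap.add_apply, hav, hbv, add_zero, zero_smul, add_zero]
          rw [this]
          exact ⟨⟨i, hi⟩, hv⟩
        · refine ⟨⟨i1, ?_⟩, hvg⟩
          have h5 := hmult i a ha haa v hi hv hav
          have h6 : ap g v = (B a v) • b := by
            rw [hgap, map_add, LinearMap.add_apply, hbv, add_zero, smul_add, ← add_assoc, ← h5, h2s, zero_add]
          rw [h6]
          exact (D i1).smul_mem _ hb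
      by_cases hi1 : i = i1
      · subst hi1
        have hav : B a v = 0 := horth _ _ h01 a ha v hi
        by_cases hbv : B b v = 0
        · have : ap g v = v := by
            rw [hgap, map_add, LinearMap.add_apply, hav, hbv, add_zero, zero_smul, add_zero]
          rw [this]
          exact ⟨⟨i, hi⟩, hv⟩
        · refine ⟨⟨i0, ?_⟩, hvg⟩
          have h5 := hmult i b hb hbb v hi hv hbv
          have h6 : ap g v = (B b v) • a := by
            rw [hgap, map_add, LinearMap.add_apply, hav, zero_add, smul_add, add_comm ((B b v) • a), ← add_assoc, ← h5, h2s,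
              zero_add]
          rw [h6]
          exact (D i0).smul_mem _ ha
      · have : ap g v = v := by
          rw [hgap, map_add, LinearMap.add_apply, horth _ _ (Ne.symm hi0) a ha v hi, horth _ _ (Ne.symm hi1) b hb v hi, add_zero,
            zero_smul, add_zero]
        rw [this]
        exact ⟨⟨i, hi⟩, hv⟩
    have hgK : g ∈ K := by
      refine ⟨⟨(hGU g).2 hgI, hgS⟩, fun v => ⟨fun h => ?_, hgf v⟩⟩
      have := hgf _ h
      rwa [hgg] at this
    rw [← heq] at hgK
    obtain ⟨⟨π, hπ⟩, -⟩ := hgK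
    obtain ⟨a', ha', haa', h3, -⟩ := hex2 i0 a ha haa
    have h4 : ap g a' ∈ D (π i0) := by rw [← hπ i0]; exact ⟨a', ha', rfl⟩
    have h5 : ap g a ∈ D (π i0) := by rw [← hπ i0]; exact ⟨a, ha, rfl⟩
    have h6 : ap g a' = a' := by
      rw [hgap, map_add, LinearMap.add_apply, h3, hB.zero_swap (horth _ _ h01 a' ha' b hb), add_zero, zero_smul, add_zero]
    have h7 : ap g a = b := by
      rw [hgap, map_add, LinearMap.add_apply, haa, hB.zero_swap hab, add_zero, one_smul, ← add_assoc, h2s, zero_add]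
    rw [h6] at h4
    rw [h7] at h5
    have h8 := huniq _ _ _ ha' h4 (hne haa')
    have h9 := huniq _ _ _ hb h5 (hne hbb)
    exact h01 (h8.trans h9.symm)
  · intro heq
    have hyy : B (a + b + c) (a + b + c) = B a a := by
      simp only [map_add, LinearMap.add_apply, haa, hbb, hcc, hab, hac, hbc, hB.zero_swap hab, hB.zero_swap hac, hB.zero_swap hbc]
      linear_combination h2
    obtain ⟨g, hg, hga⟩ := trans_aniso hB (nd_top hB) (by rw [finrank_top, finrank_fintype_fun_eq_card, Fintype.card_fin]; omega)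
      (x := a) (y := a + b + c) Submodule.mem_top Submodule.mem_top (by rw [haa]; exact one_ne_zero) hyy
    have hgS := TC_le_SUn hB hg
    have hgK : g ∈ Cfsg.GU n F 2 ⊓ Cfsg.Geo.specialLinear (Fin n) F := ⟨(hGU g).2 hgS.1, hgS.2⟩
    rw [← heq] at hgK
    have h3 := (hgK.2 a).2 ⟨⟨i0, ha⟩, by rw [haa]; exact one_ne_zero⟩
    rw [hga] at h3
    obtain ⟨⟨j, hj⟩, -⟩ := h3
    have h4 : i0 = j := by
      by_contra h
      have := horth _ _ h a ha _ hj
      rw [map_add, map_add, haa, hab, hac, add_zero, add_zero] at this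
      exact one_ne_zero this
    have h5 : i1 = j := by
      by_contra h
      have := horth _ _ h b hb _ hj
      rw [map_add, map_add, hbb, hB.zero_swap hab, hbc, zero_add, add_zero] at this
      exact one_ne_zero this
    exact h01 (h4.trans h5.symm)

end Cfsg.Agent.S5656
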