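import Cfsg.Statements.S5657
import Cfsg.Agent.H7.SkStd

set_option autoImplicit false
open Cfsg
open Cfsg.Agent.H7.Tv Cfsg.Agent.H7.Pair Module

namespace Cfsg.Agent.S5657

/-- Let F be the field with q² elements and n = 2k ≥ 13. Let D be a decomposition of F^n into two complementary subspaces of dimension k on each of which the standard unitary form vanishes identically. Then the elements of SU_n(q) preserving or interchanging the two subspaces form a maximal subgroup of SU_n(q). -/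
theorem result {F : Type*} [Field F] [Fintype F] (n q : ℕ) (hF : Fintype.card F = q ^ 2) (hn : 13 ≤ n) (k : ℕ) (hk : 2 * k = n) (D : Fin 2 → Submodule F (Fin n → F)) (hD : Cfsg.Geo.IsMDecomposition k D) (hts : ∀ i, Cfsg.Geo.IsTotallySingularFor (Cfsg.hermForm n F q) (D i)) : Cfsg.Geo.IsMaximalIn (Cfsg.GU n F q ⊓ Cfsg.Geo.specialLinear (Fin n) F) (Cfsg.Geo.decompositionStabilizer D ⊓ (Cfsg.GU n F q ⊓ Cfsg.Geo.specialLinear (Fin n) F)) := by
  classical
  obtain ⟨σ, hσ, hB, hBq, hGU⟩ := Cfsg.Agent.H7.UTv.hm_std hF n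
  obtain ⟨k', hk0, hk', hSk⟩ := sk_of_herm hB
  refine pair_maximal hSk (Cfsg.GU n F q ⊓ Cfsg.Geo.specialLinear (Fin n) F)
    (fun g hg => (isom_smul hk0).2 ((hGU g).1 hg.1)) (fun g hg hS => ⟨(hGU g).2 ((isom_smul hk0).1 hg), hS⟩)
    (fun K hK g hg => gen_of_herm hB (by rw [Fintype.card_fin]; omega) hk0 hk' hK ((hGU g).1 hg.1) hg.2)
    (by omega) hD (fun i x hx y hy => ?_)
  have h1 : Cfsg.hermForm n F q y x = 0 := hts i y hy x hx
  rw [← hBq] at h1
  simp only [LinearMap.smul_apply, h1, smul_zero]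

end Cfsg.Agent.S5657
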