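import Cfsg.Statements.S5660
import Cfsg.Agent.H7.Subf
import Cfsg.Agent.H7.HermStd

set_option autoImplicit false
open Cfsg
open Cfsg.Agent.H7.Tv Cfsg.Agent.H7.UTv Cfsg.Agent.H7.Subf Cfsg.Agent.H7.Witt Module

namespace Cfsg.Agent.S5660

/-- Let F be the field with q² elements, n ≥ 13 even, and F₀ the subfield with q elements. Let ζ be a non-zero element with ζ + ζ^q = 0 and P an invertible matrix such that ζ times the standard unitary form takes values in F₀ on the F₀-span of the columns of P and the form vanishes on every pair (u, u) of that span (so ζ times the form restricts to a non-degenerate alternating form there). Then the elements of SU_n(q) lying in the subfield group of P form a maximal subgroup of SU_n(q). -/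
theorem result {F : Type*} [Field F] [Fintype F] (n q : ℕ) (hF : Fintype.card F = q ^ 2) (hn : 13 ≤ n) (heven : Even n) (F₀ : Subfield F) (hcard : Fintype.card F = Nat.card F₀ ^ 2) (ζ : F) (hζ0 : ζ ≠ 0) (hζ : ζ + ζ ^ q = 0) (P : Matrix.GeneralLinearGroup (Fin n) F) (hP : Cfsg.Geo.IsFormRationalStructure (Cfsg.hermForm n F q) F₀ ζ P) (halt : ∀ u : Fin n → F, (∀ i, u i ∈ F₀) → Cfsg.hermForm n F q (Matrix.mulVec (P : Matrix (Fin n) (Fin n) F) u) (Matrix.mulVec (P : Matrix (Fin n) (Fin n) F) u) = 0) : Cfsg.Geo.IsMaximalIn (Cfsg.GU n F q ⊓ Cfsg.Geo.specialLinear (Fin n) F) (Cfsg.Geo.subfieldSubgroup F₀ P ⊓ (Cfsg.GU n F q ⊓ Cfsg.Geo.specialLinear (Fin n) F)) := by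
  classical
  obtain ⟨σ, hσ, hB, hBq, hGU⟩ := hm_std hF n
  set B := Cfsg.Agent.H7.Herm.hB n σ with hBdef
  haveI : Fintype F₀ := Fintype.ofFinite F₀
  have hq0 : Nat.card F₀ = q := by
    have h1 : Nat.card F₀ ^ 2 = q ^ 2 := by rw [← hcard, hF]
    exact Nat.pow_left_injective (n := 2) (by norm_num) h1
  have hfix : ∀ r : F₀, σ (r : F) = r := by
    intro r
    rw [hσ, ← hq0, Nat.card_eq_fintype_card]
    have := FiniteField.pow_card r
    exact_mod_cast congrArg (fun x : F₀ => (x : F)) this
  obtain ⟨w, hw⟩ : ∃ w, σ w ≠ w := by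
    by_contra hcon
    push Not at hcon
    exact hB.ne (RingHom.ext hcon)
  have hwF : w ∉ F₀ := fun h => hw (hfix ⟨w, h⟩)
  -- decomposition of scalars
  have hdec : ∀ x : F, ∃ α β : F₀, x = α + w * β := by
    have hinj : Function.Injective (fun ab : F₀ × F₀ => ((ab.1 : F) + w * ab.2)) := by
      rintro ⟨a, b⟩ ⟨a', b'⟩ h
      dsimp only at h
      have h1 : w * ((b - b' : F₀) : F) = ((a' - a : F₀) : F) := by push_cast; linear_combination h
      have h2 : b - b' = 0 := by
        by_contra h0
        apply hwF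
        have h3 : w = (((a' - a) * (b - b')⁻¹ : F₀) : F) := by
          have h4 : ((b - b' : F₀) : F) ≠ 0 := fun h => h0 (Subtype.ext h)
          rw [MulMemClass.coe_mul, ← h1, mul_assoc, ← MulMemClass.coe_mul, mul_inv_cancel₀ h0]
          simp
        rw [h3]
        exact SetLike.coe_mem _
      have h3 : a' - a = 0 := by
        rw [h2] at h1
        apply Subtype.ext
        rw [← h1]
        simp
      exact Prod.ext (sub_eq_zero.1 h3).symm (sub_eq_zero.1 h2)
    have hbij : Function.Bijective (fun ab : F₀ × F₀ => ((ab.1 : F) + w * ab.2)) := by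
      rw [Fintype.bijective_iff_injective_and_card]
      refine ⟨hinj, ?_⟩
      rw [Fintype.card_prod, hcard, Nat.card_eq_fintype_card, sq]
    intro x
    obtain ⟨⟨a, b⟩, hab⟩ := hbij.2 x
    exact ⟨a, b, hab.symm⟩
  have hfix' : ∀ x, σ x = x → x ∈ F₀ := by
    intro x hx
    obtain ⟨α, β, rfl⟩ := hdec x
    rw [map_add, map_mul, hfix, hfix] at hx
    have h1 : (σ w - w) * β = 0 := by linear_combination hx
    rcases mul_eq_zero.1 h1 with h | h
    · exact absurd (sub_eq_zero.1 h) hw
    · rw [h, mul_zero, add_zero]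
      exact SetLike.coe_mem _
  have hσζ : σ ζ = -ζ := by rw [hσ, eq_neg_iff_add_eq_zero, add_comm]; exact hζ
  -- decomposition of vectors
  have hvec : ∀ u : Fin n → F, ∃ a b : Fin n → F₀, u = rv P a + w • rv P b := by
    intro u
    choose α β hαβ using fun i => hdec ((ap P⁻¹ u) i)
    refine ⟨α, β, ?_⟩
    rw [rv, rv, ← ap_smul, ← ap_add]
    rw [← ap_ap_inv P u]
    congr 1
    funext i
    rw [hαβ i]
    rfl
  have hBmem : ∀ u v : Fin n → F₀, ζ * B (rv P v) (rv P u) ∈ F₀ := by
    intro u v
    rw [hBq]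
    exact hP (cv F₀ u) (cv F₀ v) (fun i => (u i).2) (fun i => (v i).2)
  -- the alternating form
  let f₀ : (Fin n → F₀) →ₗ[F₀] (Fin n → F₀) →ₗ[F₀] F₀ :=
    LinearMap.mk₂ F₀ (fun u v => ⟨ζ * B (rv P v) (rv P u), hBmem u v⟩)
      (fun u u' v => Subtype.ext (by
        change ζ * B (rv P v) (rv P (u + u')) = ζ * B (rv P v) (rv P u) + ζ * B (rv P v) (rv P u')
        rw [rv_add, map_add, mul_add]))
      (fun c u v => Subtype.ext (by
        change ζ * B (rv P v) (rv P (c • u)) = c * (ζ * B (rv P v) (rv P u))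
        rw [rv_smul, map_smul, smul_eq_mul]
        ring))
      (fun u v v' => Subtype.ext (by
        change ζ * B (rv P (v + v')) (rv P u) = ζ * B (rv P v) (rv P u) + ζ * B (rv P v') (rv P u)
        rw [rv_add, map_add, LinearMap.add_apply, mul_add]))
      (fun c u v => Subtype.ext (by
        change ζ * B (rv P (c • v)) (rv P u) = c * (ζ * B (rv P v) (rv P u))
        rw [rv_smul, LinearMap.map_smulₛₗ, LinearMap.smul_apply, smul_eq_mul, hfix]
        ring))
  have hf₀ : ∀ u v, ((f₀ u v : F₀) : F) = ζ * B (rv P v) (rv P u) := fun u v => rfl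
  have hiso : ∀ v : Fin n → F₀, B (rv P v) (rv P v) = 0 := by
    intro v
    rw [hBq]
    exact halt (cv F₀ v) (fun i => (v i).2)
  have hA : Alt f₀ := by
    refine ⟨fun v => Subtype.ext ?_, fun v hv => ?_⟩
    · rw [hf₀, hiso, mul_zero]
      rfl
    · have h1 : B (rv P v) = 0 := by
        refine ext_rv P (fun x : Fin n → F₀ => ?_)
        have h2 := congrArg (fun x : F₀ => (x : F)) (hv x)
        rw [hf₀] at h2
        exact (mul_eq_zero.1 h2).resolve_left hζ0
      have h2 : rv P v = 0 := hB.nd _ (fun u => by rw [h1, LinearMap.zero_apply])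
      rw [← rv_zero P] at h2
      exact rv_inj P h2
  set G := Cfsg.GU n F q ⊓ Cfsg.Geo.specialLinear (Fin n) F with hG
  set M₀ := Cfsg.Geo.subfieldSubgroup F₀ P ⊓ G with hM₀
  have hUC : ∀ v : Fin n → F₀, UC B M₀ (rv P v) := by
    intro v c hc g hg
    have h1 : c * ζ⁻¹ ∈ F₀ := by
      apply hfix'
      rw [map_mul, map_inv₀, hσζ, inv_neg, show σ c = -c by rw [eq_neg_iff_add_eq_zero, add_comm]; exact hc]
      ring
    refine ⟨mem_subfield_of P one_ne_zero (fun x => ⟨x + (⟨c * ζ⁻¹, h1⟩ * f₀ x v) • v, ?_⟩), ?_, ?_⟩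
    · rw [one_smul, hg, rv_add, rv_smul, LinearMap.smul_apply, smul_eq_mul, MulMemClass.coe_mul, hf₀]
      congr 2
      change _ = c * ζ⁻¹ * _
      field_simp
    · exact (hGU g).2 (isom_utv hB.symm (hiso v) hc hg)
    · exact IsTv.mem_SL (by rw [LinearMap.smul_apply, hiso, smul_zero]) hg
  have main : ∀ K : Subgroup (Matrix.GeneralLinearGroup (Fin n) F), M₀ ≤ K → K ≤ G → (∃ g ∈ K, g ∉ M₀) → G ≤ K := by
    rintro K hMK hKG ⟨g, hgK, hgM⟩
    have hUCK : ∀ v : Fin n → F₀, UC B K (rv P v) := fun v c hc g hg => hMK (hUC v c hc g hg)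
    have hΦ : ∀ g₀ : Matrix.GeneralLinearGroup (Fin n) F₀, IsIso f₀ g₀ → Φ P g₀ ∈ K := by
      intro g₀ hg₀
      refine iso_mem (M := K.comap (Φ P)) hA (fun v c k hk => ?_) hg₀
      rw [Subgroup.mem_comap]
      refine hUCK v (c * ζ) (by rw [map_mul, hfix, hσζ]; ring) _ ?_
      have h1 : lin (Φ P k) = LinearMap.id + ((c * ζ) • B (rv P v)).smulRight (rv P v) := by
        refine ext_rv P (fun x : Fin n → F₀ => ?_)
        rw [lin_apply, ap_Φ, hk, rv_add, rv_smul, LinearMap.add_apply, LinearMap.smulRight_apply, LinearMap.id_apply,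
          LinearMap.smul_apply, smul_eq_mul, MulMemClass.coe_mul, hf₀, mul_assoc]
      intro x
      exact LinearMap.congr_fun h1 x
    obtain ⟨x, hx⟩ : ∃ x : Fin n → F₀, ∀ (l : F) (v : Fin n → F₀), ap g (rv P x) ≠ l • rv P v := by
      by_contra hcon
      push Not at hcon
      exact hgM ⟨mem_subfield_of_points P hcon, hKG hgK⟩
    have hgi : Isom B g := (hGU g).1 (hKG hgK).1
    have hy : UC B K (ap g (rv P x)) := (hUCK x).conj hgK hgi
    have hy0 : B (ap g (rv P x)) (ap g (rv P x)) = 0 := by rw [hgi, hiso]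
    obtain ⟨a, b, hab⟩ := hvec (ap g (rv P x))
    -- dependent pairs
    have hdep : ∀ a b : Fin n → F₀, ¬ LinearIndependent F₀ ![a, b] → ∃ (l : F) (v : Fin n → F₀),
        rv P a + w • rv P b = l • rv P v := by
      intro a b h
      rw [LinearIndependent.pair_iff] at h
      push Not at h
      obtain ⟨s, t, hst, hst'⟩ := h
      by_cases ht : t = 0
      · have hs : s ≠ 0 := fun h0 => hst' h0 ht
        rw [ht, zero_smul, add_zero] at hst
        have ha := (smul_eq_zero.1 hst).resolve_left hs
        exact ⟨w, b, by rw [ha, rv_zero, zero_add]⟩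
      · have hb : b = (-(t⁻¹ * s)) • a := by
          have h1 : t • b = -(s • a) := by rw [eq_neg_iff_add_eq_zero, add_comm]; exact hst
          have h2 : b = t⁻¹ • (t • b) := by rw [smul_smul, inv_mul_cancel₀ ht, one_smul]
          rw [h2, h1, smul_neg, smul_smul, neg_smul]
        refine ⟨1 + w * ((-(t⁻¹ * s) : F₀) : F), a, ?_⟩
        rw [hb, rv_smul, smul_smul, add_smul, one_smul]
    have hperp : ∀ a b : Fin n → F₀, B (rv P a + w • rv P b) (rv P a + w • rv P b) = 0 → f₀ a b = 0 := by
      intro a b h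
      have h1 : ∀ x y : Fin n → F₀, ζ * B (rv P x) (rv P y) + ζ * B (rv P y) (rv P x) = 0 := by
        intro x y
        have := congrArg (fun x : F₀ => (x : F)) (hA.skew x y)
        rw [NegMemClass.coe_neg, hf₀, hf₀] at this
        linear_combination this
      simp only [map_add, LinearMap.add_apply, map_smul, LinearMap.map_smulₛₗ, LinearMap.smul_apply, smul_eq_mul, hiso,
        mul_zero, add_zero, zero_add] at h
      apply Subtype.ext
      rw [hf₀]
      have h2 : (w - σ w) * (ζ * B (rv P b) (rv P a)) = 0 := by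
        linear_combination (-ζ) * h + w * (h1 a b)
      rcases mul_eq_zero.1 h2 with h3 | h3
      · exact absurd (sub_eq_zero.1 h3).symm hw
      · exact h3
    have hli : LinearIndependent F₀ ![a, b] := by
      by_contra hcon
      obtain ⟨l, v, hlv⟩ := hdep a b hcon
      exact hx l v (hab.trans hlv)
    have hfab : f₀ a b = 0 := hperp a b (by rw [← hab]; exact hy0)
    -- all the isotropic vectors
    have hall : ∀ u, B u u = 0 → UC B K u := by
      intro u hu
      obtain ⟨a', b', rfl⟩ := hvec u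
      by_cases hli' : LinearIndependent F₀ ![a', b']
      · have hfab' : f₀ a' b' = 0 := hperp a' b' hu
        obtain ⟨k, hk, hkab⟩ := witt_families (step_alt (B := f₀) hA.alt hA.nd) 2 ![a, b] ![a', b'] hli hli' (by
          intro i j
          fin_cases i <;> fin_cases j <;>
          simp [hA.alt, hfab, hfab', hA.skew_zero hfab, hA.skew_zero hfab']) (fun _ => rfl)
        obtain ⟨k₀, hk₀⟩ := exists_ap k
        have h1 : IsIso f₀ k₀ := fun x y => by
          rw [hk₀, hk₀]
          exact hk.1 x y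
        have h2 := hΦ k₀ h1
        have h3 := hy.conj h2 ((hGU _).1 (hKG h2).1)
        rw [hab, ap_add, ap_smul, ap_Φ, ap_Φ, hk₀, hk₀] at h3
        have h4 := hkab 0
        have h5 := hkab 1
        simp only [Matrix.cons_val_zero, Matrix.cons_val_one] at h4 h5
        rwa [h4, h5] at h3
      · obtain ⟨l, v, hlv⟩ := hdep a' b' hli'
        rw [hlv]
        exact (hUCK v).smul hB.inv l
    intro k hk
    exact su_le hB (by rw [Fintype.card_fin]; omega) hall ((hGU k).1 hk.1) hk.2
  refine ⟨lt_of_le_of_ne inf_le_right ?_, ?_⟩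
  · intro heq
    obtain ⟨a, b, hli, hab⟩ : ∃ a b : Fin n → F₀, LinearIndependent F₀ ![a, b] ∧ f₀ a b = 0 := by
      have ha0 : (Pi.single ⟨0, by omega⟩ 1 : Fin n → F₀) ≠ 0 := by
        intro h
        have := congrFun h ⟨0, by omega⟩
        simp at this
      refine ⟨Pi.single ⟨0, by omega⟩ 1, ?_⟩
      by_contra hcon
      push Not at hcon
      have h1 : LinearMap.ker (f₀ (Pi.single ⟨0, by omega⟩ 1)) ≤ Submodule.span F₀ {(Pi.single ⟨0, by omega⟩ 1 : Fin n → F₀)} := by
        intro v hv
        by_contra hv'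
        refine hcon v ?_ hv
        rw [LinearIndependent.pair_iff]
        intro s t hst
        have ht : t = 0 := by
          by_contra ht
          apply hv'
          have h1 : t • v = -(s • (Pi.single ⟨0, by omega⟩ 1 : Fin n → F₀)) := by
            rw [eq_neg_iff_add_eq_zero, add_comm]; exact hst
          have h2 : v = t⁻¹ • (t • v) := by rw [smul_smul, inv_mul_cancel₀ ht, one_smul]
          rw [h2, h1, smul_neg, smul_smul]
          exact Submodule.neg_mem _ (Submodule.smul_mem _ _ (Submodule.mem_span_singleton_self _))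
        rw [ht, zero_smul, add_zero] at hst
        exact ⟨(smul_eq_zero.1 hst).resolve_right ha0, ht⟩
      have h2 := Submodule.finrank_mono h1
      rw [finrank_span_singleton ha0] at h2
      have h4 := LinearMap.finrank_range_add_finrank_ker (f₀ (Pi.single ⟨0, by omega⟩ 1))
      have h5 : finrank F₀ (LinearMap.range (f₀ (Pi.single ⟨0, by omega⟩ 1))) ≤ 1 := by
        have := Submodule.finrank_le (LinearMap.range (f₀ (Pi.single ⟨0, by omega⟩ 1)))
        rwa [finrank_self] at this
      rw [Module.finrank_fin_fun] at h4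
      omega
    have hab' : B (rv P b) (rv P a) = 0 := by
      have := congrArg (fun x : F₀ => (x : F)) hab
      rw [hf₀] at this
      exact (mul_eq_zero.1 this).resolve_left hζ0
    have hy : B (rv P a + w • rv P b) (rv P a + w • rv P b) = 0 := by
      simp only [map_add, LinearMap.add_apply, map_smul, LinearMap.map_smulₛₗ, LinearMap.smul_apply, hiso, hab',
        hB.zero_swap hab', smul_zero, add_zero]
    have ha0 : a ≠ 0 := hli.ne_zero 0
    have hra : rv P a ≠ 0 := by
      intro h0
      rw [← rv_zero P] at h0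
      exact ha0 (rv_inj P h0)
    obtain ⟨g, hg, hga⟩ := trans_iso hB (C := ⊤) (fun x _ h => hB.nd' x (fun y => h y Submodule.mem_top))
      (by rw [finrank_top, finrank_fintype_fun_eq_card, Fintype.card_fin]; omega) Submodule.mem_top Submodule.mem_top (hiso a) hy hra (by
      intro h0
      refine not_rational P hli hwF 0 0 ?_
      rw [h0, zero_smul])
    have hgG : g ∈ G := ⟨(hGU g).2 (TC_le_FixG hB hg).1, TC_le_SL hg⟩
    rw [← heq] at hgG
    obtain ⟨l, -, hl⟩ := of_mem_subfield P hgG.1
    obtain ⟨v, hv⟩ := hl a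
    exact not_rational P hli hwF l v (hga.symm.trans hv)
  · intro K hMK hKG
    by_cases h : K ≤ M₀
    · exact Or.inl (le_antisymm h hMK)
    · right
      obtain ⟨g, hg, hg'⟩ := SetLike.not_le_iff_exists.1 h
      exact le_antisymm hKG (main K hMK hKG ⟨g, hg, hg'⟩)

end Cfsg.Agent.S5660
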