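import Cfsg.Statements.S5674
import Cfsg.Agent.H7.OrthStd

set_option autoImplicit false
open Cfsg
open Module Cfsg.Agent.H7.Orth Cfsg.Agent.H7.Witt Cfsg.Agent.H7.Tv

namespace Cfsg.Agent.S5674

/-- Let F be a finite field of odd order, m ≥ 6, Q the standard quadratic form x₀² + Σ x_i y_i on F^(2m+1) and Ω the commutator subgroup of its isometry group inside GL_(2m+1)(F). The elements of Ω stabilising a non-zero subspace on which Q vanishes form a maximal subgroup of Ω. -/
theorem result {F : Type*} [Field F] [Fintype F] (hodd : Odd (Fintype.card F)) (m : ℕ) (hm : 6 ≤ m) (W : Submodule F (Unit ⊕ (Fin m ⊕ Fin m) → F)) (hW0 : W ≠ ⊥) (hW : Cfsg.Geo.IsTotallySingularQuad (Cfsg.quadFormOdd m F) W) : Cfsg.Geo.IsMaximalIn (Cfsg.Geo.omegaGL (Cfsg.quadFormOdd m F)) (Cfsg.Geo.subspaceStabilizer W ⊓ Cfsg.Geo.omegaGL (Cfsg.quadFormOdd m F)) := by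
  have h2 := two_ne_zero_of_odd hodd
  obtain ⟨B, hQ, hB⟩ := exists_qf (quadFormOdd_nd (m := m) h2)
  have hc : Fintype.card (Unit ⊕ (Fin m ⊕ Fin m)) = 2 * m + 1 := by simp; ring
  refine sing_max hQ (by omega) hW0 hW ?_
  by_cases h : 2 * finrank F W + 3 ≤ Fintype.card (Unit ⊕ (Fin m ⊕ Fin m))
  · exact Or.inl h
  · right
    intro U hU hWU
    have h1 := ts_dim hQ hU
    have h3 := Submodule.eq_of_le_of_finrank_le hWU (by omega)
    exact h3.ge

end Cfsg.Agent.S5674
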