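import Cfsg.Statements.S5675
import Cfsg.Agent.H7.OrthStd

set_option autoImplicit false
open Cfsg
open Module Cfsg.Agent.H7.Orth Cfsg.Agent.H7.Witt Cfsg.Agent.H7.Tv

namespace Cfsg.Agent.S5675

/-- Let F be a finite field of odd order q, m ≥ 6, Q the standard quadratic form on F^(2m+1) and Ω the commutator subgroup of its isometry group. Let W be a non-zero subspace of even dimension on which the polar form of Q is non-degenerate; exclude the case q = 3, dim W = 2 with Q vanishing on some line of W (a plus-type plane). Then the elements of Ω stabilising W (equivalently, stabilising its orthogonal complement, of odd dimension) form a maximal subgroup of Ω. -/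
theorem result {F : Type*} [Field F] [Fintype F] (hodd : Odd (Fintype.card F)) (m : ℕ) (hm : 6 ≤ m) (W : Submodule F (Unit ⊕ (Fin m ⊕ Fin m) → F)) (hW0 : W ≠ ⊥) (hev : Even (Module.finrank F W)) (hW : Cfsg.Geo.IsNondegenerateOn (QuadraticMap.polar (Cfsg.quadFormOdd m F)) W) (hex : ¬ (Fintype.card F = 3 ∧ Module.finrank F W = 2 ∧ Cfsg.Geo.IsPlusTypeOn (Cfsg.quadFormOdd m F) W)) : Cfsg.Geo.IsMaximalIn (Cfsg.Geo.omegaGL (Cfsg.quadFormOdd m F)) (Cfsg.Geo.subspaceStabilizer W ⊓ Cfsg.Geo.omegaGL (Cfsg.quadFormOdd m F)) := by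
  have h2 := two_ne_zero_of_odd hodd
  obtain ⟨B, hQ, hB⟩ := exists_qf (quadFormOdd_nd (m := m) h2)
  have hc : Fintype.card (Unit ⊕ (Fin m ⊕ Fin m)) = 2 * m + 1 := by simp; ring
  have hp := hQ.finrank_prp W
  obtain ⟨r, hr⟩ := hev
  refine nd_max_gen hQ (by omega) (nds_of hB hW) hW0 ?_ (fun h => by omega) ?_ (fun _ h => by omega)
  · rintro rfl
    rw [finrank_top, Module.finrank_fintype_fun_eq_card] at hr
    omega
  · rintro ⟨e, he, he0, hqe⟩ hf
    apply exists_unit_sq_ne_one
    by_contra h4
    have h5 : Fintype.card F = 3 := by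
      have h6 := Fintype.one_lt_card (α := F)
      obtain ⟨s, hs⟩ := hodd
      omega
    apply hex
    refine ⟨h5, hf, Submodule.span F {e}, ?_, ?_, ?_⟩
    · rw [Submodule.span_singleton_le_iff_mem]; exact he
    · intro w hw
      obtain ⟨c, rfl⟩ := Submodule.mem_span_singleton.1 hw
      rw [hQ.smul, hqe, mul_zero]
    · rw [finrank_span_singleton he0, hf]

end Cfsg.Agent.S5675
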