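import Cfsg.Statements.S5676
import Cfsg.Agent.H7.Dick4

set_option autoImplicit false
open Cfsg
open Module Cfsg.Agent.H7.Orth Cfsg.Agent.H7.Witt Cfsg.Agent.H7.Tv

namespace Cfsg.Agent.S5676

/-- Let F be the field with 3 elements, m ≥ 6, Q the standard quadratic form on F^(2m+1) and Ω the commutator subgroup of its isometry group. Let W be a 2-dimensional subspace on which the polar form is non-degenerate and which contains a line on which Q vanishes. Then the elements of Ω stabilising W form a subgroup that is not maximal: some subgroup lies strictly between it and Ω. -/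
theorem result {F : Type*} [Field F] [Fintype F] (hq : Fintype.card F = 3) (m : ℕ) (hm : 6 ≤ m) (W : Submodule F (Unit ⊕ (Fin m ⊕ Fin m) → F)) (hdim : Module.finrank F W = 2) (hW : Cfsg.Geo.IsNondegenerateOn (QuadraticMap.polar (Cfsg.quadFormOdd m F)) W) (hplus : Cfsg.Geo.IsPlusTypeOn (Cfsg.quadFormOdd m F) W) : ∃ K : Subgroup (Matrix.GeneralLinearGroup (Unit ⊕ (Fin m ⊕ Fin m)) F), Cfsg.Geo.subspaceStabilizer W ⊓ Cfsg.Geo.omegaGL (Cfsg.quadFormOdd m F) < K ∧ K < Cfsg.Geo.omegaGL (Cfsg.quadFormOdd m F) := by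
  have h2 : (2 : F) ≠ 0 := two_ne_zero_of_odd (by rw [hq]; decide)
  obtain ⟨B, hQ', hB⟩ := exists_qf (quadFormOdd_nd (m := m) h2)
  have hc : Fintype.card (Unit ⊕ (Fin m ⊕ Fin m)) = 1 + (m + m) := by simp
  have h5 : 5 ≤ Fintype.card (Unit ⊕ (Fin m ⊕ Fin m)) := by omega
  rw [omega_eq hQ' h5]
  obtain ⟨P, hPW, hP, hdP⟩ := hplus
  obtain ⟨e, he, he0⟩ := exists_ne_zero_of_finrank (M := P) (by omega)
  exact plus_plane hQ' h5 (fun l hl => unit_sq_of_card_le (by omega) l hl) (nds_of hB hW) hdim (hPW he) he0 (hP e he)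

end Cfsg.Agent.S5676
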