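import Cfsg.Statements.S5678
import Cfsg.Agent.H7.Dick5

set_option autoImplicit false
open Cfsg
open Module Cfsg.Agent.H7.Orth Cfsg.Agent.H7.Witt Cfsg.Agent.H7.Tv

namespace Cfsg.Agent.S5678

/-- Let F be the field with 3 elements, m ≥ 6, Q the standard quadratic form on F^(2m+1) and Ω the commutator subgroup of its isometry group. Let D be a decomposition of F^(2m+1) into t pairwise orthogonal, pairwise Q-isometric 3-dimensional subspaces on which the polar form is non-degenerate. Then the elements of Ω permuting the members of D form a subgroup that is not maximal: some subgroup lies strictly between it and Ω. -/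
theorem result {F : Type*} [Field F] [Fintype F] (hq : Fintype.card F = 3) (m : ℕ) (hm : 6 ≤ m) {t : ℕ} (D : Fin t → Submodule F (Unit ⊕ (Fin m ⊕ Fin m) → F)) (hD : Cfsg.Geo.IsOrthogonalMDecomposition (Cfsg.quadFormOdd m F) 3 D) : ∃ K : Subgroup (Matrix.GeneralLinearGroup (Unit ⊕ (Fin m ⊕ Fin m)) F), Cfsg.Geo.decompositionStabilizer D ⊓ Cfsg.Geo.omegaGL (Cfsg.quadFormOdd m F) < K ∧ K < Cfsg.Geo.omegaGL (Cfsg.quadFormOdd m F) := by
  have h2 : (2 : F) ≠ 0 := two_ne_zero_of_odd (by rw [hq]; decide)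
  obtain ⟨B, hQ', hB⟩ := exists_qf (quadFormOdd_nd (m := m) h2)
  have hc : Fintype.card (Unit ⊕ (Fin m ⊕ Fin m)) = 1 + (m + m) := by simp
  have h5 : 5 ≤ Fintype.card (Unit ⊕ (Fin m ⊕ Fin m)) := by omega
  have hF : ∀ l : F, l ≠ 0 → l * l = 1 := fun l hl => unit_sq_of_card_le (by omega) l hl
  have h3 : (3 : F) = 0 := by linear_combination hF 2 h2
  rw [omega_eq hQ' h5]
  have h0 := hD.decomp.decomp.two_le
  exact dec_not_max hQ' hB h5 h2 h3 D hD ⟨0, by omega⟩
    (frame_three hQ' hF h2 (nds_of hB (hD.decomp.nondegenerate _)) (hD.decomp.decomp.finrank_eq _))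

end Cfsg.Agent.S5678
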