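import Cfsg.Statements.S5687
import Cfsg.Agent.H7.OrthStd

set_option autoImplicit false
open Cfsg
open Module Cfsg.Agent.H7.Orth Cfsg.Agent.H7.Witt Cfsg.Agent.H7.Tv

namespace Cfsg.Agent.S5687

/-- Let F be a finite field with q elements, n ≥ 13 even, Q a non-degenerate quadratic form on F^n of minus type (no subspace of dimension n/2 is totally singular), and Ω the commutator subgroup of the isometry group of Q, viewed inside GL_n(F). The elements of Ω stabilising a non-zero subspace on which Q vanishes form a maximal subgroup of Ω. -/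
theorem result {F : Type*} [Field F] [Fintype F] {n : ℕ} (hn : 13 ≤ n) (heven : Even n) (Q : (Fin n → F) → F) (hQ : Cfsg.Geo.IsNondegenerateQuadraticForm Q) (hminus : ¬ Cfsg.Geo.IsPlusTypeOn Q ⊤) (W : Submodule F (Fin n → F)) (hW0 : W ≠ ⊥) (hW : Cfsg.Geo.IsTotallySingularQuad Q W) : Cfsg.Geo.IsMaximalIn (Cfsg.Geo.omegaGL Q) (Cfsg.Geo.subspaceStabilizer W ⊓ Cfsg.Geo.omegaGL Q) := by
  obtain ⟨B, hQ', hB⟩ := exists_qf hQ
  have hc : Fintype.card (Fin n) = n := Fintype.card_fin n
  refine sing_max hQ' (by omega) hW0 hW ?_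
  by_cases h : 2 * finrank F W + 3 ≤ Fintype.card (Fin n)
  · exact Or.inl h
  · right
    intro U hU hWU
    have h1 := ts_dim hQ' hU
    obtain ⟨r, hr⟩ := heven
    by_contra h4
    have h5 : W < U := lt_of_le_not_ge hWU h4
    have h6 := Submodule.finrank_lt_finrank_of_lt h5
    apply hminus
    refine ⟨U, le_top, hU, ?_⟩
    rw [finrank_top, Module.finrank_fintype_fun_eq_card]
    omega

end Cfsg.Agent.S5687
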