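import Cfsg.Statements.S5688
import Cfsg.Agent.H7.OrthStd

set_option autoImplicit false
open Cfsg
open Module Cfsg.Agent.H7.Orth Cfsg.Agent.H7.Witt Cfsg.Agent.H7.Tv

namespace Cfsg.Agent.S5688

/-- Let F be a finite field with q elements, n ≥ 13 even, Q a non-degenerate quadratic form on F^n of plus type (some subspace of dimension n/2 is totally singular), and Ω the commutator subgroup of the isometry group of Q, viewed inside GL_n(F). Let W be a non-zero proper subspace with dim W ≠ n/2 on which the polar form of Q is non-degenerate. Exclude the case q ≤ 3 in which W, or its orthogonal complement, is a plane containing a line on which Q vanishes. Then the elements of Ω stabilising W form a maximal subgroup of Ω. -/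
theorem result {F : Type*} [Field F] [Fintype F] {n : ℕ} (hn : 13 ≤ n) (heven : Even n) (Q : (Fin n → F) → F) (hQ : Cfsg.Geo.IsNondegenerateQuadraticForm Q) (hplus : Cfsg.Geo.IsPlusTypeOn Q ⊤) (W : Submodule F (Fin n → F)) (hW0 : W ≠ ⊥) (hW1 : W ≠ ⊤) (hdim : 2 * Module.finrank F W ≠ n) (hW : Cfsg.Geo.IsNondegenerateOn (QuadraticMap.polar Q) W) (hex : ¬ (Fintype.card F ≤ 3 ∧ (∃ U : Submodule F (Fin n → F), Module.finrank F U = 2 ∧ Cfsg.Geo.IsNondegenerateOn (QuadraticMap.polar Q) U ∧ Cfsg.Geo.IsPlusTypeOn Q U ∧ (U = W ∨ (Cfsg.Geo.AreOrthogonalFor (QuadraticMap.polar Q) U W ∧ Module.finrank F U + Module.finrank F W = n))))) : Cfsg.Geo.IsMaximalIn (Cfsg.Geo.omegaGL Q) (Cfsg.Geo.subspaceStabilizer W ⊓ Cfsg.Geo.omegaGL Q) := by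
  obtain ⟨B, hQ', hB⟩ := exists_qf hQ
  have hc : Fintype.card (Fin n) = n := Fintype.card_fin n
  have hp := hQ'.finrank_prp W
  have hWn := nds_of hB hW
  have key : ∀ U : Submodule F (Fin n → F), NdS B U → (U = W ∨ U = prp B W) → (∃ e ∈ U, e ≠ 0 ∧ Q e = 0) → finrank F U = 2 →
      ∃ l : F, l ≠ 0 ∧ l * l ≠ 1 := by
    rintro U hU hUW ⟨e, he, he0, hqe⟩ hf
    apply exists_unit_sq_ne_one
    by_contra h4
    apply hex
    refine ⟨by omega, U, hf, ?_, ⟨Submodule.span F {e}, ?_, ?_, ?_⟩, ?_⟩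
    · intro w hw hw0
      have h5 : ∃ x ∈ U, B w x ≠ 0 := by
        by_contra hcon
        push Not at hcon
        exact hw0 (hU w hw hcon)
      obtain ⟨x, hx, hwx⟩ := h5
      exact ⟨⟨x, hx, by rw [hB, hQ'.symm]; exact hwx⟩, ⟨x, hx, by rw [hB]; exact hwx⟩⟩
    · rw [Submodule.span_singleton_le_iff_mem]; exact he
    · intro w hw
      obtain ⟨c, rfl⟩ := Submodule.mem_span_singleton.1 hw
      rw [hQ'.smul, hqe, mul_zero]
    · rw [finrank_span_singleton he0, hf]
    · rcases hUW with rfl | rfl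
      · exact Or.inl rfl
      · right
        refine ⟨fun u hu v hv => ?_, by omega⟩
        rw [hB, hQ'.symm]
        exact hu v hv
  exact nd_max_gen hQ' (by omega) hWn hW0 hW1 (fun h => absurd h (by omega)) (key W hWn (Or.inl rfl))
    (key _ (nd_prp hQ' hWn) (Or.inr rfl))

end Cfsg.Agent.S5688
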