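import Cfsg.Statements.S5695
import Cfsg.Agent.H7.Dick5

set_option autoImplicit false
open Cfsg
open Module Cfsg.Agent.H7.Orth Cfsg.Agent.H7.Witt Cfsg.Agent.H7.Tv

namespace Cfsg.Agent.S5695

/-- Let F be a finite field with q elements, n ≥ 13 even, Q a non-degenerate quadratic form on F^n of minus type (no subspace of dimension n/2 is totally singular), and Ω the commutator subgroup of the isometry group of Q, viewed inside GL_n(F). Suppose q = 3 and let D be a decomposition of F^n into t ≥ 2 pairwise orthogonal, pairwise Q-isometric subspaces of equal dimension k ∈ {2, 3} on which the polar form is non-degenerate (for k = 3 the discriminant of Q is a square; for k = 2, t is odd and no member is of plus type). Then the elements of Ω permuting the members of D form a subgroup that is not maximal: some subgroup lies strictly between it and Ω. -/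
theorem result {F : Type*} [Field F] [Fintype F] {n : ℕ} (hn : 13 ≤ n) (heven : Even n) (Q : (Fin n → F) → F) (hQ : Cfsg.Geo.IsNondegenerateQuadraticForm Q) (hminus : ¬ Cfsg.Geo.IsPlusTypeOn Q ⊤) (hq : Fintype.card F = 3) {t : ℕ} (k : ℕ) (hk : k = 2 ∨ k = 3) (D : Fin t → Submodule F (Fin n → F)) (hD : Cfsg.Geo.IsOrthogonalMDecomposition Q k D) (hko : Odd k → Cfsg.Geo.HasSquareDiscriminant Q) (hke : Even k → (Odd t ∧ ∀ i, ¬ Cfsg.Geo.IsPlusTypeOn Q (D i))) : ∃ K : Subgroup (Matrix.GeneralLinearGroup (Fin n) F), Cfsg.Geo.decompositionStabilizer D ⊓ Cfsg.Geo.omegaGL Q < K ∧ K < Cfsg.Geo.omegaGL Q := by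
  have h2 : (2 : F) ≠ 0 := two_ne_zero_of_odd (by rw [hq]; decide)
  obtain ⟨B, hQ', hB⟩ := exists_qf hQ
  have hc : Fintype.card (Fin n) = n := Fintype.card_fin n
  have h5 : 5 ≤ Fintype.card (Fin n) := by omega
  have hF : ∀ l : F, l ≠ 0 → l * l = 1 := fun l hl => unit_sq_of_card_le (by omega) l hl
  have h3 : (3 : F) = 0 := by linear_combination hF 2 h2
  rw [omega_eq hQ' h5]
  have h0 := hD.decomp.decomp.two_le
  refine dec_not_max hQ' hB h5 h2 h3 D hD ⟨0, by omega⟩ ?_
  have hd := hD.decomp.decomp.finrank_eq ⟨0, by omega⟩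
  rcases hk with rfl | rfl
  · refine frame_aniso hQ' hF h2 hd (fun v hv hqv => ?_)
    by_contra hv0
    apply (hke even_two).2 ⟨0, by omega⟩
    refine ⟨Submodule.span F {v}, by rw [Submodule.span_singleton_le_iff_mem]; exact hv, ?_, ?_⟩
    · intro w hw
      obtain ⟨l, rfl⟩ := Submodule.mem_span_singleton.1 hw
      rw [hQ'.smul, hqv, mul_zero]
    · rw [finrank_span_singleton hv0, hd]
  · exact frame_three hQ' hF h2 (nds_of hB (hD.decomp.nondegenerate _)) hd

end Cfsg.Agent.S5695
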