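import Cfsg.Statements.S5697
import Cfsg.Agent.H7.OrthPair
import Cfsg.Agent.H7.Pair2

set_option autoImplicit false
open Cfsg
open Module Cfsg.Agent.H7.Orth Cfsg.Agent.H7.Witt Cfsg.Agent.H7.Tv

namespace Cfsg.Agent.S5697

/-- Let F be a finite field with q elements, n ≥ 13 even, Q a non-degenerate quadratic form on F^n of plus type (some subspace of dimension n/2 is totally singular), and Ω the commutator subgroup of the isometry group of Q, viewed inside GL_n(F). Suppose n/2 is even and let D be a decomposition of F^n into two complementary subspaces of dimension n/2 on each of which Q vanishes. Then the elements of Ω preserving or interchanging the two subspaces form a maximal subgroup of Ω. -/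
theorem result {F : Type*} [Field F] [Fintype F] {n : ℕ} (hn : 13 ≤ n) (heven : Even n) (Q : (Fin n → F) → F) (hQ : Cfsg.Geo.IsNondegenerateQuadraticForm Q) (hplus : Cfsg.Geo.IsPlusTypeOn Q ⊤) (k : ℕ) (hk : 2 * k = n) (hke : Even k) (D : Fin 2 → Submodule F (Fin n → F)) (hD : Cfsg.Geo.IsMDecomposition k D) (hts : ∀ i, Cfsg.Geo.IsTotallySingularQuad Q (D i)) : Cfsg.Geo.IsMaximalIn (Cfsg.Geo.omegaGL Q) (Cfsg.Geo.decompositionStabilizer D ⊓ Cfsg.Geo.omegaGL Q) := by
  obtain ⟨B, hQ', hB⟩ := exists_qf hQ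
  have hc : Fintype.card (Fin n) = n := Fintype.card_fin n
  have h5 : 5 ≤ Fintype.card (Fin n) := by omega
  have hsup := Cfsg.Agent.H7.Pair.sup_two hD.iSup_eq_top
  have hPS : PS Q B (D 0) (D 1) := by
    refine ⟨hts 0, hts 1, by rw [hD.finrank_eq]; omega, by rw [hD.finrank_eq]; omega, ?_, ?_⟩
    · have := hD.indep.pairwiseDisjoint (show (0 : Fin 2) ≠ 1 by decide)
      exact disjoint_iff.1 this
    · rw [eq_top_iff]
      intro v _
      obtain ⟨a, ha, b, hb, rfl⟩ := hsup v
      exact Submodule.add_mem_sup ha hb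
  rw [omega_eq hQ' h5]
  have hstab : ∀ g : GL (Fin n) F, ((∀ v ∈ D 0, ap g v ∈ D 0) ∧ ∀ v ∈ D 1, ap g v ∈ D 1) ∨
      ((∀ v ∈ D 0, ap g v ∈ D 1) ∧ ∀ v ∈ D 1, ap g v ∈ D 0) → g ∈ Geo.decompositionStabilizer D := by
    rintro g (⟨h0, h1⟩ | ⟨h0, h1⟩)
    · refine ⟨1, fun i => ?_⟩
      fin_cases i
      · exact Cfsg.Agent.H7.Pair.map_eq_of_le h0 rfl
      · exact Cfsg.Agent.H7.Pair.map_eq_of_le h1 rfl
    · refine ⟨Equiv.swap 0 1, fun i => ?_⟩
      fin_cases i
      · exact Cfsg.Agent.H7.Pair.map_eq_of_le h0 (by rw [hD.finrank_eq]; exact (hD.finrank_eq _).symm)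
      · exact Cfsg.Agent.H7.Pair.map_eq_of_le h1 (by rw [hD.finrank_eq]; exact (hD.finrank_eq _).symm)
  have hstab' : ∀ g ∈ Geo.decompositionStabilizer D, (∀ v ∈ D 0, ap g v ∈ D 0) ∨ (∀ v ∈ D 0, ap g v ∈ D 1) := by
    rintro g ⟨σ, hσ⟩
    have h1 := hσ 0
    have h2 : σ 0 = 0 ∨ σ 0 = 1 := by
      generalize σ 0 = x
      fin_cases x <;> simp
    rcases h2 with h2 | h2
    · left
      intro v hv
      rw [h2] at h1
      rw [← h1]
      exact ⟨v, hv, rfl⟩
    · right
      intro v hv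
      rw [h2] at h1
      rw [← h1]
      exact ⟨v, hv, rfl⟩
  have hfA := hD.finrank_eq 0
  refine ⟨lt_of_le_of_ne inf_le_right ?_, ?_⟩
  · intro e
    -- a root element with both vectors in `D 1`
    have hex : ∃ a ∈ D 1, ∃ b ∈ D 1, a ∉ Submodule.span F {b} ∧ b ≠ 0 := by
      have hf1 := hD.finrank_eq 1
      obtain ⟨b, hb, hb0⟩ := exists_ne_zero_of_finrank (M := D 1) (by omega)
      by_contra hcon
      push Not at hcon
      have h1 : D 1 ≤ Submodule.span F {b} := by
        intro a ha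
        by_contra h2
        exact hb0 (hcon a ha b hb h2)
      have h2 := Submodule.finrank_mono h1
      have h3 := Cfsg.Agent.H7.UTv.finrank_span_one (F := F) b
      omega
    obtain ⟨a, ha, b, hb, hab, hb0⟩ := hex
    obtain ⟨w, hw, hwa, hwb⟩ := hPS.symm.exists_dual hQ' (P := Submodule.span F {b})
      (by rw [Submodule.span_singleton_le_iff_mem]; exact hb) ha hab
    have hwb := hwb b (Submodule.mem_span_singleton_self b)
    have hCC := ts_ortho hQ' (hts 1)
    have h1 := root_mem (hts 1 a ha) (hts 1 b hb) (hCC a ha b hb)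
    rw [← e] at h1
    have h2 : ap (Sg Q B a b) w = w + b := by
      rw [ap_Sg' hQ' (hts 1 a ha) (hts 1 b hb) (hCC a ha b hb), hQ'.symm a w, hwa, hQ'.symm b w, hwb]
      module
    have hz : ∀ v, v ∈ D 0 → v ∈ D 1 → v = 0 := by
      intro v h3 h4
      have : v ∈ D 0 ⊓ D 1 := ⟨h3, h4⟩
      rwa [hPS.inf, Submodule.mem_bot] at this
    rcases hstab' _ h1.1 with h3 | h3
    · have h4 := h3 w hw
      rw [h2] at h4
      have h6 := (D 0).sub_mem h4 hw
      rw [add_sub_cancel_left] at h6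
      exact hb0 (hz b h6 hb)
    · have h4 := h3 w hw
      rw [h2] at h4
      have h6 := (D 1).sub_mem h4 hb
      rw [add_sub_cancel_right] at h6
      have h7 := hz w hw h6
      rw [h7, map_zero, LinearMap.zero_apply] at hwa
      exact zero_ne_one hwa
  · intro K hSK hKT
    by_cases hKS : K ≤ Geo.decompositionStabilizer D
    · left
      exact le_antisymm (le_inf hKS hKT) hSK
    right
    apply le_antisymm hKT
    obtain ⟨g, hg, hgS⟩ := SetLike.not_le_iff_exists.1 hKS
    refine hPS.core hQ' (by omega) (by rw [hfA]; exact hke) (fun g hg => TT_le_O hQ' (hKT hg)) (fun g hg h => ?_) hg ?_ ?_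
    · exact hSK ⟨hstab g h, hg⟩
    · intro h; exact hgS (hstab g (Or.inl h))
    · intro h; exact hgS (hstab g (Or.inr h))

end Cfsg.Agent.S5697
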