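import Cfsg.Statements.S5698
import Cfsg.Agent.H7.Dick2
import Cfsg.Agent.H7.Pair2

set_option autoImplicit false
open Cfsg
open Module Cfsg.Agent.H7.Orth Cfsg.Agent.H7.Witt Cfsg.Agent.H7.Tv

namespace Cfsg.Agent.S5698

/-- Let F be a finite field with q elements, n ≥ 13 even, Q a non-degenerate quadratic form on F^n of plus type (some subspace of dimension n/2 is totally singular), and Ω the commutator subgroup of the isometry group of Q, viewed inside GL_n(F). Suppose n/2 is odd and let D be a decomposition of F^n into two complementary subspaces of dimension n/2 on each of which Q vanishes. Then the elements of Ω preserving or interchanging the two subspaces form a subgroup that is not maximal: some subgroup lies strictly between it and Ω. -/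
theorem result {F : Type*} [Field F] [Fintype F] {n : ℕ} (hn : 13 ≤ n) (heven : Even n) (Q : (Fin n → F) → F) (hQ : Cfsg.Geo.IsNondegenerateQuadraticForm Q) (hplus : Cfsg.Geo.IsPlusTypeOn Q ⊤) (k : ℕ) (hk : 2 * k = n) (hko : Odd k) (D : Fin 2 → Submodule F (Fin n → F)) (hD : Cfsg.Geo.IsMDecomposition k D) (hts : ∀ i, Cfsg.Geo.IsTotallySingularQuad Q (D i)) : ∃ K : Subgroup (Matrix.GeneralLinearGroup (Fin n) F), Cfsg.Geo.decompositionStabilizer D ⊓ Cfsg.Geo.omegaGL Q < K ∧ K < Cfsg.Geo.omegaGL Q := by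
  obtain ⟨B, hQ', hB⟩ := exists_qf hQ
  have hc : Fintype.card (Fin n) = n := Fintype.card_fin n
  have h5 : 5 ≤ Fintype.card (Fin n) := by omega
  have hsup := Cfsg.Agent.H7.Pair.sup_two hD.iSup_eq_top
  have hPS : PS Q B (D 0) (D 1) := by
    refine ⟨hts 0, hts 1, by rw [hD.finrank_eq]; omega, by rw [hD.finrank_eq]; omega, ?_, ?_⟩
    · have := hD.indep.pairwiseDisjoint (show (0 : Fin 2) ≠ 1 by decide)
      exact disjoint_iff.1 this
    · rw [eq_top_iff]
      intro v _
      obtain ⟨a, ha, b, hb, rfl⟩ := hsup v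
      exact Submodule.add_mem_sup ha hb
  rw [omega_eq hQ' h5]
  have hz : ∀ v, v ∈ D 0 → v ∈ D 1 → v = 0 := by
    intro v h3 h4
    have : v ∈ D 0 ⊓ D 1 := ⟨h3, h4⟩
    rwa [hPS.inf, Submodule.mem_bot] at this
  have hstab' : ∀ g ∈ Geo.decompositionStabilizer D, ((∀ v ∈ D 0, ap g v ∈ D 0) ∧ ∀ v ∈ D 1, ap g v ∈ D 1) ∨
      ((∀ v ∈ D 0, ap g v ∈ D 1) ∧ ∀ v ∈ D 1, ap g v ∈ D 0) := by
    rintro g ⟨σ, hσ⟩
    have h1 := hσ 0
    have h1' := hσ 1
    have h2 : (σ 0 = 0 ∧ σ 1 = 1) ∨ (σ 0 = 1 ∧ σ 1 = 0) := by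
      revert σ
      intro σ _ _ _
      have h3 : σ 0 ≠ σ 1 := fun h => by have := σ.injective h; exact absurd this (by decide)
      generalize σ 0 = x at *
      generalize σ 1 = y at *
      fin_cases x <;> fin_cases y <;> simp_all
    rcases h2 with ⟨h2, h3⟩ | ⟨h2, h3⟩
    · left
      rw [h2] at h1
      rw [h3] at h1'
      exact ⟨fun v hv => by rw [← h1]; exact ⟨v, hv, rfl⟩, fun v hv => by rw [← h1']; exact ⟨v, hv, rfl⟩⟩
    · right
      rw [h2] at h1
      rw [h3] at h1'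
      exact ⟨fun v hv => by rw [← h1]; exact ⟨v, hv, rfl⟩, fun v hv => by rw [← h1']; exact ⟨v, hv, rfl⟩⟩
  have hmv : ∀ i j : Fin 2, i ≠ j → ∃ a ∈ D i, ∃ b ∈ D i, ∃ w ∈ D j, Sg Q B a b ∈ TT Q B ∧ ap (Sg Q B a b) w = w + b ∧
      b ≠ 0 ∧ w ≠ 0 := by
    intro i j hij
    have hP : PS Q B (D i) (D j) := by
      fin_cases i <;> fin_cases j
      · exact absurd rfl hij
      · exact hPS
      · exact hPS.symm
      · exact absurd rfl hij
    have hex : ∃ a ∈ D i, ∃ b ∈ D i, a ∉ Submodule.span F {b} ∧ b ≠ 0 := by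
      have hf1 := hD.finrank_eq i
      obtain ⟨b, hb, hb0⟩ := exists_ne_zero_of_finrank (M := D i) (by omega)
      by_contra hcon
      push Not at hcon
      have h1 : D i ≤ Submodule.span F {b} := by
        intro a ha
        by_contra h2
        exact hb0 (hcon a ha b hb h2)
      have h2 := Submodule.finrank_mono h1
      have h3 := Cfsg.Agent.H7.UTv.finrank_span_one (F := F) b
      omega
    obtain ⟨a, ha, b, hb, hab, hb0⟩ := hex
    obtain ⟨w, hw, hwa, hwb⟩ := hP.exists_dual hQ' (P := Submodule.span F {b})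
      (by rw [Submodule.span_singleton_le_iff_mem]; exact hb) ha hab
    have hwb := hwb b (Submodule.mem_span_singleton_self b)
    have hCC := ts_ortho hQ' (hts i)
    refine ⟨a, ha, b, hb, w, hw, root_mem (hts i a ha) (hts i b hb) (hCC a ha b hb), ?_, hb0, ?_⟩
    · rw [ap_Sg' hQ' (hts i a ha) (hts i b hb) (hCC a ha b hb), hQ'.symm a w, hwa, hQ'.symm b w, hwb]
      module
    · rintro rfl
      rw [map_zero, LinearMap.zero_apply] at hwa
      exact zero_ne_one hwa
  refine ⟨Geo.subspaceStabilizer (D 0) ⊓ TT Q B, lt_of_le_of_ne ?_ ?_, lt_of_le_of_ne inf_le_right ?_⟩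
  · rintro g ⟨hg, hgT⟩
    refine ⟨?_, hgT⟩
    rcases hstab' g hg with ⟨h0, h1⟩ | ⟨h0, h1⟩
    · exact mem_sstab.2 h0
    · exfalso
      obtain ⟨s, hs, hs0, hs1, hs2⟩ := hPS.swap0 hQ'
      have hgO := TT_le_O hQ' hgT
      have h2 : Cfsg.Agent.H7.Orth.par (s * g) = 0 := by
        apply hPS.par_levi hQ' (mul_mem hs hgO)
        · intro v hv
          rw [ap_mul]; exact hs1 _ (h0 v hv)
        · intro v hv
          rw [ap_mul]; exact hs0 _ (h1 v hv)
      rw [par_mul hQ' h5 hs hgO, par_TT hQ' h5 hgT, hs2, hD.finrank_eq, add_zero] at h2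
      obtain ⟨m, rfl⟩ := hko
      have h3 : ((2 * m + 1 : ℕ) : ZMod 2) = 1 := by
        push_cast
        rw [show (2 : ZMod 2) = 0 from rfl, zero_mul, zero_add]
      rw [h3] at h2
      exact one_ne_zero h2
  · intro e
    obtain ⟨a, ha, b, hb, w, hw, h1, h2, hb0, hw0⟩ := hmv 0 1 (by decide)
    have h3 : Sg Q B a b ∈ Geo.subspaceStabilizer (D 0) ⊓ TT Q B := by
      refine ⟨mem_sstab.2 (fun v hv => ?_), h1⟩
      have hCC := ts_ortho hQ' (hts 0)
      rw [Sg_fix hQ' (hts 0 a ha) (hCC a ha b hb) (hCC a ha v hv) (hCC b hb v hv)]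
      exact hv
    rw [← e] at h3
    rcases hstab' _ h3.1 with h4 | h4
    · have h6 := h4.2 w hw
      rw [h2] at h6
      have h7 := (D 1).sub_mem h6 hw
      rw [add_sub_cancel_left] at h7
      exact hb0 (hz b hb h7)
    · have h6 := h4.2 w hw
      rw [h2] at h6
      have h7 := (D 0).sub_mem h6 hb
      rw [add_sub_cancel_right] at h7
      exact hw0 (hz w h7 hw)
  · intro e
    obtain ⟨a, ha, b, hb, w, hw, h1, h2, hb0, hw0⟩ := hmv 1 0 (by decide)
    rw [← e] at h1
    have h3 : ap (Sg Q B a b) w ∈ D 0 := mem_sstab.1 h1.1 w hw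
    rw [h2] at h3
    have h7 := (D 0).sub_mem h3 hw
    rw [add_sub_cancel_left] at h7
    exact hb0 (hz b h7 hb)

end Cfsg.Agent.S5698
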