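import Cfsg.Statements.S5699
import Cfsg.Agent.H7.OrthStd

set_option autoImplicit false
open Cfsg
open Module Cfsg.Agent.H7.Orth Cfsg.Agent.H7.Witt Cfsg.Agent.H7.Tv

namespace Cfsg.Agent.S5699

/-- Let F be a finite field with q elements, n ≥ 13 even, Q a non-degenerate quadratic form on F^n (of either type), and Ω the commutator subgroup of the isometry group of Q, viewed inside GL_n(F). Let D be a decomposition of F^n into two orthogonal subspaces of odd dimension n/2 on which the polar form is non-degenerate and which are not Q-isometric to each other. Then the elements of Ω permuting (necessarily fixing) the two subspaces form a maximal subgroup of Ω. -/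
theorem result {F : Type*} [Field F] [Fintype F] {n : ℕ} (hn : 13 ≤ n) (heven : Even n) (Q : (Fin n → F) → F) (hQ : Cfsg.Geo.IsNondegenerateQuadraticForm Q) (k : ℕ) (hk : 2 * k = n) (hko : Odd k) (D : Fin 2 → Submodule F (Fin n → F)) (hD : Cfsg.Geo.IsNondegenerateMDecomposition (QuadraticMap.polar Q) k D) (hni : ¬ Cfsg.Geo.AreIsometricFor Q (D 0) (D 1)) : Cfsg.Geo.IsMaximalIn (Cfsg.Geo.omegaGL Q) (Cfsg.Geo.decompositionStabilizer D ⊓ Cfsg.Geo.omegaGL Q) := by
  obtain ⟨B, hQ', hB⟩ := exists_qf hQ
  have hc : Fintype.card (Fin n) = n := Fintype.card_fin n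
  have hf0 := hD.decomp.finrank_eq 0
  have hf1 := hD.decomp.finrank_eq 1
  have hW0n := nds_of hB (hD.nondegenerate 0)
  have hp := hQ'.finrank_prp (D 0)
  have hperp : prp B (D 0) = D 1 := by
    symm
    apply Submodule.eq_of_le_of_finrank_eq
    · intro v hv w hw
      rw [← hB]
      exact hD.orthogonal 0 1 (by decide) w hw v hv
    · omega
  -- elements of `Ω` permuting the members stabilise `D 0`
  have hst : Geo.decompositionStabilizer D ⊓ Geo.omegaGL Q = Geo.subspaceStabilizer (D 0) ⊓ Geo.omegaGL Q := by
    ext g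
    rw [Subgroup.mem_inf, Subgroup.mem_inf]
    constructor
    · rintro ⟨⟨σ, hσ⟩, h4⟩
      refine ⟨?_, h4⟩
      have hgO : g ∈ O Q := TT_le_O hQ' (by rw [← omega_eq hQ' (by omega)]; exact h4)
      have h5 : σ 0 = 0 := by
        by_contra h6
        have h7 : σ 0 = 1 := by
          have : σ 0 = 0 ∨ σ 0 = 1 := by
            generalize σ 0 = x
            fin_cases x <;> simp
          exact this.resolve_left h6
        apply hni
        have h8 := hσ 0
        rw [h7] at h8
        have h9 : (D 0).map (linE g : (Fin n → F) →ₗ[F] (Fin n → F)) = D 1 := h8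
        refine ⟨((linE g).submoduleMap (D 0)).trans (LinearEquiv.ofEq _ _ h9), fun w => ?_⟩
        exact mem_O.1 hgO _
      rw [mem_sstab]
      intro v hv
      have h8 := hσ 0
      rw [h5] at h8
      have h9 : (D 0).map (linE g : (Fin n → F) →ₗ[F] (Fin n → F)) = D 0 := h8
      rw [← h9]
      exact ⟨v, hv, rfl⟩
    · rintro ⟨h3, h4⟩
      refine ⟨?_, h4⟩
      have hgO : g ∈ O Q := TT_le_O hQ' (by rw [← omega_eq hQ' (by omega)]; exact h4)
      refine ⟨1, fun i => ?_⟩
      have key : ∀ W : Submodule F (Fin n → F), g ∈ Geo.subspaceStabilizer W → W.map (Matrix.toLin' (g : Matrix (Fin n) (Fin n) F)) = W := by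
        intro W hW
        have h5 : W.map (linE g : (Fin n → F) →ₗ[F] (Fin n → F)) = W := by
          apply Submodule.eq_of_le_of_finrank_eq
          · rintro _ ⟨v, hv, rfl⟩
            exact mem_sstab.1 hW v hv
          · exact LinearEquiv.finrank_map_eq (linE g) W
        exact h5
      rw [Equiv.Perm.one_apply]
      apply key
      have h6 : i = 0 ∨ i = 1 := by fin_cases i <;> simp
      rcases h6 with rfl | rfl
      · exact h3
      · rw [← hperp, sstab_prp hQ' hgO]
        exact h3
  rw [hst]
  have ne : D 0 ≠ ⊥ := by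
    intro h
    rw [h, finrank_bot] at hf0
    omega
  refine nd_max_gen hQ' (by omega) hW0n ne ?_ (fun _ g hg h3 => ?_) (fun _ h => by omega) (fun _ h => by omega)
  · intro h
    rw [h, finrank_top, Module.finrank_fintype_fun_eq_card] at hf0
    omega
  · have hgO : g ∈ O Q := TT_le_O hQ' (by rw [← omega_eq hQ' (by omega)]; exact hg)
    apply hni
    rw [hperp] at h3
    have h9 : (D 1).map (linE g : (Fin n → F) →ₗ[F] (Fin n → F)) = D 0 := by
      apply Submodule.eq_of_le_of_finrank_eq
      · rintro _ ⟨v, hv, rfl⟩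
        exact h3 v hv
      · rw [LinearEquiv.finrank_map_eq (linE g), hf0, hf1]
    refine ⟨(((linE g).submoduleMap (D 1)).trans (LinearEquiv.ofEq _ _ h9)).symm, fun w => ?_⟩
    obtain ⟨v, rfl⟩ := (((linE g).submoduleMap (D 1)).trans (LinearEquiv.ofEq _ _ h9)).surjective w
    rw [LinearEquiv.symm_apply_apply]
    exact (mem_O.1 hgO _).symm

end Cfsg.Agent.S5699
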