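import Cfsg.Statements.S5944

set_option autoImplicit false
open Cfsg

namespace Cfsg.Agent.S5944

/-- For n ≠ 4, every proper subgroup of the symmetric group S_n other than the alternating group A_n has index at least n. -/
theorem result (n : ℕ) (hn : n ≠ 4) (H : Subgroup (Equiv.Perm (Fin n))) (hH : H ≠ ⊤) (hA : H ≠ alternatingGroup (Fin n)) : n ≤ H.index := by
  classical
  have h0 : H.index ≠ 0 := Subgroup.index_ne_zero_of_finite
  have h1 : H.index ≠ 1 := fun h => hH (Subgroup.index_eq_one.1 h)
  by_contra hcon
  push Not at hcon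
  by_cases h5 : 5 ≤ n
  · have hc : Nat.card (Fin n) = n := by simp
    by_cases hN : H.normalCore = ⊥
    · have h2 : Function.Injective (MulAction.toPermHom (Equiv.Perm (Fin n)) (Equiv.Perm (Fin n) ⧸ H)) := by
        rw [← MonoidHom.ker_eq_bot_iff, ← Subgroup.normalCore_eq_ker, hN]
      have h3 := Nat.card_le_card_of_injective _ h2
      rw [Nat.card_perm, Nat.card_perm, hc] at h3
      have h4 : Nat.card (Equiv.Perm (Fin n) ⧸ H) = H.index := rfl
      rw [h4] at h3
      have h6 := (Nat.factorial_lt (by omega : 0 < H.index)).2 hcon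
      omega
    · haveI : Nontrivial H.normalCore := (Subgroup.nontrivial_iff_ne_bot _).2 hN
      have h2 := Equiv.Perm.alternatingGroup_le_of_normal (α := Fin n) (by rw [hc]; exact h5) (N := H.normalCore) this
      have h3 := h2.trans H.normalCore_le
      haveI : Nontrivial (Fin n) := Fin.nontrivial_iff_two_le.2 (by omega)
      have h4 := Subgroup.index_dvd_of_le h3
      rw [alternatingGroup.index_eq_two] at h4
      have h6 := (Nat.dvd_prime Nat.prime_two).1 h4
      rcases h6 with h6 | h6
      · exact h1 h6
      · exact hA (Equiv.Perm.eq_alternatingGroup_of_index_eq_two h6)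
  · by_cases h2 : H.index = 2
    · exact hA (Equiv.Perm.eq_alternatingGroup_of_index_eq_two h2)
    · omega

end Cfsg.Agent.S5944
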